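import Mathlib
import Cfsg.Prelude.Def_GeometricClasses
import Cfsg.Agent.Helper71.T4Defs

/-!
helper98: piece RED of CALL S5637 (helper71): transport of the "Kronecker or everything"
dichotomy on `GL (Fin n₁ × Fin n₂) F` to the maximality of the tensor product subgroup
in `SL (Fin n) F`.
-/

set_option autoImplicit false

namespace Cfsg.Agent.Helper98.T4RED

open Matrix Cfsg.Agent.Helper71.T4
open scoped Kronecker

theorem red_mem_sl {F : Type*} [Field F] {ι : Type} [Fintype ι] [DecidableEq ι] (g : GL ι F) :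
    g ∈ Cfsg.Geo.specialLinear ι F ↔ (g : Matrix ι ι F).det = 1 := by
  unfold Cfsg.Geo.specialLinear
  rw [MonoidHom.mem_ker, Units.ext_iff]
  rfl

theorem red_det_conj {F : Type*} [Field F] {ι : Type} [Fintype ι] [DecidableEq ι] (P g : GL ι F) :
    ((P * g * P⁻¹ : GL ι F) : Matrix ι ι F).det = (g : Matrix ι ι F).det := by
  have h : Matrix.GeneralLinearGroup.det (P * g * P⁻¹) = Matrix.GeneralLinearGroup.det g := by
    rw [map_mul, map_mul, map_inv, mul_inv_cancel_comm]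
  have h2 := congrArg Units.val h
  exact h2

/-- PIECE RED -/
theorem red {F : Type*} [Field F] (n n₁ n₂ : ℕ) (h1 : 2 ≤ n₁) (h12 : n₁ < n₂)
    (e : Fin n ≃ Fin n₁ × Fin n₂) (P : Matrix.GeneralLinearGroup (Fin n) F)
    (hmain : ∀ M : Subgroup (GL (Fin n₁ × Fin n₂) F), HasS M →
      (∀ g ∈ M, IsKron (g : Matrix (Fin n₁ × Fin n₂) (Fin n₁ × Fin n₂) F)) ∨ HasSL M) :
    Cfsg.Geo.IsMaximalIn (Cfsg.Geo.specialLinear (Fin n) F)
      (Cfsg.Geo.tensorProductSubgroup n₁ n₂ e P ⊓ Cfsg.Geo.specialLinear (Fin n) F) := by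
  classical
  obtain ⟨ψ, hψ⟩ : ∃ ψ : GL (Fin n₁ × Fin n₂) F ≃* GL (Fin n) F,
      ψ = (Cfsg.Geo.glReindex e.symm).trans (MulAut.conj P) := ⟨_, rfl⟩
  have hT : Cfsg.Geo.tensorProductSubgroup n₁ n₂ e P
      = (Cfsg.Geo.kroneckerSubgroup n₁ n₂ F).map ψ.toMonoidHom := by
    unfold Cfsg.Geo.tensorProductSubgroup
    rw [Subgroup.map_map, hψ]
    rfl
  have hdet : ∀ g : GL (Fin n₁ × Fin n₂) F,
      ((ψ g : GL (Fin n) F) : Matrix (Fin n) (Fin n) F).det
        = (g : Matrix (Fin n₁ × Fin n₂) (Fin n₁ × Fin n₂) F).det := by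
    intro g
    have h : ψ g = P * Cfsg.Geo.glReindex e.symm g * P⁻¹ := by
      rw [hψ]
      rfl
    rw [h, red_det_conj]
    exact Matrix.det_reindexAlgEquiv F F e.symm
      (g : Matrix (Fin n₁ × Fin n₂) (Fin n₁ × Fin n₂) F)
  have hmemT : ∀ g : GL (Fin n₁ × Fin n₂) F,
      ψ g ∈ Cfsg.Geo.tensorProductSubgroup n₁ n₂ e P ↔ g ∈ Cfsg.Geo.kroneckerSubgroup n₁ n₂ F := by
    intro g
    rw [hT]
    constructor
    · rintro ⟨g', hg', h⟩
      have h' : g' = g := ψ.injective h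
      rwa [← h']
    · intro h
      exact ⟨g, h, rfl⟩
  have hmemS : ∀ g : GL (Fin n₁ × Fin n₂) F, ψ g ∈ Cfsg.Geo.specialLinear (Fin n) F
      ↔ (g : Matrix (Fin n₁ × Fin n₂) (Fin n₁ × Fin n₂) F).det = 1 := by
    intro g
    rw [red_mem_sl, hdet]
  have hc1 : Fintype.card (Fin n₁) ≠ 0 := by
    rw [Fintype.card_fin]; omega
  have hc2 : Fintype.card (Fin n₂) ≠ 0 := by
    rw [Fintype.card_fin]; omega
  constructor
  · -- the tensor product group is proper in `SL`
    rw [SetLike.lt_iff_le_and_exists]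
    refine ⟨inf_le_right, ?_⟩
    let i₀ : Fin n₁ := ⟨0, by omega⟩
    let i₁ : Fin n₁ := ⟨1, by omega⟩
    let k₀ : Fin n₂ := ⟨0, by omega⟩
    let k₁ : Fin n₂ := ⟨1, by omega⟩
    have hi : i₀ ≠ i₁ := by
      intro h
      have := congrArg Fin.val h
      simp [i₀, i₁] at this
    have hk : k₀ ≠ k₁ := by
      intro h
      have := congrArg Fin.val h
      simp [k₀, k₁] at this
    have hne : (i₀, k₀) ≠ (i₁, k₁) := by
      intro h
      exact hi (congrArg Prod.fst h)
    have hdT : (Matrix.transvection (i₀, k₀) (i₁, k₁) (1 : F)).det = 1 :=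
      Matrix.det_transvection_of_ne _ _ hne _
    let g : GL (Fin n₁ × Fin n₂) F :=
      Matrix.GeneralLinearGroup.mkOfDetNeZero (Matrix.transvection (i₀, k₀) (i₁, k₁) (1 : F))
        (by rw [hdT]; exact one_ne_zero)
    have hgv : (g : Matrix (Fin n₁ × Fin n₂) (Fin n₁ × Fin n₂) F)
        = Matrix.transvection (i₀, k₀) (i₁, k₁) (1 : F) := rfl
    refine ⟨ψ g, (hmemS g).mpr (by rw [hgv]; exact hdT), fun hmem => ?_⟩
    obtain ⟨a, b, hab⟩ := (hmemT g).mp hmem.1
    rw [hgv] at hab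
    have e1 := congrFun (congrFun hab (i₀, k₀)) (i₀, k₀)
    have e2 := congrFun (congrFun hab (i₀, k₀)) (i₁, k₀)
    have e3 := congrFun (congrFun hab (i₀, k₀)) (i₁, k₁)
    have hne1 : (i₀, k₀) ≠ (i₁, k₀) := by
      intro h
      exact hi (congrArg Prod.fst h)
    have htv : ∀ p q : Fin n₁ × Fin n₂, Matrix.transvection (i₀, k₀) (i₁, k₁) (1 : F) p q
        = (1 : Matrix (Fin n₁ × Fin n₂) (Fin n₁ × Fin n₂) F) p q
          + Matrix.single (i₀, k₀) (i₁, k₁) (1 : F) p q := fun p q => rfl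
    have hz1 : Matrix.single (i₀, k₀) (i₁, k₁) (1 : F) (i₀, k₀) (i₀, k₀) = 0 := by
      rw [Matrix.single_apply_of_ne]
      rintro ⟨-, h⟩
      exact hne h.symm
    have hz2 : Matrix.single (i₀, k₀) (i₁, k₁) (1 : F) (i₀, k₀) (i₁, k₀) = 0 := by
      rw [Matrix.single_apply_of_ne]
      rintro ⟨-, h⟩
      exact hk (congrArg Prod.snd h).symm
    rw [htv, Matrix.one_apply_eq, hz1, add_zero, Matrix.kronecker_apply] at e1
    have hb : b k₀ k₀ ≠ 0 := by
      intro h
      rw [h, mul_zero] at e1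
      exact one_ne_zero e1
    rw [htv, Matrix.one_apply_ne hne1, zero_add, hz2, Matrix.kronecker_apply] at e2
    have ha : a i₀ i₁ = 0 := by
      rcases mul_eq_zero.mp e2.symm with h | h
      · exact h
      · exact absurd h hb
    rw [htv, Matrix.one_apply_ne hne, zero_add, Matrix.kronecker_apply, ha, zero_mul,
      Matrix.single_apply_same] at e3
    exact one_ne_zero e3
  · intro K hHK hKS
    have hS : HasS (K.comap ψ.toMonoidHom) := by
      intro A B hA hB
      have hAB : (A ⊗ₖ B).det = 1 := by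
        rw [Matrix.det_kronecker, hA, hB, one_pow, one_pow, one_mul]
      let g : GL (Fin n₁ × Fin n₂) F :=
        Matrix.GeneralLinearGroup.mkOfDetNeZero (A ⊗ₖ B) (by rw [hAB]; exact one_ne_zero)
      refine ⟨g, ?_, rfl⟩
      show ψ g ∈ K
      apply hHK
      refine ⟨(hmemT g).mpr ?_, (hmemS g).mpr hAB⟩
      exact ⟨Matrix.GeneralLinearGroup.mkOfDetNeZero A (by rw [hA]; exact one_ne_zero),
        Matrix.GeneralLinearGroup.mkOfDetNeZero B (by rw [hB]; exact one_ne_zero), rfl⟩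
    rcases hmain _ hS with hk | hsl
    · left
      apply le_antisymm _ hHK
      intro k hk'
      obtain ⟨g, rfl⟩ := ψ.surjective k
      obtain ⟨A, B, hAB⟩ := hk g hk'
      have hdetg : (g : Matrix (Fin n₁ × Fin n₂) (Fin n₁ × Fin n₂) F).det ≠ 0 :=
        ((Matrix.isUnit_iff_isUnit_det _).1 g.isUnit).ne_zero
      rw [hAB, Matrix.det_kronecker] at hdetg
      have hA : A.det ≠ 0 := by
        intro h
        apply hdetg
        rw [h, zero_pow hc2, zero_mul]
      have hB : B.det ≠ 0 := by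
        intro h
        apply hdetg
        rw [h, zero_pow hc1, mul_zero]
      exact ⟨(hmemT g).mpr ⟨Matrix.GeneralLinearGroup.mkOfDetNeZero A hA,
        Matrix.GeneralLinearGroup.mkOfDetNeZero B hB, hAB⟩, hKS hk'⟩
    · right
      apply le_antisymm hKS
      intro s hs
      obtain ⟨g, rfl⟩ := ψ.surjective s
      exact hsl g ((hmemS g).mp hs)

end Cfsg.Agent.Helper98.T4RED
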