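import Mathlib
import Cfsg.Agent.Helper13.TLDefs
import Cfsg.Agent.Helper31.TLUDSUM
import Cfsg.Agent.Helper31.TLUMONO1

set_option autoImplicit false

/-! helper98: piece UMONO of CALL S5954 (helper13), doubled. -/

namespace Cfsg.Agent.Helper98.TI5954

open Module Polynomial
open Cfsg.Agent.Helper13.TIu Cfsg.Agent.Helper13.TIsp
open Cfsg.Agent.Helper31.TI5954

section std2

variable {F : Type*} [Field F] {σ : F →+* F}

theorem ubad_mono_aux (z : F) (hz : σ z * z = 1) (r : ℕ) (hr : 0 < r) (k : ℕ) :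
    ∃ T : Module.End F (Fin (r * k) → F), UPres (stdH σ (r * k)) T ∧
      T ^ r = z • (1 : Module.End F (Fin (r * k) → F)) ∧
      LinearMap.det T = ((-1) ^ (r - 1) * z) ^ k := by
  induction k with
  | zero =>
    haveI : IsEmpty (Fin (r * 0)) := by rw [Nat.mul_zero]; infer_instance
    refine ⟨1, fun u v => rfl, Subsingleton.elim _ _, ?_⟩
    rw [pow_zero]
    exact LinearMap.det_eq_one_of_finrank_eq_zero (by
      rw [Module.finrank_fintype_fun_eq_card, Fintype.card_fin, Nat.mul_zero]) _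
  | succ k ih =>
    obtain ⟨T₁, h₁, hr₁, hd₁⟩ := ih
    obtain ⟨T₂, h₂, hr₂, hd₂⟩ := ubad_mono_one (σ := σ) z hz r hr
    obtain ⟨T, Φ, hT, hΦ, hdet⟩ := u_dsum (r * k) r T₁ T₂ h₁ h₂
    refine ⟨T, hT, ?_, ?_⟩
    · have hpow : ∀ (j : ℕ) (x : (Fin (r * k) → F) × (Fin r → F)),
          (T ^ j) (Φ x) = Φ ((T₁ ^ j) x.1, (T₂ ^ j) x.2) := by
        intro j
        induction j with
        | zero => intro x; simp
        | succ j ihj =>
          intro x
          rw [pow_succ, Module.End.mul_apply, hΦ, ihj, pow_succ, pow_succ, Module.End.mul_apply,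
            Module.End.mul_apply]
      apply LinearMap.ext
      intro y
      obtain ⟨x, rfl⟩ := Φ.surjective y
      rw [hpow, hr₁, hr₂]
      simp only [LinearMap.smul_apply, Module.End.one_apply]
      rw [← Prod.smul_mk, map_smul]
    · rw [hdet, hd₁, hd₂, pow_succ]

/-- UMONO -/
theorem ubad_mono (z : F) (hz : σ z * z = 1) (r k n : ℕ) (hr : 0 < r) (hn : n = r * k) :
    ∃ T : Module.End F (Fin n → F), UPres (stdH σ n) T ∧
      T ^ r = z • (1 : Module.End F (Fin n → F)) ∧ LinearMap.det T = ((-1) ^ (r - 1) * z) ^ k := by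
  subst hn
  exact ubad_mono_aux z hz r hr k

end std2

end Cfsg.Agent.Helper98.TI5954
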