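import Mathlib
import Cfsg.Agent.Helper13.TLDefs
import Cfsg.Agent.Helper53.TLUBADRNT
import Cfsg.Agent.Helper98.TLUMONO

set_option autoImplicit false
set_option linter.unusedVariables false
set_option linter.style.haveILetI false

/-! helper98: piece CASECB of CALL S5954 (helper13). -/

namespace Cfsg.Agent.Helper98.TI5954

open Module Polynomial
open Cfsg.Agent.Helper13.TIu Cfsg.Agent.Helper13.TIsp
open Cfsg.Agent.Helper53.TI5954

section cases

variable {F : Type*} [Field F] [Fintype F] {σ : F →+* F}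

/-- CASECB -/
theorem u_case_r_back (p : ℕ) [Fact p.Prime] [CharP F p] (q : ℕ) (hq : Fintype.card F = q ^ 2)
    (hσ : ∀ a, σ a = a ^ q) (hσ2 : ∀ a, σ (σ a) = a) (hσne : σ ≠ RingHom.id F) (r : ℕ)
    [Fact r.Prime] (hr2 : 2 < r) (hrp : r ≠ p) (hrq : r ∣ q + 1) (n m : ℕ) (hn : 1 ≤ n)
    (hmn : m ≤ n) (hL : UAll σ n m r) : r ∣ m ∨ padicValNat r n ≤ padicValNat r (q + 1) := by
  have hrprime : r.Prime := Fact.out
  by_contra hcon
  push Not at hcon
  obtain ⟨hrm, hlt⟩ := hcon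
  obtain ⟨a, ha⟩ : ∃ a, a = padicValNat r (q + 1) := ⟨_, rfl⟩
  rw [← ha] at hlt
  have hn0 : n ≠ 0 := by omega
  have hdvd : r ^ (a + 1) ∣ n := by
    have := (padicValNat_dvd_iff_le (p := r) hn0 (n := a + 1)).2 (by omega)
    exact this
  obtain ⟨k, hk⟩ : ∃ k, n = r * k := by
    obtain ⟨k', hk'⟩ := hdvd
    exact ⟨r ^ a * k', by rw [hk', pow_succ]; ring⟩
  have hrak : r ^ a ∣ k := by
    obtain ⟨k', hk'⟩ := hdvd
    have hr0 : 0 < r := hrprime.pos
    have : r * k = r * (r ^ a * k') := by rw [← hk, hk', pow_succ]; ring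
    exact ⟨k', Nat.eq_of_mul_eq_mul_left hr0 this⟩
  obtain ⟨z, hz1, hzb, hza⟩ := ubadr_nt (F := F) q hq r hr2 hrq
  rw [← ha] at hza
  have hz : σ z * z = 1 := by
    rw [hσ, ← pow_succ]
    exact hz1
  obtain ⟨T, hT, hTr, hdet⟩ := ubad_mono (σ := σ) z hz r k n hrprime.pos hk
  have hodd : Odd r := hrprime.odd_of_ne_two (by omega)
  have hdet1 : LinearMap.det T = 1 := by
    rw [hdet]
    have he : Even (r - 1) := by
      obtain ⟨j, hj⟩ := hodd
      exact ⟨j, by omega⟩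
    rw [he.neg_one_pow, one_mul]
    obtain ⟨k', hk'⟩ := hrak
    rw [hk', pow_mul, hza, one_pow]
  haveI : Nontrivial (Fin n → F) := by
    haveI : Nonempty (Fin n) := ⟨⟨0, by omega⟩⟩
    infer_instance
  have hns : ∀ c : F, T ≠ c • (1 : Module.End F (Fin n → F)) := by
    intro c hc
    apply hzb c
    have h1 : (c ^ r) • (1 : Module.End F (Fin n → F)) = z • (1 : Module.End F (Fin n → F)) := by
      rw [← hTr, hc, _root_.smul_pow, one_pow]
    obtain ⟨v, hv⟩ := exists_ne (0 : Fin n → F)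
    have h2 := congrArg (fun f : Module.End F (Fin n → F) => f v) h1
    simp only [LinearMap.smul_apply, Module.End.one_apply] at h2
    exact smul_left_injective F hv h2
  obtain ⟨W, hWm, hWnd, hWT⟩ := hL T hT hdet1 ⟨z, hTr⟩ hns
  have hirr : Irreducible (X ^ r - C z : F[X]) :=
    (X_pow_sub_C_irreducible_iff_of_prime hrprime).2 hzb
  have hWT' : ∀ w ∈ W, T w ∈ W := fun w hw => hWT (Submodule.mem_map_of_mem hw)
  have hkill : ∀ w ∈ W, aeval T (X ^ r - C z : F[X]) w = 0 := by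
    intro w _
    rw [map_sub, map_pow, aeval_X, aeval_C, hTr]
    simp [Algebra.algebraMap_eq_smul_one]
  have h3 := (Cfsg.Agent.Helper42.SpStruct.kmod_sub T (X ^ r - C z) hirr W hWT' hkill).1
  rw [natDegree_X_pow_sub_C, hWm] at h3
  exact hrm h3

end cases

end Cfsg.Agent.Helper98.TI5954
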