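import Mathlib
import Cfsg.Agent.Helper13.TLDefs
import Cfsg.Agent.Helper57.TLUZNORM
import Cfsg.Agent.Helper53.TLURTH
import Cfsg.Agent.Helper26.TLUSMUL
import Cfsg.Agent.Helper57.TLUROOT
import Cfsg.Agent.Helper41.TLUDIAG
import Cfsg.Agent.Helper73.TLUGROW
import Cfsg.Agent.Helper69.TLUDETC
import Cfsg.Agent.Helper41.TLUIRR

set_option autoImplicit false
set_option linter.unusedVariables false
set_option linter.style.haveILetI false

/-! helper98: piece CASECF of CALL S5954 (helper13). -/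

namespace Cfsg.Agent.Helper98.TI5954

open Module Polynomial
open Cfsg.Agent.Helper13.TIu Cfsg.Agent.Helper13.TIsp
open Cfsg.Agent.Helper57.TI5954 (u_z_norm u_root_exists)
open Cfsg.Agent.Helper53.TI5954 (urth_dich)
open Cfsg.Agent.Helper26.TI5954 (u_smul_pres)
open Cfsg.Agent.Helper41.TI5954 (uatom_diag uatom_irr)
open Cfsg.Agent.Helper73.TI5954 (u_grow)
open Cfsg.Agent.Helper69.TI5954 (udet_irr)

section cases

variable {F : Type*} [Field F] [Fintype F] {σ : F →+* F}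

/-- CASECF -/
theorem u_case_r_fwd (p : ℕ) [Fact p.Prime] [CharP F p] (q : ℕ) (hq : Fintype.card F = q ^ 2)
    (hσ : ∀ a, σ a = a ^ q) (hσ2 : ∀ a, σ (σ a) = a) (hσne : σ ≠ RingHom.id F) (r : ℕ)
    [Fact r.Prime] (hr2 : 2 < r) (hrp : r ≠ p) (hrq : r ∣ q + 1) (n m : ℕ) (hn : 1 ≤ n)
    (hmn : m ≤ n) (hC : r ∣ m ∨ padicValNat r n ≤ padicValNat r (q + 1)) : UAll σ n m r := by
  have hrprime : r.Prime := Fact.out
  have hr0 : 0 < r := hrprime.pos
  have hS := stdH_symm σ hσ2 n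
  have hndtop := stdH_nd_top σ n
  have hfin : finrank F (Fin n → F) = n := by
    rw [Module.finrank_fintype_fun_eq_card, Fintype.card_fin]
  have hfintop : finrank F (⊤ : Submodule F (Fin n → F)) = n := by rw [finrank_top, hfin]
  have hnorm : ∀ c : F, c ^ (q + 1) = 1 → σ c * c = 1 := by
    intro c hc
    rw [hσ, ← pow_succ]
    exact hc
  intro T hT hdet ⟨z, hTr⟩ hns
  have hzn : σ z * z = 1 := u_z_norm n hn T hT r z hTr
  have hz : z ^ (q + 1) = 1 := by
    rw [hσ, ← pow_succ] at hzn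
    exact hzn
  rcases urth_dich q hq r hr2 hrq z hz with ⟨z₀, hz₀, hz₀r⟩ | ⟨hzb, hzord⟩
  · -- `z` is an `r`-th power of a norm-one scalar: lines as atoms
    have hz₀0 : z₀ ≠ 0 := by
      rintro rfl
      rw [zero_pow (by omega)] at hz₀
      exact zero_ne_one hz₀
    have hz₀i : z₀⁻¹ ^ (q + 1) = 1 := by rw [inv_pow, hz₀, inv_one]
    have hT' : UPres (stdH σ n) (z₀⁻¹ • T) := u_smul_pres (stdH σ n) T hT z₀⁻¹ (hnorm _ hz₀i)
    have hT'r : (z₀⁻¹ • T) ^ r = 1 := by
      rw [_root_.smul_pow, hTr, smul_smul, inv_pow, hz₀r, inv_mul_cancel₀, one_smul]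
      rintro rfl
      rw [zero_pow (by omega)] at hz
      exact zero_ne_one hz
    obtain ⟨ω, hω, hω1⟩ := u_root_exists (F := F) q hq r hrq
    have hrF : (r : F) ≠ 0 := (ti_char_facts (F := F) p r hrp).1
    have hnormr : ∀ ζ : F, ζ ^ r = 1 → σ ζ * ζ = 1 := by
      intro ζ hζ
      apply hnorm
      obtain ⟨k, hk⟩ := hrq
      rw [hk, pow_mul, hζ, one_pow]
    obtain ⟨N₁, -, hN₁T, hN₁nd, hN₁dim⟩ := u_grow (stdH σ n) hσ2 hS (z₀⁻¹ • T) hT' r hr0 hT'r 1
      Nat.one_pos ⊤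
      (fun N _ hNT hN hN0 =>
        uatom_diag (stdH σ n) hσ2 hσne hS (z₀⁻¹ • T) hT' r hrF hT'r ω hω hω1 hnormr N hNT hN hN0)
      ⊤ le_rfl le_top hndtop m (by rw [hfintop]; omega)
    refine ⟨N₁, by rw [hN₁dim, one_mul], hN₁nd, ?_⟩
    rintro _ ⟨w, hw, rfl⟩
    have h1 : (z₀⁻¹ • T) w ∈ N₁ := hN₁T (Submodule.mem_map_of_mem hw)
    have h2 : T w = z₀ • (z₀⁻¹ • T) w := by
      rw [LinearMap.smul_apply, smul_smul, mul_inv_cancel₀ hz₀0, one_smul]
    change T w ∈ N₁
    rw [h2]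
    exact N₁.smul_mem _ h1
  · -- `X ^ r - C z` irreducible: atoms of dimension `r`
    have hirr : Irreducible (X ^ r - C z : F[X]) :=
      (X_pow_sub_C_irreducible_iff_of_prime hrprime).2 hzb
    have hodd : Odd r := hrprime.odd_of_ne_two (by omega)
    obtain ⟨hrn, hdetz⟩ := udet_irr T z r hodd hTr hirr
    rw [hfin] at hrn hdetz
    rw [hdet] at hdetz
    have hdvd := hzord (n / r) hdetz.symm
    have hrm : r ∣ m := by
      rcases hC with h | h
      · exact h
      · exfalso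
        have hn0 : n ≠ 0 := by omega
        have h1 : r ^ (padicValNat r (q + 1) + 1) ∣ n := by
          obtain ⟨k, hk⟩ := hdvd
          obtain ⟨k', hk'⟩ := hrn
          have : n / r = k' := by rw [hk']; exact Nat.mul_div_cancel_left k' hr0
          rw [this] at hk
          exact ⟨k, by rw [hk', hk, pow_succ]; ring⟩
        have h2 := (padicValNat_dvd_iff_le (p := r) hn0 (n := padicValNat r (q + 1) + 1)).1 h1
        omega
    have hTn : T ^ (r * (q + 1)) = 1 := by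
      rw [pow_mul, hTr, _root_.smul_pow, hz, one_pow, one_smul]
    have hkill : ∀ v : Fin n → F, aeval T (X ^ r - C z : F[X]) v = 0 := by
      intro v
      rw [map_sub, map_pow, aeval_X, aeval_C, hTr]
      simp [Algebra.algebraMap_eq_smul_one]
    obtain ⟨N₁, -, hN₁T, hN₁nd, hN₁dim⟩ := u_grow (stdH σ n) hσ2 hS T hT (r * (q + 1))
      (Nat.mul_pos hr0 (Nat.succ_pos q)) hTn r hr0 ⊤
      (fun N _ hNT hN hN0 => by
        have := uatom_irr (stdH σ n) hσ2 hσne hS T hT (r * (q + 1))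
          (Nat.mul_pos hr0 (Nat.succ_pos q)) hTn (X ^ r - C z) hirr N hNT hN hN0
          (fun v _ => hkill v)
        rwa [natDegree_X_pow_sub_C] at this)
      ⊤ le_rfl le_top hndtop (m / r) (by
        rw [hfintop]
        have := Nat.mul_div_le m r
        omega)
    refine ⟨N₁, by rw [hN₁dim, Nat.mul_div_cancel' hrm], hN₁nd, hN₁T⟩

end cases

end Cfsg.Agent.Helper98.TI5954
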