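import Mathlib

/-!
# Helper98: definitions for the class-C2 (decomposition stabiliser) maximality in SL_n (S5634)

All matrices are over a field `K`, indexed by a finite type `ι` (mostly `Fin n`).
-/

set_option autoImplicit false

namespace Cfsg.Agent.Helper98.C2

open Matrix

variable {K : Type*} [Field K] {ι : Type*} [Fintype ι] [DecidableEq ι]

/-- `g` is monomial: for some permutation `σ`, the only entry of column `j` that may be non-zero
is the one in row `σ j`. -/
def IsMono (g : Matrix ι ι K) : Prop := ∃ σ : Equiv.Perm ι, ∀ i j, i ≠ σ j → g i j = 0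

/-- `X` contains every invertible monomial matrix. -/
def MonLE (X : Subgroup (Matrix.GeneralLinearGroup ι K)) : Prop :=
  ∀ g : Matrix.GeneralLinearGroup ι K, IsMono (g : Matrix ι ι K) → g ∈ X

/-- `X` contains every monomial matrix of determinant one. -/
def MonSLLE (X : Subgroup (Matrix.GeneralLinearGroup ι K)) : Prop :=
  ∀ g : Matrix.GeneralLinearGroup ι K, IsMono (g : Matrix ι ι K) →
    (g : Matrix ι ι K).det = 1 → g ∈ X

/-- `X` contains an elementary transvection `1 + c E_ij` (`i ≠ j`, `c ≠ 0`). -/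
def HasTv (X : Subgroup (Matrix.GeneralLinearGroup ι K)) : Prop :=
  ∃ g ∈ X, ∃ i j : ι, i ≠ j ∧ ∃ c : K, c ≠ 0 ∧ (g : Matrix ι ι K) = Matrix.transvection i j c

/-- Some column `i` of `h` is a multiple of the basis vector `e_i` (`h` fixes the coordinate line `i`). -/
def FixesLine (h : Matrix ι ι K) : Prop := ∃ i, ∀ j, j ≠ i → h j i = 0

/-- Every element of `M` fixing a coordinate line is monomial. -/
def NoFix (M : Subgroup (Matrix.GeneralLinearGroup ι K)) : Prop :=
  ∀ h ∈ M, FixesLine (h : Matrix ι ι K) → IsMono (h : Matrix ι ι K)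

/-- `g` is block-monomial for the block map `blk`: some permutation `σ` of the blocks with
`g i j = 0` unless `blk i = σ (blk j)`. -/
def IsBlkMono {τ : Type*} [Fintype τ] [DecidableEq τ] (blk : ι → τ) (g : Matrix ι ι K) : Prop :=
  ∃ σ : Equiv.Perm τ, ∀ i j, blk i ≠ σ (blk j) → g i j = 0

/-- `M` contains every block-monomial matrix of determinant one. -/
def BlkLE {τ : Type*} [Fintype τ] [DecidableEq τ] (blk : ι → τ)
    (M : Subgroup (Matrix.GeneralLinearGroup ι K)) : Prop :=
  ∀ g : Matrix.GeneralLinearGroup ι K, IsBlkMono blk (g : Matrix ι ι K) →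
    (g : Matrix ι ι K).det = 1 → g ∈ M

/-- `M` contains an elementary transvection `1 + c E_ij` with `i`, `j` in different blocks. -/
def HasCrossTv {τ : Type*} [Fintype τ] [DecidableEq τ] (blk : ι → τ)
    (M : Subgroup (Matrix.GeneralLinearGroup ι K)) : Prop :=
  ∃ g ∈ M, ∃ i j : ι, blk i ≠ blk j ∧ ∃ c : K, c ≠ 0 ∧
    (g : Matrix ι ι K) = Matrix.transvection i j c

/-- The coordinate subspace of block `b`: vectors vanishing outside the fibre `blk ⁻¹ b`. -/
def coordBlock {τ : Type*} (blk : ι → τ) (b : τ) : Submodule K (ι → K) where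
  carrier := {v | ∀ i, blk i ≠ b → v i = 0}
  add_mem' := by
    intro v w hv hw i hi
    simp [hv i hi, hw i hi]
  zero_mem' := by
    intro i _
    rfl
  smul_mem' := by
    intro c v hv i hi
    simp [hv i hi]

/-- `M` contains a transvection `1 + a φᵀ` in "Case I form": the centre `a` has a non-zero
coordinate in some block `c1` on which the axis `φ` vanishes. -/
def CaseI {τ : Type*} [Fintype τ] [DecidableEq τ] (blk : ι → τ)
    (M : Subgroup (Matrix.GeneralLinearGroup ι K)) : Prop :=
  ∃ (a φ : ι → K) (c1 : τ), φ ⬝ᵥ a = 0 ∧ φ ≠ 0 ∧ (∃ i, blk i = c1 ∧ a i ≠ 0) ∧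
    (∀ i, blk i = c1 → φ i = 0) ∧
    ∃ k ∈ M, (k : Matrix ι ι K) = 1 + Matrix.vecMulVec a φ

end Cfsg.Agent.Helper98.C2
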