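import Mathlib
import Cfsg.Prelude.Def_GeometricClasses
import Cfsg.Prelude.Def_Classical

set_option autoImplicit false

/-!
# Definitions for sub-CALL ELP (helper98): stage P (`r = p`) of row S5988

`PΩ⁺_{2d}(q)` on elliptic `m`-spaces, `r = p` (ALL `p`, including `2`): the Siegel element
`x = [[1, T - Tᵀ], [0, 1]]` (blocks for `n ⊕ n`) is an isometry of `Q = Σ xᵢ yᵢ`, lies in `Ω`
(commutators with the Levi elements `[[A, 0], [0, A⁻ᵀ]]`), has `x ^ p = 1`, and for `T - Tᵀ` of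
rank `≥ d - 1` every `x`-invariant subspace `W` of even dimension meets the totally singular
`U = {v | v ∘ inr = 0}` in dimension `≥ dim W / 2`, so `W` is of plus type.
-/

namespace Cfsg.Agent.Helper98.ELP

open Matrix
open scoped MatrixGroups

variable {n : Type} [Fintype n] [DecidableEq n] {F : Type*} [Field F]

/-- The plus-type form `Σ xᵢ yᵢ` on `n ⊕ n → F` (`qp (Fin d) F = Cfsg.quadFormPlus d F`). -/
def qp (n : Type) [Fintype n] (F : Type*) [Field F] (v : n ⊕ n → F) : F :=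
  ∑ i : n, v (.inl i) * v (.inr i)

theorem qp_fin (d : ℕ) : qp (Fin d) F = Cfsg.quadFormPlus d F := rfl

/-- Siegel matrix `[[1, T - Tᵀ], [0, 1]]`. -/
def siegM (T : Matrix n n F) : Matrix (n ⊕ n) (n ⊕ n) F := Matrix.fromBlocks 1 (T - Tᵀ) 0 1

theorem siegM_mul (S T : Matrix n n F) : siegM S * siegM T = siegM (S + T) := by
  simp only [siegM, Matrix.fromBlocks_multiply, Matrix.one_mul, Matrix.mul_one, Matrix.mul_zero,
    Matrix.zero_mul, add_zero, zero_add, Matrix.transpose_add]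
  congr 1
  abel

theorem siegM_zero : siegM (0 : Matrix n n F) = 1 := by
  simp [siegM, Matrix.fromBlocks_one]

/-- The Siegel element of `GL (n ⊕ n) F`. -/
def sieg (T : Matrix n n F) : GL (n ⊕ n) F :=
  ⟨siegM T, siegM (-T), by rw [siegM_mul, add_neg_cancel, siegM_zero],
    by rw [siegM_mul, neg_add_cancel, siegM_zero]⟩

theorem sieg_coe (T : Matrix n n F) : ((sieg T : GL (n ⊕ n) F) : Matrix (n ⊕ n) (n ⊕ n) F) = siegM T :=
  rfl

theorem sieg_mul (S T : Matrix n n F) : sieg S * sieg T = sieg (S + T) := Units.ext (siegM_mul S T)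

theorem sieg_zero : sieg (0 : Matrix n n F) = 1 := Units.ext siegM_zero

theorem sieg_inv (T : Matrix n n F) : (sieg T)⁻¹ = sieg (-T) := Units.ext rfl

/-- The Levi element `[[A, 0], [0, A⁻ᵀ]]` of `GL (n ⊕ n) F`. -/
def levi (A : GL n F) : GL (n ⊕ n) F :=
  ⟨Matrix.fromBlocks (A : Matrix n n F) 0 0 ((A⁻¹ : GL n F) : Matrix n n F)ᵀ,
    Matrix.fromBlocks ((A⁻¹ : GL n F) : Matrix n n F) 0 0 (A : Matrix n n F)ᵀ,
    by
      simp only [Matrix.fromBlocks_multiply, Matrix.mul_zero, Matrix.zero_mul, add_zero, zero_add,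
        ← Matrix.transpose_mul]
      rw [← Units.val_mul, mul_inv_cancel, Units.val_one, Matrix.transpose_one, Matrix.fromBlocks_one],
    by
      simp only [Matrix.fromBlocks_multiply, Matrix.mul_zero, Matrix.zero_mul, add_zero, zero_add,
        ← Matrix.transpose_mul]
      rw [← Units.val_mul, inv_mul_cancel, Units.val_one, Matrix.transpose_one, Matrix.fromBlocks_one]⟩

theorem levi_coe (A : GL n F) : ((levi A : GL (n ⊕ n) F) : Matrix (n ⊕ n) (n ⊕ n) F) =
    Matrix.fromBlocks (A : Matrix n n F) 0 0 ((A⁻¹ : GL n F) : Matrix n n F)ᵀ := rfl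

theorem levi_inv_coe (A : GL n F) : (((levi A)⁻¹ : GL (n ⊕ n) F) : Matrix (n ⊕ n) (n ⊕ n) F) =
    Matrix.fromBlocks ((A⁻¹ : GL n F) : Matrix n n F) 0 0 (A : Matrix n n F)ᵀ := rfl

/-- The matrix `T₀` on `Fin d`: entries `1` at `(a, a + d / 2)` for `a < d / 2`. -/
def t0 (d : ℕ) (F : Type*) [Field F] : Matrix (Fin d) (Fin d) F :=
  fun a b => if (a : ℕ) < d / 2 ∧ (a : ℕ) + d / 2 = (b : ℕ) then 1 else 0

/-- The totally singular subspace `U = {v | v ∘ inr = 0}`. -/
def subU (n : Type) (F : Type*) [Field F] : Submodule F (n ⊕ n → F) where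
  carrier := {v | ∀ j : n, v (.inr j) = 0}
  add_mem' := by
    intro a b ha hb j
    simp [ha j, hb j]
  zero_mem' := by
    intro j
    rfl
  smul_mem' := by
    intro c a ha j
    simp [ha j]

theorem mem_subU (v : n ⊕ n → F) : v ∈ subU n F ↔ ∀ j : n, v (.inr j) = 0 := Iff.rfl

end Cfsg.Agent.Helper98.ELP
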