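import Mathlib

set_option autoImplicit false

/-!
# Sub-CALL TB pieces AEVALPROD and SPLIT (helper98, doubles)
-/

namespace Cfsg.Agent.Helper98.TB

open Module Polynomial

section lin

variable {F : Type*} [Field F] {Va Vb : Type*} [AddCommGroup Va] [Module F Va] [AddCommGroup Vb]
  [Module F Vb]

/-- AEVALPROD: polynomials in a product map. -/
theorem tb_aeval_prod (Ta : Module.End F Va) (Tb : Module.End F Vb) (f : F[X]) :
    aeval (Ta.prodMap Tb) f = (aeval Ta f).prodMap (aeval Tb f) := by
  have h := Polynomial.aeval_algHom_apply (LinearMap.prodMapAlgHom F Va Vb) (Ta, Tb) f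
  rw [Polynomial.aeval_prod_apply] at h
  exact h

/-- invariance under polynomials (no finiteness needed) -/
theorem tb_aeval_mem {V : Type*} [AddCommGroup V] [Module F V] (T : Module.End F V)
    (W : Submodule F V) (hW : W.map T ≤ W) (f : F[X]) {w : V} (hw : w ∈ W) :
    aeval T f w ∈ W := by
  induction f using Polynomial.induction_on' with
  | add p q hp hq =>
    rw [map_add, LinearMap.add_apply]
    exact W.add_mem hp hq
  | monomial n a =>
    rw [Polynomial.aeval_monomial, Module.End.mul_apply, Module.algebraMap_end_apply]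
    apply W.smul_mem
    induction n with
    | zero => rw [pow_zero]; exact hw
    | succ n ih =>
      rw [pow_succ', Module.End.mul_apply]
      exact hW (Submodule.mem_map_of_mem ih)

/-- SPLIT: an invariant subspace of a product whose factors have coprime annihilating
polynomials is a product. -/
theorem tb_split (Ta : Module.End F Va) (Tb : Module.End F Vb) (fa fb : F[X])
    (hcop : IsCoprime fa fb) (ha : aeval Ta fa = 0) (hb : aeval Tb fb = 0)
    (W : Submodule F (Va × Vb)) (hW : W.map (Ta.prodMap Tb) ≤ W) :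
    ∃ (Ua : Submodule F Va) (Ub : Submodule F Vb), Ua.map Ta ≤ Ua ∧ Ub.map Tb ≤ Ub ∧
      W = Ua.prod Ub := by
  obtain ⟨u, v, huv⟩ := hcop
  have hea : aeval Ta (v * fb) = 1 := by
    have h1 : v * fb = 1 - u * fa := by rw [← huv]; ring
    rw [h1, map_sub, map_one, map_mul, ha, mul_zero, sub_zero]
  have heb : aeval Tb (v * fb) = 0 := by
    rw [map_mul, hb, mul_zero]
  have he : ∀ w ∈ W, ((w.1, 0) : Va × Vb) ∈ W := by
    intro w hw
    have h1 := tb_aeval_mem (Ta.prodMap Tb) W hW (v * fb) hw
    rw [tb_aeval_prod, hea, heb] at h1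
    simpa using h1
  refine ⟨W.map (LinearMap.fst F Va Vb), W.map (LinearMap.snd F Va Vb), ?_, ?_, ?_⟩
  · rintro _ ⟨_, ⟨w, hw, rfl⟩, rfl⟩
    exact ⟨(Ta.prodMap Tb) w, hW (Submodule.mem_map_of_mem hw), rfl⟩
  · rintro _ ⟨_, ⟨w, hw, rfl⟩, rfl⟩
    exact ⟨(Ta.prodMap Tb) w, hW (Submodule.mem_map_of_mem hw), rfl⟩
  · apply le_antisymm
    · intro w hw
      exact ⟨⟨w, hw, rfl⟩, ⟨w, hw, rfl⟩⟩
    · rintro ⟨x, y⟩ ⟨⟨w, hw, hwx⟩, ⟨w', hw', hwy⟩⟩
      have h1 := he w hw
      have h2 : ((0, w'.2) : Va × Vb) ∈ W := by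
        have h3 := W.sub_mem hw' (he w' hw')
        have h4 : w' - (w'.1, 0) = ((0, w'.2) : Va × Vb) := by
          ext <;> simp
        rw [h4] at h3
        exact h3
      have h5 : ((x, y) : Va × Vb) = (w.1, 0) + (0, w'.2) := by
        ext
        · simpa using hwx.symm
        · simpa using hwy.symm
      rw [h5]
      exact W.add_mem h1 h2

end lin

end Cfsg.Agent.Helper98.TB
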