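import Mathlib
import Cfsg.Prelude.Def_GeometricClasses
import Cfsg.Prelude.Def_Classical
import Cfsg.Agent.Helper35.S88Defs
import Cfsg.Agent.Helper58.TSDefs
import Cfsg.Agent.Helper43.PrimeOrdO3
import Cfsg.Agent.Helper33.OType
import Cfsg.Agent.Helper43.S88OEDefs
import Cfsg.Agent.Helper93.TBTYPEPROD

set_option autoImplicit false

/-! # Sub-CALL S88OE piece PSTYPE (helper98): the type of a product subspace -/

namespace Cfsg.Agent.Helper98.S88OE

open Module Polynomial Cfsg Cfsg.Geo Cfsg.Agent.Helper58.TS Cfsg.Agent.Helper35.S88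
open Cfsg.Agent.Helper43 Cfsg.Agent.Helper43.OrthEven Cfsg.Agent.Helper43.CycFactors
  Cfsg.Agent.Helper43.PrimeOrdMat Cfsg.Agent.Helper43.S88OE
open scoped MatrixGroups

universe u

variable {F : Type*} [Field F] {Va Vb : Type*} [AddCommGroup Va] [Module F Va] [AddCommGroup Vb]
  [Module F Vb]

/-- the linear equivalence `↥(Ua.prod Ub) ≃ ↥Ua × ↥Ub` -/
def psEquiv (Ua : Submodule F Va) (Ub : Submodule F Vb) : ↥(Ua.prod Ub) ≃ₗ[F] ↥Ua × ↥Ub where
  toFun z := (⟨z.1.1, z.2.1⟩, ⟨z.1.2, z.2.2⟩)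
  map_add' := by intros; rfl
  map_smul' := by intros; rfl
  invFun w := ⟨(w.1.1, w.2.1), ⟨w.1.2, w.2.2⟩⟩
  left_inv := by intro z; rfl
  right_inv := by intro w; rfl

theorem psEquiv_isom (Qa : QuadraticForm F Va) (Qb : QuadraticForm F Vb) (Ua : Submodule F Va)
    (Ub : Submodule F Vb) (z : ↥(Ua.prod Ub)) :
    ((Qa.comp Ua.subtype).prod (Qb.comp Ub.subtype)) (psEquiv Ua Ub z) =
      ((Qa.prod Qb).comp (Ua.prod Ub).subtype) z := rfl

theorem psEquiv_symm_isom (Qa : QuadraticForm F Va) (Qb : QuadraticForm F Vb)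
    (Ua : Submodule F Va) (Ub : Submodule F Vb) (w : ↥Ua × ↥Ub) :
    ((Qa.prod Qb).comp (Ua.prod Ub).subtype) ((psEquiv Ua Ub).symm w) =
      ((Qa.comp Ua.subtype).prod (Qb.comp Ub.subtype)) w := rfl

theorem oe_prod_sub_type [Fintype F] [FiniteDimensional F Va] [FiniteDimensional F Vb]
    (Qa : QuadraticForm F Va) (Qb : QuadraticForm F Vb) (Ua : Submodule F Va) (Ub : Submodule F Vb)
    (ha : PolarNondeg (Qa.comp Ua.subtype)) (hb : PolarNondeg (Qb.comp Ub.subtype)) (m₁ m₂ : ℕ)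
    (hUa : finrank F Ua = 2 * m₁) (hUb : finrank F Ub = 2 * m₂) :
    HasTS ((Qa.prod Qb).comp (Ua.prod Ub).subtype) (m₁ + m₂) ↔
      (HasTS (Qa.comp Ua.subtype) m₁ ↔ HasTS (Qb.comp Ub.subtype) m₂) := by
  rw [← Cfsg.Agent.Helper93.TB.tb_type_prod (Qa.comp Ua.subtype) (Qb.comp Ub.subtype) ha hb m₁ m₂
    hUa hUb]
  constructor
  · intro h
    exact hasTS_equiv ((Qa.comp Ua.subtype).prod (Qb.comp Ub.subtype))
      (fun z => ((Qa.prod Qb).comp (Ua.prod Ub).subtype) z) (psEquiv Ua Ub)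
      (psEquiv_isom Qa Qb Ua Ub) h
  · intro h
    exact hasTS_equiv ((Qa.prod Qb).comp (Ua.prod Ub).subtype)
      (fun w => ((Qa.comp Ua.subtype).prod (Qb.comp Ub.subtype)) w) (psEquiv Ua Ub).symm
      (psEquiv_symm_isom Qa Qb Ua Ub) h

end Cfsg.Agent.Helper98.S88OE
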