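import Mathlib
import Cfsg.Prelude.Def_GeometricClasses
import Cfsg.Agent.Helper98.FieldSub
import Cfsg.Agent.Helper98.ExtFieldNotMax

set_option autoImplicit false

namespace Cfsg.Agent.Helper98

open Matrix
open scoped Kronecker

section TwoByTwo

variable {F : Type*} [Field F]

/-- The matrix `ω` with `ω² = ω + 1`. -/
def om2 (F : Type*) [Field F] : Matrix (Fin 2) (Fin 2) F := !![0, 1; 1, 1]

/-- The subalgebra of the matrices commuting with `om2`. -/
def S2 (F : Type*) [Field F] : Subalgebra F (Matrix (Fin 2) (Fin 2) F) :=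
  Subalgebra.centralizer F {om2 F}

theorem mem_S2 {m : Matrix (Fin 2) (Fin 2) F} :
    m ∈ S2 F ↔ m 1 0 = m 0 1 ∧ m 1 1 = m 0 0 + m 0 1 := by
  rw [S2, Subalgebra.mem_centralizer_iff]
  constructor
  · intro h
    have h1 := h (om2 F) rfl
    have h00 := congrFun (congrFun h1 0) 0
    have h01 := congrFun (congrFun h1 0) 1
    simp only [om2, Matrix.mul_apply, Fin.sum_univ_two, Matrix.of_apply, Matrix.cons_val_zero,
      Matrix.cons_val_one, Matrix.cons_val', Matrix.empty_val', Matrix.cons_val_fin_one,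
      zero_mul, one_mul, zero_add, mul_zero, mul_one] at h00 h01
    exact ⟨h00, h01⟩
  · rintro ⟨h1, h2⟩ g hg
    rw [Set.mem_singleton_iff] at hg
    subst hg
    ext i j
    fin_cases i <;> fin_cases j <;>
      simp [om2, Matrix.mul_apply, Fin.sum_univ_two, h1, h2]

theorem S2_eq {m : Matrix (Fin 2) (Fin 2) F} (hm : m ∈ S2 F) :
    m = !![m 0 0, m 0 1; m 0 1, m 0 0 + m 0 1] := by
  obtain ⟨h1, h2⟩ := mem_S2.mp hm
  ext i j
  fin_cases i <;> fin_cases j <;> simp [h1, h2]

theorem om2_mem : om2 F ∈ S2 F := by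
  rw [mem_S2]
  simp [om2]

theorem om2_sq : om2 F * om2 F = om2 F + 1 := by
  ext i j
  fin_cases i <;> fin_cases j <;> simp [om2, Matrix.mul_apply, Fin.sum_univ_two]

theorem S2_comm {x y : Matrix (Fin 2) (Fin 2) F} (hx : x ∈ S2 F) (hy : y ∈ S2 F) :
    x * y = y * x := by
  rw [S2_eq hx, S2_eq hy]
  ext i j
  fin_cases i <;> fin_cases j <;> simp [Matrix.mul_apply, Fin.sum_univ_two] <;> ring

variable [Fintype F]

theorem F2_cases (hq : Fintype.card F = 2) (x : F) : x = 0 ∨ x = 1 := by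
  classical
  by_contra h
  push Not at h
  have h1 : ({0, 1, x} : Finset F).card ≤ Fintype.card F := Finset.card_le_univ _
  rw [Finset.card_insert_of_notMem, Finset.card_insert_of_notMem, Finset.card_singleton] at h1
  · omega
  · simp [Ne.symm h.2]
  · simp [Ne.symm h.1]

theorem F2_two (hq : Fintype.card F = 2) : (1 : F) + 1 = 0 := by
  rcases F2_cases hq ((1 : F) + 1) with h | h
  · exact h
  · exfalso
    have : (1 : F) = 0 := by linear_combination h
    exact one_ne_zero this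

theorem isFS_S2 (hq : Fintype.card F = 2) : IsFS (S2 F) := by
  have h2 := F2_two hq
  refine ⟨fun x hx y hy => S2_comm hx hy, fun x hx hx0 => ?_⟩
  refine ⟨!![x 0 0 + x 0 1, x 0 1; x 0 1, x 0 0], ?_, ?_⟩
  · rw [mem_S2]
    simp only [Matrix.of_apply, Matrix.cons_val_zero, Matrix.cons_val_one, Matrix.cons_val',
      Matrix.empty_val', Matrix.cons_val_fin_one, true_and]
    linear_combination (-(x 0 1)) * h2
  · have hx' := S2_eq hx
    have hne : ¬ (x 0 0 = 0 ∧ x 0 1 = 0) := by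
      rintro ⟨h00, h01⟩
      apply hx0
      rw [hx', h00, h01]
      ext i j
      fin_cases i <;> fin_cases j <;> simp
    rw [hx']
    rcases F2_cases hq (x 0 0) with h00 | h00 <;> rcases F2_cases hq (x 0 1) with h01 | h01
    · exact absurd ⟨h00, h01⟩ hne
    · rw [h00, h01]
      ext i j
      fin_cases i <;> fin_cases j <;> simp [Matrix.mul_apply, Fin.sum_univ_two, h2]
    · rw [h00, h01]
      ext i j
      fin_cases i <;> fin_cases j <;> simp [Matrix.mul_apply, Fin.sum_univ_two]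
    · rw [h00, h01]
      ext i j
      fin_cases i <;> fin_cases j <;> simp [Matrix.mul_apply, Fin.sum_univ_two, h2]

/-- A matrix with `M² = M + 1` over the field with two elements commutes with `om2`. -/
theorem mem_S2_of_sq (hq : Fintype.card F = 2) {M : Matrix (Fin 2) (Fin 2) F}
    (hM : M * M = M + 1) : M ∈ S2 F := by
  have h2 := F2_two hq
  have e00 := congrFun (congrFun hM 0) 0
  have e01 := congrFun (congrFun hM 0) 1
  have e10 := congrFun (congrFun hM 1) 0
  have e11 := congrFun (congrFun hM 1) 1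
  simp only [Matrix.mul_apply, Fin.sum_univ_two, Matrix.add_apply, Matrix.one_apply_eq,
    Matrix.one_apply_ne (show (0 : Fin 2) ≠ 1 by decide),
    Matrix.one_apply_ne (show (1 : Fin 2) ≠ 0 by decide), add_zero] at e00 e01 e10 e11
  rw [mem_S2]
  rcases F2_cases hq (M 0 0) with h00 | h00 <;> rcases F2_cases hq (M 0 1) with h01 | h01 <;>
    rcases F2_cases hq (M 1 0) with h10 | h10 <;> rcases F2_cases hq (M 1 1) with h11 | h11 <;>
    simp [h00, h01, h10, h11, h2] at e00 e01 e10 e11 ⊢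

theorem S2_conj (hq : Fintype.card F = 2) (a : GL (Fin 2) F) {m : Matrix (Fin 2) (Fin 2) F}
    (hm : m ∈ S2 F) :
    ∃ m' ∈ S2 F, (a : Matrix (Fin 2) (Fin 2) F) * m = m' * (a : Matrix (Fin 2) (Fin 2) F) := by
  have hai : ((a⁻¹ : GL (Fin 2) F) : Matrix (Fin 2) (Fin 2) F) * (a : Matrix (Fin 2) (Fin 2) F) = 1 := by
    rw [← Units.val_mul, inv_mul_cancel, Units.val_one]
  have hia : (a : Matrix (Fin 2) (Fin 2) F) * ((a⁻¹ : GL (Fin 2) F) : Matrix (Fin 2) (Fin 2) F) = 1 := by
    rw [← Units.val_mul, mul_inv_cancel, Units.val_one]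
  set A : Matrix (Fin 2) (Fin 2) F := (a : Matrix (Fin 2) (Fin 2) F) with hA
  set B : Matrix (Fin 2) (Fin 2) F := ((a⁻¹ : GL (Fin 2) F) : Matrix (Fin 2) (Fin 2) F) with hB
  have hM : (B * om2 F * A) * (B * om2 F * A) = B * om2 F * A + 1 := by
    calc (B * om2 F * A) * (B * om2 F * A) = B * om2 F * (A * B) * om2 F * A := by
          simp only [mul_assoc]
      _ = B * (om2 F * om2 F) * A := by rw [hia, mul_one, mul_assoc B]
      _ = B * om2 F * A + 1 := by
          rw [om2_sq, mul_add, add_mul, mul_one, hai]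
  have hMS := mem_S2_of_sq hq hM
  have hcomm := S2_comm hMS hm
  refine ⟨A * m * B, ?_, ?_⟩
  · rw [S2, Subalgebra.mem_centralizer_iff]
    intro g hg
    rw [Set.mem_singleton_iff] at hg
    subst hg
    calc om2 F * (A * m * B) = A * ((B * om2 F * A) * m) * B := by
          simp only [mul_assoc]
          rw [← mul_assoc A B, hia, one_mul]
      _ = A * (m * (B * om2 F * A)) * B := by rw [hcomm]
      _ = A * m * B * om2 F := by
          simp only [mul_assoc]
          rw [hia, mul_one]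
  · rw [mul_assoc, hai, mul_one]

theorem S2_conj' (hq : Fintype.card F = 2) (a : GL (Fin 2) F) {m : Matrix (Fin 2) (Fin 2) F}
    (hm : m ∈ S2 F) :
    ∃ m' ∈ S2 F, m * (a : Matrix (Fin 2) (Fin 2) F) = (a : Matrix (Fin 2) (Fin 2) F) * m' := by
  obtain ⟨m', hm', h⟩ := S2_conj hq a⁻¹ hm
  refine ⟨m', hm', ?_⟩
  have hia : (a : Matrix (Fin 2) (Fin 2) F) * ((a⁻¹ : GL (Fin 2) F) : Matrix (Fin 2) (Fin 2) F) = 1 := by
    rw [← Units.val_mul, mul_inv_cancel, Units.val_one]
  have hai : ((a⁻¹ : GL (Fin 2) F) : Matrix (Fin 2) (Fin 2) F) * (a : Matrix (Fin 2) (Fin 2) F) = 1 := by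
    rw [← Units.val_mul, inv_mul_cancel, Units.val_one]
  calc m * (a : Matrix (Fin 2) (Fin 2) F)
      = (a : Matrix (Fin 2) (Fin 2) F) * (((a⁻¹ : GL (Fin 2) F) : Matrix (Fin 2) (Fin 2) F) * m) *
          (a : Matrix (Fin 2) (Fin 2) F) := by
        rw [← mul_assoc, hia, one_mul]
    _ = (a : Matrix (Fin 2) (Fin 2) F) * m' := by
        rw [h, mul_assoc, mul_assoc, hai, mul_one]

end TwoByTwo

section Transport

variable {F : Type*} [Field F]
variable {κ ι : Type} [Fintype κ] [DecidableEq κ] [Fintype ι] [DecidableEq ι]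

/-- Transport along a bijection of index sets followed by conjugation, as an algebra map. -/
noncomputable def conjReindex (e : ι ≃ κ) (P : GL ι F) : Matrix κ κ F →ₐ[F] Matrix ι ι F where
  toFun x := (P : Matrix ι ι F) * Matrix.reindexAlgEquiv F F e.symm x *
    ((P⁻¹ : GL ι F) : Matrix ι ι F)
  map_one' := by
    rw [map_one, mul_one, ← Units.val_mul, mul_inv_cancel, Units.val_one]
  map_mul' x y := by
    rw [map_mul]
    simp only [mul_assoc, Units.inv_mul_cancel_left]
  map_zero' := by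
    rw [map_zero, mul_zero, zero_mul]
  map_add' x y := by
    rw [map_add, mul_add, add_mul]
  commutes' c := by
    rw [AlgEquiv.commutes, ← Algebra.commutes, mul_assoc, ← Units.val_mul, mul_inv_cancel,
      Units.val_one, mul_one]

theorem conjReindex_apply (e : ι ≃ κ) (P : GL ι F) (x : Matrix κ κ F) :
    conjReindex e P x = (P : Matrix ι ι F) * Matrix.reindexAlgEquiv F F e.symm x *
      ((P⁻¹ : GL ι F) : Matrix ι ι F) := rfl

theorem conjReindex_injective (e : ι ≃ κ) (P : GL ι F) :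
    Function.Injective (conjReindex (F := F) e P) := by
  intro x y h
  rw [conjReindex_apply, conjReindex_apply] at h
  have h1 : ((P⁻¹ : GL ι F) : Matrix ι ι F) * ((P : Matrix ι ι F) *
      Matrix.reindexAlgEquiv F F e.symm x * ((P⁻¹ : GL ι F) : Matrix ι ι F)) * (P : Matrix ι ι F) =
      ((P⁻¹ : GL ι F) : Matrix ι ι F) * ((P : Matrix ι ι F) *
      Matrix.reindexAlgEquiv F F e.symm y * ((P⁻¹ : GL ι F) : Matrix ι ι F)) * (P : Matrix ι ι F) := by
    rw [h]
  simp only [mul_assoc, Units.inv_mul_cancel_left, Units.inv_mul, mul_one] at h1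
  exact (Matrix.reindexAlgEquiv F F e.symm).injective h1

/-- `m ↦ m ⊗ 1`, as an algebra map. -/
noncomputable def kronOne (F : Type*) [Field F] (κ₂ : Type) [Fintype κ₂] [DecidableEq κ₂] :
    Matrix (Fin 2) (Fin 2) F →ₐ[F] Matrix (Fin 2 × κ₂) (Fin 2 × κ₂) F where
  toFun m := m ⊗ₖ (1 : Matrix κ₂ κ₂ F)
  map_one' := Matrix.one_kronecker_one
  map_mul' x y := by
    rw [← Matrix.mul_kronecker_mul, mul_one]
  map_zero' := Matrix.zero_kronecker _
  map_add' x y := Matrix.add_kronecker _ _ _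
  commutes' c := by
    rw [Algebra.algebraMap_eq_smul_one, Algebra.algebraMap_eq_smul_one, Matrix.smul_kronecker,
      Matrix.one_kronecker_one]

theorem kronOne_apply {κ₂ : Type} [Fintype κ₂] [DecidableEq κ₂] (m : Matrix (Fin 2) (Fin 2) F) :
    kronOne F κ₂ m = m ⊗ₖ (1 : Matrix κ₂ κ₂ F) := rfl

theorem kronOne_injective {κ₂ : Type} [Fintype κ₂] [DecidableEq κ₂] [Nonempty κ₂] :
    Function.Injective (kronOne F κ₂) := by
  intro x y h
  obtain ⟨k⟩ := ‹Nonempty κ₂›
  ext i j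
  have h1 := congrFun (congrFun h (i, k)) (j, k)
  rw [kronOne_apply, kronOne_apply, Matrix.kronecker_apply, Matrix.kronecker_apply,
    Matrix.one_apply_eq, mul_one, mul_one] at h1
  exact h1

theorem IsFS.map {K : Subalgebra F (Matrix κ κ F)} (hK : IsFS K)
    (f : Matrix κ κ F →ₐ[F] Matrix ι ι F) : IsFS (K.map f) := by
  constructor
  · intro x hx y hy
    obtain ⟨a, ha, rfl⟩ := Subalgebra.mem_map.mp hx
    obtain ⟨b, hb, rfl⟩ := Subalgebra.mem_map.mp hy
    rw [← map_mul, ← map_mul, hK.comm a ha b hb]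
  · intro x hx hx0
    obtain ⟨a, ha, rfl⟩ := Subalgebra.mem_map.mp hx
    have ha0 : a ≠ 0 := by
      rintro rfl
      exact hx0 (map_zero f)
    obtain ⟨b, hb, hab⟩ := hK.inv a ha ha0
    exact ⟨f b, Subalgebra.mem_map.mpr ⟨b, hb, rfl⟩, by rw [← map_mul, hab, map_one]⟩

theorem mem_normalizer_of_twist (S : Subalgebra F (Matrix ι ι F)) (g : GL ι F)
    (h1 : ∀ k ∈ S, ∃ k' ∈ S, (g : Matrix ι ι F) * k = k' * (g : Matrix ι ι F))
    (h2 : ∀ k ∈ S, ∃ k' ∈ S, k * (g : Matrix ι ι F) = (g : Matrix ι ι F) * k') :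
    g ∈ Cfsg.Geo.subalgebraNormalizer S := by
  intro k
  constructor
  · intro hk
    obtain ⟨k', hk', e⟩ := h1 k hk
    rw [e, mul_assoc, ← Units.val_mul, mul_inv_cancel, Units.val_one, mul_one]
    exact hk'
  · intro hk
    obtain ⟨k', hk', e⟩ := h2 _ hk
    have e2 : (g : Matrix ι ι F) * k = (g : Matrix ι ι F) * k' := by
      rw [← e]
      simp only [mul_assoc, Units.inv_mul, mul_one]
    have e3 : k = k' := by
      have := congrArg (fun z => ((g⁻¹ : GL ι F) : Matrix ι ι F) * z) e2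
      simpa only [Units.inv_mul_cancel_left] using this
    rw [e3]
    exact hk'

theorem mem_tensorProductSubgroup {n₁ n₂ : ℕ} {e : ι ≃ Fin n₁ × Fin n₂} {P : GL ι F}
    {g : GL ι F} (hg : g ∈ Cfsg.Geo.tensorProductSubgroup n₁ n₂ e P) :
    ∃ (a : GL (Fin n₁) F) (b : GL (Fin n₂) F), (g : Matrix ι ι F) =
      conjReindex e P ((a : Matrix (Fin n₁) (Fin n₁) F) ⊗ₖ (b : Matrix (Fin n₂) (Fin n₂) F)) := by
  obtain ⟨y, hy, rfl⟩ := Subgroup.mem_map.mp hg
  obtain ⟨x, ⟨a, b, hx⟩, rfl⟩ := Subgroup.mem_map.mp hy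
  refine ⟨a, b, ?_⟩
  rw [conjReindex_apply, ← hx]
  rfl

end Transport

/-- Over the field with two elements, the stabiliser of a tensor decomposition with a factor of
dimension 2 lies properly inside the normaliser of a field of order 4, so is not maximal. -/
theorem tensor2_not_max {F : Type*} [Field F] [Fintype F] (n : ℕ) (hn : 13 ≤ n)
    (hq : Fintype.card F = 2) (n₂ : ℕ) (e : Fin n ≃ Fin 2 × Fin n₂)
    (P : Matrix.GeneralLinearGroup (Fin n) F) :
    ∃ K : Subgroup (Matrix.GeneralLinearGroup (Fin n) F),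
      Cfsg.Geo.tensorProductSubgroup 2 n₂ e P ⊓ Cfsg.Geo.specialLinear (Fin n) F < K ∧
        K < Cfsg.Geo.specialLinear (Fin n) F := by
  classical
  have hcard : n = 2 * n₂ := by
    have h := Fintype.card_congr e
    rw [Fintype.card_fin, Fintype.card_prod, Fintype.card_fin, Fintype.card_fin] at h
    exact h
  have hn2 : 7 ≤ n₂ := by omega
  have : Nonempty (Fin n) := ⟨⟨0, by omega⟩⟩
  have : Nonempty (Fin n₂) := ⟨⟨0, by omega⟩⟩
  let k₀ : Fin n₂ := ⟨0, by omega⟩
  let k₁ : Fin n₂ := ⟨1, by omega⟩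
  have hk : k₀ ≠ k₁ := by
    intro h
    have := congrArg Fin.val h
    simp [k₀, k₁] at this
  let Φ := conjReindex (F := F) e P
  let Ψ : Matrix (Fin 2) (Fin 2) F →ₐ[F] Matrix (Fin n) (Fin n) F := Φ.comp (kronOne F (Fin n₂))
  have hΨ : ∀ m, Ψ m = Φ (m ⊗ₖ (1 : Matrix (Fin n₂) (Fin n₂) F)) := fun m => rfl
  have hΨinj : Function.Injective Ψ :=
    (conjReindex_injective e P).comp kronOne_injective
  let S : Subalgebra F (Matrix (Fin n) (Fin n) F) := (S2 F).map Ψ
  have hS : IsFS S := (isFS_S2 hq).map Ψ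
  -- the tensor product group normalises `S`
  have hTN : Cfsg.Geo.tensorProductSubgroup 2 n₂ e P ≤ Cfsg.Geo.subalgebraNormalizer S := by
    intro g hg
    obtain ⟨a, b, hab⟩ := mem_tensorProductSubgroup hg
    apply mem_normalizer_of_twist
    · intro k hk
      obtain ⟨m, hm, rfl⟩ := Subalgebra.mem_map.mp hk
      obtain ⟨m', hm', hmm⟩ := S2_conj hq a hm
      refine ⟨Ψ m', Subalgebra.mem_map.mpr ⟨m', hm', rfl⟩, ?_⟩
      rw [hab, hΨ, hΨ, ← map_mul, ← map_mul, ← Matrix.mul_kronecker_mul,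
        ← Matrix.mul_kronecker_mul, hmm, mul_one, one_mul]
    · intro k hk
      obtain ⟨m, hm, rfl⟩ := Subalgebra.mem_map.mp hk
      obtain ⟨m', hm', hmm⟩ := S2_conj' hq a hm
      refine ⟨Ψ m', Subalgebra.mem_map.mpr ⟨m', hm', rfl⟩, ?_⟩
      rw [hab, hΨ, hΨ, ← map_mul, ← map_mul, ← Matrix.mul_kronecker_mul,
        ← Matrix.mul_kronecker_mul, hmm, mul_one, one_mul]
  -- an element of the normaliser outside the tensor product group
  let N : Matrix (Fin 2 × Fin n₂) (Fin 2 × Fin n₂) F := om2 F ⊗ₖ Matrix.single k₀ k₁ (1 : F)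
  have hNN : N * N = 0 := by
    show (om2 F ⊗ₖ Matrix.single k₀ k₁ (1 : F)) * (om2 F ⊗ₖ Matrix.single k₀ k₁ (1 : F)) = 0
    rw [← Matrix.mul_kronecker_mul, Matrix.single_mul_single_of_ne (1 : F) k₀ k₁ k₀ hk.symm (1 : F),
      Matrix.kronecker_zero]
  have hAA : Φ N * Φ N = 0 := by
    rw [← map_mul, hNN, map_zero]
  obtain ⟨g₀, hg₀, hg₀S⟩ := exists_unipotent (Φ N) hAA
  have hg₀N : g₀ ∈ Cfsg.Geo.subalgebraNormalizer S := by
    apply mem_normalizer_of_commute
    intro k hk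
    obtain ⟨m, hm, rfl⟩ := Subalgebra.mem_map.mp hk
    have hom : om2 F * m = m * om2 F := by
      have := hm
      rw [S2, Subalgebra.mem_centralizer_iff] at this
      exact this (om2 F) rfl
    rw [hg₀, add_mul, mul_add, one_mul, mul_one, hΨ, ← map_mul, ← map_mul]
    show Φ (m ⊗ₖ 1) + Φ ((om2 F ⊗ₖ Matrix.single k₀ k₁ (1 : F)) * (m ⊗ₖ 1)) =
      Φ (m ⊗ₖ 1) + Φ ((m ⊗ₖ 1) * (om2 F ⊗ₖ Matrix.single k₀ k₁ (1 : F)))
    rw [← Matrix.mul_kronecker_mul, ← Matrix.mul_kronecker_mul, hom, mul_one, one_mul]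
  have hg₀T : g₀ ∉ Cfsg.Geo.tensorProductSubgroup 2 n₂ e P := by
    intro hg
    obtain ⟨a, b, hab⟩ := mem_tensorProductSubgroup hg
    have h1 : Φ (1 + N) = Φ ((a : Matrix (Fin 2) (Fin 2) F) ⊗ₖ (b : Matrix (Fin n₂) (Fin n₂) F)) := by
      rw [map_add, map_one, ← hg₀, hab]
    have h2 : 1 + om2 F ⊗ₖ Matrix.single k₀ k₁ (1 : F) =
        (a : Matrix (Fin 2) (Fin 2) F) ⊗ₖ (b : Matrix (Fin n₂) (Fin n₂) F) :=
      conjReindex_injective e P h1
    have e1 := congrFun (congrFun h2 (0, k₀)) (0, k₀)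
    have e2 := congrFun (congrFun h2 (0, k₀)) (1, k₀)
    have e3 := congrFun (congrFun h2 (0, k₀)) (1, k₁)
    simp only [Matrix.add_apply, Matrix.kronecker_apply, Matrix.one_apply_eq, om2,
      Matrix.of_apply, Matrix.cons_val_zero, Matrix.cons_val',
      Matrix.empty_val', Matrix.cons_val_fin_one, zero_mul, add_zero] at e1
    have hb : b k₀ k₀ ≠ 0 := by
      intro h
      rw [h, mul_zero] at e1
      exact one_ne_zero e1
    have hne1 : ((0 : Fin 2), k₀) ≠ ((1 : Fin 2), k₀) := by simp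
    have hne2 : ((0 : Fin 2), k₀) ≠ ((1 : Fin 2), k₁) := by simp
    have hz : Matrix.single k₀ k₁ (1 : F) k₀ k₀ = 0 := by
      rw [Matrix.single_apply_of_ne]
      exact fun h => hk h.2.symm
    rw [Matrix.add_apply, Matrix.one_apply_ne hne1, zero_add, Matrix.kronecker_apply,
      Matrix.kronecker_apply, hz, mul_zero] at e2
    have ha : a 0 1 = 0 := by
      rcases mul_eq_zero.mp e2.symm with h | h
      · exact h
      · exact absurd h hb
    rw [Matrix.add_apply, Matrix.one_apply_ne hne2, zero_add, Matrix.kronecker_apply,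
      Matrix.kronecker_apply, ha, zero_mul, Matrix.single_apply_same] at e3
    simp [om2] at e3
  -- a transvection outside the normaliser
  have hns : ∃ k ∈ S, ∀ c : F, k ≠ algebraMap F (Matrix (Fin n) (Fin n) F) c := by
    refine ⟨Ψ (om2 F), Subalgebra.mem_map.mpr ⟨om2 F, om2_mem, rfl⟩, fun c h => ?_⟩
    rw [← AlgHom.commutes Ψ c] at h
    have h1 := hΨinj h
    have h2 := congrFun (congrFun h1 0) 1
    rw [Algebra.algebraMap_eq_smul_one, Matrix.smul_apply,
      Matrix.one_apply_ne (show (0 : Fin 2) ≠ 1 by decide), smul_zero] at h2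
    simp [om2] at h2
  obtain ⟨g, hgS, hgN⟩ := exists_transvection_not_normalizer hS
    (by rw [Fintype.card_fin]; omega) hns
  refine ⟨Cfsg.Geo.subalgebraNormalizer S ⊓ Cfsg.Geo.specialLinear (Fin n) F, ?_, ?_⟩
  · rw [SetLike.lt_iff_le_and_exists]
    exact ⟨inf_le_inf_right _ hTN, g₀, ⟨hg₀N, hg₀S⟩, fun h => hg₀T h.1⟩
  · rw [SetLike.lt_iff_le_and_exists]
    exact ⟨inf_le_right, g, hgS, fun h => hgN h.1⟩

end Cfsg.Agent.Helper98
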