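import Mathlib
import Cfsg.Prelude.Def_GeometricClasses
import Cfsg.Prelude.Def_Classical
import Cfsg.Agent.Helper98.ELPDefs

set_option autoImplicit false

/-! # Sub-CALL ELP piece PLUS (helper98): invariant subspaces of even dimension are of plus type -/

namespace Cfsg.Agent.Helper98.ELP

open Matrix Module
open scoped MatrixGroups

variable {F : Type*} [Field F]

/-- a subspace of prescribed dimension inside a finite-dimensional subspace -/
theorem elp_exists_sub {V : Type*} [AddCommGroup V] [Module F V] [FiniteDimensional F V]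
    (W : Submodule F V) (a : ℕ) (ha : a ≤ finrank F W) :
    ∃ W' : Submodule F V, W' ≤ W ∧ finrank F W' = a := by
  classical
  obtain ⟨b⟩ : Nonempty (Basis (Fin (finrank F W)) F W) := ⟨Module.finBasis F W⟩
  refine ⟨Submodule.span F (Set.range fun i : Fin a => (b (Fin.castLE ha i) : V)), ?_, ?_⟩
  · rw [Submodule.span_le]
    rintro _ ⟨i, rfl⟩
    exact (b _).2
  · have h1 : LinearIndependent F (fun i : Fin (finrank F W) => (b i : V)) :=
      b.linearIndependent.map' W.subtype (Submodule.ker_subtype W)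
    have hli : LinearIndependent F (fun i : Fin a => (b (Fin.castLE ha i) : V)) :=
      h1.comp _ (Fin.castLE_injective ha)
    rw [finrank_span_eq_card hli, Fintype.card_fin]

/-- the kernel of a functional has codimension at most one in a subspace -/
theorem elp_ker_codim {V : Type*} [AddCommGroup V] [Module F V] [FiniteDimensional F V]
    (K : Submodule F V) (φ : V →ₗ[F] F) :
    finrank F K ≤ finrank F ↥(K ⊓ LinearMap.ker φ) + 1 := by
  have h := LinearMap.finrank_range_add_finrank_ker (φ.comp K.subtype)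
  have hr : finrank F (LinearMap.range (φ.comp K.subtype)) ≤ 1 := by
    have := Submodule.finrank_le (LinearMap.range (φ.comp K.subtype))
    rwa [Module.finrank_self] at this
  have hk : finrank F (LinearMap.ker (φ.comp K.subtype)) = finrank F ↥(K ⊓ LinearMap.ker φ) := by
    rw [LinearMap.ker_comp, ← Submodule.finrank_map_subtype_eq K, Submodule.map_comap_subtype]
  omega

theorem plus_of_inv {ι : Type} [Fintype ι] (Q : (ι → F) → F) (f : (ι → F) →ₗ[F] (ι → F))
    (U : Submodule F (ι → F)) (hU : ∀ v ∈ U, Q v = 0) (h1 : ∀ v, f v - v ∈ U)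
    (φ : (ι → F) →ₗ[F] F) (h2 : ∀ v, f v = v → φ v = 0 → v ∈ U)
    (W : Submodule F (ι → F)) (hW : W.map f ≤ W) (hev : Even (Module.finrank F W)) :
    Cfsg.Geo.IsPlusTypeOn Q W := by
  set g : (ι → F) →ₗ[F] (ι → F) := f - LinearMap.id with hg
  have hgv : ∀ v, g v = f v - v := fun v => rfl
  have h := LinearMap.finrank_range_add_finrank_ker (g.comp W.subtype)
  have hr : finrank F (LinearMap.range (g.comp W.subtype)) ≤ finrank F ↥(W ⊓ U) := by
    apply Submodule.finrank_mono
    rintro _ ⟨w, rfl⟩
    refine ⟨?_, ?_⟩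
    · have hfw : f (w : ι → F) ∈ W := hW ⟨w, w.2, rfl⟩
      have : (g.comp W.subtype) w = f (w : ι → F) - (w : ι → F) := rfl
      rw [this]
      exact W.sub_mem hfw w.2
    · exact h1 _
  have hk : finrank F (LinearMap.ker (g.comp W.subtype)) = finrank F ↥(W ⊓ LinearMap.ker g) := by
    rw [LinearMap.ker_comp, ← Submodule.finrank_map_subtype_eq W, Submodule.map_comap_subtype]
  have hc := elp_ker_codim (W ⊓ LinearMap.ker g) φ
  have hle : finrank F ↥((W ⊓ LinearMap.ker g) ⊓ LinearMap.ker φ) ≤ finrank F ↥(W ⊓ U) := by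
    apply Submodule.finrank_mono
    rintro v ⟨⟨hvW, hvg⟩, hvφ⟩
    refine ⟨hvW, h2 v ?_ hvφ⟩
    have : g v = 0 := hvg
    rw [hgv] at this
    exact sub_eq_zero.1 this
  obtain ⟨t, ht⟩ := hev
  obtain ⟨U', hU'le, hU'd⟩ := elp_exists_sub (W ⊓ U) t (by omega)
  exact ⟨U', hU'le.trans inf_le_left, fun w hw => hU w (hU'le hw).2, by omega⟩

end Cfsg.Agent.Helper98.ELP
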