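import Mathlib
import Cfsg.Prelude.Def_GeometricClasses
import Cfsg.Prelude.Def_Classical
import Cfsg.Agent.Helper98.ELPDefs

set_option autoImplicit false

/-! # Sub-CALL ELP piece SINGLE (helper98, double): the transvection congruence -/

namespace Cfsg.Agent.Helper98.ELP

open Matrix
open scoped MatrixGroups

variable {n : Type} [Fintype n] [DecidableEq n] {F : Type*} [Field F]

theorem single_conj (a b c : n) (hab : a ≠ b) (hbc : b ≠ c) (l : F) :
    ∃ A : GL n F, (A : Matrix n n F) * Matrix.single b c (1 : F) * (A : Matrix n n F)ᵀ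
      - Matrix.single b c (1 : F) = Matrix.single a c l := by
  have hsq : Matrix.single a b l * Matrix.single a b l = (0 : Matrix n n F) :=
    Matrix.single_mul_single_of_ne _ _ _ _ (Ne.symm hab) _
  refine ⟨⟨1 + Matrix.single a b l, 1 - Matrix.single a b l, ?_, ?_⟩, ?_⟩
  · rw [mul_sub, mul_one, add_mul, one_mul, hsq]
    abel
  · rw [mul_add, mul_one, sub_mul, one_mul, hsq]
    abel
  · show (1 + Matrix.single a b l) * Matrix.single b c (1 : F) * (1 + Matrix.single a b l)ᵀ
      - Matrix.single b c (1 : F) = Matrix.single a c l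
    rw [Matrix.transpose_add, Matrix.transpose_one, Matrix.transpose_single, add_mul, one_mul,
      Matrix.single_mul_single_same, mul_one, mul_add, mul_one, add_mul,
      Matrix.single_mul_single_of_ne _ _ _ _ (Ne.symm hbc) _,
      Matrix.single_mul_single_of_ne _ _ _ _ (Ne.symm hbc) _]
    abel

end Cfsg.Agent.Helper98.ELP
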