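import Mathlib
import Cfsg.Prelude.Def_GeometricClasses
import Cfsg.Prelude.Def_Classical
import Cfsg.Agent.Helper98.ELPDefs
import Cfsg.Agent.Helper98.ELPPLUS
import Cfsg.Agent.Helper98.ELPSINGLE
import Cfsg.Agent.Helper18.ELPFIX
import Cfsg.Agent.Helper38.ELPCOMM
import Cfsg.Agent.Helper47.ELPAPP
import Cfsg.Agent.Helper74.ELPPOW
import Cfsg.Agent.Helper74.ELPT0NE

set_option autoImplicit false

/-!
# Sub-CALL ELP (helper98): stage P (`r = p`, ALL `p`) of row S5988 - assembly

`elp_main`: one element `x ∈ Ω⁺_{2d}(F)` (`F` any field of characteristic `p`, `d ≥ 3`) with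
`x ^ p = 1`, `x` not scalar, such that every `x`-invariant subspace of even dimension is of plus
type.  Pieces: helper18 (SIEGISO, FIX), helper38 (COMM), helper47 (APP, LEVIISO, T0KER),
helper74 (POW, T0NE), helper85 (CONJ), helper98 (PLUS, SINGLE, GEN, NONSC, assembly).
-/

namespace Cfsg.Agent.Helper98.ELP

open Matrix
open scoped MatrixGroups

section gen

variable {n : Type} [Fintype n] [DecidableEq n] {F : Type*} [Field F]

/-- GEN: every Siegel element lies in `Ω` when `card n ≥ 3`. -/
theorem sieg_mem_omega (h3 : 3 ≤ Fintype.card n) (T : Matrix n n F) :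
    sieg T ∈ Cfsg.Geo.omegaGL (qp n F) := by
  classical
  have hsum : ∀ {α : Type} (s : Finset α) (g : α → Matrix n n F),
      (∀ i ∈ s, sieg (g i) ∈ Cfsg.Geo.omegaGL (qp n F)) →
      sieg (∑ i ∈ s, g i) ∈ Cfsg.Geo.omegaGL (qp n F) := by
    intro α s g
    induction s using Finset.induction_on with
    | empty =>
      intro _
      rw [Finset.sum_empty, sieg_zero]
      exact one_mem _
    | insert a s ha ih =>
      intro h
      rw [Finset.sum_insert ha, ← sieg_mul]
      exact mul_mem (h a (Finset.mem_insert_self a s))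
        (ih fun i hi => h i (Finset.mem_insert_of_mem hi))
  have hsingle : ∀ (a c : n) (l : F), sieg (Matrix.single a c l) ∈ Cfsg.Geo.omegaGL (qp n F) := by
    intro a c l
    by_cases hac : a = c
    · subst hac
      have h1 : sieg (Matrix.single a a l) = 1 := by
        apply Units.ext
        rw [sieg_coe]
        simp [siegM, Matrix.transpose_single, Matrix.fromBlocks_one]
      rw [h1]
      exact one_mem _
    · obtain ⟨b, hba, hbc⟩ : ∃ b : n, b ≠ a ∧ b ≠ c := by
        by_contra hcon
        have hcon' : ∀ b : n, b ≠ a → b = c := by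
          intro b hb
          by_contra hbc
          exact hcon ⟨b, hb, hbc⟩
        have hsub : (Finset.univ : Finset n) ⊆ {a, c} := by
          intro b _
          by_cases h : b = a
          · simp [h]
          · simp [hcon' b h]
        have h1 := Finset.card_le_card hsub
        have h2 : ({a, c} : Finset n).card ≤ 2 := Finset.card_le_two
        rw [Finset.card_univ] at h1
        omega
      obtain ⟨A, hA⟩ := single_conj a b c (Ne.symm hba) hbc l
      have h1 := Cfsg.Agent.Helper38.ELP.sieg_comm_mem (F := F) A (Matrix.single b c 1)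
      rwa [hA] at h1
  have hT := Matrix.matrix_eq_sum_single T
  rw [hT]
  exact hsum _ _ fun a _ => hsum _ _ fun c _ => hsingle a c (T a c)

/-- NONSC: a Siegel element with `T - Tᵀ ≠ 0` is not scalar. -/
theorem sieg_nonscalar (T : Matrix n n F) (h : T - Tᵀ ≠ 0) (z : F) :
    ((sieg T : GL (n ⊕ n) F) : Matrix (n ⊕ n) (n ⊕ n) F) ≠ z • (1 : Matrix (n ⊕ n) (n ⊕ n) F) := by
  intro heq
  apply h
  ext a b
  have h1 := congrFun (congrFun heq (Sum.inl a)) (Sum.inr b)
  rw [sieg_coe] at h1
  simpa [siegM] using h1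

end gen

/-- Stage P of row S5988, strong form: one element `x ∈ Ω⁺_{2d}(F)` (any field of characteristic
`p`, `d ≥ 3`) with `x ^ p = 1`, `x` not scalar, such that EVERY `x`-invariant subspace of even
dimension is of plus type. -/
theorem elp_main {F : Type*} [Field F] {p : ℕ} [Fact p.Prime] [CharP F p] (d : ℕ) (hd : 3 ≤ d) :
    ∃ x : GL (Fin d ⊕ Fin d) F, x ∈ Cfsg.Geo.omegaGL (Cfsg.quadFormPlus d F) ∧ x ^ p = 1 ∧
      (∀ z : F, (x : Matrix (Fin d ⊕ Fin d) (Fin d ⊕ Fin d) F) ≠
        z • (1 : Matrix (Fin d ⊕ Fin d) (Fin d ⊕ Fin d) F)) ∧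
      ∀ W : Submodule F (Fin d ⊕ Fin d → F), Even (Module.finrank F W) →
        W.map (Matrix.toLin' (x : Matrix (Fin d ⊕ Fin d) (Fin d ⊕ Fin d) F)) ≤ W →
        Cfsg.Geo.IsPlusTypeOn (Cfsg.quadFormPlus d F) W := by
  refine ⟨sieg (t0 d F), ?_, ?_, ?_, ?_⟩
  · have h := sieg_mem_omega (n := Fin d) (F := F) (by simpa using hd) (t0 d F)
    exact h
  · rw [Cfsg.Agent.Helper74.ELP.sieg_pow]
    have h0 : p • t0 d F = 0 := by
      ext a b
      simp [Matrix.smul_apply]
    rw [h0, sieg_zero]
  · exact sieg_nonscalar _ (Cfsg.Agent.Helper74.ELP.t0_ne d (by omega))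
  · intro W hev hW
    obtain ⟨φ, hφ⟩ := Cfsg.Agent.Helper18.ELP.t0_fix (F := F) d
    refine plus_of_inv (Cfsg.quadFormPlus d F) (Matrix.toLin' (siegM (t0 d F))) (subU (Fin d) F)
      ?_ ?_ φ ?_ W hW hev
    · intro v hv
      unfold Cfsg.quadFormPlus
      refine Finset.sum_eq_zero fun i _ => ?_
      rw [(mem_subU v).1 hv i, mul_zero]
    · intro v
      rw [mem_subU]
      intro j
      rw [Matrix.toLin'_apply, Pi.sub_apply, Cfsg.Agent.Helper47.ELP.siegM_mulVec_inr, sub_self]
    · intro v hv hφv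
      rw [Matrix.toLin'_apply] at hv
      exact hφ v hv hφv

end Cfsg.Agent.Helper98.ELP
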