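import Mathlib
import Cfsg.Agent.Helper43.OTDefs
import Cfsg.Agent.Helper90.BGChain
import Cfsg.Agent.Helper46.BGLIRR

set_option autoImplicit false

/-!
# Sub-CALL TSOG piece CHAIN (helper98)
-/

namespace Cfsg.Agent.Helper98.TSOG

open Module Polynomial Cfsg.Agent.Helper90.HT Cfsg.Agent.Helper43.OT
open Cfsg.Agent.Helper90.BG

variable {F : Type*} [Field F] {V : Type*} [AddCommGroup V] [Module F V] [FiniteDimensional F V]

/-- CHAIN: an invariant subspace without fixed vectors has dimension `i * a` and invariant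
subspaces of every dimension `i * s`, `s ≤ a`. -/
theorem og_chain [Fintype F] (T : Module.End F V) (r : ℕ) [Fact r.Prime] (hrF : (r : F) ≠ 0)
    (hTr : T ^ r = 1) (i : ℕ) (hi : i = orderOf ((Fintype.card F : ℕ) : ZMod r))
    (W₀ : Submodule F V) (hWT : W₀.map T ≤ W₀) (hWk : W₀ ⊓ LinearMap.ker (T - 1) = ⊥) :
    ∃ a, finrank F W₀ = i * a ∧ ∀ s, s ≤ a →
      ∃ W' : Submodule F V, W' ≤ W₀ ∧ W'.map T ≤ W' ∧ finrank F W' = i * s := by
  classical
  have hd : ∀ g : F[X], Irreducible g → g ∣ ∑ j ∈ Finset.range r, (X : F[X]) ^ j →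
      g.natDegree = i := fun g hg hdvd => by
    rw [hi]
    exact Cfsg.Agent.Helper46.bgl_irr_factor_degree r hrF g hg hdvd
  have hdvd := cyc_dvd T r i hrF hTr hd W₀ hWT
  rw [hWk, finrank_bot, Nat.sub_zero] at hdvd
  obtain ⟨a, ha⟩ := hdvd
  refine ⟨a, ha, fun s hs => ?_⟩
  have hPhi : (∑ j ∈ Finset.range r, (X : F[X]) ^ j) ≠ 0 := phi_ne_zero r hrF
  have hkill : ∀ v ∈ W₀,
      aeval T (∑ j ∈ Finset.range r, (X : F[X]) ^ j) v ∈ (⊥ : Submodule F V) := by
    intro v hv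
    have h1 : aeval T (∑ j ∈ Finset.range r, (X : F[X]) ^ j) v ∈ W₀ := aeval_mem T W₀ hWT _ hv
    have h2 : aeval T (∑ j ∈ Finset.range r, (X : F[X]) ^ j) v ∈ LinearMap.ker (T - 1) := by
      rw [LinearMap.mem_ker, ← Module.End.mul_apply, sub_one_mul_aeval_phi T r hTr,
        LinearMap.zero_apply]
    rw [← hWk]
    exact ⟨h1, h2⟩
  have hbot : (⊥ : Submodule F V).map T ≤ ⊥ := by
    rw [Submodule.map_bot]
  obtain ⟨U', -, h2, h3, h4⟩ := chain_exists T ⊥ W₀ bot_le hbot hWT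
    (∑ j ∈ Finset.range r, (X : F[X]) ^ j) hPhi hkill i hd s (by
      rw [finrank_bot, zero_add, ha]
      exact Nat.mul_le_mul_left i hs)
  refine ⟨U', h2, h3, ?_⟩
  rw [h4, finrank_bot, zero_add]

end Cfsg.Agent.Helper98.TSOG
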