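import Mathlib

/-!
helper98: general-purpose pieces for CALL S5980 (pieces XCD, XM and index-general versions of
the S5979 pieces TVP, RK1, RK2 of helper55, XC2a of helper61, XC2b of helper19).
-/

set_option autoImplicit false

namespace Cfsg.Agent.Helper98.TFGen

open Matrix Polynomial
open scoped Kronecker

/-- Piece XCD: an irreducible factor of `X ^ r - 1` other than `X - 1`, whose degree divides
every `j'` with `r ∣ q ^ j' - 1`. -/
theorem exists_irred_factor_dvd {F : Type*} [Field F] [Fintype F] (r : ℕ) (hr : r.Prime)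
    (hrF : (r : F) ≠ 0) :
    ∃ Φ : F[X], Φ.Monic ∧ Irreducible Φ ∧ Φ.Separable ∧ Φ ∣ X ^ r - 1 ∧ Φ.eval 1 ≠ 0 ∧
      ∀ j' : ℕ, 0 < j' → r ∣ Fintype.card F ^ j' - 1 → Φ.natDegree ∣ j' := by
  classical
  set Ψ : F[X] := ∑ i ∈ Finset.range r, X ^ i with hΨ
  have hΨmul : Ψ * (X - 1) = X ^ r - 1 := geom_sum_mul X r
  have hΨ1 : Ψ.eval 1 = (r : F) := by
    rw [hΨ, Polynomial.eval_geom_sum]
    simp
  have hΨmonic : Ψ.Monic := Polynomial.monic_geom_sum_X hr.ne_zero
  have hΨnu : ¬ IsUnit Ψ := by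
    intro hu
    have h1 : Ψ = 1 := hΨmonic.eq_one_of_isUnit hu
    have h2 := hΨmul
    rw [h1, one_mul] at h2
    have h3 := congrArg Polynomial.natDegree h2
    rw [← Polynomial.C_1, Polynomial.natDegree_X_sub_C, Polynomial.natDegree_X_pow_sub_C] at h3
    exact hr.one_lt.ne h3
  obtain ⟨Φ, hΦm, hΦi, hΦd⟩ := Polynomial.exists_monic_irreducible_factor Ψ hΨnu
  have hΦX : Φ ∣ X ^ r - 1 := hΦd.trans ⟨X - 1, hΨmul.symm⟩
  refine ⟨Φ, hΦm, hΦi, PerfectField.separable_of_irreducible hΦi, hΦX, ?_, ?_⟩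
  · intro h0
    apply hrF
    rw [← hΨ1]
    exact Polynomial.eval_eq_zero_of_dvd_of_eval_eq_zero hΦd h0
  · intro j hj hdvd
    have h1 : Φ ∣ X ^ (Nat.card F) ^ j - X := by
      have hq : 1 ≤ Fintype.card F ^ j := Nat.one_le_pow _ _ Fintype.card_pos
      obtain ⟨k, hk⟩ := hdvd
      have h2 : (X : F[X]) ^ r - 1 ∣ X ^ (Fintype.card F ^ j - 1) - 1 := by
        rw [hk, pow_mul]
        simpa using sub_dvd_pow_sub_pow ((X : F[X]) ^ r) 1 k
      have h3 : (X : F[X]) ^ (Nat.card F) ^ j - X = X * (X ^ (Fintype.card F ^ j - 1) - 1) := by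
        rw [Nat.card_eq_fintype_card, mul_sub, mul_one, ← pow_succ', Nat.sub_add_cancel hq]
      rw [h3]
      exact Dvd.dvd.mul_left (hΦX.trans h2) _
    exact hΦi.natDegree_dvd_of_dvd_X_pow_card_pow_sub_X h1

/-- Piece XM: a matrix of order dividing `r` with characteristic polynomial
`Φ * (X - 1) ^ (n - deg Φ)`. -/
theorem exists_mat_charpoly {F : Type*} [Field F] (r : ℕ) (Φ : F[X]) (hm : Φ.Monic)
    (hdvd : Φ ∣ X ^ r - 1) (n : ℕ) (hn : Φ.natDegree ≤ n) :
    ∃ x : Matrix (Fin n) (Fin n) F, x ^ r = 1 ∧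
      x.charpoly = Φ * (X - 1) ^ (n - Φ.natDegree) := by
  classical
  have hΦ0 : Φ ≠ 0 := hm.ne_zero
  let pb : PowerBasis F (AdjoinRoot Φ) := AdjoinRoot.powerBasis hΦ0
  have hdim : pb.dim = Φ.natDegree := AdjoinRoot.powerBasis_dim hΦ0
  let x0 : Matrix (Fin pb.dim) (Fin pb.dim) F := Algebra.leftMulMatrix pb.basis pb.gen
  have hx0char : x0.charpoly = Φ := by
    show (Algebra.leftMulMatrix pb.basis pb.gen).charpoly = Φ
    rw [charpoly_leftMulMatrix]
    exact AdjoinRoot.minpoly_powerBasis_gen_of_monic hm hΦ0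
  have hgen : pb.gen ^ r = 1 := by
    have h1 : pb.gen = AdjoinRoot.root Φ := AdjoinRoot.powerBasis_gen hΦ0
    rw [h1]
    have h2 : AdjoinRoot.mk Φ (X ^ r - 1) = 0 := AdjoinRoot.mk_eq_zero.mpr hdvd
    rw [map_sub, map_pow, AdjoinRoot.mk_X, map_one] at h2
    exact sub_eq_zero.mp h2
  have hx0r : x0 ^ r = 1 := by
    show (Algebra.leftMulMatrix pb.basis pb.gen) ^ r = 1
    rw [← map_pow, hgen, map_one]
  have hcard : pb.dim + (n - Φ.natDegree) = n := by omega
  let e : Fin pb.dim ⊕ Fin (n - Φ.natDegree) ≃ Fin n := finSumFinEquiv.trans (finCongr hcard)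
  let y : Matrix (Fin pb.dim ⊕ Fin (n - Φ.natDegree)) (Fin pb.dim ⊕ Fin (n - Φ.natDegree)) F :=
    Matrix.fromBlocks x0 0 0 1
  have hyr : y ^ r = 1 := by
    show (Matrix.fromBlocks x0 0 0 1) ^ r = 1
    rw [Matrix.fromBlocks_diagonal_pow, hx0r, one_pow, Matrix.fromBlocks_one]
  have hychar : y.charpoly = Φ * (X - 1) ^ (n - Φ.natDegree) := by
    show (Matrix.fromBlocks x0 0 0 1).charpoly = _
    rw [Matrix.charpoly_fromBlocks_zero₁₂, hx0char, Matrix.charpoly_one, Fintype.card_fin]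
  have hxr : (Matrix.reindex e e y) ^ r = 1 := by
    have h1 : Matrix.reindex e e y = Matrix.reindexAlgEquiv F F e y := rfl
    rw [h1, ← map_pow, hyr, map_one]
  exact ⟨Matrix.reindex e e y, hxr, by rw [Matrix.charpoly_reindex, hychar]⟩

theorem transvection_pow_char_gen {F : Type*} [Field F] (p : ℕ) [CharP F p] {ι : Type*}
    [Fintype ι] [DecidableEq ι] (i j : ι) (hij : i ≠ j) :
    (Matrix.transvection i j (1 : F)) ^ p = 1 := by
  have key : ∀ k : ℕ, (Matrix.transvection i j (1 : F)) ^ k = Matrix.transvection i j (k : F) := by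
    intro k
    induction k with
    | zero => rw [pow_zero, Nat.cast_zero, Matrix.transvection_zero]
    | succ k ih =>
      rw [pow_succ, ih, Matrix.transvection_mul_transvection_same (i := i) (j := j) hij,
        Nat.cast_succ]
  rw [key, CharP.cast_eq_zero, Matrix.transvection_zero]

theorem rank_transvection_sub_one_le_gen {F : Type*} [Field F] {ι : Type*} [Fintype ι]
    [DecidableEq ι] (i j : ι) (c : F) : (Matrix.transvection i j c - 1).rank ≤ 1 := by
  have h : Matrix.transvection i j c - 1 = Matrix.vecMulVec (Pi.single i c) (Pi.single j 1) := by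
    rw [Matrix.transvection, add_sub_cancel_left]
    ext a b
    simp only [Matrix.single_apply, Matrix.vecMulVec_apply, Pi.single_apply]
    by_cases h1 : i = a <;> by_cases h2 : j = b <;> simp [h1, h2, eq_comm]
  rw [h]
  exact Matrix.rank_vecMulVec_le _ _

theorem rank_diag_sub_le_gen {F : Type*} [Field F] {ι : Type*} [Fintype ι] [DecidableEq ι]
    (d : ι → F) (c : F) (k : ℕ) (h : Nat.card {i : ι // d i ≠ c} ≤ k) :
    (Matrix.diagonal d - c • (1 : Matrix ι ι F)).rank ≤ k := by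
  classical
  have h1 : Matrix.diagonal d - c • (1 : Matrix ι ι F) =
      Matrix.diagonal (fun i => d i - c) := by
    ext a b
    by_cases hab : a = b
    · subst hab
      simp
    · simp [Matrix.diagonal_apply_ne _ hab, Matrix.one_apply_ne hab]
  rw [h1, Matrix.rank_diagonal]
  have h2 : Fintype.card {i : ι // d i - c ≠ 0} = Nat.card {i : ι // d i ≠ c} := by
    rw [← Nat.card_eq_fintype_card]
    apply Nat.card_congr
    exact Equiv.subtypeEquivRight (fun i => by rw [Ne, Ne, sub_eq_zero])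
  rw [h2]
  exact h

end Cfsg.Agent.Helper98.TFGen
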