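import Mathlib
import Cfsg.Agent.Helper43.OTDefs
import Cfsg.Agent.Helper50.OTINV
import Cfsg.Agent.Helper31.OTNF
import Cfsg.Agent.Helper80.OTHYP
import Cfsg.Agent.Helper93.OTSPINSQ

set_option autoImplicit false

namespace Cfsg.Agent.Helper98.OT5972

open Module Polynomial Cfsg.Agent.Helper90.HT Cfsg.Agent.Helper43.OT
open Cfsg.Agent.Helper43.C3O (gm)
open Cfsg.Agent.Helper50.OT5972 (ot_inv_b)
open Cfsg.Agent.Helper31.OT5972 (ot_nf)
open Cfsg.Agent.Helper80.OT5972 (ot_hyp)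
open Cfsg.Agent.Helper93.OT5972 (ot_spin_sq)

universe u

section grp3

variable {F : Type u} [Field F] [Fintype F] {ι : Type} [Fintype ι] [DecidableEq ι]

/-- SPINHYP (double by helper98): the `(-1)`-eigenspace of an involution of `Ω` is hyperbolic
when `-1` is a square. -/
theorem ot_spin_hyp (Q : QuadraticForm F (ι → F)) (h2 : (2 : F) ≠ 0)
    (hQ : (QuadraticMap.polarBilin Q).Nondegenerate) (hcard : 2 ≤ Fintype.card ι)
    (g : ↥(Cfsg.isometryGroup F ⇑Q)) (hgΩ : g ∈ Cfsg.Omega F ⇑Q) (hg2 : gm g * gm g = 1)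
    (hm1 : IsSquare (-1 : F)) :
    ∃ A : Submodule F (ι → F), A ≤ LinearMap.ker (Matrix.toLin' (gm g) + 1) ∧ HTI (ph Q) A ∧
      2 * finrank F A = finrank F (LinearMap.ker (Matrix.toLin' (gm g) + 1)) := by
  classical
  have hT : HPres (ph Q) (Matrix.toLin' (gm g)) := by
    apply hpres_ph
    intro v
    rw [Matrix.toLin'_apply]
    exact g.2 v v
  have hT2 : (Matrix.toLin' (gm g)) ^ 2 = 1 := by
    rw [pow_two, Module.End.mul_eq_comp, ← Matrix.toLin'_mul, hg2, Matrix.toLin'_one]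
    rfl
  have hnd : ∀ v, (∀ w, ph Q v w = 0) → v = 0 := by
    intro v hv
    exact hQ.1 v (fun w => hv w)
  obtain ⟨-, -, hE, -⟩ := ot_inv_b (ph Q) (isHerm_ph Q) hnd h2 (Matrix.toLin' (gm g)) hT hT2
  rcases Nat.eq_zero_or_pos (finrank F (LinearMap.ker (Matrix.toLin' (gm g) + 1))) with h0 | hpos
  · refine ⟨⊥, bot_le, ?_, ?_⟩
    · intro u hu v hv
      rw [(Submodule.mem_bot F).mp hu]
      exact (isHerm_ph Q).zero_left v
    · rw [finrank_bot, h0]
  obtain ⟨s, hs⟩ : ∃ s, finrank F (LinearMap.ker (Matrix.toLin' (gm g) + 1)) = s + 1 :=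
    ⟨finrank F (LinearMap.ker (Matrix.toLin' (gm g) + 1)) - 1, by omega⟩
  obtain ⟨b, δ, hδ0, hli, hspan, hbo, hb1, hbl⟩ := ot_nf Q h2 _ hE s hs
  have hQb : ∀ j, Q (b j) = ph Q (b j) (b j) / 2 := by
    intro j
    rw [ph_self, mul_div_cancel_left₀ _ h2]
  have hQb0 : ∀ j, Q (b j) ≠ 0 := by
    intro j
    rw [hQb]
    by_cases hj : j = Fin.last s
    · rw [hj, hbl]
      exact div_ne_zero hδ0 h2
    · rw [hb1 j hj]
      exact div_ne_zero one_ne_zero h2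
  obtain ⟨hev, hsq⟩ := ot_spin_sq Q h2 hQ hcard g hgΩ hg2 (s + 1) b hQb0
    (fun j l hjl => hbo j l hjl) hspan
  have hodd : Odd s := by
    rcases hev with ⟨k, hk⟩
    exact ⟨k - 1, by omega⟩
  have hprod : ∏ j, Q (b j) = δ / 2 ^ (s + 1) := by
    rw [Fin.prod_univ_castSucc]
    have h1 : ∀ j : Fin s, Q (b (Fin.castSucc j)) = 1 / 2 := by
      intro j
      rw [hQb, hb1 _ (Fin.castSucc_lt_last j).ne]
    rw [Finset.prod_congr rfl (fun j _ => h1 j), Finset.prod_const, Finset.card_univ,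
      Fintype.card_fin, hQb, hbl, pow_succ, one_div, inv_pow]
    field_simp
  have hδsq : IsSquare δ := by
    rcases hev with ⟨k, hk⟩
    rcases hsq with ⟨c, hc⟩
    refine ⟨c * 2 ^ k, ?_⟩
    rw [hprod, hk, ← two_mul, pow_mul] at hc
    have h4 : ((2 : F) ^ 2) ^ k ≠ 0 := pow_ne_zero _ (pow_ne_zero _ h2)
    rw [div_eq_iff h4] at hc
    rw [hc, ← pow_mul, mul_comm 2 k, pow_mul]
    ring
  obtain ⟨A, hA, hAti, hAd⟩ := ot_hyp Q h2 s hodd b hli hbo hb1 (by rw [hbl]; exact hδsq)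
    (by rw [hbl]; exact hδ0) hm1
  refine ⟨A, ?_, hAti, ?_⟩
  · rw [← hspan]
    exact hA
  · rw [hAd, hs]

end grp3

end Cfsg.Agent.Helper98.OT5972
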