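import Cfsg.Agent.Helper45.FldA

set_option autoImplicit false
set_option linter.unusedSectionVars false
set_option linter.unusedSimpArgs false
set_option linter.unusedVariables false
set_option linter.style.haveILetI false

/-!
helper98: piece SA of CALL S2715 (field automorphisms of `PΩ⁺₂ₘ(q)`): when every element of the
subfield is a square of the big field, a class-preserving similarity over the subfield whose
multiplier is a square induces an inner automorphism of `PΩ⁺` of the big field.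
-/

universe u v

namespace Cfsg.Agent.Helper98.FldP

open Matrix Cfsg
open Cfsg.Agent.Helper45.OO (semiAut semiMap glMap)
open Cfsg.Agent.Helper44.POm
open Cfsg.Agent.Helper45.Fld

section Two

variable {F : Type u} [Field F] [Fintype F] {F₀ : Type v} [Field F₀] [Fintype F₀] {m : ℕ}

/-- polar form of the hyperbolic form and ring homomorphisms -/
theorem sa_polar_map (ι : F₀ →+* F) (u v : Fin m ⊕ Fin m → F₀) :
    QuadraticMap.polar (quadFormPlus m F) (fun i => ι (u i)) (fun i => ι (v i))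
      = ι (QuadraticMap.polar (quadFormPlus m F₀) u v) := by
  unfold QuadraticMap.polar
  have e : ((fun i => ι (u i)) + (fun i => ι (v i)) : Fin m ⊕ Fin m → F)
      = fun i => ι ((u + v) i) := by
    funext i
    simp
  rw [e, qplus_map, qplus_map, qplus_map, map_sub, map_sub]

theorem sa_single (ι : F₀ →+* F) (a : Fin m ⊕ Fin m) :
    (fun i => ι ((Pi.single a 1 : Fin m ⊕ Fin m → F₀) i))
      = (Pi.single a 1 : Fin m ⊕ Fin m → F) := by
  funext i
  by_cases h : i = a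
  · subst h
    rw [Pi.single_eq_same, Pi.single_eq_same, map_one]
  · rw [Pi.single_eq_of_ne h, Pi.single_eq_of_ne h, map_zero]

theorem sa_reflMatrix_map (ι : F₀ →+* F) (v : Fin m ⊕ Fin m → F₀) :
    (reflectionMatrix (quadFormPlus m F₀) v).map ι
      = reflectionMatrix (quadFormPlus m F) (fun i => ι (v i)) := by
  ext i j
  have hp : polarVec (quadFormPlus m F) (fun i => ι (v i)) j
      = ι (polarVec (quadFormPlus m F₀) v j) := by
    unfold polarVec
    rw [← sa_single ι j, sa_polar_map]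
  unfold reflectionMatrix
  rw [Matrix.map_apply, Matrix.sub_apply, Matrix.sub_apply, Matrix.smul_apply, Matrix.smul_apply,
    Matrix.vecMulVec_apply, Matrix.vecMulVec_apply, smul_eq_mul, smul_eq_mul, map_sub, map_mul,
    map_mul, map_inv₀, qplus_map, hp]
  congr 1
  rw [Matrix.one_apply, Matrix.one_apply]
  by_cases hij : i = j
  · rw [if_pos hij, if_pos hij, map_one]
  · rw [if_neg hij, if_neg hij, map_zero]

/-- extension of scalars of isometries of the hyperbolic form, as a homomorphism -/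
noncomputable def saThO (ι : F₀ →+* F) :
    ↥(isometryGroup F₀ ⇑(Helper43.plusQF m F₀)) →* ↥(isometryGroup F ⇑(Helper43.plusQF m F)) :=
  ((Matrix.GeneralLinearGroup.map ι).comp (Subgroup.subtype _)).codRestrict _
    (fun g => plus_iota_iso ι g)

theorem saThO_coe (ι : F₀ →+* F) (g : ↥(isometryGroup F₀ ⇑(Helper43.plusQF m F₀))) :
    (((saThO ι g : ↥(isometryGroup F ⇑(Helper43.plusQF m F))) : GL (Fin m ⊕ Fin m) F) :
      Matrix (Fin m ⊕ Fin m) (Fin m ⊕ Fin m) F)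
    = ((g : GL (Fin m ⊕ Fin m) F₀) : Matrix (Fin m ⊕ Fin m) (Fin m ⊕ Fin m) F₀).map ι := rfl

theorem saThO_reflO (ι : F₀ →+* F) (v : Fin m ⊕ Fin m → F₀)
    (hv : Helper43.plusQF m F₀ v ≠ 0) (hv' : Helper43.plusQF m F (fun i => ι (v i)) ≠ 0) :
    saThO ι (Helper45.reflO (Helper43.plusQF m F₀) v hv)
      = Helper45.reflO (Helper43.plusQF m F) (fun i => ι (v i)) hv' := by
  apply Subtype.ext
  apply Units.ext
  exact sa_reflMatrix_map ι v

/-- PIECE SA -/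
theorem plus_rat_sq_inn (hm : 3 ≤ m) (hodd : Odd (Fintype.card F))
    (hR₀ : Helper45.reflGroup (Helper43.plusQF m F₀) = ⊤)
    (hR : Helper45.reflGroup (Helper43.plusQF m F) = ⊤) (ι : F₀ →+* F)
    (hsq : ∀ c : F₀, IsSquare (ι c)) (γ : ↥(pscpGrp hR₀)) (c₀ : F₀) (hc₀ : c₀ ≠ 0)
    (hγ : ∀ v, quadFormPlus m F₀
      (((γ : GL (Fin m ⊕ Fin m) F₀) : Matrix (Fin m ⊕ Fin m) (Fin m ⊕ Fin m) F₀) *ᵥ v)
        = c₀ * c₀ * quadFormPlus m F₀ v) :
    pscpD hR (pscpTh hR₀ hR ι γ) ∈ Inn (POmega F (quadFormPlus m F)) := by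
  have h2 : (2 : F) ≠ 0 := Helper45.two_ne_zero_of_odd_card hodd
  have h2₀ : (2 : F₀) ≠ 0 := two_ne_zero_sub h2 ι
  have hQ := Helper45.plusQF_nondeg' (F := F) m
  have hcard2 : 2 ≤ Fintype.card (Fin m ⊕ Fin m) := by
    rw [Fintype.card_sum, Fintype.card_fin]; omega
  -- the determinant of `γ`
  have hdetγ : ((γ : GL (Fin m ⊕ Fin m) F₀) : Matrix (Fin m ⊕ Fin m) (Fin m ⊕ Fin m) F₀).det
      = (c₀ * c₀) ^ m :=
    (Helper45.ID.pres_plus_iff h2₀ γ.1 (c₀ * c₀) (mul_ne_zero hc₀ hc₀) hγ).mp γ.2.2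
  -- the isometry `c₀⁻¹ γ`
  have hc₀i : c₀⁻¹ ≠ 0 := inv_ne_zero hc₀
  have hs : ∀ (c : F₀) (w : Fin m ⊕ Fin m → F₀),
      quadFormPlus m F₀ (c • w) = c * c * quadFormPlus m F₀ w := by
    intro c w
    have h := QuadraticMap.map_smul (Helper43.plusQF m F₀) c w
    rw [smul_eq_mul] at h
    exact h
  have hiso : scGL c₀⁻¹ hc₀i * γ.1 ∈ isometryGroup F₀ ⇑(Helper43.plusQF m F₀) := by
    rw [Helper45.mem_iso_iff]
    intro v
    rw [scGL_mul_coe, Matrix.smul_mulVec]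
    show quadFormPlus m F₀ (c₀⁻¹ • (((γ : GL (Fin m ⊕ Fin m) F₀) :
      Matrix (Fin m ⊕ Fin m) (Fin m ⊕ Fin m) F₀) *ᵥ v)) = quadFormPlus m F₀ v
    rw [hs, hγ]
    field_simp
  obtain ⟨γ₁, hγ₁⟩ : ∃ γ₁ : ↥(isometryGroup F₀ ⇑(Helper43.plusQF m F₀)),
      γ₁ = ⟨scGL c₀⁻¹ hc₀i * γ.1, hiso⟩ := ⟨_, rfl⟩
  have hγ₁c : ((γ₁ : GL (Fin m ⊕ Fin m) F₀) : Matrix (Fin m ⊕ Fin m) (Fin m ⊕ Fin m) F₀)
      = c₀⁻¹ • ((γ : GL (Fin m ⊕ Fin m) F₀) : Matrix (Fin m ⊕ Fin m) (Fin m ⊕ Fin m) F₀) := by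
    rw [hγ₁]
    exact scGL_mul_coe c₀⁻¹ hc₀i γ.1
  have hdet₁ : ((γ₁ : GL (Fin m ⊕ Fin m) F₀) :
      Matrix (Fin m ⊕ Fin m) (Fin m ⊕ Fin m) F₀).det = 1 := by
    rw [hγ₁c, Matrix.det_smul, hdetγ, Fintype.card_sum, Fintype.card_fin, mul_pow, ← pow_add,
      ← mul_pow, inv_mul_cancel₀ hc₀, one_pow]
  -- the second spin character is trivial on the subfield group
  obtain ⟨ε, hε⟩ := FiniteField.exists_nonsquare (Helper45.ringChar_ne_two h2)
  have hR' : Subgroup.closure {s : ↥(isometryGroup F₀ ⇑(Helper43.plusQF m F₀)) |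
      ∃ (v : Fin m ⊕ Fin m → F₀) (hv : Helper43.plusQF m F₀ v ≠ 0),
        s = Helper45.reflO (Helper43.plusQF m F₀) v hv} = ⊤ := hR₀
  have hχ : (Helper45.spin ⇑(Helper43.plusQF m F) ε).comp (saThO ι) = 1 := by
    apply MonoidHom.eq_of_eqOn_dense hR'
    rintro s ⟨v, hv, rfl⟩
    have hv' : Helper43.plusQF m F (fun i => ι (v i)) ≠ 0 := by
      show quadFormPlus m F (fun i => ι (v i)) ≠ 0
      rw [qplus_map]
      exact (map_ne_zero ι).mpr hv
    show Helper45.spin ⇑(Helper43.plusQF m F) ε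
      (saThO ι (Helper45.reflO (Helper43.plusQF m F₀) v hv)) = 1
    rw [saThO_reflO ι v hv hv']
    exact Helper45.spin_eps_reflO_sq (Helper43.plusQF m F) h2 ε hε _ hv'
      (by
        show IsSquare (quadFormPlus m F (fun i => ι (v i)))
        rw [qplus_map]
        exact hsq _)
  have h1 : Helper45.spin ⇑(Helper43.plusQF m F) ε (saThO ι γ₁) = 1 :=
    congrArg (fun f : ↥(isometryGroup F₀ ⇑(Helper43.plusQF m F₀)) →* ℤˣ => f γ₁) hχ
  have hd : (((saThO ι γ₁ : ↥(isometryGroup F ⇑(Helper43.plusQF m F))) : GL (Fin m ⊕ Fin m) F) :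
      Matrix (Fin m ⊕ Fin m) (Fin m ⊕ Fin m) F).det = 1 := by
    rw [saThO_coe]
    have h := RingHom.map_det ι ((γ₁ : GL (Fin m ⊕ Fin m) F₀) :
      Matrix (Fin m ⊕ Fin m) (Fin m ⊕ Fin m) F₀)
    rw [hdet₁, map_one] at h
    exact h.symm
  have h3 := (Helper45.det_eq_one_iff (Helper43.plusQF m F) h2 hQ ε hε (saThO ι γ₁)).mp hd
  rw [h1, mul_one] at h3
  have hΩ : saThO ι γ₁ ∈ Omega F ⇑(Helper43.plusQF m F) :=
    (Helper45.mem_omega_iff (Helper43.plusQF m F) h2 hQ hcard2 ε hε (saThO ι γ₁)).mpr ⟨h3, h1⟩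
  -- the induced automorphism
  have hne : ι c₀⁻¹ ≠ 0 := (map_ne_zero ι).mpr hc₀i
  have hgl : ((saThO ι γ₁ : ↥(isometryGroup F ⇑(Helper43.plusQF m F))) : GL (Fin m ⊕ Fin m) F)
      = scGL (ι c₀⁻¹) hne * (pscpTh hR₀ hR ι γ).1 := by
    apply Units.ext
    rw [saThO_coe, hγ₁c, scGL_mul_coe, pscpTh_coe]
    ext i j
    simp
  have hmem : (pscpTh hR₀ hR ι γ).1 ∈ Geo.quadSimilarityGroup (F := F) (quadFormPlus m F) :=
    (pscpTh hR₀ hR ι γ).2.1
  have hmem' : scGL (ι c₀⁻¹) hne * (pscpTh hR₀ hR ι γ).1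
      ∈ Geo.quadSimilarityGroup (F := F) (quadFormPlus m F) :=
    Subgroup.mul_mem _ (scGL_semi (Helper43.plusQF m F) _ hne) hmem
  apply Helper45.mem_inn_of_ind_omega (Helper43.plusQF m F) (saThO ι γ₁) hΩ
  rw [hgl]
  apply (Helper45.OO.semi_ind_iff _ _ (RingEquiv.refl F) (semi_of_mem _ _ hmem') _).mpr
  rw [pscpD_apply]
  exact (semiAut_scGL_mul (Helper43.plusQF m F) _ hne _ (RingEquiv.refl F)
    (semi_of_mem _ _ hmem) (semi_of_mem _ _ hmem')).symm

end Two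

end Cfsg.Agent.Helper98.FldP
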