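import Mathlib
import Cfsg.Agent.Helper43.OTDefs
import Cfsg.Agent.Helper47.HTHORTH

set_option autoImplicit false

/-!
# Sub-CALL TSOG piece PROJ (helper98, double)
-/

namespace Cfsg.Agent.Helper98.TSOG

open Module Polynomial Cfsg.Agent.Helper90.HT Cfsg.Agent.Helper43.OT

variable {F : Type*} [Field F] {V : Type*} [AddCommGroup V] [Module F V] [FiniteDimensional F V]

omit [FiniteDimensional F V] in
/-- totally singular implies totally isotropic for the polar form (all characteristics) -/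
theorem proj_hti_of_sing (Q : QuadraticForm F V) (W : Submodule F V) (h : ∀ w ∈ W, Q w = 0) :
    HTI (ph Q) W := by
  intro u hu v hv
  rw [ph, QuadraticMap.polar, h _ (W.add_mem hu hv), h u hu, h v hv]
  simp

/-- PROJ: `V = C ⊕ D` orthogonal, `W₀ ≤ D` totally singular of half the dimension of the
nondegenerate `D`, `M ⊇ W₀` totally singular.  Then `N = M ⊓ C` (the projection of `M` to `C`)
is totally singular of dimension `finrank M - finrank W₀`. -/
theorem og_proj (Q : QuadraticForm F V) (C D : Submodule F V) (hCD : IsCompl C D)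
    (horth : ∀ u ∈ C, ∀ v ∈ D, ph Q u v = 0) (hD : HNondegOn (ph Q) D) (W₀ : Submodule F V)
    (hW₀D : W₀ ≤ D) (hW₀ : ∀ w ∈ W₀, Q w = 0) (hhalf : finrank F D = 2 * finrank F W₀)
    (M : Submodule F V) (hM : ∀ w ∈ M, Q w = 0) (hWM : W₀ ≤ M) :
    ∃ N : Submodule F V, N ≤ C ∧ (∀ w ∈ N, Q w = 0) ∧
      finrank F N + finrank F W₀ = finrank F M := by
  have hh := isHerm_ph Q
  obtain ⟨P, hP, hPd⟩ := Cfsg.Agent.Helper47.HT5953.ht_orth (RingHom.id F) (ph Q) hh D W₀ hD hW₀D
  have hWP : W₀ ≤ P := fun v hv =>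
    (hP v).mpr ⟨hW₀D hv, fun w hw => proj_hti_of_sing Q W₀ hW₀ v hv w hw⟩
  have hPW : P = W₀ := (Submodule.eq_of_le_of_finrank_eq hWP (by omega)).symm
  -- key: the `D`-component of an element of `M` lies in `W₀`
  have key : ∀ m ∈ M, ∀ e ∈ D, m - e ∈ C → e ∈ W₀ := by
    intro m hm e he hc
    rw [← hPW, hP]
    refine ⟨he, fun w hw => ?_⟩
    have h1 : ph Q m w = 0 := proj_hti_of_sing Q M hM m hm w (hWM hw)
    have h2 : ph Q (m - e) w = 0 := horth _ hc w (hW₀D hw)
    have h3 : ph Q (m - e) w = ph Q m w - ph Q e w := by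
      rw [ph, ph, ph, QuadraticMap.polar_sub_left]
    rw [h3, h1, zero_sub, neg_eq_zero] at h2
    exact h2
  have hsup : (M ⊓ C) ⊔ W₀ = M := by
    apply le_antisymm (sup_le inf_le_left hWM)
    intro m hm
    have hmt : m ∈ C ⊔ D := by
      rw [hCD.sup_eq_top]
      exact Submodule.mem_top
    obtain ⟨c, hc, e, he, hce⟩ := Submodule.mem_sup.mp hmt
    have hme : m - e = c := by
      rw [← hce]
      abel
    have heW : e ∈ W₀ := key m hm e he (by rw [hme]; exact hc)
    have hcM : c ∈ M := by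
      rw [← hme]
      exact M.sub_mem hm (hWM heW)
    rw [← hce]
    exact Submodule.add_mem_sup ⟨hcM, hc⟩ heW
  have hinf : (M ⊓ C) ⊓ W₀ = ⊥ := by
    rw [eq_bot_iff, ← hCD.inf_eq_bot]
    exact fun v hv => ⟨hv.1.2, hW₀D hv.2⟩
  refine ⟨M ⊓ C, inf_le_right, fun w hw => hM w hw.1, ?_⟩
  have h1 := Submodule.finrank_sup_add_finrank_inf_eq (M ⊓ C) W₀
  rw [hsup, hinf, finrank_bot, add_zero] at h1
  exact h1.symm

end Cfsg.Agent.Helper98.TSOG
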