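import Mathlib
import Cfsg.Agent.Helper43.OTDefs
import Cfsg.Agent.Helper34.HTHFIX
import Cfsg.Agent.Helper47.HTHTIB
import Cfsg.Agent.Helper50.OTINV
import Cfsg.Agent.Helper58.TSDefs
import Cfsg.Agent.Helper98.OPar
import Cfsg.Agent.Helper93.TSOGODDTI
import Cfsg.Agent.Helper93.TSOGSING
import Cfsg.Agent.Helper93.TSOGCOMB
import Cfsg.Agent.Helper35.TSOGEXT
import Cfsg.Agent.Helper98.TSOGCHAIN
import Cfsg.Agent.Helper98.TSOGPROJ
import Cfsg.Agent.Helper98.TSOGEXTP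

set_option autoImplicit false

/-!
# Stage OG (`ts_odd_good`) of CALL TS (S5973 + S5987), helper98: assembly of sub-CALL TSOG
-/

namespace Cfsg.Agent.Helper98.TSOG

open Module Polynomial Cfsg.Agent.Helper90.HT Cfsg.Agent.Helper43.OT
open Cfsg.Agent.Helper93.TSOG (og_half og_sing og_comb)
open Cfsg.Agent.Helper35.TSOG (og_ext)

section abs

variable {F : Type*} [Field F] {V : Type*} [AddCommGroup V] [Module F V] [FiniteDimensional F V]

omit [FiniteDimensional F V] in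
/-- totally singular implies totally isotropic for the polar form (all characteristics) -/
theorem hti_of_sing (Q : QuadraticForm F V) (W : Submodule F V) (h : ∀ w ∈ W, Q w = 0) :
    HTI (ph Q) W := by
  intro u hu v hv
  rw [ph, QuadraticMap.polar, h _ (W.add_mem hu hv), h u hu, h v hv]
  simp

/-- Witt index from the type: every totally singular subspace lies in one of dimension `d - δ`. -/
theorem og_witt [Fintype F] (Q : QuadraticForm F V) (hnd : ∀ v, (∀ w, ph Q v w = 0) → v = 0)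
    (d δ : ℕ) (hdim : finrank F V = 2 * d)
    (hδ : (δ = 0 ∧ ∃ E : Submodule F V, finrank F E = d ∧ ∀ w ∈ E, Q w = 0) ∨
      (δ = 1 ∧ ¬ ∃ E : Submodule F V, finrank F E = d ∧ ∀ w ∈ E, Q w = 0))
    (W₀ : Submodule F V) (hW₀ : ∀ w ∈ W₀, Q w = 0) :
    ∃ M : Submodule F V, W₀ ≤ M ∧ (∀ w ∈ M, Q w = 0) ∧ finrank F M + δ = d := by
  rcases hδ with ⟨rfl, E, hEd, hE⟩ | ⟨rfl, hno⟩
  · obtain ⟨M, h1, h2, h3⟩ := og_ext_plus Q hnd d hdim E hE hEd W₀ hW₀
    exact ⟨M, h1, h2, by omega⟩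
  · have hnd' : HNondegOn (ph Q) (⊤ : Submodule F V) := fun v _ hv => hnd v (fun w => hv w trivial)
    have hb := Cfsg.Agent.Helper47.HT5953.ht_bound (RingHom.id F) (ph Q) (isHerm_ph Q) ⊤ W₀ hnd'
      le_top (hti_of_sing Q W₀ hW₀)
    rw [finrank_top, hdim] at hb
    have hne : finrank F W₀ ≠ d := fun h => hno ⟨W₀, h, hW₀⟩
    exact og_ext Q hnd d hdim W₀ hW₀ (by omega)

/-- the abstract stage OG -/
theorem og_abs [Fintype F] (Q : QuadraticForm F V) (hnd : ∀ v, (∀ w, ph Q v w = 0) → v = 0)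
    (d δ : ℕ) (hdim : finrank F V = 2 * d)
    (hδ : (δ = 0 ∧ ∃ E : Submodule F V, finrank F E = d ∧ ∀ w ∈ E, Q w = 0) ∨
      (δ = 1 ∧ ¬ ∃ E : Submodule F V, finrank F E = d ∧ ∀ w ∈ E, Q w = 0))
    (T : Module.End F V) (hT : ∀ v, Q (T v) = Q v) (r : ℕ) [Fact r.Prime] (hr2 : 2 < r)
    (hrF : (r : F) ≠ 0) (hTr : T ^ r = 1) (i : ℕ)
    (hi : i = orderOf ((Fintype.card F : ℕ) : ZMod r)) (hodd : Odd i) :
    ∃ a, i * a + δ ≤ d ∧ ∀ s w, s ≤ a → w + i * a + δ ≤ d →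
      ∃ W : Submodule F V, finrank F W = i * s + w ∧ (∀ v ∈ W, Q v = 0) ∧ W.map T ≤ W := by
  obtain ⟨hDT, hCD, horth, -, -, hD⟩ := Cfsg.Agent.Helper34.HT5953.ht_fix (RingHom.id F) (ph Q)
    (isHerm_ph Q) hnd T (hpres_ph Q T hT) r hrF hTr
  have hDk : LinearMap.range (T - 1) ⊓ LinearMap.ker (T - 1) = ⊥ := by
    rw [inf_comm]
    exact hCD.inf_eq_bot
  obtain ⟨W₀, hW₀D, hW₀ti, hW₀T, hhalf⟩ := og_half Q T hT r hr2 hrF hTr (hi ▸ hodd)
    (LinearMap.range (T - 1)) hDT hD hDk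
  have hW₀k : W₀ ⊓ LinearMap.ker (T - 1) = ⊥ := by
    rw [eq_bot_iff, ← hDk]
    exact inf_le_inf_right _ hW₀D
  have hW₀s := og_sing Q T hT W₀ hW₀ti hW₀T hW₀k
  obtain ⟨a, ha, hchain⟩ := og_chain T r hrF hTr i hi W₀ hW₀T hW₀k
  obtain ⟨M, hWM, hM, hMd⟩ := og_witt Q hnd d δ hdim hδ W₀ hW₀s
  obtain ⟨N, hNC, hN, hNd⟩ := og_proj Q (LinearMap.ker (T - 1)) (LinearMap.range (T - 1)) hCD
    horth hD W₀ hW₀D hW₀s hhalf M hM hWM
  refine ⟨a, by omega, fun s w hs hw => ?_⟩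
  obtain ⟨W', hW'W, hW'T, hW'd⟩ := hchain s hs
  obtain ⟨N', hN'N, hN'd⟩ := Cfsg.Agent.Helper50.OT5972.inv_exists_sub N w (by omega)
  obtain ⟨h1, h2, h3⟩ := og_comb Q T (LinearMap.ker (T - 1)) (LinearMap.range (T - 1))
    hCD.inf_eq_bot horth le_rfl N' (hN'N.trans hNC) (fun v hv => hN v (hN'N hv)) W'
    (hW'W.trans hW₀D) (fun v hv => hW₀s v (hW'W hv)) hW'T
  exact ⟨N' ⊔ W', by rw [h3, hN'd, hW'd]; omega, h1, h2⟩

end abs

end Cfsg.Agent.Helper98.TSOG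

namespace Cfsg.Agent.Helper98.TS5973

open Module Polynomial Cfsg.Agent.Helper90.HT Cfsg.Agent.Helper43.OT
open Cfsg.Agent.Helper98.TSOG (og_abs)

section final

open Cfsg Cfsg.Geo Cfsg.Agent.Helper58.TS
open scoped MatrixGroups

variable {ι : Type} [Fintype ι] [DecidableEq ι] {F : Type*} [Field F] [Fintype F]

/-- ODD-GOOD (stage OG of CALL TS).  `i` odd: `V = C ⊥ D`, `C` the fixed space, `D = [V, x]`
hyperbolic with a maximal invariant t.s. subspace of dimension `i * a = dim D / 2`; `C` has the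
type of `V`. -/
theorem ts_odd_good (Q : (ι → F) → F) (hQ : IsNondegenerateQuadraticForm Q) (d δ : ℕ)
    (hcard : Fintype.card ι = 2 * d) (hδ : TypeDefect Q δ) (p : ℕ) [Fact p.Prime] [CharP F p]
    (q : ℕ) (hq : Fintype.card F = q) (r : ℕ) [Fact r.Prime] (hr2 : 2 < r) (hrp : r ≠ p) (i : ℕ)
    (hi : i = orderOf ((q : ℕ) : ZMod r)) (hodd : Odd i) (x : GL ι F)
    (hx : x ∈ Cfsg.isometryGroup F Q) (hxr : x ^ r = 1) :
    ∃ a, i * a + δ ≤ d ∧ ∀ s w, s ≤ a → w + i * a + δ ≤ d →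
      InvTS Q (x : Matrix ι ι F) (i * s + w) := by
  classical
  have hnd : ∀ v, (∀ w, ph (Cfsg.Agent.Helper98.op_qf Q hQ) v w = 0) → v = 0 :=
    fun v hv => (Cfsg.Agent.Helper98.op_qf_nondeg Q hQ).1 v (fun w => hv w)
  have hdim : finrank F (ι → F) = 2 * d := by
    rw [Module.finrank_fintype_fun_eq_card, hcard]
  have hδ' : (δ = 0 ∧ ∃ E : Submodule F (ι → F), finrank F E = d ∧
        ∀ w ∈ E, Cfsg.Agent.Helper98.op_qf Q hQ w = 0) ∨
      (δ = 1 ∧ ¬ ∃ E : Submodule F (ι → F), finrank F E = d ∧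
        ∀ w ∈ E, Cfsg.Agent.Helper98.op_qf Q hQ w = 0) := by
    have key : IsPlusTypeOn Q ⊤ ↔ ∃ E : Submodule F (ι → F), finrank F E = d ∧
        ∀ w ∈ E, Cfsg.Agent.Helper98.op_qf Q hQ w = 0 := by
      constructor
      · rintro ⟨U, -, hU, hUd⟩
        rw [finrank_top, hdim] at hUd
        exact ⟨U, by omega, hU⟩
      · rintro ⟨E, hEd, hE⟩
        refine ⟨E, le_top, hE, ?_⟩
        rw [finrank_top, hdim, hEd]
    rcases hδ with ⟨h0, h1⟩ | ⟨h0, h1⟩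
    · exact Or.inl ⟨h0, key.mp h1⟩
    · exact Or.inr ⟨h0, fun h => h1 (key.mpr h)⟩
  have hT : ∀ v, Cfsg.Agent.Helper98.op_qf Q hQ (Matrix.toLin' (x : Matrix ι ι F) v) =
      Cfsg.Agent.Helper98.op_qf Q hQ v := by
    intro v
    rw [Matrix.toLin'_apply]
    exact hx v v
  have hpow : ∀ k : ℕ, Matrix.toLin' ((x : Matrix ι ι F) ^ k) =
      (Matrix.toLin' (x : Matrix ι ι F)) ^ k := by
    intro k
    induction k with
    | zero => rw [pow_zero, pow_zero, Matrix.toLin'_one]; rfl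
    | succ k ih => rw [pow_succ, pow_succ, Matrix.toLin'_mul, ih]; rfl
  have hTr : (Matrix.toLin' (x : Matrix ι ι F)) ^ r = 1 := by
    rw [← hpow, ← Units.val_pow_eq_pow_val, hxr, Units.val_one, Matrix.toLin'_one]
    rfl
  have hrF : (r : F) ≠ 0 := by
    intro h0
    have h1 := (CharP.cast_eq_zero_iff F p r).mp h0
    have hp : p.Prime := Fact.out
    have hr : r.Prime := Fact.out
    exact hrp ((Nat.prime_dvd_prime_iff_eq hp hr).mp h1).symm
  subst hq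
  exact og_abs (Cfsg.Agent.Helper98.op_qf Q hQ) hnd d δ hdim hδ' (Matrix.toLin' (x : Matrix ι ι F))
    hT r hr2 hrF hTr i hi hodd

end final

end Cfsg.Agent.Helper98.TS5973
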