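import Mathlib
import Cfsg.Prelude.Def_GeometricClasses
import Cfsg.Prelude.Def_Classical
import Cfsg.Agent.Helper35.S88Defs
import Cfsg.Agent.Helper58.TSDefs
import Cfsg.Agent.Helper43.PrimeOrdO3
import Cfsg.Agent.Helper33.OType
import Cfsg.Agent.Helper43.S88OEDefs
import Cfsg.Agent.Helper98.TBSPLIT
import Cfsg.Agent.Helper98.S88OEPSTYPE
import Cfsg.Agent.Helper10.S88OEPSND
import Cfsg.Agent.Helper88.S88OEBLKTYPEof
import Cfsg.Agent.Helper67.S88OEBLKCHAR

set_option autoImplicit false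

/-! # Sub-CALL S88OE piece BSPLIT (helper98): invariant nondegenerate subspaces of `V₀ × block` -/

namespace Cfsg.Agent.Helper98.S88OE

open Module Polynomial Cfsg Cfsg.Geo Cfsg.Agent.Helper58.TS Cfsg.Agent.Helper35.S88
open Cfsg.Agent.Helper43 Cfsg.Agent.Helper43.OrthEven Cfsg.Agent.Helper43.CycFactors
  Cfsg.Agent.Helper43.PrimeOrdMat Cfsg.Agent.Helper43.S88OE
open Cfsg.Agent.Helper10.S88OE (oe_prod_sub_nd)
open scoped MatrixGroups

universe u

section restr

variable {F : Type*} [Field F] {Va : Type*} [AddCommGroup Va] [Module F Va]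

theorem bsplit_pow_restr (T : Module.End F Va) (U : Submodule F Va) (h : ∀ u ∈ U, T u ∈ U)
    (n : ℕ) (u : U) : (((T.restrict h) ^ n) u : Va) = (T ^ n) (u : Va) := by
  induction n generalizing u with
  | zero => simp
  | succ k ih =>
    rw [pow_succ, pow_succ, Module.End.mul_apply, Module.End.mul_apply, ih]
    rfl

theorem bsplit_aeval_restr (T : Module.End F Va) (U : Submodule F Va) (h : ∀ u ∈ U, T u ∈ U)
    (f : F[X]) (u : U) :
    ((aeval (T.restrict h) f) u : Va) = aeval T f (u : Va) := by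
  induction f using Polynomial.induction_on' with
  | add p q hp hq => simp [map_add, hp, hq]
  | monomial n a =>
    rw [aeval_monomial, aeval_monomial]
    simp [Module.algebraMap_end_apply, bsplit_pow_restr]

/-- BLKRESTR (own copy): the restriction of a block to an invariant nondegenerate subspace. -/
theorem bsplit_blk_restr (r : ℕ) (Qa : QuadraticForm F Va) (T : Module.End F Va)
    (hT : ∀ v, Qa (T v) = Qa v) (hcyc : aeval T (cyclotomic r F) = 0) (U : Submodule F Va)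
    (hU : U.map T ≤ U) (hnd : PolarNondeg (Qa.comp U.subtype)) :
    ∃ T' : Module.End F U, Blk r (Qa.comp U.subtype) T' := by
  have h : ∀ u ∈ U, T u ∈ U := fun u hu => hU ⟨u, hu, rfl⟩
  refine ⟨T.restrict h, hnd, fun v => hT v, ?_⟩
  apply LinearMap.ext
  intro u
  apply Subtype.ext
  rw [bsplit_aeval_restr, hcyc]
  rfl

end restr

variable {F : Type u} [Field F] [Fintype F]

theorem oe_bad_split (p : ℕ) [Fact p.Prime] [CharP F p] (r : ℕ) [Fact r.Prime] (hr2 : 2 < r)
    (hrp : r ≠ p) (heven : Even (orderOf ((Fintype.card F : ℕ) : ZMod r))) {V₀ V₁ : Type u}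
    [AddCommGroup V₀] [Module F V₀] [FiniteDimensional F V₀] [AddCommGroup V₁] [Module F V₁]
    [FiniteDimensional F V₁] (Q₀ : QuadraticForm F V₀) (Q₁ : QuadraticForm F V₁)
    (T₁ : Module.End F V₁) (hblk : Blk r Q₁ T₁) (l : ℕ) (W : Submodule F (V₀ × V₁))
    (hW : W.map ((1 : Module.End F V₀).prodMap T₁) ≤ W) (hWdim : finrank F W = 2 * l)
    (hWnd : PolarNondeg ((Q₀.prod Q₁).comp W.subtype)) :
    ∃ (Ua : Submodule F V₀) (s w₂ : ℕ), PolarNondeg (Q₀.comp Ua.subtype) ∧
      finrank F Ua = 2 * w₂ ∧ l = orderOf ((Fintype.card F : ℕ) : ZMod r) / 2 * s + w₂ ∧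
      2 * (orderOf ((Fintype.card F : ℕ) : ZMod r) / 2 * s) ≤ finrank F V₁ ∧
      (HasTS ((Q₀.prod Q₁).comp W.subtype) l ↔ (HasTS (Q₀.comp Ua.subtype) w₂ ↔ Even s)) := by
  obtain ⟨-, hT, hcyc⟩ := hblk
  have hr : r.Prime := Fact.out
  have hp : p.Prime := Fact.out
  have hrF : (r : F) ≠ 0 := by
    intro h0
    have h1 := (CharP.cast_eq_zero_iff F p r).1 h0
    exact hrp ((Nat.prime_dvd_prime_iff_eq hp hr).1 h1).symm
  have hcop : IsCoprime (X - 1 : F[X]) (cyclotomic r F) := by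
    have h1 : Irreducible (X - 1 : F[X]) := by
      have := irreducible_X_sub_C (1 : F)
      simpa using this
    exact (h1.coprime_iff_not_dvd).mpr (X_sub_one_not_dvd_cyclotomic hr hrF)
  have ha : aeval (1 : Module.End F V₀) (X - 1 : F[X]) = 0 := by simp
  obtain ⟨Ua, Ub, -, hUb, rfl⟩ :=
    Cfsg.Agent.Helper98.TB.tb_split (1 : Module.End F V₀) T₁ (X - 1) (cyclotomic r F) hcop ha hcyc
      W hW
  obtain ⟨hnda, hndb⟩ := (oe_prod_sub_nd Q₀ Q₁ Ua Ub).1 hWnd
  obtain ⟨T', hblk'⟩ := bsplit_blk_restr r Q₁ T₁ hT hcyc Ub hUb hndb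
  obtain ⟨n, hn, hntype⟩ := Cfsg.Agent.Helper88.S88OE.oe_blk_type_of p r hr2 hrp heven
    (Q₁.comp Ub.subtype) T' hblk' (Cfsg.Agent.Helper67.S88OE.oe_blk_char p r hrp T' hblk'.2.2)
  have hdim : finrank F ↥(Ua.prod Ub) = finrank F Ua + finrank F Ub := by
    rw [LinearEquiv.finrank_eq (psEquiv Ua Ub), Module.finrank_prod]
  have hle : finrank F Ub ≤ finrank F V₁ := Submodule.finrank_le Ub
  set j := orderOf ((Fintype.card F : ℕ) : ZMod r) / 2 with hj
  have hUa : finrank F Ua = 2 * (l - j * n) := by omega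
  have hl : l = j * n + (l - j * n) := by omega
  refine ⟨Ua, n, l - j * n, hnda, hUa, hl, by omega, ?_⟩
  have htype := oe_prod_sub_type Q₀ Q₁ Ua Ub hnda hndb (l - j * n) (j * n) hUa hn
  have hl' : l - j * n + j * n = l := by omega
  rw [hl'] at htype
  rw [htype, hntype]

end Cfsg.Agent.Helper98.S88OE
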