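import Mathlib
import Cfsg.Prelude.Def_GeometricClasses
import Cfsg.Agent.Helper98.OPar

/-!
Maximality of the stabiliser in `Ω(Q)` of a pair of complementary totally singular subspaces
(interchanged by an element of the stabiliser): the geometric core.  For a quadratic form `Q`
with non-degenerate polar form over a finite field, `W₀ ⊕ W₁` a decomposition into totally
singular subspaces, a subgroup `M` containing the Eichler transformations `E(w₀, w₁)` with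
`w₀ ∈ W₀`, `w₁ ∈ W₁`, an element interchanging `W₀` and `W₁`, and an element not preserving
the pair, contains `Ω(Q)`.
-/

set_option autoImplicit false
set_option linter.unusedSectionVars false
set_option linter.unusedVariables false
set_option linter.unusedSimpArgs false

universe u

namespace Cfsg.Agent.Helper98

open Matrix Cfsg Cfsg.Geo Cfsg.Agent.Helper45

section OPair

variable {ι : Type} [Fintype ι] [DecidableEq ι] {F : Type u} [Field F] [Fintype F]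
  (Q : QuadraticForm F (ι → F))

/-- A pair of totally singular subspaces spanning the space. -/
structure OprPair (W₀ W₁ : Submodule F (ι → F)) : Prop where
  ts0 : ∀ w ∈ W₀, Q w = 0
  ts1 : ∀ w ∈ W₁, Q w = 0
  sup : W₀ ⊔ W₁ = ⊤

theorem opr_symm {W₀ W₁ : Submodule F (ι → F)} (h : OprPair Q W₀ W₁) : OprPair Q W₁ W₀ :=
  ⟨h.ts1, h.ts0, by rw [sup_comm]; exact h.sup⟩

theorem opr_decomp {W₀ W₁ : Submodule F (ι → F)} (h : OprPair Q W₀ W₁) (x : ι → F) :
    ∃ x₀ ∈ W₀, ∃ x₁ ∈ W₁, x = x₀ + x₁ := by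
  have hx : x ∈ W₀ ⊔ W₁ := by rw [h.sup]; trivial
  obtain ⟨x₀, h0, x₁, h1, e⟩ := Submodule.mem_sup.mp hx
  exact ⟨x₀, h0, x₁, h1, e.symm⟩

theorem opr_inf (hQ : (QuadraticMap.polarBilin Q).Nondegenerate) {W₀ W₁ : Submodule F (ι → F)}
    (h : OprPair Q W₀ W₁) (x : ι → F) (h0 : x ∈ W₀) (h1 : x ∈ W₁) : x = 0 := by
  apply hQ.2 x
  intro a
  obtain ⟨a₀, ha0, a₁, ha1, rfl⟩ := opr_decomp Q h a
  show QuadraticMap.polar ⇑Q (a₀ + a₁) x = 0
  rw [QuadraticMap.polar_add_left, ts_polar Q W₀ h.ts0 a₀ ha0 x h0,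
    ts_polar Q W₁ h.ts1 a₁ ha1 x h1, add_zero]

theorem opr_finrank (hQ : (QuadraticMap.polarBilin Q).Nondegenerate)
    {W₀ W₁ : Submodule F (ι → F)} (h : OprPair Q W₀ W₁) :
    2 * Module.finrank F W₀ = Fintype.card ι ∧ 2 * Module.finrank F W₁ = Fintype.card ι := by
  have h0 := finrank_ts_le Q hQ W₀ h.ts0
  have h1 := finrank_ts_le Q hQ W₁ h.ts1
  have h2 := Submodule.finrank_add_le_finrank_add_finrank W₀ W₁
  rw [h.sup, finrank_top, Module.finrank_fintype_fun_eq_card] at h2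
  omega

/-- The two subspaces are in perfect duality. -/
theorem opr_dual (hQ : (QuadraticMap.polarBilin Q).Nondegenerate) {W₀ W₁ : Submodule F (ι → F)}
    (h : OprPair Q W₀ W₁) (S : Submodule F (ι → F)) (hS : S ≤ W₀) (z : ι → F) (hz : z ∈ W₀)
    (hzS : z ∉ S) :
    ∃ d ∈ W₁, (∀ p ∈ S, QuadraticMap.polar ⇑Q p d = 0) ∧ QuadraticMap.polar ⇑Q d z ≠ 0 := by
  obtain ⟨w, hw1, hw2⟩ := exists_perp_of_notMem Q hQ S z hzS
  obtain ⟨w₀, h0, w₁, h1, rfl⟩ := opr_decomp Q h w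
  refine ⟨w₁, h1, fun p hp => ?_, ?_⟩
  · have := hw1 p hp
    rw [QuadraticMap.polar_add_right, ts_polar Q W₀ h.ts0 p (hS hp) w₀ h0, zero_add] at this
    exact this
  · rw [QuadraticMap.polar_add_left, ts_polar Q W₀ h.ts0 w₀ h0 z hz, zero_add] at hw2
    exact hw2

theorem opr_exists_notMem_pair (W : Submodule F (ι → F)) (h3 : 3 ≤ Module.finrank F W)
    (x y : ι → F) : ∃ w ∈ W, w ∉ Submodule.span F ({x, y} : Set (ι → F)) := by
  classical
  by_contra hcon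
  push Not at hcon
  have hle : W ≤ Submodule.span F ({x, y} : Set (ι → F)) := hcon
  have h1 := Submodule.finrank_mono hle
  have h2 : Module.finrank F (Submodule.span F ({x, y} : Set (ι → F))) ≤ 2 := by
    have := finrank_span_finset_le_card (R := F) ({x, y} : Finset (ι → F))
    rw [Finset.coe_pair] at this
    exact this.trans Finset.card_le_two
  omega

/-- The Eichler transformations of the stabiliser of the pair lie in `M`. -/
def opr_H (W₀ W₁ : Submodule F (ι → F)) (M : Subgroup ↥(isometryGroup F ⇑Q)) : Prop :=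
  ∀ w₀ ∈ W₀, ∀ w₁ ∈ W₁, ∀ (h0 : Q w₀ = 0) (h : QuadraticMap.polar ⇑Q w₀ w₁ = 0),
    eichO Q w₀ w₁ h0 h ∈ M

theorem opr_H_symm {W₀ W₁ : Submodule F (ι → F)} (h : OprPair Q W₀ W₁)
    (M : Subgroup ↥(isometryGroup F ⇑Q)) (hH : opr_H Q W₀ W₁ M) : opr_H Q W₁ W₀ M := by
  intro w₁ hw1 w₀ hw0 h1 hp
  have hp' : QuadraticMap.polar ⇑Q w₀ (-w₁) = 0 := by
    rw [QuadraticMap.polar_neg_right, QuadraticMap.polar_comm, hp, neg_zero]
  have e : eichO Q w₁ w₀ h1 hp = eichO Q w₀ (-w₁) (h.ts0 w₀ hw0) hp' := by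
    apply ext_mv
    intro x
    rw [mv_eichO, mv_eichO]
    unfold Helper44.eich
    rw [h.ts0 w₀ hw0, QuadraticMap.map_neg, h.ts1 w₁ hw1, QuadraticMap.polar_neg_left]
    simp only [zero_mul, sub_zero, neg_smul, smul_neg]
    abel
  rw [e]
  exact hH w₀ hw0 (-w₁) (W₁.neg_mem hw1) _ _

/-- `b` lies in the set `T(u)` of second arguments of Eichler transformations of `M` with
centre `u`. -/
def opr_T (M : Subgroup ↥(isometryGroup F ⇑Q)) (u : ι → F) (hu : Q u = 0) (b : ι → F) : Prop :=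
  ∃ hub : QuadraticMap.polar ⇑Q u b = 0, eichO Q u b hu hub ∈ M

theorem opr_T_add (M : Subgroup ↥(isometryGroup F ⇑Q)) (u : ι → F) (hu : Q u = 0)
    (b b' : ι → F) (h : opr_T Q M u hu b) (h' : opr_T Q M u hu b') :
    opr_T Q M u hu (b + b') := by
  obtain ⟨h1, h2⟩ := h
  obtain ⟨h1', h2'⟩ := h'
  have hab : QuadraticMap.polar ⇑Q u (b + b') = 0 := by
    rw [QuadraticMap.polar_add_right, h1, h1', add_zero]
  refine ⟨hab, ?_⟩
  rw [← eichO_mul Q u b b' hu h1 h1' hab]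
  exact M.mul_mem h2 h2'

theorem opr_T_neg (M : Subgroup ↥(isometryGroup F ⇑Q)) (u : ι → F) (hu : Q u = 0)
    (b : ι → F) (h : opr_T Q M u hu b) : opr_T Q M u hu (-b) := by
  obtain ⟨h1, h2⟩ := h
  have hn : QuadraticMap.polar ⇑Q u (-b) = 0 := by
    rw [QuadraticMap.polar_neg_right, h1, neg_zero]
  refine ⟨hn, ?_⟩
  have h0 : QuadraticMap.polar ⇑Q u (-b + b) = 0 := by
    rw [QuadraticMap.polar_add_right, hn, h1, add_zero]
  have e : eichO Q u (-b) hu hn = (eichO Q u b hu h1)⁻¹ := by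
    rw [eq_inv_iff_mul_eq_one, eichO_mul Q u (-b) b hu hn h1 h0]
    apply ext_mv
    intro x
    rw [mv_eichO, mv_one, neg_add_cancel, eich_zero]
  rw [e]
  exact M.inv_mem h2

theorem opr_T_conj (M : Subgroup ↥(isometryGroup F ⇑Q)) (u : ι → F) (hu : Q u = 0)
    (b : ι → F) (g : ↥(isometryGroup F ⇑Q)) (hg : g ∈ M) (hgu : mv ⇑Q g u = u)
    (h : opr_T Q M u hu b) : opr_T Q M u hu (mv ⇑Q g b) := by
  obtain ⟨h1, h2⟩ := h
  have hu' : Q (mv ⇑Q g u) = 0 := by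
    rw [hgu]
    exact hu
  have hub' : QuadraticMap.polar ⇑Q (mv ⇑Q g u) (mv ⇑Q g b) = 0 := by
    rw [mv_polar]
    exact h1
  have hp : QuadraticMap.polar ⇑Q u (mv ⇑Q g b) = 0 := by
    have := hub'
    rw [hgu] at this
    exact this
  refine ⟨hp, ?_⟩
  have e := conj_eichO Q g u b hu h1 hu' hub'
  have e2 : eichO Q (mv ⇑Q g u) (mv ⇑Q g b) hu' hub' = eichO Q u (mv ⇑Q g b) hu hp :=
    op_eichO_congr Q hu' hub' hu hp hgu rfl
  rw [← e2, ← e]
  exact M.mul_mem (M.mul_mem hg h2) (M.inv_mem hg)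

/-- From one element of `T(u) ∩ W₀` outside a hyperplane `d^⊥`, the whole hyperplane
`W₀ ∩ d^⊥` lies in `T(u)`. -/
theorem opr_T_hyper {W₀ W₁ : Submodule F (ι → F)} (h : OprPair Q W₀ W₁)
    (M : Subgroup ↥(isometryGroup F ⇑Q)) (hH : opr_H Q W₀ W₁ M)
    (u : ι → F) (hu0 : u ∈ W₀) (hu : Q u = 0) (b₀ : ι → F) (hb₀ : b₀ ∈ W₀)
    (hT : opr_T Q M u hu b₀) (d : ι → F) (hd : d ∈ W₁)
    (hdu : QuadraticMap.polar ⇑Q u d = 0) (hdb : QuadraticMap.polar ⇑Q d b₀ ≠ 0)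
    (u' : ι → F) (hu' : u' ∈ W₀) (hdu' : QuadraticMap.polar ⇑Q u' d = 0) :
    opr_T Q M u hu u' := by
  obtain ⟨c, hc⟩ : ∃ c : F, c = (QuadraticMap.polar ⇑Q d b₀)⁻¹ := ⟨_, rfl⟩
  have hp : QuadraticMap.polar ⇑Q u' (c • d) = 0 := by
    rw [QuadraticMap.polar_smul_right, hdu', smul_zero]
  have hg := hH u' hu' (c • d) (W₁.smul_mem c hd) (h.ts0 u' hu') hp
  have hgu : mv ⇑Q (eichO Q u' (c • d) (h.ts0 u' hu') hp) u = u := by
    rw [mv_eichO]
    apply eich_fix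
    · exact ts_polar Q W₀ h.ts0 u' hu' u hu0
    · rw [QuadraticMap.polar_smul_left, QuadraticMap.polar_comm, hdu, smul_zero]
  have hgb : mv ⇑Q (eichO Q u' (c • d) (h.ts0 u' hu') hp) b₀ = b₀ + u' := by
    rw [mv_eichO]
    unfold Helper44.eich
    rw [ts_polar Q W₀ h.ts0 u' hu' b₀ hb₀, QuadraticMap.polar_smul_left, smul_eq_mul, hc,
      inv_mul_cancel₀ hdb]
    simp
  have h1 := opr_T_conj Q M u hu b₀ _ hg hgu hT
  rw [hgb] at h1
  have h2 := opr_T_add Q M u hu _ _ (opr_T_neg Q M u hu b₀ hT) h1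
  rwa [neg_add_cancel_left] at h2

/-- If `T(u)` contains a vector of `W₀` outside `F u`, then `u` is the centre of a full
Eichler root group of `M`. -/
theorem opr_center (hQ : (QuadraticMap.polarBilin Q).Nondegenerate)
    {W₀ W₁ : Submodule F (ι → F)} (h : OprPair Q W₀ W₁) (h3 : 3 ≤ Module.finrank F W₀)
    (M : Subgroup ↥(isometryGroup F ⇑Q)) (hH : opr_H Q W₀ W₁ M)
    (u : ι → F) (hu0 : u ∈ W₀) (hu : Q u = 0) (b₀ : ι → F) (hb₀ : b₀ ∈ W₀)
    (hb₀u : ∀ t : F, b₀ ≠ t • u) (hT : opr_T Q M u hu b₀) : u ∈ op_C Q M := by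
  obtain ⟨d', hd', hd'S, hd'b⟩ := opr_dual Q hQ h (Submodule.span F {u})
    (by rw [Submodule.span_singleton_le_iff_mem]; exact hu0) b₀ hb₀
    (by
      rw [Submodule.mem_span_singleton]
      rintro ⟨t, ht⟩
      exact hb₀u t ht.symm)
  have hud' : QuadraticMap.polar ⇑Q u d' = 0 := hd'S u (Submodule.mem_span_singleton_self u)
  have step1 : ∀ u' ∈ W₀, QuadraticMap.polar ⇑Q u' d' = 0 → opr_T Q M u hu u' :=
    fun u' hu' hdu' => opr_T_hyper Q h M hH u hu0 hu b₀ hb₀ hT d' hd' hud' hd'b u' hu' hdu'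
  obtain ⟨w, hw, hwS⟩ := opr_exists_notMem_pair W₀ h3 u b₀
  obtain ⟨c, hc⟩ : ∃ c : F, c = QuadraticMap.polar ⇑Q d' w / QuadraticMap.polar ⇑Q d' b₀ :=
    ⟨_, rfl⟩
  obtain ⟨b₀', hb₀'def⟩ : ∃ b₀' : ι → F, b₀' = w - c • b₀ := ⟨_, rfl⟩
  have hb₀'W : b₀' ∈ W₀ := by
    rw [hb₀'def]
    exact W₀.sub_mem hw (W₀.smul_mem _ hb₀)
  have hb₀'d : QuadraticMap.polar ⇑Q b₀' d' = 0 := by
    rw [hb₀'def, QuadraticMap.polar_sub_left, QuadraticMap.polar_smul_left,
      QuadraticMap.polar_comm ⇑Q w d', QuadraticMap.polar_comm ⇑Q b₀ d', hc, smul_eq_mul,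
      div_mul_cancel₀ _ hd'b, sub_self]
  have hb₀'S : b₀' ∉ Submodule.span F ({u, b₀} : Set (ι → F)) := by
    intro hmem
    apply hwS
    have e : w = b₀' + c • b₀ := by rw [hb₀'def]; abel
    rw [e]
    exact Submodule.add_mem _ hmem
      (Submodule.smul_mem _ _ (Submodule.subset_span (by simp)))
  have hT' : opr_T Q M u hu b₀' := step1 b₀' hb₀'W hb₀'d
  obtain ⟨d'', hd'', hd''S, hd''b⟩ := opr_dual Q hQ h (Submodule.span F ({u, b₀} : Set (ι → F)))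
    (by
      rw [Submodule.span_le]
      intro z hz
      rcases hz with rfl | rfl
      · exact hu0
      · exact hb₀) b₀' hb₀'W hb₀'S
  have hud'' : QuadraticMap.polar ⇑Q u d'' = 0 := hd''S u (Submodule.subset_span (by simp))
  have hbd'' : QuadraticMap.polar ⇑Q b₀ d'' = 0 := hd''S b₀ (Submodule.subset_span (by simp))
  have step2 : ∀ u' ∈ W₀, QuadraticMap.polar ⇑Q u' d'' = 0 → opr_T Q M u hu u' :=
    fun u' hu' hdu' =>
      opr_T_hyper Q h M hH u hu0 hu b₀' hb₀'W hT' d'' hd'' hud'' hd''b u' hu' hdu'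
  have step3 : ∀ x ∈ W₀, opr_T Q M u hu x := by
    intro x hx
    obtain ⟨e, he⟩ : ∃ e : F, e = QuadraticMap.polar ⇑Q d' x / QuadraticMap.polar ⇑Q d' b₀ :=
      ⟨_, rfl⟩
    have h1 : opr_T Q M u hu (x - e • b₀) := by
      refine step1 _ (W₀.sub_mem hx (W₀.smul_mem _ hb₀)) ?_
      rw [QuadraticMap.polar_sub_left, QuadraticMap.polar_smul_left,
        QuadraticMap.polar_comm ⇑Q x d', QuadraticMap.polar_comm ⇑Q b₀ d', he, smul_eq_mul,
        div_mul_cancel₀ _ hd'b, sub_self]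
    have h2 : opr_T Q M u hu (e • b₀) := by
      refine step2 _ (W₀.smul_mem _ hb₀) ?_
      rw [QuadraticMap.polar_smul_left, hbd'', smul_zero]
    have h3 := opr_T_add Q M u hu _ _ h1 h2
    rwa [sub_add_cancel] at h3
  refine ⟨hu, fun b hub => ?_⟩
  obtain ⟨x₀, hx0, x₁, hx1, rfl⟩ := opr_decomp Q h b
  have hux1 : QuadraticMap.polar ⇑Q u x₁ = 0 := by
    rw [QuadraticMap.polar_add_right, ts_polar Q W₀ h.ts0 u hu0 x₀ hx0, zero_add] at hub
    exact hub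
  have hT1 : opr_T Q M u hu x₁ := ⟨hux1, hH u hu0 x₁ hx1 hu hux1⟩
  obtain ⟨_, hfin⟩ := opr_T_add Q M u hu _ _ (step3 x₀ hx0) hT1
  exact hfin

/-- Extraction: an Eichler transformation `E(a, b)` of `M` whose line `⟨a, b⟩` meets `W₁`
trivially yields a centre of a full Eichler root group of `M` in `W₀`. -/
theorem opr_extract (hQ : (QuadraticMap.polarBilin Q).Nondegenerate)
    {W₀ W₁ : Submodule F (ι → F)} (h : OprPair Q W₀ W₁) (h5 : 5 ≤ Module.finrank F W₀)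
    (M : Subgroup ↥(isometryGroup F ⇑Q)) (hH : opr_H Q W₀ W₁ M)
    (a b : ι → F) (ha : Q a = 0) (hab : QuadraticMap.polar ⇑Q a b = 0)
    (hE : eichO Q a b ha hab ∈ M)
    (hLI : ∀ α β : F, α • a + β • b ∈ W₁ → α = 0 ∧ β = 0) :
    ∃ u ∈ W₀, u ≠ 0 ∧ u ∈ op_C Q M := by
  obtain ⟨a₀, ha0, a₁, ha1, ea⟩ := opr_decomp Q h a
  obtain ⟨b₀, hb0, b₁, hb1, eb⟩ := opr_decomp Q h b
  have hLI0 : ∀ α β : F, α • a₀ + β • b₀ = 0 → α = 0 ∧ β = 0 := by
    intro α β e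
    apply hLI
    have e2 : α • a + β • b = (α • a₀ + β • b₀) + (α • a₁ + β • b₁) := by
      rw [ea, eb, smul_add, smul_add]
      abel
    rw [e2, e, zero_add]
    exact W₁.add_mem (W₁.smul_mem _ ha1) (W₁.smul_mem _ hb1)
  obtain ⟨u, huK, huS⟩ := opr_exists_notMem_pair (W₀ ⊓ perpSub Q a ⊓ perpSub Q b)
    (by
      have h1 := finrank_inf_perpSub_ge Q W₀ a
      have h2 := finrank_inf_perpSub_ge Q (W₀ ⊓ perpSub Q a) b
      omega) a₀ b₀
  obtain ⟨huK1, huK2⟩ := Submodule.mem_inf.mp huK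
  obtain ⟨hu0, huK3⟩ := Submodule.mem_inf.mp huK1
  have hau : QuadraticMap.polar ⇑Q a u = 0 := (mem_perpSub Q a u).mp huK3
  have hbu : QuadraticMap.polar ⇑Q b u = 0 := (mem_perpSub Q b u).mp huK2
  have hu : Q u = 0 := h.ts0 u hu0
  have hune : u ≠ 0 := fun e => huS (by rw [e]; exact Submodule.zero_mem _)
  have hb0S : b₀ ∉ Submodule.span F ({u, a₀} : Set (ι → F)) := by
    intro hmem
    obtain ⟨l, m, e⟩ := Submodule.mem_span_pair.mp hmem
    by_cases hl : l = 0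
    · have h1 := hLI0 m (-1) (by rw [← e, hl]; simp)
      exact absurd h1.2 (neg_ne_zero.mpr one_ne_zero)
    · apply huS
      rw [Submodule.mem_span_pair]
      refine ⟨-(l⁻¹ * m), l⁻¹, ?_⟩
      rw [← e, smul_add, smul_smul, smul_smul, inv_mul_cancel₀ hl, one_smul, neg_smul]
      abel
  obtain ⟨d, hd, hdS, hdb⟩ := opr_dual Q hQ h (Submodule.span F ({u, a₀} : Set (ι → F)))
    (by
      rw [Submodule.span_le]
      intro z hz
      rcases hz with rfl | rfl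
      · exact hu0
      · exact ha0) b₀ hb0 hb0S
  have hud : QuadraticMap.polar ⇑Q u d = 0 := hdS u (Submodule.subset_span (by simp))
  have had0 : QuadraticMap.polar ⇑Q a₀ d = 0 := hdS a₀ (Submodule.subset_span (by simp))
  have had : QuadraticMap.polar ⇑Q a d = 0 := by
    rw [ea, QuadraticMap.polar_add_left, had0, ts_polar Q W₁ h.ts1 a₁ ha1 d hd, add_zero]
  have hbd : QuadraticMap.polar ⇑Q b d ≠ 0 := by
    rw [eb, QuadraticMap.polar_add_left, ts_polar Q W₁ h.ts1 b₁ hb1 d hd, add_zero,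
      QuadraticMap.polar_comm]
    exact hdb
  have hTd : opr_T Q M u hu d := ⟨hud, hH u hu0 d hd hu hud⟩
  have hgu : mv ⇑Q (eichO Q a b ha hab) u = u := by
    rw [mv_eichO]
    exact eich_fix Q a b u hau hbu
  have hgd : mv ⇑Q (eichO Q a b ha hab) d = d + QuadraticMap.polar ⇑Q b d • a := by
    rw [mv_eichO]
    unfold Helper44.eich
    rw [had]
    simp
  have hT1 := opr_T_conj Q M u hu d _ hE hgu hTd
  rw [hgd] at hT1
  obtain ⟨c, hc⟩ : ∃ c : F, c = QuadraticMap.polar ⇑Q b d := ⟨_, rfl⟩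
  rw [← hc] at hT1 hbd
  have hT2 : opr_T Q M u hu (c • a) := by
    have h1 := opr_T_add Q M u hu _ _ (opr_T_neg Q M u hu d hTd) hT1
    rwa [neg_add_cancel_left] at h1
  have hua1 : QuadraticMap.polar ⇑Q u a₁ = 0 := by
    have h1 : QuadraticMap.polar ⇑Q u a = 0 := by
      rw [QuadraticMap.polar_comm]
      exact hau
    rw [ea, QuadraticMap.polar_add_right, ts_polar Q W₀ h.ts0 u hu0 a₀ ha0, zero_add] at h1
    exact h1
  have hua1' : QuadraticMap.polar ⇑Q u (c • a₁) = 0 := by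
    rw [QuadraticMap.polar_smul_right, hua1, smul_zero]
  have hT3 : opr_T Q M u hu (c • a₁) := ⟨hua1', hH u hu0 (c • a₁) (W₁.smul_mem _ ha1) hu hua1'⟩
  have hT4 : opr_T Q M u hu (c • a₀) := by
    have h1 := opr_T_add Q M u hu _ _ hT2 (opr_T_neg Q M u hu _ hT3)
    have e : c • a + -(c • a₁) = c • a₀ := by
      rw [ea, smul_add]
      abel
    rwa [e] at h1
  refine ⟨u, hu0, hune, opr_center Q hQ h (by omega) M hH u hu0 hu (c • a₀)
    (W₀.smul_mem _ ha0) ?_ hT4⟩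
  intro t e
  by_cases ht : t = 0
  · rw [ht, zero_smul] at e
    have ha00 : a₀ = 0 := by
      rcases smul_eq_zero.mp e with h1 | h1
      · exact absurd h1 hbd
      · exact h1
    exact one_ne_zero (hLI0 1 0 (by rw [ha00]; simp)).1
  · apply huS
    rw [Submodule.mem_span_pair]
    refine ⟨t⁻¹ * c, 0, ?_⟩
    rw [zero_smul, add_zero, ← smul_smul, e, smul_smul, inv_mul_cancel₀ ht, one_smul]

/-- A dimension bound: if every vector of `B` orthogonal to `a₁ ∉ W₁` is congruent to a multiple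
of `a₁` modulo `W₁`, then `B ∩ W₁` has codimension at most two in `B`. -/
theorem opr_bad_dim (W₁ B : Submodule F (ι → F)) (a₁ : ι → F) (ha₁ : a₁ ∉ W₁)
    (hbad : ∀ b ∈ B, QuadraticMap.polar ⇑Q a₁ b = 0 →
      ∃ α β : F, α • a₁ + β • b ∈ W₁ ∧ ¬(α = 0 ∧ β = 0)) :
    Module.finrank F B ≤ Module.finrank F ↥(B ⊓ W₁) + 2 := by
  have hle : B ⊓ perpSub Q a₁ ≤ Submodule.span F {a₁} ⊔ W₁ := by
    intro b hb
    obtain ⟨hbB, hbp⟩ := Submodule.mem_inf.mp hb
    obtain ⟨α, β, hmem, hne⟩ := hbad b hbB ((mem_perpSub Q a₁ b).mp hbp)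
    have hβ : β ≠ 0 := by
      intro hβ
      rw [hβ, zero_smul, add_zero] at hmem
      by_cases hα : α = 0
      · exact hne ⟨hα, hβ⟩
      · apply ha₁
        have h1 := W₁.smul_mem α⁻¹ hmem
        rwa [smul_smul, inv_mul_cancel₀ hα, one_smul] at h1
    have e : b = (-(β⁻¹ * α)) • a₁ + β⁻¹ • (α • a₁ + β • b) := by
      rw [smul_add, smul_smul, smul_smul, inv_mul_cancel₀ hβ, one_smul, neg_smul]
      abel
    rw [e]
    exact Submodule.add_mem _
      (Submodule.mem_sup_left (Submodule.smul_mem _ _ (Submodule.mem_span_singleton_self a₁)))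
      (Submodule.mem_sup_right (W₁.smul_mem _ hmem))
  have h1 := finrank_inf_perpSub_ge Q B a₁
  have h2 := Submodule.finrank_sup_add_finrank_inf_eq (B ⊓ perpSub Q a₁) W₁
  have h3 : Module.finrank F ↥((B ⊓ perpSub Q a₁) ⊔ W₁) ≤
      Module.finrank F ↥(Submodule.span F {a₁} ⊔ W₁) :=
    Submodule.finrank_mono (sup_le hle le_sup_right)
  have h4 := Submodule.finrank_add_le_finrank_add_finrank (Submodule.span F {a₁}) W₁
  have h5 : Module.finrank F ↥(Submodule.span F {a₁}) ≤ 1 := by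
    classical
    have := finrank_span_finset_le_card (R := F) ({a₁} : Finset (ι → F))
    rw [Finset.coe_singleton, Finset.card_singleton] at this
    exact this
  have h6 : Module.finrank F ↥((B ⊓ perpSub Q a₁) ⊓ W₁) ≤ Module.finrank F ↥(B ⊓ W₁) :=
    Submodule.finrank_mono (inf_le_inf_right _ inf_le_left)
  omega

/-- Two decompositions into totally singular subspaces: unless `A` or `B` is `W₁`, there is an
orthogonal pair `a ∈ A`, `b ∈ B` spanning a line which meets `W₁` trivially. -/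
theorem opr_good_pair (hQ : (QuadraticMap.polarBilin Q).Nondegenerate)
    {W₀ W₁ A B : Submodule F (ι → F)} (h : OprPair Q W₀ W₁) (hAB : OprPair Q A B)
    (h5 : 5 ≤ Module.finrank F W₀) :
    A ≤ W₁ ∨ B ≤ W₁ ∨ ∃ a ∈ A, ∃ b ∈ B, QuadraticMap.polar ⇑Q a b = 0 ∧
      ∀ α β : F, α • a + β • b ∈ W₁ → α = 0 ∧ β = 0 := by
  by_cases hA : A ≤ W₁
  · exact Or.inl hA
  by_cases hB : B ≤ W₁
  · exact Or.inr (Or.inl hB)
  right
  right
  by_contra hcon
  have hbad : ∀ a ∈ A, ∀ b ∈ B, QuadraticMap.polar ⇑Q a b = 0 →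
      ∃ α β : F, α • a + β • b ∈ W₁ ∧ ¬(α = 0 ∧ β = 0) := by
    intro a ha b hb hab
    by_contra h2
    apply hcon
    refine ⟨a, ha, b, hb, hab, fun α β hαβ => ?_⟩
    by_contra h3
    exact h2 ⟨α, β, hαβ, h3⟩
  obtain ⟨a₁, ha1, ha1W⟩ := SetLike.not_le_iff_exists.mp hA
  obtain ⟨b₁, hb1, hb1W⟩ := SetLike.not_le_iff_exists.mp hB
  have hdB := opr_bad_dim Q W₁ B a₁ ha1W (fun b hb hab => hbad a₁ ha1 b hb hab)
  have hdA := opr_bad_dim Q W₁ A b₁ hb1W (fun a ha hab => by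
    obtain ⟨α, β, hmem, hne⟩ := hbad a ha b₁ hb1 (by rw [QuadraticMap.polar_comm]; exact hab)
    refine ⟨β, α, ?_, fun h2 => hne ⟨h2.2, h2.1⟩⟩
    rw [add_comm]
    exact hmem)
  have hd := opr_finrank Q hQ h
  have hd' := opr_finrank Q hQ hAB
  have hinf : (A ⊓ W₁) ⊓ (B ⊓ W₁) = ⊥ := by
    rw [eq_bot_iff]
    intro x hx
    obtain ⟨hxA, hxB⟩ := Submodule.mem_inf.mp hx
    rw [Submodule.mem_bot]
    exact opr_inf Q hQ hAB x (Submodule.mem_inf.mp hxA).1 (Submodule.mem_inf.mp hxB).1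
  have h1 := Submodule.finrank_sup_add_finrank_inf_eq (A ⊓ W₁) (B ⊓ W₁)
  rw [hinf, finrank_bot, add_zero] at h1
  have h2 : Module.finrank F ↥((A ⊓ W₁) ⊔ (B ⊓ W₁)) ≤ Module.finrank F W₁ :=
    Submodule.finrank_mono (sup_le inf_le_right inf_le_right)
  omega

/-- A second decomposition, different from the first, whose Eichler transformations also lie in
`M`, yields a centre of a full Eichler root group of `M` in `W₀` or `W₁`. -/
theorem opr_exists_center (hQ : (QuadraticMap.polarBilin Q).Nondegenerate)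
    {W₀ W₁ A B : Submodule F (ι → F)} (h : OprPair Q W₀ W₁) (hAB : OprPair Q A B)
    (h5 : 5 ≤ Module.finrank F W₀) (M : Subgroup ↥(isometryGroup F ⇑Q))
    (hH : opr_H Q W₀ W₁ M) (hH' : opr_H Q A B M) (hne1 : ¬(A = W₀ ∧ B = W₁))
    (hne2 : ¬(A = W₁ ∧ B = W₀)) :
    ∃ u, u ≠ 0 ∧ (u ∈ W₀ ∨ u ∈ W₁) ∧ u ∈ op_C Q M := by
  have hd := opr_finrank Q hQ h
  have hd' := opr_finrank Q hQ hAB
  have hbot : ∀ X : Submodule F (ι → F), X ≤ W₀ → X ≤ W₁ → Module.finrank F X = 0 := by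
    intro X h0 h1
    have hX : X = ⊥ := by
      rw [eq_bot_iff]
      intro x hx
      rw [Submodule.mem_bot]
      exact opr_inf Q hQ h x (h0 hx) (h1 hx)
    rw [hX, finrank_bot]
  have c1 : (A ≤ W₁ ∨ B ≤ W₁) ∨ ∃ u, u ≠ 0 ∧ (u ∈ W₀ ∨ u ∈ W₁) ∧ u ∈ op_C Q M := by
    rcases opr_good_pair Q hQ h hAB h5 with hA1 | hB1 | ⟨a, ha, b, hb, hab, hLI⟩
    · exact Or.inl (Or.inl hA1)
    · exact Or.inl (Or.inr hB1)
    · obtain ⟨u, hu0, hune, huC⟩ := opr_extract Q hQ h h5 M hH a b (hAB.ts0 a ha) hab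
        (hH' a ha b hb _ hab) hLI
      exact Or.inr ⟨u, hune, Or.inl hu0, huC⟩
  have c0 : (A ≤ W₀ ∨ B ≤ W₀) ∨ ∃ u, u ≠ 0 ∧ (u ∈ W₀ ∨ u ∈ W₁) ∧ u ∈ op_C Q M := by
    rcases opr_good_pair Q hQ (opr_symm Q h) hAB (by omega) with
      hA1 | hB1 | ⟨a, ha, b, hb, hab, hLI⟩
    · exact Or.inl (Or.inl hA1)
    · exact Or.inl (Or.inr hB1)
    · obtain ⟨u, hu0, hune, huC⟩ := opr_extract Q hQ (opr_symm Q h) (by omega) M
        (opr_H_symm Q h M hH) a b (hAB.ts0 a ha) hab (hH' a ha b hb _ hab) hLI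
      exact Or.inr ⟨u, hune, Or.inr hu0, huC⟩
  rcases c1 with c1 | c1
  swap
  · exact c1
  rcases c0 with c0 | c0
  swap
  · exact c0
  exfalso
  rcases c1 with hA1 | hB1
  · rcases c0 with hA0 | hB0
    · have := hbot A hA0 hA1
      omega
    · exact hne2 ⟨Submodule.eq_of_le_of_finrank_eq hA1 (by omega),
        Submodule.eq_of_le_of_finrank_eq hB0 (by omega)⟩
  · rcases c0 with hA0 | hB0
    · exact hne1 ⟨Submodule.eq_of_le_of_finrank_eq hA0 (by omega),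
        Submodule.eq_of_le_of_finrank_eq hB1 (by omega)⟩
    · have := hbot B hB0 hB1
      omega

/-- **Core of the maximality of the stabiliser of a pair of complementary totally singular
subspaces**: a subgroup containing the Eichler transformations of the stabiliser, an element
interchanging the two subspaces and an element not preserving the pair contains `Ω`. -/
theorem opr_omega_le (hQ : (QuadraticMap.polarBilin Q).Nondegenerate)
    (hn : 10 ≤ Fintype.card ι) {W₀ W₁ : Submodule F (ι → F)} (h : OprPair Q W₀ W₁)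
    (M : Subgroup ↥(isometryGroup F ⇑Q)) (hH : opr_H Q W₀ W₁ M)
    (s : ↥(isometryGroup F ⇑Q)) (hsM : s ∈ M) (hs0 : ∀ w ∈ W₀, mv ⇑Q s w ∈ W₁)
    (hs1 : ∀ w ∈ W₁, mv ⇑Q s w ∈ W₀)
    (y : ↥(isometryGroup F ⇑Q)) (hyM : y ∈ M)
    (hy1 : ¬(imgSub Q y W₀ = W₀ ∧ imgSub Q y W₁ = W₁))
    (hy2 : ¬(imgSub Q y W₀ = W₁ ∧ imgSub Q y W₁ = W₀)) :
    Omega F ⇑Q ≤ M := by
  have hd := opr_finrank Q hQ h
  have h5 : 5 ≤ Module.finrank F W₀ := by omega
  have hmem : ∀ (W : Submodule F (ι → F)) (x : ι → F), x ∈ W → mv ⇑Q y x ∈ imgSub Q y W := by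
    intro W x hx
    rw [mem_imgSub, mv_inv_cancel']
    exact hx
  have hAB : OprPair Q (imgSub Q y W₀) (imgSub Q y W₁) := by
    refine ⟨ts_imgSub Q y W₀ h.ts0, ts_imgSub Q y W₁ h.ts1, ?_⟩
    rw [eq_top_iff]
    intro x _
    obtain ⟨x₀, hx0, x₁, hx1, e⟩ := opr_decomp Q h (mv ⇑Q y⁻¹ x)
    have e2 : x = mv ⇑Q y x₀ + mv ⇑Q y x₁ := by
      rw [← mv_add, ← e, mv_inv_cancel]
    rw [e2]
    exact Submodule.add_mem _ (Submodule.mem_sup_left (hmem W₀ x₀ hx0))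
      (Submodule.mem_sup_right (hmem W₁ x₁ hx1))
  have hH' : opr_H Q (imgSub Q y W₀) (imgSub Q y W₁) M := by
    intro a ha b hb h0 hab
    rw [mem_imgSub] at ha hb
    have h0' : Q (mv ⇑Q y⁻¹ a) = 0 := h.ts0 _ ha
    have hab' : QuadraticMap.polar ⇑Q (mv ⇑Q y⁻¹ a) (mv ⇑Q y⁻¹ b) = 0 := by
      rw [mv_polar]
      exact hab
    have hu' : Q (mv ⇑Q y (mv ⇑Q y⁻¹ a)) = 0 := by
      rw [mv_inv_cancel]
      exact h0
    have hub' : QuadraticMap.polar ⇑Q (mv ⇑Q y (mv ⇑Q y⁻¹ a)) (mv ⇑Q y (mv ⇑Q y⁻¹ b)) = 0 := by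
      rw [mv_inv_cancel, mv_inv_cancel]
      exact hab
    have e := conj_eichO Q y (mv ⇑Q y⁻¹ a) (mv ⇑Q y⁻¹ b) h0' hab' hu' hub'
    have e2 : eichO Q (mv ⇑Q y (mv ⇑Q y⁻¹ a)) (mv ⇑Q y (mv ⇑Q y⁻¹ b)) hu' hub' =
        eichO Q a b h0 hab :=
      op_eichO_congr Q hu' hub' h0 hab (mv_inv_cancel Q y a) (mv_inv_cancel Q y b)
    rw [← e2, ← e]
    exact M.mul_mem (M.mul_mem hyM (hH _ ha _ hb h0' hab')) (M.inv_mem hyM)
  obtain ⟨u, hune, hu01, huC⟩ := opr_exists_center Q hQ h hAB h5 M hH hH' hy1 hy2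
  have hsne : ∀ v : ι → F, v ≠ 0 → mv ⇑Q s v ≠ 0 := by
    intro v hv e
    apply hv
    have h1 := mv_inv_cancel' Q s v
    rw [e] at h1
    rw [← h1]
    have h2 := mv_smul Q s⁻¹ (0 : F) (0 : ι → F)
    rw [zero_smul, zero_smul] at h2
    exact h2
  obtain ⟨u, hune, hu0, huC⟩ : ∃ u, u ≠ 0 ∧ u ∈ W₀ ∧ u ∈ op_C Q M := by
    rcases hu01 with h0 | h1
    · exact ⟨u, hune, h0, huC⟩
    · exact ⟨mv ⇑Q s u, hsne u hune, hs1 u h1, op_C_mv Q M s hsM u huC⟩
  obtain ⟨x, hxdef⟩ : ∃ x, x = mv ⇑Q s u := ⟨_, rfl⟩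
  have hx1 : x ∈ W₁ := by
    rw [hxdef]
    exact hs0 u hu0
  have hxC : x ∈ op_C Q M := by
    rw [hxdef]
    exact op_C_mv Q M s hsM u huC
  have hxne : x ≠ 0 := by
    rw [hxdef]
    exact hsne u hune
  by_cases hux : QuadraticMap.polar ⇑Q u x = 0
  swap
  · exact op_omega_le Q hQ (by omega) M u x huC hxC hux
  obtain ⟨w₁, hw1, _, hw1u⟩ := opr_dual Q hQ h ⊥ bot_le u hu0
    (by rw [Submodule.mem_bot]; exact hune)
  have hxS : x ∉ Submodule.span F {w₁} := by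
    rw [Submodule.mem_span_singleton]
    rintro ⟨t, ht⟩
    rw [← ht, QuadraticMap.polar_smul_right, smul_eq_mul, QuadraticMap.polar_comm] at hux
    rcases mul_eq_zero.mp hux with h1 | h1
    · apply hxne
      rw [← ht, h1, zero_smul]
    · exact hw1u h1
  obtain ⟨w₀, hw0, hw0S, hw0x⟩ := opr_dual Q hQ (opr_symm Q h) (Submodule.span F {w₁})
    (by rw [Submodule.span_singleton_le_iff_mem]; exact hw1) x hx1 hxS
  have hw10 : QuadraticMap.polar ⇑Q w₁ w₀ = 0 := hw0S w₁ (Submodule.mem_span_singleton_self w₁)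
  have hg := opr_H_symm Q h M hH w₁ hw1 w₀ hw0 (h.ts1 w₁ hw1) hw10
  have hx' := op_C_mv Q M _ hg x hxC
  rw [mv_eichO] at hx'
  refine op_omega_le Q hQ (by omega) M u _ huC hx' ?_
  unfold Helper44.eich
  rw [QuadraticMap.polar_sub_right, QuadraticMap.polar_add_right, QuadraticMap.polar_smul_right,
    QuadraticMap.polar_smul_right, hux, ts_polar Q W₁ h.ts1 w₁ hw1 x hx1,
    ts_polar Q W₀ h.ts0 u hu0 w₀ hw0]
  simp only [mul_zero, sub_zero, smul_eq_mul, zero_add]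
  exact mul_ne_zero hw0x (by rw [QuadraticMap.polar_comm]; exact hw1u)

end OPair

end Cfsg.Agent.Helper98
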