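import Mathlib
import Cfsg.Prelude.Def_GeometricClasses
import Cfsg.Agent.Helper98.OPair

/-!
Quadratic-extension data on a quadratic space: an `F`-linear map `ω` with `ω² = τω − ν`,
irreducible norm form `a² + τab + νb²`, `B(ωx, y) = τB(x, y) − B(x, ωy)`, `Q(ωx) = νQ(x)` and
`B(x, ωx) = τQ(x)` (the structure of a Hermitian space over `F(ω)`), and the linear algebra
needed for the maximality of the unitary `C₃` subgroups of `Ω(Q)`.
-/

set_option autoImplicit false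
set_option linter.unusedSectionVars false
set_option linter.unusedVariables false
set_option linter.unusedSimpArgs false

universe u

namespace Cfsg.Agent.Helper98

open Matrix Cfsg Cfsg.Geo Cfsg.Agent.Helper45

section OC1

variable {ι : Type} [Fintype ι] [DecidableEq ι] {F : Type u} [Field F] [Fintype F]
  (Q : QuadraticForm F (ι → F))

/-- Quadratic-extension (Hermitian) data for `Q`. -/
structure OcData (ω : (ι → F) →ₗ[F] (ι → F)) (τ ν : F) : Prop where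
  sq : ∀ x, ω (ω x) = τ • ω x - ν • x
  irr : ∀ a b : F, a * a + τ * a * b + ν * b * b = 0 → a = 0 ∧ b = 0
  adj : ∀ x y, QuadraticMap.polar ⇑Q (ω x) y = τ * QuadraticMap.polar ⇑Q x y - QuadraticMap.polar ⇑Q x (ω y)
  qω : ∀ x, Q (ω x) = ν * Q x
  bω : ∀ x, QuadraticMap.polar ⇑Q x (ω x) = τ * Q x

variable {ω : (ι → F) →ₗ[F] (ι → F)} {τ ν : F}

theorem oc_adj' (hd : OcData Q ω τ ν) (x y : ι → F) :
    QuadraticMap.polar ⇑Q x (ω y) = τ * QuadraticMap.polar ⇑Q x y - QuadraticMap.polar ⇑Q (ω x) y := by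
  rw [hd.adj]
  ring

theorem oc_bww (hd : OcData Q ω τ ν) (x y : ι → F) :
    QuadraticMap.polar ⇑Q (ω x) (ω y) = ν * QuadraticMap.polar ⇑Q x y := by
  rw [hd.adj, hd.sq, QuadraticMap.polar_sub_right, QuadraticMap.polar_smul_right,
    QuadraticMap.polar_smul_right]
  simp only [smul_eq_mul]
  ring

theorem oc_nu_ne (hd : OcData Q ω τ ν) : ν ≠ 0 := by
  intro h
  have := hd.irr 0 1 (by rw [h]; ring)
  exact one_ne_zero this.2

theorem oc_N_ne (hd : OcData Q ω τ ν) (a b : F) (h : ¬(a = 0 ∧ b = 0)) :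
    a * a + τ * a * b + ν * b * b ≠ 0 := fun e => h (hd.irr a b e)

/-- The `K`-line lemma: an `ω`-invariant subspace containing a non-zero `K`-multiple of `z`
contains `z`. -/
theorem oc_kline (hd : OcData Q ω τ ν) (S : Submodule F (ι → F))
    (hS : ∀ x ∈ S, ω x ∈ S) (γ ε : F) (z : ι → F) (h : γ • z + ε • ω z ∈ S)
    (hne : ¬(γ = 0 ∧ ε = 0)) : z ∈ S := by
  have h2 := hS _ h
  have key : (γ + ε * τ) • (γ • z + ε • ω z) - ε • ω (γ • z + ε • ω z) =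
      (γ * γ + τ * γ * ε + ν * ε * ε) • z := by
    rw [map_add, map_smul, map_smul, hd.sq]
    module
  have h3 : (γ * γ + τ * γ * ε + ν * ε * ε) • z ∈ S := by
    rw [← key]
    exact S.sub_mem (S.smul_mem _ h) (S.smul_mem _ h2)
  have h4 := S.smul_mem (γ * γ + τ * γ * ε + ν * ε * ε)⁻¹ h3
  rwa [smul_smul, inv_mul_cancel₀ (oc_N_ne Q hd γ ε hne), one_smul] at h4

/-- The `K`-line through `u`. -/
def ocK (ω : (ι → F) →ₗ[F] (ι → F)) (u : ι → F) : Submodule F (ι → F) :=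
  Submodule.span F {u, ω u}

theorem oc_mem_K (ω : (ι → F) →ₗ[F] (ι → F)) (u x : ι → F) :
    x ∈ ocK ω u ↔ ∃ a b : F, a • u + b • ω u = x := by
  unfold ocK
  exact Submodule.mem_span_pair

theorem oc_self_mem_K (ω : (ι → F) →ₗ[F] (ι → F)) (u : ι → F) : u ∈ ocK ω u :=
  (oc_mem_K ω u u).mpr ⟨1, 0, by module⟩

theorem oc_omega_mem_K (ω : (ι → F) →ₗ[F] (ι → F)) (u : ι → F) : ω u ∈ ocK ω u :=
  (oc_mem_K ω u (ω u)).mpr ⟨0, 1, by module⟩

theorem oc_K_inv (hd : OcData Q ω τ ν) (u x : ι → F) (hx : x ∈ ocK ω u) : ω x ∈ ocK ω u := by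
  obtain ⟨a, b, rfl⟩ := (oc_mem_K ω u x).mp hx
  rw [oc_mem_K]
  refine ⟨-(b * ν), a + b * τ, ?_⟩
  rw [map_add, map_smul, map_smul, hd.sq]
  module

theorem oc_indep (hd : OcData Q ω τ ν) (u : ι → F) (hu0 : u ≠ 0) (a b : F)
    (h : a • u + b • ω u = 0) : a = 0 ∧ b = 0 := by
  by_contra hne
  apply hu0
  have := oc_kline Q hd ⊥ (fun x hx => by
    rw [Submodule.mem_bot] at hx ⊢
    rw [hx, map_zero]) a b u (by rw [h]; exact Submodule.zero_mem _) hne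
  exact (Submodule.mem_bot F).mp this

theorem oc_finrank_K_le (ω : (ι → F) →ₗ[F] (ι → F)) (u : ι → F) :
    Module.finrank F ↥(ocK ω u) ≤ 2 := by
  classical
  unfold ocK
  have := finrank_span_finset_le_card (R := F) ({u, ω u} : Finset (ι → F))
  rw [Finset.coe_pair] at this
  exact this.trans Finset.card_le_two

theorem oc_Q_comb (hd : OcData Q ω τ ν) (x : ι → F) (a b : F) :
    Q (a • x + b • ω x) = (a * a + τ * a * b + ν * b * b) * Q x := by
  rw [Helper13.Q_add', QuadraticMap.map_smul, QuadraticMap.map_smul, hd.qω,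
    QuadraticMap.polar_smul_left, QuadraticMap.polar_smul_right, hd.bω]
  simp only [smul_eq_mul]
  ring

theorem oc_K_sing (hd : OcData Q ω τ ν) (u : ι → F) (hu : Q u = 0) (x : ι → F)
    (hx : x ∈ ocK ω u) : Q x = 0 := by
  obtain ⟨a, b, rfl⟩ := (oc_mem_K ω u x).mp hx
  rw [oc_Q_comb Q hd, hu, mul_zero]

/-- `W_u = (Ku)^⊥`. -/
def ocW (ω : (ι → F) →ₗ[F] (ι → F)) (u : ι → F) : Submodule F (ι → F) :=
  perpSub Q u ⊓ perpSub Q (ω u)

theorem oc_mem_W (ω : (ι → F) →ₗ[F] (ι → F)) (u x : ι → F) :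
    x ∈ ocW Q ω u ↔ QuadraticMap.polar ⇑Q u x = 0 ∧ QuadraticMap.polar ⇑Q (ω u) x = 0 := by
  unfold ocW
  rw [Submodule.mem_inf, mem_perpSub, mem_perpSub]

theorem oc_finrank_W_ge (ω : (ι → F) →ₗ[F] (ι → F)) (u : ι → F) :
    Fintype.card ι ≤ Module.finrank F ↥(ocW Q ω u) + 2 := by
  unfold ocW
  have h1 := finrank_inf_perpSub_ge Q ⊤ u
  have h2 := finrank_inf_perpSub_ge Q (⊤ ⊓ perpSub Q u) (ω u)
  rw [top_inf_eq] at h1 h2
  have h3 : Module.finrank F ↥(⊤ : Submodule F (ι → F)) = Fintype.card ι := by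
    rw [finrank_top, Module.finrank_fintype_fun_eq_card]
  omega

theorem oc_W_omega (hd : OcData Q ω τ ν) (u x : ι → F) (h1 : QuadraticMap.polar ⇑Q u x = 0)
    (h2 : QuadraticMap.polar ⇑Q (ω u) x = 0) : QuadraticMap.polar ⇑Q u (ω x) = 0 ∧ QuadraticMap.polar ⇑Q (ω u) (ω x) = 0 := by
  constructor
  · rw [oc_adj' Q hd, h1, h2]
    ring
  · rw [oc_bww Q hd, h1, mul_zero]

/-- `Ku ⊆ W_u` for singular `u`. -/
theorem oc_K_in_W (hd : OcData Q ω τ ν) (u : ι → F) (hu : Q u = 0) (x : ι → F)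
    (hx : x ∈ ocK ω u) : QuadraticMap.polar ⇑Q u x = 0 ∧ QuadraticMap.polar ⇑Q (ω u) x = 0 := by
  obtain ⟨a, b, rfl⟩ := (oc_mem_K ω u x).mp hx
  have h1 : QuadraticMap.polar ⇑Q u u = 0 := polar_self_zero Q u hu
  have h2 : QuadraticMap.polar ⇑Q u (ω u) = 0 := by rw [hd.bω, hu, mul_zero]
  have h3 : QuadraticMap.polar ⇑Q (ω u) u = 0 := by rw [QuadraticMap.polar_comm]; exact h2
  have h4 : QuadraticMap.polar ⇑Q (ω u) (ω u) = 0 := by rw [oc_bww Q hd, h1, mul_zero]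
  constructor
  · rw [QuadraticMap.polar_add_right, QuadraticMap.polar_smul_right,
      QuadraticMap.polar_smul_right, h1, h2, smul_zero, smul_zero, add_zero]
  · rw [QuadraticMap.polar_add_right, QuadraticMap.polar_smul_right,
      QuadraticMap.polar_smul_right, h3, h4, smul_zero, smul_zero, add_zero]

/-- `Ku ⊥ W_u`. -/
theorem oc_K_perp (u : ι → F) (p : ι → F) (hp : p ∈ ocK ω u) (y : ι → F)
    (h1 : QuadraticMap.polar ⇑Q u y = 0) (h2 : QuadraticMap.polar ⇑Q (ω u) y = 0) : QuadraticMap.polar ⇑Q p y = 0 := by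
  obtain ⟨a, b, rfl⟩ := (oc_mem_K ω u p).mp hp
  rw [QuadraticMap.polar_add_left, QuadraticMap.polar_smul_left, QuadraticMap.polar_smul_left,
    h1, h2, smul_zero, smul_zero, add_zero]

/-- A singular vector in `R` outside `S`, when `dim R ≥ dim S + 3`. -/
theorem oc_exists_sing_notMem (R S : Submodule F (ι → F))
    (h : Module.finrank F S + 3 ≤ Module.finrank F R) : ∃ z ∈ R, z ∉ S ∧ Q z = 0 := by
  obtain ⟨C', hC'⟩ := Submodule.exists_isCompl (R ⊓ S)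
  have h1 : R = (R ⊓ S) ⊔ (C' ⊓ R) := by
    have := sup_inf_assoc_of_le C' (inf_le_left : R ⊓ S ≤ R)
    rw [hC'.sup_eq_top, top_inf_eq] at this
    exact this
  have h2 := Submodule.finrank_sup_add_finrank_inf_eq (R ⊓ S) (C' ⊓ R)
  rw [← h1] at h2
  have h3 : Module.finrank F ↥(R ⊓ S) ≤ Module.finrank F S := Submodule.finrank_mono inf_le_right
  obtain ⟨s, hs, hs0, hsQ⟩ := exists_sing_in Q (C' ⊓ R) (by omega)
  refine ⟨s, hs.2, fun hsS => hs0 ?_, hsQ⟩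
  have : s ∈ (R ⊓ S) ⊓ C' := ⟨⟨hs.2, hsS⟩, hs.1⟩
  rw [hC'.inf_eq_bot] at this
  exact (Submodule.mem_bot F).mp this

/-- A non-singular vector in a subspace of more than half the dimension. -/
theorem oc_exists_nonsing (hQ : (QuadraticMap.polarBilin Q).Nondegenerate)
    (S : Submodule F (ι → F)) (h : Fintype.card ι < 2 * Module.finrank F S) :
    ∃ a ∈ S, Q a ≠ 0 := by
  by_contra hcon
  push Not at hcon
  have := finrank_ts_le Q hQ S hcon
  omega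

/-- A non-singular vector orthogonal to six given vectors. -/
theorem oc_exists_nonsing6 (hQ : (QuadraticMap.polarBilin Q).Nondegenerate)
    (hn : 13 ≤ Fintype.card ι) (v₁ v₂ v₃ v₄ v₅ v₆ : ι → F) :
    ∃ z, Q z ≠ 0 ∧ QuadraticMap.polar ⇑Q v₁ z = 0 ∧ QuadraticMap.polar ⇑Q v₂ z = 0 ∧ QuadraticMap.polar ⇑Q v₃ z = 0 ∧ QuadraticMap.polar ⇑Q v₄ z = 0 ∧ QuadraticMap.polar ⇑Q v₅ z = 0 ∧
      QuadraticMap.polar ⇑Q v₆ z = 0 := by
  have h1 := finrank_inf_perpSub_ge Q ⊤ v₁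
  have h2 := finrank_inf_perpSub_ge Q (⊤ ⊓ perpSub Q v₁) v₂
  have h3 := finrank_inf_perpSub_ge Q (⊤ ⊓ perpSub Q v₁ ⊓ perpSub Q v₂) v₃
  have h4 := finrank_inf_perpSub_ge Q (⊤ ⊓ perpSub Q v₁ ⊓ perpSub Q v₂ ⊓ perpSub Q v₃) v₄
  have h5 := finrank_inf_perpSub_ge Q
    (⊤ ⊓ perpSub Q v₁ ⊓ perpSub Q v₂ ⊓ perpSub Q v₃ ⊓ perpSub Q v₄) v₅
  have h6 := finrank_inf_perpSub_ge Q
    (⊤ ⊓ perpSub Q v₁ ⊓ perpSub Q v₂ ⊓ perpSub Q v₃ ⊓ perpSub Q v₄ ⊓ perpSub Q v₅) v₆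
  have h0 : Module.finrank F ↥(⊤ : Submodule F (ι → F)) = Fintype.card ι := by
    rw [finrank_top, Module.finrank_fintype_fun_eq_card]
  obtain ⟨z, hz, hzQ⟩ := oc_exists_nonsing Q hQ
    (⊤ ⊓ perpSub Q v₁ ⊓ perpSub Q v₂ ⊓ perpSub Q v₃ ⊓ perpSub Q v₄ ⊓ perpSub Q v₅ ⊓ perpSub Q v₆)
    (by omega)
  obtain ⟨hz, hz6⟩ := Submodule.mem_inf.mp hz
  obtain ⟨hz, hz5⟩ := Submodule.mem_inf.mp hz
  obtain ⟨hz, hz4⟩ := Submodule.mem_inf.mp hz
  obtain ⟨hz, hz3⟩ := Submodule.mem_inf.mp hz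
  obtain ⟨hz, hz2⟩ := Submodule.mem_inf.mp hz
  obtain ⟨hz, hz1⟩ := Submodule.mem_inf.mp hz
  exact ⟨z, hzQ, (mem_perpSub Q _ _).mp hz1, (mem_perpSub Q _ _).mp hz2,
    (mem_perpSub Q _ _).mp hz3, (mem_perpSub Q _ _).mp hz4, (mem_perpSub Q _ _).mp hz5,
    (mem_perpSub Q _ _).mp hz6⟩

/-- In a subspace `W` containing a singular vector `z` not orthogonal to `W`: every vector not
orthogonal to `W` is non-orthogonal to some singular vector of `W`. -/
theorem oc_exists_sing_pair (W : Submodule F (ι → F)) (x a : ι → F) (ha : a ∈ W)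
    (hxa : QuadraticMap.polar ⇑Q x a ≠ 0) (z c : ι → F) (hz : z ∈ W) (hc : c ∈ W) (hzQ : Q z = 0)
    (hzc : QuadraticMap.polar ⇑Q z c ≠ 0) : ∃ s ∈ W, Q s = 0 ∧ QuadraticMap.polar ⇑Q x s ≠ 0 := by
  by_contra hcon
  push Not at hcon
  have key1 : ∀ p ∈ W, Q p = 0 → ∀ d ∈ W, QuadraticMap.polar ⇑Q x d ≠ 0 → QuadraticMap.polar ⇑Q p d = 0 := by
    intro p hp hpQ d hd hxd
    by_contra hpd
    have hdp : QuadraticMap.polar ⇑Q d p ≠ 0 := by rwa [QuadraticMap.polar_comm]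
    have hs := hcon (d - (Q d / QuadraticMap.polar ⇑Q d p) • p) (W.sub_mem hd (W.smul_mem _ hp)) (by
      rw [q_sub, QuadraticMap.map_smul, hpQ, QuadraticMap.polar_smul_right, smul_zero, add_zero,
        smul_eq_mul, div_mul_cancel₀ _ hdp, sub_self])
    rw [QuadraticMap.polar_sub_right, QuadraticMap.polar_smul_right, hcon p hp hpQ, smul_zero,
      sub_zero] at hs
    exact hxd hs
  have key2 : ∀ p ∈ W, Q p = 0 → ∀ d ∈ W, QuadraticMap.polar ⇑Q p d = 0 := by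
    intro p hp hpQ d hd
    by_cases hxd : QuadraticMap.polar ⇑Q x d = 0
    · have h1 := key1 p hp hpQ (d + a) (W.add_mem hd ha) (by
        rw [QuadraticMap.polar_add_right, hxd, zero_add]
        exact hxa)
      have h2 := key1 p hp hpQ a ha hxa
      rw [QuadraticMap.polar_add_right, h2, add_zero] at h1
      exact h1
    · exact key1 p hp hpQ d hd hxd
  exact hzc (key2 z hz hzQ c hc)

/-- `(SW)`: a vector outside `Ku` is non-orthogonal to a singular vector of `W_u`. -/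
theorem oc_SW (hQ : (QuadraticMap.polarBilin Q).Nondegenerate) (hn : 7 ≤ Fintype.card ι)
    (u x : ι → F) (hx : x ∉ ocK ω u) :
    ∃ s, Q s = 0 ∧ QuadraticMap.polar ⇑Q u s = 0 ∧ QuadraticMap.polar ⇑Q (ω u) s = 0 ∧ QuadraticMap.polar ⇑Q x s ≠ 0 := by
  obtain ⟨a, ha1, ha2⟩ := exists_perp_of_notMem Q hQ (ocK ω u) x hx
  have h1 := oc_finrank_K_le ω u
  have h2 := oc_finrank_W_ge Q ω u
  obtain ⟨z, hzW, hzK, hzQ⟩ := oc_exists_sing_notMem Q (ocW Q ω u) (ocK ω u) (by omega)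
  obtain ⟨c, hc1, hc2⟩ := exists_perp_of_notMem Q hQ (ocK ω u) z hzK
  have haW : a ∈ ocW Q ω u :=
    (oc_mem_W Q ω u a).mpr ⟨ha1 _ (oc_self_mem_K ω u), ha1 _ (oc_omega_mem_K ω u)⟩
  have hcW : c ∈ ocW Q ω u :=
    (oc_mem_W Q ω u c).mpr ⟨hc1 _ (oc_self_mem_K ω u), hc1 _ (oc_omega_mem_K ω u)⟩
  obtain ⟨s, hsW, hsQ, hxs⟩ := oc_exists_sing_pair Q (ocW Q ω u) x a haW
    (by rwa [QuadraticMap.polar_comm]) z c hzW hcW hzQ (by rwa [QuadraticMap.polar_comm])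
  exact ⟨s, hsQ, ((oc_mem_W Q ω u s).mp hsW).1, ((oc_mem_W Q ω u s).mp hsW).2, hxs⟩

/-- `(SW')`: the same, with the singular vector outside `Ku`. -/
theorem oc_SW' (hQ : (QuadraticMap.polarBilin Q).Nondegenerate) (hn : 7 ≤ Fintype.card ι)
    (u x : ι → F) (hx : x ∉ ocK ω u) :
    ∃ s, Q s = 0 ∧ QuadraticMap.polar ⇑Q u s = 0 ∧ QuadraticMap.polar ⇑Q (ω u) s = 0 ∧ s ∉ ocK ω u ∧ QuadraticMap.polar ⇑Q x s ≠ 0 := by
  obtain ⟨s, hsQ, hs1, hs2, hxs⟩ := oc_SW Q hQ hn u x hx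
  by_cases hsK : s ∈ ocK ω u
  · have h1 := oc_finrank_K_le ω u
    have h2 := oc_finrank_W_ge Q ω u
    obtain ⟨z, hzW, hzK, hzQ⟩ := oc_exists_sing_notMem Q (ocW Q ω u) (ocK ω u) (by omega)
    obtain ⟨hz1, hz2⟩ := (oc_mem_W Q ω u z).mp hzW
    by_cases hxz : QuadraticMap.polar ⇑Q x z = 0
    · refine ⟨s + z, ?_, ?_, ?_, ?_, ?_⟩
      · rw [Helper13.Q_add', hsQ, hzQ, oc_K_perp Q u s hsK z hz1 hz2]
        ring
      · rw [QuadraticMap.polar_add_right, hs1, hz1, add_zero]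
      · rw [QuadraticMap.polar_add_right, hs2, hz2, add_zero]
      · intro h
        apply hzK
        have := Submodule.sub_mem _ h hsK
        rwa [add_sub_cancel_left] at this
      · rw [QuadraticMap.polar_add_right, hxz, add_zero]
        exact hxs
    · exact ⟨z, hzQ, hz1, hz2, hzK, hxz⟩
  · exact ⟨s, hsQ, hs1, hs2, hsK, hxs⟩

/-- `(W2)`: a partner of a singular vector `w` of `W_u` outside `Ku`. -/
theorem oc_partner (hQ : (QuadraticMap.polarBilin Q).Nondegenerate) (hd : OcData Q ω τ ν)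
    (u w : ι → F) (hwQ : Q w = 0) (hw1 : QuadraticMap.polar ⇑Q u w = 0) (hw2 : QuadraticMap.polar ⇑Q (ω u) w = 0)
    (hwK : w ∉ ocK ω u) :
    ∃ w₂, Q w₂ = 0 ∧ QuadraticMap.polar ⇑Q u w₂ = 0 ∧ QuadraticMap.polar ⇑Q (ω u) w₂ = 0 ∧ QuadraticMap.polar ⇑Q w w₂ = 0 ∧ QuadraticMap.polar ⇑Q (ω w) w₂ = 1 := by
  obtain ⟨c, hc, hcw⟩ := exists_perp_of_notMem Q hQ (ocK ω u) w hwK
  have hc1 : QuadraticMap.polar ⇑Q u c = 0 := hc _ (oc_self_mem_K ω u)
  have hc2 : QuadraticMap.polar ⇑Q (ω u) c = 0 := hc _ (oc_omega_mem_K ω u)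
  obtain ⟨p₀, hp₀⟩ : ∃ p₀, p₀ = QuadraticMap.polar ⇑Q w c := ⟨_, rfl⟩
  obtain ⟨r₀, hr₀⟩ : ∃ r₀, r₀ = QuadraticMap.polar ⇑Q (ω w) c := ⟨_, rfl⟩
  have hp₀ne : p₀ ≠ 0 := by
    rw [hp₀, QuadraticMap.polar_comm]
    exact hcw
  obtain ⟨N, hN⟩ : ∃ N, N = r₀ * r₀ + τ * r₀ * (-p₀) + ν * (-p₀) * (-p₀) := ⟨_, rfl⟩
  have hNne : N ≠ 0 := by
    rw [hN]
    exact oc_N_ne Q hd r₀ (-p₀) (fun h => hp₀ne (neg_eq_zero.mp h.2))
  obtain ⟨c', hc'⟩ : ∃ c', c' = (r₀ - τ * p₀) • c + p₀ • ω c := ⟨_, rfl⟩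
  have hww : QuadraticMap.polar ⇑Q w w = 0 := polar_self_zero Q w hwQ
  have e1 : QuadraticMap.polar ⇑Q u c' = 0 := by
    rw [hc']
    simp only [map_add, map_sub, map_smul, map_neg, QuadraticMap.polar_add_left, QuadraticMap.polar_add_right, QuadraticMap.polar_sub_left, QuadraticMap.polar_sub_right, QuadraticMap.polar_smul_left, QuadraticMap.polar_smul_right, QuadraticMap.polar_neg_left, QuadraticMap.polar_neg_right, smul_eq_mul, hd.sq, oc_bww Q hd, oc_adj' Q hd, hc1, hc2]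
    ring
  have e2 : QuadraticMap.polar ⇑Q (ω u) c' = 0 := by
    rw [hc']
    simp only [map_add, map_sub, map_smul, map_neg, QuadraticMap.polar_add_left, QuadraticMap.polar_add_right, QuadraticMap.polar_sub_left, QuadraticMap.polar_sub_right, QuadraticMap.polar_smul_left, QuadraticMap.polar_smul_right, QuadraticMap.polar_neg_left, QuadraticMap.polar_neg_right, smul_eq_mul, hd.sq, oc_bww Q hd, oc_adj' Q hd, hc1, hc2]
    ring
  have e3 : QuadraticMap.polar ⇑Q w c' = 0 := by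
    rw [hc']
    simp only [map_add, map_sub, map_smul, map_neg, QuadraticMap.polar_add_left, QuadraticMap.polar_add_right, QuadraticMap.polar_sub_left, QuadraticMap.polar_sub_right, QuadraticMap.polar_smul_left, QuadraticMap.polar_smul_right, QuadraticMap.polar_neg_left, QuadraticMap.polar_neg_right, smul_eq_mul, hd.sq, oc_bww Q hd, oc_adj' Q hd, ← hp₀, ← hr₀]
    ring
  have e4 : QuadraticMap.polar ⇑Q (ω w) c' = N := by
    rw [hc', hN]
    simp only [map_add, map_sub, map_smul, map_neg, QuadraticMap.polar_add_left, QuadraticMap.polar_add_right, QuadraticMap.polar_sub_left, QuadraticMap.polar_sub_right, QuadraticMap.polar_smul_left, QuadraticMap.polar_smul_right, QuadraticMap.polar_neg_left, QuadraticMap.polar_neg_right, smul_eq_mul, hd.sq, oc_bww Q hd, oc_adj' Q hd, ← hp₀, ← hr₀]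
    ring
  have e5 : QuadraticMap.polar ⇑Q c' (ω w) = N := by rw [QuadraticMap.polar_comm]; exact e4
  have hQωw : Q (ω w) = 0 := by rw [hd.qω, hwQ, mul_zero]
  obtain ⟨hwω1, hwω2⟩ := oc_W_omega Q hd u w hw1 hw2
  refine ⟨N⁻¹ • (c' - (Q c' / N) • ω w), ?_, ?_, ?_, ?_, ?_⟩
  · rw [QuadraticMap.map_smul, q_sub, QuadraticMap.map_smul, hQωw, QuadraticMap.polar_smul_right,
      e5, smul_eq_mul, smul_eq_mul, smul_eq_mul, div_mul_cancel₀ _ hNne]
    ring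
  · rw [QuadraticMap.polar_smul_right, QuadraticMap.polar_sub_right,
      QuadraticMap.polar_smul_right, e1, hwω1]
    simp
  · rw [QuadraticMap.polar_smul_right, QuadraticMap.polar_sub_right,
      QuadraticMap.polar_smul_right, e2, hwω2]
    simp
  · rw [QuadraticMap.polar_smul_right, QuadraticMap.polar_sub_right,
      QuadraticMap.polar_smul_right, e3, hd.bω, hwQ]
    simp
  · rw [QuadraticMap.polar_smul_right, QuadraticMap.polar_sub_right,
      QuadraticMap.polar_smul_right, e4, oc_bww Q hd, hww, smul_eq_mul, smul_eq_mul, mul_zero,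
      mul_zero, sub_zero, inv_mul_cancel₀ hNne]

end OC1

end Cfsg.Agent.Helper98
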