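import Mathlib
import Cfsg.Prelude.Def_GeometricClasses
import Cfsg.Agent.Helper98.OC1

/-!
The closure theorem for quadratic-extension data: an additive set `T` of vectors which is
stable under the maps `L_w : x ↦ B(ωw, x) w − B(w, x) ωw` (for singular `w ∈ W_u = (Ku)^⊥`),
contains `Ku` and contains a vector outside `Ku`, contains `W_u`.
-/

set_option autoImplicit false
set_option linter.unusedSectionVars false
set_option linter.unusedVariables false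
set_option linter.unusedSimpArgs false

universe u

namespace Cfsg.Agent.Helper98

open Matrix Cfsg Cfsg.Geo Cfsg.Agent.Helper45

section OC2

variable {ι : Type} [Fintype ι] [DecidableEq ι] {F : Type u} [Field F] [Fintype F]
  (Q : QuadraticForm F (ι → F))

/-- `L_w(x) = B(ωw, x) w − B(w, x) ωw`. -/
def ocL (ω : (ι → F) →ₗ[F] (ι → F)) (w x : ι → F) : ι → F :=
  QuadraticMap.polar ⇑Q (ω w) x • w - QuadraticMap.polar ⇑Q w x • ω w

/-- The closure properties of the set `T(u)`. -/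
structure OcT (ω : (ι → F) →ₗ[F] (ι → F)) (u : ι → F) (T : (ι → F) → Prop) : Prop where
  add : ∀ x y, T x → T y → T (x + y)
  neg : ∀ x, T x → T (-x)
  L : ∀ w x, Q w = 0 → QuadraticMap.polar ⇑Q u w = 0 → QuadraticMap.polar ⇑Q (ω u) w = 0 → T x → T (ocL Q ω w x)
  ku : ∀ a b : F, T (a • u + b • ω u)

variable {ω : (ι → F) →ₗ[F] (ι → F)} {τ ν : F}

theorem oc_L_add (ω : (ι → F) →ₗ[F] (ι → F)) (w x y : ι → F) :
    ocL Q ω w (x + y) = ocL Q ω w x + ocL Q ω w y := by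
  unfold ocL
  rw [QuadraticMap.polar_add_right, QuadraticMap.polar_add_right]
  module

theorem oc_L_sub (ω : (ι → F) →ₗ[F] (ι → F)) (w x y : ι → F) :
    ocL Q ω w (x - y) = ocL Q ω w x - ocL Q ω w y := by
  unfold ocL
  rw [QuadraticMap.polar_sub_right, QuadraticMap.polar_sub_right]
  module

theorem oc_L_smul (ω : (ι → F) →ₗ[F] (ι → F)) (w x : ι → F) (c : F) :
    ocL Q ω w (c • x) = c • ocL Q ω w x := by
  unfold ocL
  rw [QuadraticMap.polar_smul_right, QuadraticMap.polar_smul_right]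
  simp only [smul_eq_mul]
  module

theorem oc_L_neg (ω : (ι → F) →ₗ[F] (ι → F)) (w x : ι → F) :
    ocL Q ω w (-x) = -ocL Q ω w x := by
  unfold ocL
  rw [QuadraticMap.polar_neg_right, QuadraticMap.polar_neg_right]
  module

theorem oc_L_smul_left (ω : (ι → F) →ₗ[F] (ι → F)) (w x : ι → F) (r : F) :
    ocL Q ω (r • w) x = (r * r) • ocL Q ω w x := by
  unfold ocL
  rw [map_smul, QuadraticMap.polar_smul_left, QuadraticMap.polar_smul_left]
  simp only [smul_eq_mul]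
  module

theorem oc_L_omega (hd : OcData Q ω τ ν) (w x : ι → F) :
    ocL Q ω w (ω x) = ω (ocL Q ω w x) := by
  unfold ocL
  rw [map_sub, map_smul, map_smul, hd.sq, oc_bww Q hd, oc_adj' Q hd w x]
  module

theorem oc_L_partner (ω : (ι → F) →ₗ[F] (ι → F)) (w w₂ : ι → F) (h1 : QuadraticMap.polar ⇑Q w w₂ = 0)
    (h2 : QuadraticMap.polar ⇑Q (ω w) w₂ = 1) : ocL Q ω w w₂ = w := by
  unfold ocL
  rw [h1, h2, one_smul, zero_smul, sub_zero]

theorem oc_LL (hd : OcData Q ω τ ν) (w w₂ x : ι → F) (h1 : QuadraticMap.polar ⇑Q w w₂ = 0)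
    (h2 : QuadraticMap.polar ⇑Q (ω w) w₂ = 1) :
    ocL Q ω w (ocL Q ω w₂ x) = QuadraticMap.polar ⇑Q (ω w₂) x • w - QuadraticMap.polar ⇑Q w₂ x • ω w := by
  have e : ocL Q ω w₂ x = QuadraticMap.polar ⇑Q (ω w₂) x • w₂ - QuadraticMap.polar ⇑Q w₂ x • ω w₂ := rfl
  rw [e, oc_L_sub, oc_L_smul, oc_L_smul, oc_L_omega Q hd, oc_L_partner Q ω w w₂ h1 h2]

theorem oc_LL_K (hd : OcData Q ω τ ν) (w w₂ : ι → F) (hwQ : Q w = 0) (h1 : QuadraticMap.polar ⇑Q w w₂ = 0)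
    (h2 : QuadraticMap.polar ⇑Q (ω w) w₂ = 1) (γ ε : F) :
    ocL Q ω w (ocL Q ω w₂ (γ • w + ε • ω w)) = -(γ • w + ε • ω w) := by
  rw [oc_LL Q hd w w₂ _ h1 h2]
  have h1' : QuadraticMap.polar ⇑Q w₂ w = 0 := by rw [QuadraticMap.polar_comm]; exact h1
  have h2' : QuadraticMap.polar ⇑Q (ω w₂) w = -1 := by
    rw [hd.adj, h1', QuadraticMap.polar_comm, h2]
    ring
  have h3 : QuadraticMap.polar ⇑Q w₂ (ω w) = 1 := by rw [QuadraticMap.polar_comm]; exact h2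
  have h4 : QuadraticMap.polar ⇑Q (ω w₂) (ω w) = 0 := by rw [oc_bww Q hd, h1', mul_zero]
  rw [QuadraticMap.polar_add_right, QuadraticMap.polar_add_right, QuadraticMap.polar_smul_right,
    QuadraticMap.polar_smul_right, QuadraticMap.polar_smul_right, QuadraticMap.polar_smul_right,
    h1', h2', h3, h4]
  simp only [smul_eq_mul]
  module

theorem oc_sq_sub (t : F) : ∃ r s : F, t = r * r - s * s := by
  by_cases h2 : (2 : F) = 0
  · have : CharP F 2 := CharTwo.of_one_ne_zero_of_two_eq_zero one_ne_zero h2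
    have hc : ringChar F = 2 := ringChar.eq F 2
    obtain ⟨r, hr⟩ := FiniteField.isSquare_of_char_two hc t
    exact ⟨r, 0, by rw [hr]; ring⟩
  · exact ⟨(t + 1) / 2, (t - 1) / 2, by field_simp; ring⟩

/-- `(FC)`: `T ∩ Kw` is closed under scalars. -/
theorem oc_FC (hd : OcData Q ω τ ν) (u : ι → F) (T : (ι → F) → Prop) (hT : OcT Q ω u T)
    (w w₂ : ι → F) (hwQ : Q w = 0) (hw1 : QuadraticMap.polar ⇑Q u w = 0) (hw2 : QuadraticMap.polar ⇑Q (ω u) w = 0)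
    (hw₂Q : Q w₂ = 0) (hw₂1 : QuadraticMap.polar ⇑Q u w₂ = 0) (hw₂2 : QuadraticMap.polar ⇑Q (ω u) w₂ = 0) (h1 : QuadraticMap.polar ⇑Q w w₂ = 0)
    (h2 : QuadraticMap.polar ⇑Q (ω w) w₂ = 1) (x : ι → F) (hxK : x ∈ ocK ω w) (hx : T x) (t : F) : T (t • x) := by
  obtain ⟨γ, ε, rfl⟩ := (oc_mem_K ω w x).mp hxK
  have hsq : ∀ r : F, T ((r * r) • (γ • w + ε • ω w)) := by
    intro r
    have t1 := hT.L (r • w₂) _ (by rw [QuadraticMap.map_smul, hw₂Q, smul_zero])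
      (by rw [QuadraticMap.polar_smul_right, hw₂1, smul_zero])
      (by rw [QuadraticMap.polar_smul_right, hw₂2, smul_zero]) hx
    have t2 := hT.L w _ hwQ hw1 hw2 t1
    rw [oc_L_smul_left, oc_L_smul, oc_LL_K Q hd w w₂ hwQ h1 h2] at t2
    have t3 := hT.neg _ t2
    rwa [← smul_neg, neg_neg] at t3
  obtain ⟨r, s, rfl⟩ := oc_sq_sub t
  have := hT.add _ _ (hsq r) (hT.neg _ (hsq s))
  rwa [← sub_eq_add_neg, ← sub_smul] at this

/-- `(PROP)`: propagation of `Kw ⊆ T` along non-`K`-orthogonal singular vectors. -/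
theorem oc_prop (hQ : (QuadraticMap.polarBilin Q).Nondegenerate) (hd : OcData Q ω τ ν)
    (u : ι → F) (T : (ι → F) → Prop) (hT : OcT Q ω u T)
    (w' : ι → F) (hTw' : T w') (hTωw' : T (ω w'))
    (w : ι → F) (hwQ : Q w = 0) (hw1 : QuadraticMap.polar ⇑Q u w = 0) (hw2 : QuadraticMap.polar ⇑Q (ω u) w = 0)
    (hwK : w ∉ ocK ω u) (hne : ¬(QuadraticMap.polar ⇑Q w w' = 0 ∧ QuadraticMap.polar ⇑Q (ω w) w' = 0)) : T w ∧ T (ω w) := by
  obtain ⟨w₂, hw₂Q, hw₂1, hw₂2, h1, h2⟩ := oc_partner Q hQ hd u w hwQ hw1 hw2 hwK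
  have FC := oc_FC Q hd u T hT w w₂ hwQ hw1 hw2 hw₂Q hw₂1 hw₂2 h1 h2
  have hv : T (ocL Q ω w w') := hT.L w w' hwQ hw1 hw2 hTw'
  have hv' : T (ocL Q ω w (ω w')) := hT.L w (ω w') hwQ hw1 hw2 hTωw'
  obtain ⟨s, hs⟩ : ∃ s, s = QuadraticMap.polar ⇑Q (ω w) w' := ⟨_, rfl⟩
  obtain ⟨p, hp⟩ : ∃ p, p = QuadraticMap.polar ⇑Q w w' := ⟨_, rfl⟩
  have ev : ocL Q ω w w' = s • w - p • ω w := by rw [hs, hp]; rfl
  have ev' : ocL Q ω w (ω w') = (p * ν) • w + (s - p * τ) • ω w := by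
    rw [oc_L_omega Q hd, ev, map_sub, map_smul, map_smul, hd.sq]
    module
  rw [ev] at hv
  rw [ev'] at hv'
  have hvK : s • w - p • ω w ∈ ocK ω w := (oc_mem_K ω w _).mpr ⟨s, -p, by module⟩
  have hv'K : (p * ν) • w + (s - p * τ) • ω w ∈ ocK ω w := (oc_mem_K ω w _).mpr ⟨_, _, rfl⟩
  obtain ⟨N, hN⟩ : ∃ N, N = s * s + τ * s * (-p) + ν * (-p) * (-p) := ⟨_, rfl⟩
  have hNne : N ≠ 0 := by
    rw [hN]
    apply oc_N_ne Q hd
    rintro ⟨e1, e2⟩
    apply hne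
    rw [← hs, ← hp]
    exact ⟨neg_eq_zero.mp e2, e1⟩
  constructor
  · have h3 := hT.add _ _ (FC _ hvK hv (s - p * τ)) (FC _ hv'K hv' p)
    have e3 : (s - p * τ) • (s • w - p • ω w) + p • ((p * ν) • w + (s - p * τ) • ω w) =
        N • w + (0 : F) • ω w := by
      rw [hN]
      module
    rw [e3] at h3
    have h4 := FC _ ((oc_mem_K ω w _).mpr ⟨_, _, rfl⟩) h3 N⁻¹
    have e4 : N⁻¹ • (N • w + (0 : F) • ω w) = w := by
      rw [zero_smul, add_zero, smul_smul, inv_mul_cancel₀ hNne, one_smul]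
    rwa [e4] at h4
  · have h3 := hT.add _ _ (FC _ hvK hv (-(p * ν))) (FC _ hv'K hv' s)
    have e3 : (-(p * ν)) • (s • w - p • ω w) + s • ((p * ν) • w + (s - p * τ) • ω w) =
        (0 : F) • w + N • ω w := by
      rw [hN]
      module
    rw [e3] at h3
    have h4 := FC _ ((oc_mem_K ω w _).mpr ⟨_, _, rfl⟩) h3 N⁻¹
    have e4 : N⁻¹ • ((0 : F) • w + N • ω w) = ω w := by
      rw [zero_smul, zero_add, smul_smul, inv_mul_cancel₀ hNne, one_smul]
    rwa [e4] at h4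

end OC2

end Cfsg.Agent.Helper98
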