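import Mathlib
import Cfsg.Prelude.Def_GeometricClasses
import Cfsg.Agent.Helper98.OC2

/-!
The closure theorem `oc_G` for quadratic-extension data (see `OC2`).
-/

set_option autoImplicit false
set_option linter.unusedSectionVars false
set_option linter.unusedVariables false
set_option linter.unusedSimpArgs false

universe u

namespace Cfsg.Agent.Helper98

open Matrix Cfsg Cfsg.Geo Cfsg.Agent.Helper45

section OC3

variable {ι : Type} [Fintype ι] [DecidableEq ι] {F : Type u} [Field F] [Fintype F]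
  (Q : QuadraticForm F (ι → F))

variable {ω : (ι → F) →ₗ[F] (ι → F)} {τ ν : F}

/-- Step II: from `w₁ ∈ T` to `ωw₁ ∈ T`. -/
theorem oc_step2 (hQ : (QuadraticMap.polarBilin Q).Nondegenerate) (hn : 13 ≤ Fintype.card ι)
    (hd : OcData Q ω τ ν) (u : ι → F) (hu : Q u = 0) (T : (ι → F) → Prop) (hT : OcT Q ω u T)
    (w₁ : ι → F) (hw₁Q : Q w₁ = 0) (hw₁1 : QuadraticMap.polar ⇑Q u w₁ = 0) (hw₁2 : QuadraticMap.polar ⇑Q (ω u) w₁ = 0)
    (hw₁K : w₁ ∉ ocK ω u) (hTw₁ : T w₁) : T (ω w₁) := by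
  obtain ⟨w₂, hw₂Q, hw₂1, hw₂2, h1, h2⟩ := oc_partner Q hQ hd u w₁ hw₁Q hw₁1 hw₁2 hw₁K
  have FC := oc_FC Q hd u T hT w₁ w₂ hw₁Q hw₁1 hw₁2 hw₂Q hw₂1 hw₂2 h1 h2
  obtain ⟨z, hzQ, hz1, hz2, hz3, hz4, hz5, hz6⟩ :=
    oc_exists_nonsing6 Q hQ hn u (ω u) w₁ (ω w₁) w₂ (ω w₂)
  obtain ⟨a, ha⟩ : ∃ a, a = -Q z := ⟨_, rfl⟩
  have hane : -a ≠ 0 := by rw [ha, neg_neg]; exact hzQ
  obtain ⟨w₃, hw₃⟩ : ∃ w₃, w₃ = a • ω w₁ + w₂ + z := ⟨_, rfl⟩
  have p1 : QuadraticMap.polar ⇑Q w₂ w₁ = 0 := by rw [QuadraticMap.polar_comm]; exact h1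
  have p2 : QuadraticMap.polar ⇑Q w₂ (ω w₁) = 1 := by rw [QuadraticMap.polar_comm]; exact h2
  have p3 : QuadraticMap.polar ⇑Q (ω w₂) w₁ = -1 := by rw [hd.adj, p1, p2]; ring
  have p4 : QuadraticMap.polar ⇑Q w₁ w₁ = 0 := polar_self_zero Q w₁ hw₁Q
  have p5 : QuadraticMap.polar ⇑Q w₂ w₂ = 0 := polar_self_zero Q w₂ hw₂Q
  have p6 : QuadraticMap.polar ⇑Q w₁ (ω w₁) = 0 := by rw [hd.bω, hw₁Q, mul_zero]
  have p7 : QuadraticMap.polar ⇑Q w₂ (ω w₂) = 0 := by rw [hd.bω, hw₂Q, mul_zero]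
  have p8 : QuadraticMap.polar ⇑Q (ω w₂) w₂ = 0 := by rw [QuadraticMap.polar_comm]; exact p7
  have p9 : QuadraticMap.polar ⇑Q (ω w₁) w₁ = 0 := by rw [QuadraticMap.polar_comm]; exact p6
  have q1 : QuadraticMap.polar ⇑Q z w₂ = 0 := by rw [QuadraticMap.polar_comm]; exact hz5
  have q2 : QuadraticMap.polar ⇑Q (ω z) w₂ = 0 := by
    rw [hd.adj, q1, QuadraticMap.polar_comm ⇑Q z (ω w₂), hz6]
    ring
  obtain ⟨hωw₁1, hωw₁2⟩ := oc_W_omega Q hd u w₁ hw₁1 hw₁2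
  have hw₃Q : Q w₃ = 0 := by
    rw [hw₃, Helper13.Q_add', Helper13.Q_add', QuadraticMap.map_smul, hd.qω, hw₁Q, hw₂Q]
    simp only [map_add, map_sub, map_smul, map_neg, QuadraticMap.polar_add_left, QuadraticMap.polar_add_right, QuadraticMap.polar_sub_left, QuadraticMap.polar_sub_right, QuadraticMap.polar_smul_left, QuadraticMap.polar_smul_right, QuadraticMap.polar_neg_left, QuadraticMap.polar_neg_right, smul_eq_mul, h2, hz4, hz5]
    rw [ha]
    ring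
  have hw₃1 : QuadraticMap.polar ⇑Q u w₃ = 0 := by
    rw [hw₃]
    simp only [map_add, map_sub, map_smul, map_neg, QuadraticMap.polar_add_left, QuadraticMap.polar_add_right, QuadraticMap.polar_sub_left, QuadraticMap.polar_sub_right, QuadraticMap.polar_smul_left, QuadraticMap.polar_smul_right, QuadraticMap.polar_neg_left, QuadraticMap.polar_neg_right, smul_eq_mul, hωw₁1, hw₂1, hz1]
    try ring
  have hw₃2 : QuadraticMap.polar ⇑Q (ω u) w₃ = 0 := by
    rw [hw₃]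
    simp only [map_add, map_sub, map_smul, map_neg, QuadraticMap.polar_add_left, QuadraticMap.polar_add_right, QuadraticMap.polar_sub_left, QuadraticMap.polar_sub_right, QuadraticMap.polar_smul_left, QuadraticMap.polar_smul_right, QuadraticMap.polar_neg_left, QuadraticMap.polar_neg_right, smul_eq_mul, hωw₁2, hw₂2, hz2]
    try ring
  have r1 : QuadraticMap.polar ⇑Q (ω w₃) w₂ = τ * a := by
    rw [hw₃]
    simp only [map_add, map_sub, map_smul, map_neg, QuadraticMap.polar_add_left, QuadraticMap.polar_add_right, QuadraticMap.polar_sub_left, QuadraticMap.polar_sub_right, QuadraticMap.polar_smul_left, QuadraticMap.polar_smul_right, QuadraticMap.polar_neg_left, QuadraticMap.polar_neg_right, smul_eq_mul, hd.sq, h2, h1, p8, q2]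
    try ring
  have r2 : QuadraticMap.polar ⇑Q w₃ w₂ = a := by
    rw [hw₃]
    simp only [map_add, map_sub, map_smul, map_neg, QuadraticMap.polar_add_left, QuadraticMap.polar_add_right, QuadraticMap.polar_sub_left, QuadraticMap.polar_sub_right, QuadraticMap.polar_smul_left, QuadraticMap.polar_smul_right, QuadraticMap.polar_neg_left, QuadraticMap.polar_neg_right, smul_eq_mul, h2, p5, q1]
    try ring
  have r3 : QuadraticMap.polar ⇑Q w₁ w₃ = 0 := by
    rw [hw₃]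
    simp only [map_add, map_sub, map_smul, map_neg, QuadraticMap.polar_add_left, QuadraticMap.polar_add_right, QuadraticMap.polar_sub_left, QuadraticMap.polar_sub_right, QuadraticMap.polar_smul_left, QuadraticMap.polar_smul_right, QuadraticMap.polar_neg_left, QuadraticMap.polar_neg_right, smul_eq_mul, p6, h1, hz3]
    try ring
  have r4 : QuadraticMap.polar ⇑Q (ω w₁) w₃ = 1 := by
    rw [hw₃]
    simp only [map_add, map_sub, map_smul, map_neg, QuadraticMap.polar_add_left, QuadraticMap.polar_add_right, QuadraticMap.polar_sub_left, QuadraticMap.polar_sub_right, QuadraticMap.polar_smul_left, QuadraticMap.polar_smul_right, QuadraticMap.polar_neg_left, QuadraticMap.polar_neg_right, smul_eq_mul, oc_bww Q hd, p4, h2, hz4]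
    try ring
  have t1 := hT.L w₂ w₁ hw₂Q hw₂1 hw₂2 hTw₁
  have e1 : ocL Q ω w₂ w₁ = -w₂ := by
    unfold ocL
    rw [p3, p1]
    module
  rw [e1] at t1
  have t2 := hT.L w₃ _ hw₃Q hw₃1 hw₃2 t1
  have e2 : ocL Q ω w₃ (-w₂) = (-a) • (τ • w₃ - ω w₃) := by
    rw [oc_L_neg]
    unfold ocL
    rw [r1, r2]
    module
  rw [e2] at t2
  have t3 := hT.L w₁ _ hw₁Q hw₁1 hw₁2 t2
  have e3 : ocL Q ω w₁ ((-a) • (τ • w₃ - ω w₃)) = (-a) • (τ • w₁ - ω w₁) := by
    rw [oc_L_smul, oc_L_sub, oc_L_smul, oc_L_omega Q hd, oc_L_partner Q ω w₁ w₃ r3 r4]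
  rw [e3] at t3
  have hK : (-a) • (τ • w₁ - ω w₁) ∈ ocK ω w₁ :=
    (oc_mem_K ω w₁ _).mpr ⟨-a * τ, a, by module⟩
  have t4 := FC _ hK t3 (-a)⁻¹
  rw [smul_smul, inv_mul_cancel₀ hane, one_smul] at t4
  have t5 := FC w₁ (oc_self_mem_K ω w₁) hTw₁ τ
  have t6 := hT.add _ _ t5 (hT.neg _ t4)
  have e6 : τ • w₁ + -(τ • w₁ - ω w₁) = ω w₁ := by abel
  rwa [e6] at t6

theorem oc_exists_both (hQ : (QuadraticMap.polarBilin Q).Nondegenerate) (hd : OcData Q ω τ ν)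
    (u w w' : ι → F) (hwQ : Q w = 0) (hw1 : QuadraticMap.polar ⇑Q u w = 0) (hw2 : QuadraticMap.polar ⇑Q (ω u) w = 0)
    (hwK : w ∉ ocK ω u) (hw'Q : Q w' = 0) (hw'1 : QuadraticMap.polar ⇑Q u w' = 0) (hw'2 : QuadraticMap.polar ⇑Q (ω u) w' = 0)
    (hw'K : w' ∉ ocK ω u) :
    ∃ c, QuadraticMap.polar ⇑Q u c = 0 ∧ QuadraticMap.polar ⇑Q (ω u) c = 0 ∧ QuadraticMap.polar ⇑Q (ω w') c ≠ 0 ∧ QuadraticMap.polar ⇑Q (ω w) c ≠ 0 := by
  obtain ⟨c₁, -, hc₁1, hc₁2, -, hc₁⟩ := oc_partner Q hQ hd u w' hw'Q hw'1 hw'2 hw'K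
  obtain ⟨c₂, -, hc₂1, hc₂2, -, hc₂⟩ := oc_partner Q hQ hd u w hwQ hw1 hw2 hwK
  by_cases h1 : QuadraticMap.polar ⇑Q (ω w) c₁ = 0
  · by_cases h2 : QuadraticMap.polar ⇑Q (ω w') c₂ = 0
    · refine ⟨c₁ + c₂, ?_, ?_, ?_, ?_⟩
      · rw [QuadraticMap.polar_add_right, hc₁1, hc₂1, add_zero]
      · rw [QuadraticMap.polar_add_right, hc₁2, hc₂2, add_zero]
      · rw [QuadraticMap.polar_add_right, hc₁, h2, add_zero]
        exact one_ne_zero
      · rw [QuadraticMap.polar_add_right, h1, hc₂, zero_add]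
        exact one_ne_zero
    · exact ⟨c₂, hc₂1, hc₂2, h2, by rw [hc₂]; exact one_ne_zero⟩
  · exact ⟨c₁, hc₁1, hc₁2, by rw [hc₁]; exact one_ne_zero, h1⟩

/-- **The closure theorem**: if `T` contains a vector outside `Ku`, then `W_u ⊆ T`. -/
theorem oc_G (hQ : (QuadraticMap.polarBilin Q).Nondegenerate) (hn : 13 ≤ Fintype.card ι)
    (hd : OcData Q ω τ ν) (u : ι → F) (hu : Q u = 0) (T : (ι → F) → Prop) (hT : OcT Q ω u T)
    (x₀ : ι → F) (hx₀ : T x₀) (hx₀K : x₀ ∉ ocK ω u) (x : ι → F) (hx1 : QuadraticMap.polar ⇑Q u x = 0)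
    (hx2 : QuadraticMap.polar ⇑Q (ω u) x = 0) : T x := by
  obtain ⟨w, hwQ, hw1, hw2, hwK, hxw⟩ := oc_SW' Q hQ (by omega) u x₀ hx₀K
  obtain ⟨hωw1, hωw2⟩ := oc_W_omega Q hd u w hw1 hw2
  obtain ⟨w₁, hw₁⟩ : ∃ w₁, w₁ = ocL Q ω w x₀ := ⟨_, rfl⟩
  have hTw₁ : T w₁ := by
    rw [hw₁]
    exact hT.L w x₀ hwQ hw1 hw2 hx₀
  have hw₁e : w₁ = QuadraticMap.polar ⇑Q (ω w) x₀ • w + (-QuadraticMap.polar ⇑Q w x₀) • ω w := by
    rw [hw₁]
    unfold ocL
    module
  have hwx : QuadraticMap.polar ⇑Q w x₀ ≠ 0 := by rwa [QuadraticMap.polar_comm]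
  have hw₁Q : Q w₁ = 0 := by rw [hw₁e, oc_Q_comb Q hd, hwQ, mul_zero]
  have hw₁1 : QuadraticMap.polar ⇑Q u w₁ = 0 := by
    rw [hw₁e, QuadraticMap.polar_add_right, QuadraticMap.polar_smul_right,
      QuadraticMap.polar_smul_right, hw1, hωw1, smul_zero, smul_zero, add_zero]
  have hw₁2 : QuadraticMap.polar ⇑Q (ω u) w₁ = 0 := by
    rw [hw₁e, QuadraticMap.polar_add_right, QuadraticMap.polar_smul_right,
      QuadraticMap.polar_smul_right, hw2, hωw2, smul_zero, smul_zero, add_zero]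
  have hw₁K : w₁ ∉ ocK ω u := by
    intro h
    rw [hw₁e] at h
    exact hwK (oc_kline Q hd (ocK ω u) (oc_K_inv Q hd u) _ _ w h
      (fun e => hwx (neg_eq_zero.mp e.2)))
  have hTωw₁ : T (ω w₁) := oc_step2 Q hQ hn hd u hu T hT w₁ hw₁Q hw₁1 hw₁2 hw₁K hTw₁
  obtain ⟨hωw₁1, hωw₁2⟩ := oc_W_omega Q hd u w₁ hw₁1 hw₁2
  have hall : ∀ v, Q v = 0 → QuadraticMap.polar ⇑Q u v = 0 → QuadraticMap.polar ⇑Q (ω u) v = 0 → v ∉ ocK ω u → T v ∧ T (ω v) := by
    intro v hvQ hv1 hv2 hvK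
    by_cases hA : QuadraticMap.polar ⇑Q v w₁ = 0 ∧ QuadraticMap.polar ⇑Q (ω v) w₁ = 0
    · obtain ⟨c, hc1, hc2, hcw₁, hcv⟩ :=
        oc_exists_both Q hQ hd u v w₁ hvQ hv1 hv2 hvK hw₁Q hw₁1 hw₁2 hw₁K
      have hcw₁' : QuadraticMap.polar ⇑Q c (ω w₁) ≠ 0 := by rwa [QuadraticMap.polar_comm]
      obtain ⟨w'', hw''⟩ : ∃ w'', w'' = c - (Q c / QuadraticMap.polar ⇑Q c (ω w₁)) • ω w₁ := ⟨_, rfl⟩
      have hQωw₁ : Q (ω w₁) = 0 := by rw [hd.qω, hw₁Q, mul_zero]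
      have h''Q : Q w'' = 0 := by
        rw [hw'', q_sub, QuadraticMap.map_smul, hQωw₁, QuadraticMap.polar_smul_right, smul_zero,
          add_zero, smul_eq_mul, div_mul_cancel₀ _ hcw₁', sub_self]
      have h''1 : QuadraticMap.polar ⇑Q u w'' = 0 := by
        rw [hw'', QuadraticMap.polar_sub_right, QuadraticMap.polar_smul_right, hc1, hωw₁1,
          smul_zero, sub_zero]
      have h''2 : QuadraticMap.polar ⇑Q (ω u) w'' = 0 := by
        rw [hw'', QuadraticMap.polar_sub_right, QuadraticMap.polar_smul_right, hc2, hωw₁2,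
          smul_zero, sub_zero]
      have h''a : QuadraticMap.polar ⇑Q (ω w₁) w'' = QuadraticMap.polar ⇑Q (ω w₁) c := by
        rw [hw'', QuadraticMap.polar_sub_right, QuadraticMap.polar_smul_right, oc_bww Q hd,
          polar_self_zero Q w₁ hw₁Q, mul_zero, smul_zero, sub_zero]
      have h''b : QuadraticMap.polar ⇑Q (ω v) w'' = QuadraticMap.polar ⇑Q (ω v) c := by
        rw [hw'', QuadraticMap.polar_sub_right, QuadraticMap.polar_smul_right, oc_bww Q hd,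
          hA.1, mul_zero, smul_zero, sub_zero]
      have h''K : w'' ∉ ocK ω u := by
        intro h
        apply hcw₁
        rw [← h''a, QuadraticMap.polar_comm]
        exact oc_K_perp Q u w'' h (ω w₁) hωw₁1 hωw₁2
      have hS'' : T w'' ∧ T (ω w'') :=
        oc_prop Q hQ hd u T hT w₁ hTw₁ hTωw₁ w'' h''Q h''1 h''2 h''K (by
          rintro ⟨e1, e2⟩
          apply hcw₁
          rw [← h''a, hd.adj, QuadraticMap.polar_comm ⇑Q w₁ w'', e1,
            QuadraticMap.polar_comm ⇑Q w₁ (ω w''), e2]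
          ring)
      exact oc_prop Q hQ hd u T hT w'' hS''.1 hS''.2 v hvQ hv1 hv2 hvK (by
        rintro ⟨e1, e2⟩
        apply hcv
        rw [← h''b]
        exact e2)
    · exact oc_prop Q hQ hd u T hT w₁ hTw₁ hTωw₁ v hvQ hv1 hv2 hvK hA
  have hsing : ∀ y, Q y = 0 → QuadraticMap.polar ⇑Q u y = 0 → QuadraticMap.polar ⇑Q (ω u) y = 0 → T y := by
    intro y hyQ hy1 hy2
    by_cases hyK : y ∈ ocK ω u
    · obtain ⟨a, b, rfl⟩ := (oc_mem_K ω u y).mp hyK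
      exact hT.ku a b
    · exact (hall y hyQ hy1 hy2 hyK).1
  by_cases hxQ : Q x = 0
  · exact hsing x hxQ hx1 hx2
  · have hxK : x ∉ ocK ω u := fun h => hxQ (oc_K_sing Q hd u hu x h)
    obtain ⟨s, hsQ, hs1, hs2, hxs⟩ := oc_SW Q hQ (by omega) u x hxK
    have h1 : T (x - (Q x / QuadraticMap.polar ⇑Q x s) • s) := hsing _
      (by
        rw [q_sub, QuadraticMap.map_smul, hsQ, QuadraticMap.polar_smul_right, smul_zero,
          add_zero, smul_eq_mul, div_mul_cancel₀ _ hxs, sub_self])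
      (by
        rw [QuadraticMap.polar_sub_right, QuadraticMap.polar_smul_right, hx1, hs1, smul_zero,
          sub_zero])
      (by
        rw [QuadraticMap.polar_sub_right, QuadraticMap.polar_smul_right, hx2, hs2, smul_zero,
          sub_zero])
    have h2 : T ((Q x / QuadraticMap.polar ⇑Q x s) • s) := hsing _
      (by rw [QuadraticMap.map_smul, hsQ, smul_zero])
      (by rw [QuadraticMap.polar_smul_right, hs1, smul_zero])
      (by rw [QuadraticMap.polar_smul_right, hs2, smul_zero])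
    have h3 := hT.add _ _ h1 h2
    rwa [sub_add_cancel] at h3

end OC3

end Cfsg.Agent.Helper98
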