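import Mathlib
import Cfsg.Prelude.Def_GeometricClasses
import Cfsg.Agent.Helper98.OC3

/-!
A subgroup of the isometry group containing the `Ω`-centralisers of two quadratic-extension
structures `ω`, `ω'` with `ω' ∉ F + Fω` contains `Ω(Q)`.
-/

set_option autoImplicit false
set_option linter.unusedSectionVars false
set_option linter.unusedVariables false
set_option linter.unusedSimpArgs false

universe u

namespace Cfsg.Agent.Helper98

open Matrix Cfsg Cfsg.Geo Cfsg.Agent.Helper45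

section OC4

variable {ι : Type} [Fintype ι] [DecidableEq ι] {F : Type u} [Field F] [Fintype F]
  (Q : QuadraticForm F (ι → F))

variable {ω : (ι → F) →ₗ[F] (ι → F)} {τ ν : F}

theorem oc_eich_eq (hd : OcData Q ω τ ν) (u : ι → F) (hu : Q u = 0) (a b : F) (x : ι → F) :
    Helper44.eich Q u (a • u + b • ω u) x = x + b • ocL Q ω u x := by
  unfold Helper44.eich ocL
  rw [oc_Q_comb Q hd, hu, mul_zero, zero_mul, sub_zero, QuadraticMap.polar_add_left,
    QuadraticMap.polar_smul_left, QuadraticMap.polar_smul_left]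
  simp only [smul_eq_mul]
  module

theorem oc_polar_comb (hd : OcData Q ω τ ν) (u : ι → F) (hu : Q u = 0) (a b : F) :
    QuadraticMap.polar ⇑Q u (a • u + b • ω u) = 0 :=
  (oc_K_in_W Q hd u hu _ ((oc_mem_K ω u _).mpr ⟨a, b, rfl⟩)).1

theorem oc_E_mem (hQ : (QuadraticMap.polarBilin Q).Nondegenerate) (hn : 5 ≤ Fintype.card ι)
    (hd : OcData Q ω τ ν) (M : Subgroup ↥(isometryGroup F ⇑Q))
    (hM : ∀ g ∈ Omega F ⇑Q, (∀ x, mv ⇑Q g (ω x) = ω (mv ⇑Q g x)) → g ∈ M)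
    (u : ι → F) (hu : Q u = 0) (a b : F) (hp : QuadraticMap.polar ⇑Q u (a • u + b • ω u) = 0) :
    eichO Q u (a • u + b • ω u) hu hp ∈ M := by
  apply hM _ (eichO_mem_omega Q hQ hn u _ hu hp)
  intro x
  rw [mv_eichO, mv_eichO, oc_eich_eq Q hd u hu, oc_eich_eq Q hd u hu, oc_L_omega Q hd, map_add,
    map_smul]

theorem oc_T_struct (hQ : (QuadraticMap.polarBilin Q).Nondegenerate) (hn : 5 ≤ Fintype.card ι)
    (hd : OcData Q ω τ ν) (M : Subgroup ↥(isometryGroup F ⇑Q))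
    (hM : ∀ g ∈ Omega F ⇑Q, (∀ x, mv ⇑Q g (ω x) = ω (mv ⇑Q g x)) → g ∈ M)
    (u : ι → F) (hu : Q u = 0) : OcT Q ω u (opr_T Q M u hu) := by
  refine ⟨fun x y => opr_T_add Q M u hu x y, fun x => opr_T_neg Q M u hu x, ?_, ?_⟩
  · intro w x hwQ hw1 hw2 hx
    have hp := oc_polar_comb Q hd w hwQ 0 1
    have hg := oc_E_mem Q hQ hn hd M hM w hwQ 0 1 hp
    have hwu : QuadraticMap.polar ⇑Q w u = 0 := by rw [QuadraticMap.polar_comm]; exact hw1
    have hωwu : QuadraticMap.polar ⇑Q (ω w) u = 0 := by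
      rw [hd.adj, hwu, QuadraticMap.polar_comm ⇑Q w (ω u), hw2]
      ring
    have hgu : mv ⇑Q (eichO Q w (0 • w + 1 • ω w) hwQ hp) u = u := by
      rw [mv_eichO, oc_eich_eq Q hd w hwQ]
      unfold ocL
      rw [hwu, hωwu]
      simp
    have h1 := opr_T_conj Q M u hu x _ hg hgu hx
    rw [mv_eichO, oc_eich_eq Q hd w hwQ, one_smul] at h1
    have h2 := opr_T_add Q M u hu _ _ (opr_T_neg Q M u hu x hx) h1
    rwa [neg_add_cancel_left] at h2
  · intro a b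
    have hp := oc_polar_comb Q hd u hu a b
    exact ⟨hp, oc_E_mem Q hQ hn hd M hM u hu a b hp⟩

/-- A singular vector `u` with `ω'u ∉ Ku` is the centre of a full Eichler root group of `M`. -/
theorem oc_center (hQ : (QuadraticMap.polarBilin Q).Nondegenerate) (hn : 13 ≤ Fintype.card ι)
    {ω' : (ι → F) →ₗ[F] (ι → F)} {τ' ν' : F}
    (hd : OcData Q ω τ ν) (hd' : OcData Q ω' τ' ν') (M : Subgroup ↥(isometryGroup F ⇑Q))
    (hM : ∀ g ∈ Omega F ⇑Q, (∀ x, mv ⇑Q g (ω x) = ω (mv ⇑Q g x)) → g ∈ M)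
    (hM' : ∀ g ∈ Omega F ⇑Q, (∀ x, mv ⇑Q g (ω' x) = ω' (mv ⇑Q g x)) → g ∈ M)
    (u : ι → F) (hu : Q u = 0) (hgood : ω' u ∉ ocK ω u) : u ∈ op_C Q M := by
  have hT := oc_T_struct Q hQ (by omega) hd M hM u hu
  have hT' := oc_T_struct Q hQ (by omega) hd' M hM' u hu
  have hu0 : u ≠ 0 := by
    rintro rfl
    apply hgood
    rw [map_zero]
    exact Submodule.zero_mem _
  have hTω' : opr_T Q M u hu (ω' u) := by
    have := hT'.ku 0 1
    rwa [zero_smul, zero_add, one_smul] at this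
  have hTω : opr_T Q M u hu (ω u) := by
    have := hT.ku 0 1
    rwa [zero_smul, zero_add, one_smul] at this
  have hgood' : ω u ∉ ocK ω' u := by
    intro h
    obtain ⟨a, b, e⟩ := (oc_mem_K ω' u _).mp h
    by_cases hb : b = 0
    · rw [hb, zero_smul, add_zero] at e
      have := oc_indep Q hd u hu0 a (-1) (by rw [← e]; module)
      exact absurd this.2 (neg_ne_zero.mpr one_ne_zero)
    · apply hgood
      rw [oc_mem_K]
      refine ⟨-(b⁻¹ * a), b⁻¹, ?_⟩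
      rw [← e, smul_add, smul_smul, smul_smul, inv_mul_cancel₀ hb, one_smul]
      module
  have hG := oc_G Q hQ hn hd u hu _ hT (ω' u) hTω' hgood
  have hG' := oc_G Q hQ hn hd' u hu _ hT' (ω u) hTω hgood'
  refine ⟨hu, fun b hub => ?_⟩
  obtain ⟨d, hd1, hd2⟩ := exists_perp_of_notMem Q hQ (ocK ω' u) (ω u) hgood'
  have hd2' : QuadraticMap.polar ⇑Q (ω u) d ≠ 0 := by rwa [QuadraticMap.polar_comm]
  have hud : QuadraticMap.polar ⇑Q u d = 0 := hd1 _ (oc_self_mem_K ω' u)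
  have hω'ud : QuadraticMap.polar ⇑Q (ω' u) d = 0 := hd1 _ (oc_omega_mem_K ω' u)
  obtain ⟨c, hc⟩ : ∃ c, c = QuadraticMap.polar ⇑Q (ω u) b / QuadraticMap.polar ⇑Q (ω u) d := ⟨_, rfl⟩
  have h1 : opr_T Q M u hu (b - c • d) := hG _
    (by rw [QuadraticMap.polar_sub_right, QuadraticMap.polar_smul_right, hub, hud, smul_zero,
      sub_zero])
    (by rw [QuadraticMap.polar_sub_right, QuadraticMap.polar_smul_right, hc, smul_eq_mul,
      div_mul_cancel₀ _ hd2', sub_self])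
  have h2 : opr_T Q M u hu (c • d) := hG' _
    (by rw [QuadraticMap.polar_smul_right, hud, smul_zero])
    (by rw [QuadraticMap.polar_smul_right, hω'ud, smul_zero])
  have h3 := opr_T_add Q M u hu _ _ h1 h2
  rw [sub_add_cancel] at h3
  obtain ⟨_, h4⟩ := h3
  exact h4

/-- One non-zero centre suffices. -/
theorem oc_omega_le_of_center (hQ : (QuadraticMap.polarBilin Q).Nondegenerate)
    (hn : 13 ≤ Fintype.card ι) (hd : OcData Q ω τ ν) (M : Subgroup ↥(isometryGroup F ⇑Q))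
    (hM : ∀ g ∈ Omega F ⇑Q, (∀ x, mv ⇑Q g (ω x) = ω (mv ⇑Q g x)) → g ∈ M)
    (u : ι → F) (hu0 : u ≠ 0) (huC : u ∈ op_C Q M) : Omega F ⇑Q ≤ M := by
  have huQ : Q u = 0 := by
    obtain ⟨h, _⟩ := huC
    exact h
  have hωu : ω u ∉ Submodule.span F {u} := by
    rw [Submodule.mem_span_singleton]
    rintro ⟨t, ht⟩
    have := oc_indep Q hd u hu0 t (-1) (by rw [← ht]; module)
    exact absurd this.2 (neg_ne_zero.mpr one_ne_zero)
  obtain ⟨a, ha1, ha2⟩ := exists_perp_of_notMem Q hQ (Submodule.span F {u}) (ω u) hωu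
  have hua : QuadraticMap.polar ⇑Q u a = 0 := ha1 u (Submodule.mem_span_singleton_self u)
  have huu : QuadraticMap.polar ⇑Q u u = 0 := polar_self_zero Q u huQ
  have huωu : QuadraticMap.polar ⇑Q u (ω u) = 0 := by rw [hd.bω, huQ, mul_zero]
  have hQωu : Q (ω u) = 0 := by rw [hd.qω, huQ, mul_zero]
  obtain ⟨w₁, hw₁⟩ : ∃ w₁, w₁ = a - (Q a / QuadraticMap.polar ⇑Q a (ω u)) • ω u := ⟨_, rfl⟩
  have hw₁Q : Q w₁ = 0 := by
    rw [hw₁, q_sub, QuadraticMap.map_smul, hQωu, QuadraticMap.polar_smul_right, smul_zero,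
      add_zero, smul_eq_mul, div_mul_cancel₀ _ ha2, sub_self]
  have hw₁u : QuadraticMap.polar ⇑Q u w₁ = 0 := by
    rw [hw₁, QuadraticMap.polar_sub_right, QuadraticMap.polar_smul_right, hua, huωu, smul_zero,
      sub_zero]
  obtain ⟨c₀, hc₀⟩ : ∃ c₀, c₀ = QuadraticMap.polar ⇑Q (ω u) w₁ := ⟨_, rfl⟩
  have hc₀ne : c₀ ≠ 0 := by
    rw [hc₀, hw₁, QuadraticMap.polar_sub_right, QuadraticMap.polar_smul_right, oc_bww Q hd, huu,
      mul_zero, smul_zero, sub_zero, QuadraticMap.polar_comm]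
    exact ha2
  obtain ⟨z, hzQ, hz1, hz2, hz3, hz4, -, -⟩ :=
    oc_exists_nonsing6 Q hQ hn u (ω u) w₁ (ω w₁) u u
  obtain ⟨a', ha'⟩ : ∃ a', a' = -Q z / c₀ := ⟨_, rfl⟩
  obtain ⟨w₂, hw₂⟩ : ∃ w₂, w₂ = a' • ω u + w₁ + z := ⟨_, rfl⟩
  have hw₂Q : Q w₂ = 0 := by
    rw [hw₂, Helper13.Q_add', Helper13.Q_add', QuadraticMap.map_smul, hQωu, hw₁Q]
    simp only [map_add, map_sub, map_smul, map_neg, QuadraticMap.polar_add_left, QuadraticMap.polar_add_right, QuadraticMap.polar_sub_left, QuadraticMap.polar_sub_right, QuadraticMap.polar_smul_left, QuadraticMap.polar_smul_right, QuadraticMap.polar_neg_left, QuadraticMap.polar_neg_right, smul_eq_mul, ← hc₀, hz2, hz3]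
    rw [ha']
    field_simp
    ring
  have hw₁w₁ : QuadraticMap.polar ⇑Q w₁ w₁ = 0 := polar_self_zero Q w₁ hw₁Q
  have hzw₁ : QuadraticMap.polar ⇑Q z w₁ = 0 := by rw [QuadraticMap.polar_comm]; exact hz3
  have hw₁u' : QuadraticMap.polar ⇑Q w₁ u = 0 := by rw [QuadraticMap.polar_comm]; exact hw₁u
  have hωw₁u : QuadraticMap.polar ⇑Q (ω w₁) u = -c₀ := by
    rw [hd.adj, hw₁u', QuadraticMap.polar_comm ⇑Q w₁ (ω u), ← hc₀]
    ring
  have f1 : QuadraticMap.polar ⇑Q u w₂ = 0 := by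
    rw [hw₂]
    simp only [map_add, map_sub, map_smul, map_neg, QuadraticMap.polar_add_left, QuadraticMap.polar_add_right, QuadraticMap.polar_sub_left, QuadraticMap.polar_sub_right, QuadraticMap.polar_smul_left, QuadraticMap.polar_smul_right, QuadraticMap.polar_neg_left, QuadraticMap.polar_neg_right, smul_eq_mul, huωu, hw₁u, hz1]
    try ring
  have f2 : QuadraticMap.polar ⇑Q u (ω w₂) = -c₀ := by
    rw [oc_adj' Q hd, f1, hw₂]
    simp only [map_add, map_sub, map_smul, map_neg, QuadraticMap.polar_add_left, QuadraticMap.polar_add_right, QuadraticMap.polar_sub_left, QuadraticMap.polar_sub_right, QuadraticMap.polar_smul_left, QuadraticMap.polar_smul_right, QuadraticMap.polar_neg_left, QuadraticMap.polar_neg_right, smul_eq_mul, oc_bww Q hd, huu, ← hc₀, hz2]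
    try ring
  have f3 : QuadraticMap.polar ⇑Q w₂ w₁ = a' * c₀ := by
    rw [hw₂]
    simp only [map_add, map_sub, map_smul, map_neg, QuadraticMap.polar_add_left, QuadraticMap.polar_add_right, QuadraticMap.polar_sub_left, QuadraticMap.polar_sub_right, QuadraticMap.polar_smul_left, QuadraticMap.polar_smul_right, QuadraticMap.polar_neg_left, QuadraticMap.polar_neg_right, smul_eq_mul, ← hc₀, hw₁w₁, hzw₁]
    try ring
  have f4 : QuadraticMap.polar ⇑Q w₂ u = 0 := by rw [QuadraticMap.polar_comm]; exact f1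
  have hp₁ := oc_polar_comb Q hd w₁ hw₁Q 0 1
  have hg₁ := oc_E_mem Q hQ (by omega) hd M hM w₁ hw₁Q 0 1 hp₁
  have hp₂ := oc_polar_comb Q hd w₂ hw₂Q 0 1
  have hg₂ := oc_E_mem Q hQ (by omega) hd M hM w₂ hw₂Q 0 1 hp₂
  have hx := op_C_mv Q M _ hg₂ _ (op_C_mv Q M _ hg₁ u huC)
  refine op_omega_le Q hQ (by omega) M u _ huC hx ?_
  rw [mv_eichO, mv_eichO, oc_eich_eq Q hd w₁ hw₁Q, oc_eich_eq Q hd w₂ hw₂Q, one_smul, one_smul]
  have e1 : ocL Q ω w₁ u = (-c₀) • w₁ := by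
    unfold ocL
    rw [hw₁u', hωw₁u]
    module
  rw [e1]
  have key : QuadraticMap.polar ⇑Q u (u + (-c₀) • w₁ + ocL Q ω w₂ (u + (-c₀) • w₁)) = Q z * c₀ * c₀ := by
    unfold ocL
    simp only [map_add, map_sub, map_smul, map_neg, QuadraticMap.polar_add_left, QuadraticMap.polar_add_right, QuadraticMap.polar_sub_left, QuadraticMap.polar_sub_right, QuadraticMap.polar_smul_left, QuadraticMap.polar_smul_right, QuadraticMap.polar_neg_left, QuadraticMap.polar_neg_right, smul_eq_mul, huu, hw₁u, f1, f2, f3, f4]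
    rw [ha']
    field_simp
    ring
  rw [key]
  exact mul_ne_zero (mul_ne_zero hzQ hc₀ne) hc₀ne

theorem oc_cmp (hd : OcData Q ω τ ν) (ω' : (ι → F) →ₗ[F] (ι → F)) (u z : ι → F) (hu0 : u ≠ 0)
    (hzK : z ∉ ocK ω u) (a b c d e f : F) (h1 : ω' u = a • u + b • ω u)
    (h2 : ω' z = c • z + d • ω z) (h3 : ω' (u + z) = e • (u + z) + f • ω (u + z)) :
    a = c ∧ b = d := by
  rw [map_add, h1, h2, map_add] at h3
  have h0 := sub_eq_zero.mpr h3.symm
  have key : (e - c) • z + (f - d) • ω z = -((e - a) • u + (f - b) • ω u) := by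
    rw [eq_neg_iff_add_eq_zero, ← h0]
    module
  have hz : e - c = 0 ∧ f - d = 0 := by
    by_contra hne
    apply hzK
    apply oc_kline Q hd (ocK ω u) (oc_K_inv Q hd u) (e - c) (f - d) z _ hne
    rw [key]
    exact Submodule.neg_mem _ ((oc_mem_K ω u _).mpr ⟨_, _, rfl⟩)
  rw [hz.1, hz.2, zero_smul, zero_smul, add_zero] at key
  have hu := oc_indep Q hd u hu0 (e - a) (f - b) (by
    have := key.symm
    rwa [neg_eq_zero] at this)
  have h4 := sub_eq_zero.mp hz.1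
  have h5 := sub_eq_zero.mp hz.2
  have h6 := sub_eq_zero.mp hu.1
  have h7 := sub_eq_zero.mp hu.2
  exact ⟨h6.symm.trans h4, h7.symm.trans h5⟩

/-- If `ω'` is not in `F + Fω`, some singular vector `u` has `ω'u ∉ Ku`. -/
theorem oc_exists_good (hQ : (QuadraticMap.polarBilin Q).Nondegenerate)
    (hn : 13 ≤ Fintype.card ι) (hd : OcData Q ω τ ν) (ω' : (ι → F) →ₗ[F] (ι → F))
    (hne : ¬∃ a b : F, ∀ x, ω' x = a • x + b • ω x) : ∃ u, Q u = 0 ∧ ω' u ∉ ocK ω u := by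
  by_contra hcon
  push Not at hcon
  have h0 : Module.finrank F ↥(⊤ : Submodule F (ι → F)) = Fintype.card ι := by
    rw [finrank_top, Module.finrank_fintype_fun_eq_card]
  obtain ⟨u₀, -, hu₀0, hu₀Q⟩ := exists_sing_in Q ⊤ (by omega)
  obtain ⟨a₀, b₀, e₀⟩ := (oc_mem_K ω u₀ _).mp (hcon u₀ hu₀Q)
  apply hne
  refine ⟨a₀, b₀, ?_⟩
  have hsing : ∀ v, Q v = 0 → ω' v = a₀ • v + b₀ • ω v := by
    intro v hv
    by_cases hv0 : v = 0
    · rw [hv0]
      simp
    obtain ⟨a₁, b₁, e₁⟩ := (oc_mem_K ω v _).mp (hcon v hv)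
    have hR1 := finrank_inf_perpSub_ge Q ⊤ u₀
    have hR2 := finrank_inf_perpSub_ge Q (⊤ ⊓ perpSub Q u₀) v
    have hS : Module.finrank F ↥(ocK ω u₀ ⊔ ocK ω v) ≤ 4 := by
      have h1 := Submodule.finrank_add_le_finrank_add_finrank (ocK ω u₀) (ocK ω v)
      have h2 := oc_finrank_K_le ω u₀
      have h3 := oc_finrank_K_le ω v
      omega
    obtain ⟨z, hzR, hzS, hzQ⟩ := oc_exists_sing_notMem Q (⊤ ⊓ perpSub Q u₀ ⊓ perpSub Q v)
      (ocK ω u₀ ⊔ ocK ω v) (by omega)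
    obtain ⟨hzR1, hzv⟩ := Submodule.mem_inf.mp hzR
    obtain ⟨-, hzu⟩ := Submodule.mem_inf.mp hzR1
    rw [mem_perpSub] at hzv hzu
    obtain ⟨a₂, b₂, e₂⟩ := (oc_mem_K ω z _).mp (hcon z hzQ)
    have hzK1 : z ∉ ocK ω u₀ := fun h => hzS (Submodule.mem_sup_left h)
    have hzK2 : z ∉ ocK ω v := fun h => hzS (Submodule.mem_sup_right h)
    obtain ⟨a₃, b₃, e₃⟩ := (oc_mem_K ω (u₀ + z) _).mp (hcon (u₀ + z) (by
      rw [Helper13.Q_add', hu₀Q, hzQ, hzu]
      ring))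
    obtain ⟨a₄, b₄, e₄⟩ := (oc_mem_K ω (v + z) _).mp (hcon (v + z) (by
      rw [Helper13.Q_add', hv, hzQ, hzv]
      ring))
    have c1 := oc_cmp Q hd ω' u₀ z hu₀0 hzK1 a₀ b₀ a₂ b₂ a₃ b₃ e₀.symm e₂.symm e₃.symm
    have c2 := oc_cmp Q hd ω' v z hv0 hzK2 a₁ b₁ a₂ b₂ a₄ b₄ e₁.symm e₂.symm e₄.symm
    rw [← e₁, c2.1, c2.2, ← c1.1, ← c1.2]
  intro x
  by_cases hxQ : Q x = 0
  · exact hsing x hxQ
  · have hx0 : x ≠ 0 := by
      rintro rfl
      exact hxQ (QuadraticMap.map_zero Q)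
    obtain ⟨a, ha⟩ : ∃ a, QuadraticMap.polar ⇑Q x a ≠ 0 := by
      by_contra h
      push Not at h
      exact hx0 (hQ.1 x h)
    obtain ⟨c, hc⟩ : ∃ c, QuadraticMap.polar ⇑Q u₀ c ≠ 0 := by
      by_contra h
      push Not at h
      exact hu₀0 (hQ.1 u₀ h)
    obtain ⟨s, -, hsQ, hxs⟩ := oc_exists_sing_pair Q ⊤ x a Submodule.mem_top ha u₀ c
      Submodule.mem_top Submodule.mem_top hu₀Q hc
    obtain ⟨t, ht⟩ : ∃ t, t = Q x / QuadraticMap.polar ⇑Q x s := ⟨_, rfl⟩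
    have h1 : Q (x - t • s) = 0 := by
      rw [q_sub, QuadraticMap.map_smul, hsQ, QuadraticMap.polar_smul_right, smul_zero, add_zero,
        smul_eq_mul, ht, div_mul_cancel₀ _ hxs, sub_self]
    have h2 : Q (t • s) = 0 := by rw [QuadraticMap.map_smul, hsQ, smul_zero]
    have e : ω' x = ω' (x - t • s) + ω' (t • s) := by rw [← map_add, sub_add_cancel]
    rw [e, hsing _ h1, hsing _ h2, map_sub]
    module

/-- **Main theorem**: a subgroup containing the `Ω`-centralisers of `ω` and of `ω' ∉ F + Fω`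
contains `Ω(Q)`. -/
theorem oc_main (hQ : (QuadraticMap.polarBilin Q).Nondegenerate) (hn : 13 ≤ Fintype.card ι)
    {ω' : (ι → F) →ₗ[F] (ι → F)} {τ' ν' : F}
    (hd : OcData Q ω τ ν) (hd' : OcData Q ω' τ' ν') (M : Subgroup ↥(isometryGroup F ⇑Q))
    (hM : ∀ g ∈ Omega F ⇑Q, (∀ x, mv ⇑Q g (ω x) = ω (mv ⇑Q g x)) → g ∈ M)
    (hM' : ∀ g ∈ Omega F ⇑Q, (∀ x, mv ⇑Q g (ω' x) = ω' (mv ⇑Q g x)) → g ∈ M)
    (hne : ¬∃ a b : F, ∀ x, ω' x = a • x + b • ω x) : Omega F ⇑Q ≤ M := by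
  obtain ⟨u, huQ, hgood⟩ := oc_exists_good Q hQ hn hd ω' hne
  have hu0 : u ≠ 0 := by
    rintro rfl
    apply hgood
    rw [map_zero]
    exact Submodule.zero_mem _
  exact oc_omega_le_of_center Q hQ hn hd M hM u hu0
    (oc_center Q hQ hn hd hd' M hM hM' u huQ hgood)

end OC4

end Cfsg.Agent.Helper98
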