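import Mathlib
import Cfsg.Prelude.Def_GeometricClasses
import Cfsg.Agent.Helper98.OC4
import Cfsg.Agent.Helper98.FieldSub

/-!
Maximality in `Ω(Q)` of the normaliser of a quadratic field subalgebra `K` of the matrix
algebra all of whose elements rescale `Q` (the unitary groups `GU_{n/2}(q)` in `Ω^±_n(q)`,
Aschbacher class `C₃`).
-/

set_option autoImplicit false
set_option linter.unusedSectionVars false
set_option linter.unusedVariables false
set_option linter.unusedSimpArgs false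

universe u

namespace Cfsg.Agent.Helper98

open Matrix Cfsg Cfsg.Geo Cfsg.Agent.Helper45

section OC5

variable {ι : Type} [Fintype ι] [DecidableEq ι] {F : Type u} [Field F] [Fintype F]
  (Q : QuadraticForm F (ι → F))

variable {ω : (ι → F) →ₗ[F] (ι → F)} {τ ν : F}

/-- A two-dimensional subalgebra is spanned by `1` and any non-scalar element. -/
theorem oc_K_basis [Nonempty ι] (K : Subalgebra F (Matrix ι ι F))
    (hK : Module.finrank F K = 2) :
    ∃ ω₀ ∈ K, (∀ a : F, ω₀ ≠ a • (1 : Matrix ι ι F)) ∧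
      ∀ k ∈ K, ∃ a b : F, k = a • (1 : Matrix ι ι F) + b • ω₀ := by
  have hfin : Module.finrank F ↥(Subalgebra.toSubmodule K) = 2 := hK
  have h1 : (1 : Matrix ι ι F) ≠ 0 := one_ne_zero
  have hs1 : Module.finrank F ↥(Submodule.span F {(1 : Matrix ι ι F)}) = 1 :=
    finrank_span_singleton h1
  obtain ⟨ω₀, hω₀K, hω₀⟩ : ∃ ω₀ ∈ Subalgebra.toSubmodule K,
      ω₀ ∉ Submodule.span F {(1 : Matrix ι ι F)} := by
    by_contra hcon
    push Not at hcon
    have := Submodule.finrank_mono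
      (show Subalgebra.toSubmodule K ≤ Submodule.span F {(1 : Matrix ι ι F)} from hcon)
    omega
  refine ⟨ω₀, hω₀K, ?_, ?_⟩
  · intro a e
    apply hω₀
    rw [e]
    exact Submodule.smul_mem _ _ (Submodule.mem_span_singleton_self _)
  · have hle : Submodule.span F {(1 : Matrix ι ι F), ω₀} ≤ Subalgebra.toSubmodule K := by
      rw [Submodule.span_le]
      intro x hx
      rcases hx with rfl | rfl
      · exact K.one_mem
      · exact hω₀K
    have hlt : Submodule.span F {(1 : Matrix ι ι F)} <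
        Submodule.span F {(1 : Matrix ι ι F), ω₀} := by
      rw [SetLike.lt_iff_le_and_exists]
      exact ⟨Submodule.span_mono (by simp), ω₀, Submodule.subset_span (by simp), hω₀⟩
    have h2 := Submodule.finrank_lt_finrank_of_lt hlt
    have h3 := Submodule.finrank_mono hle
    have heq : Submodule.span F {(1 : Matrix ι ι F), ω₀} = Subalgebra.toSubmodule K :=
      Submodule.eq_of_le_of_finrank_eq hle (by omega)
    intro k hk
    have hk' : k ∈ Submodule.span F {(1 : Matrix ι ι F), ω₀} := by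
      rw [heq]
      exact hk
    obtain ⟨a, b, e⟩ := Submodule.mem_span_pair.mp hk'
    exact ⟨a, b, e.symm⟩

theorem oc_lin_indep [Nonempty ι] (ω₀ : Matrix ι ι F)
    (hω₀ : ∀ a : F, ω₀ ≠ a • (1 : Matrix ι ι F)) (a b : F)
    (h : a • (1 : Matrix ι ι F) + b • ω₀ = 0) : a = 0 ∧ b = 0 := by
  by_cases hb : b = 0
  · subst hb
    rw [zero_smul, add_zero] at h
    rcases smul_eq_zero.mp h with h | h
    · exact ⟨h, rfl⟩
    · exact absurd h one_ne_zero
  · exfalso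
    apply hω₀ (-(b⁻¹ * a))
    have e1 : ω₀ = b⁻¹ • (b • ω₀) := by rw [smul_smul, inv_mul_cancel₀ hb, one_smul]
    rw [e1, eq_neg_of_add_eq_zero_right h, smul_neg, smul_smul, neg_smul]

/-- Quadratic-extension data from a non-scalar element of a field subalgebra rescaling `Q`. -/
theorem oc_data_of_scaling [Nonempty ι] (hQ : (QuadraticMap.polarBilin Q).Nondegenerate)
    (K : Subalgebra F (Matrix ι ι F)) (hKf : IsFS K) (ω₀ : Matrix ι ι F) (hω₀K : ω₀ ∈ K)
    (hω₀ : ∀ a : F, ω₀ ≠ a • (1 : Matrix ι ι F))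
    (hsc : ∀ k ∈ K, ∃ c : F, ∀ v : ι → F, Q (k *ᵥ v) = c * Q v) :
    ∃ τ ν : F, OcData Q (Matrix.toLin' ω₀) τ ν := by
  obtain ⟨c₁, hc₁⟩ := hsc ω₀ hω₀K
  obtain ⟨c₂, hc₂⟩ := hsc (1 + ω₀) (K.add_mem K.one_mem hω₀K)
  have hq : ∀ x, Q (Matrix.toLin' ω₀ x) = c₁ * Q x := fun x => by
    rw [Matrix.toLin'_apply]
    exact hc₁ x
  have hb : ∀ x, QuadraticMap.polar ⇑Q x (Matrix.toLin' ω₀ x) = (c₂ - 1 - c₁) * Q x := by
    intro x
    have := hc₂ x
    rw [Matrix.add_mulVec, Matrix.one_mulVec] at this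
    unfold QuadraticMap.polar
    rw [Matrix.toLin'_apply, this, hc₁]
    ring
  have hadj : ∀ x y, QuadraticMap.polar ⇑Q (Matrix.toLin' ω₀ x) y =
      (c₂ - 1 - c₁) * QuadraticMap.polar ⇑Q x y - QuadraticMap.polar ⇑Q x (Matrix.toLin' ω₀ y) := by
    intro x y
    have h1 := hb (x + y)
    rw [map_add, Helper13.Q_add'] at h1
    simp only [QuadraticMap.polar_add_left, QuadraticMap.polar_add_right] at h1
    rw [hb x, hb y] at h1
    rw [QuadraticMap.polar_comm ⇑Q (Matrix.toLin' ω₀ x) y]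
    linear_combination h1
  have hbww : ∀ x y, QuadraticMap.polar ⇑Q (Matrix.toLin' ω₀ x) (Matrix.toLin' ω₀ y) = c₁ * QuadraticMap.polar ⇑Q x y := by
    intro x y
    unfold QuadraticMap.polar
    rw [← map_add, hq, hq, hq]
    ring
  have hsq : ∀ x, Matrix.toLin' ω₀ (Matrix.toLin' ω₀ x) =
      (c₂ - 1 - c₁) • Matrix.toLin' ω₀ x - c₁ • x := by
    intro x
    rw [← sub_eq_zero]
    apply hQ.1
    intro y
    show QuadraticMap.polar ⇑Q (Matrix.toLin' ω₀ (Matrix.toLin' ω₀ x) -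
      ((c₂ - 1 - c₁) • Matrix.toLin' ω₀ x - c₁ • x)) y = 0
    rw [QuadraticMap.polar_sub_left, QuadraticMap.polar_sub_left, QuadraticMap.polar_smul_left,
      QuadraticMap.polar_smul_left, hadj (Matrix.toLin' ω₀ x) y, hbww]
    simp only [smul_eq_mul]
    ring
  refine ⟨c₂ - 1 - c₁, c₁, hsq, ?_, hadj, hq, hb⟩
  intro a b hN
  obtain ⟨i⟩ := (inferInstance : Nonempty ι)
  obtain ⟨v, hv⟩ : ∃ v : ι → F, v ≠ 0 := ⟨Pi.single i 1, by
    intro h
    have := congrFun h i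
    simp at this⟩
  have hxK : a • (1 : Matrix ι ι F) + b • ω₀ ∈ K :=
    K.add_mem (K.smul_mem K.one_mem a) (K.smul_mem hω₀K b)
  have hyK : (a + b * (c₂ - 1 - c₁)) • (1 : Matrix ι ι F) + (-b) • ω₀ ∈ K :=
    K.add_mem (K.smul_mem K.one_mem _) (K.smul_mem hω₀K _)
  have hxy : (a • (1 : Matrix ι ι F) + b • ω₀) *ᵥ
      (((a + b * (c₂ - 1 - c₁)) • (1 : Matrix ι ι F) + (-b) • ω₀) *ᵥ v) = 0 := by
    have e : ∀ (p q : F) (w : ι → F), (p • (1 : Matrix ι ι F) + q • ω₀) *ᵥ w =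
        p • w + q • Matrix.toLin' ω₀ w := by
      intro p q w
      rw [Matrix.add_mulVec, Matrix.smul_mulVec, Matrix.smul_mulVec, Matrix.one_mulVec,
        Matrix.toLin'_apply]
    rw [e, e, map_add, map_smul, map_smul, hsq]
    have e2 : a • ((a + b * (c₂ - 1 - c₁)) • v + -b • (Matrix.toLin' ω₀) v) +
        b • ((a + b * (c₂ - 1 - c₁)) • (Matrix.toLin' ω₀) v +
          -b • ((c₂ - 1 - c₁) • (Matrix.toLin' ω₀) v - c₁ • v)) =
        (a * a + (c₂ - 1 - c₁) * a * b + c₁ * b * b) • v := by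
      module
    rw [e2, hN, zero_smul]
  by_cases hx : a • (1 : Matrix ι ι F) + b • ω₀ = 0
  · exact oc_lin_indep ω₀ hω₀ a b hx
  · have h1 := IsFS.mulVec_eq_zero hKf hxK hx hxy
    by_cases hy : (a + b * (c₂ - 1 - c₁)) • (1 : Matrix ι ι F) + (-b) • ω₀ = 0
    · have h2 := oc_lin_indep ω₀ hω₀ _ _ hy
      have hb0 : b = 0 := neg_eq_zero.mp h2.2
      have h3 := h2.1
      rw [hb0, zero_mul, add_zero] at h3
      exact ⟨h3, hb0⟩
    · exact absurd (IsFS.mulVec_eq_zero hKf hyK hy h1) hv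

/-- The conjugate of a linear map by an isometry. -/
def ocConj (ω : (ι → F) →ₗ[F] (ι → F)) (y : ↥(isometryGroup F ⇑Q)) : (ι → F) →ₗ[F] (ι → F) :=
  (Matrix.toLin' ((y : GL ι F) : Matrix ι ι F)) ∘ₗ ω ∘ₗ
    (Matrix.toLin' (((y⁻¹ : ↥(isometryGroup F ⇑Q)) : GL ι F) : Matrix ι ι F))

theorem ocConj_apply (ω : (ι → F) →ₗ[F] (ι → F)) (y : ↥(isometryGroup F ⇑Q)) (x : ι → F) :
    ocConj Q ω y x = mv ⇑Q y (ω (mv ⇑Q y⁻¹ x)) := rfl

theorem oc_polar_mv_left (y : ↥(isometryGroup F ⇑Q)) (a z : ι → F) :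
    QuadraticMap.polar ⇑Q (mv ⇑Q y a) z = QuadraticMap.polar ⇑Q a (mv ⇑Q y⁻¹ z) := by
  conv_lhs => rw [← mv_inv_cancel Q y z]
  rw [mv_polar]

theorem oc_polar_mv_right (y : ↥(isometryGroup F ⇑Q)) (a z : ι → F) :
    QuadraticMap.polar ⇑Q a (mv ⇑Q y z) = QuadraticMap.polar ⇑Q (mv ⇑Q y⁻¹ a) z := by
  conv_lhs => rw [← mv_inv_cancel Q y a]
  rw [mv_polar]

theorem oc_conj_data (hd : OcData Q ω τ ν) (y : ↥(isometryGroup F ⇑Q)) :
    OcData Q (ocConj Q ω y) τ ν := by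
  refine ⟨?_, hd.irr, ?_, ?_, ?_⟩
  · intro x
    rw [ocConj_apply, ocConj_apply, mv_inv_cancel', hd.sq, mv_sub, mv_smul, mv_smul,
      mv_inv_cancel]
  · intro x z
    rw [ocConj_apply, ocConj_apply, oc_polar_mv_left, hd.adj, mv_polar, oc_polar_mv_right]
  · intro x
    rw [ocConj_apply, mv_quad ⇑Q y, hd.qω, mv_quad ⇑Q y⁻¹]
  · intro x
    rw [ocConj_apply, oc_polar_mv_right, hd.bω, mv_quad ⇑Q y⁻¹]

/-- Over a finite field, conjugating `K` into itself is enough to normalise it. -/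
theorem oc_normalizer_of_forall (K : Subalgebra F (Matrix ι ι F)) (g : GL ι F)
    (h : ∀ k ∈ K, (g : Matrix ι ι F) * k * ((g⁻¹ : GL ι F) : Matrix ι ι F) ∈ K) :
    g ∈ subalgebraNormalizer K := by
  have hpow : ∀ m : ℕ, ∀ k ∈ K,
      ((g ^ m : GL ι F) : Matrix ι ι F) * k * (((g ^ m)⁻¹ : GL ι F) : Matrix ι ι F) ∈ K := by
    intro m
    induction m with
    | zero =>
      intro k hk
      simpa using hk
    | succ m ih =>
      intro k hk
      have h1 := h _ (ih k hk)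
      have e : ((g ^ (m + 1) : GL ι F) : Matrix ι ι F) * k *
          (((g ^ (m + 1))⁻¹ : GL ι F) : Matrix ι ι F) =
          (g : Matrix ι ι F) * (((g ^ m : GL ι F) : Matrix ι ι F) * k *
            (((g ^ m)⁻¹ : GL ι F) : Matrix ι ι F)) * ((g⁻¹ : GL ι F) : Matrix ι ι F) := by
        rw [pow_succ', _root_.mul_inv_rev, Units.val_mul, Units.val_mul]
        simp only [mul_assoc]
      rw [e]
      exact h1
  have hginv : g⁻¹ = g ^ (orderOf g - 1) := by
    apply inv_eq_of_mul_eq_one_right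
    rw [← pow_succ', Nat.sub_add_cancel (orderOf_pos g), pow_orderOf_eq_one]
  have hinv' : ((g⁻¹ : GL ι F) : Matrix ι ι F) * (g : Matrix ι ι F) = 1 := by
    rw [← Units.val_mul, inv_mul_cancel, Units.val_one]
  intro k
  constructor
  · exact h k
  · intro hk
    have h1 := hpow (orderOf g - 1) _ hk
    rw [← hginv, inv_inv] at h1
    have e : ((g⁻¹ : GL ι F) : Matrix ι ι F) *
        ((g : Matrix ι ι F) * k * ((g⁻¹ : GL ι F) : Matrix ι ι F)) * (g : Matrix ι ι F) = k := by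
      simp only [mul_assoc]
      rw [hinv', mul_one, ← mul_assoc, hinv', one_mul]
    rw [e] at h1
    exact h1

/-- An Eichler transformation not normalising `F + Fω`. -/
theorem oc_exists_not_comm (hQ : (QuadraticMap.polarBilin Q).Nondegenerate)
    (hn : 13 ≤ Fintype.card ι) (hd : OcData Q ω τ ν) :
    ∃ g ∈ Omega F ⇑Q, ¬∃ a b : F, ∀ x,
      mv ⇑Q g (ω x) = a • mv ⇑Q g x + b • ω (mv ⇑Q g x) := by
  have h0 : Module.finrank F ↥(⊤ : Submodule F (ι → F)) = Fintype.card ι := by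
    rw [finrank_top, Module.finrank_fintype_fun_eq_card]
  obtain ⟨u, -, hu0, hu⟩ := exists_sing_in Q ⊤ (by omega)
  have h1 := oc_finrank_K_le ω u
  have h2 := oc_finrank_W_ge Q ω u
  obtain ⟨b, hbW, hbK, hbQ⟩ := oc_exists_sing_notMem Q (ocW Q ω u) (ocK ω u) (by omega)
  obtain ⟨hb1, hb2⟩ := (oc_mem_W Q ω u b).mp hbW
  obtain ⟨x, hx, hxb⟩ := exists_perp_of_notMem Q hQ (ocK ω u) b hbK
  have hx1 : QuadraticMap.polar ⇑Q u x = 0 := hx _ (oc_self_mem_K ω u)
  have hx2 : QuadraticMap.polar ⇑Q (ω u) x = 0 := hx _ (oc_omega_mem_K ω u)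
  obtain ⟨hωx1, hωx2⟩ := oc_W_omega Q hd u x hx1 hx2
  have huu : QuadraticMap.polar ⇑Q u u = 0 := polar_self_zero Q u hu
  have huωu : QuadraticMap.polar ⇑Q u (ω u) = 0 := by rw [hd.bω, hu, mul_zero]
  have hbu : QuadraticMap.polar ⇑Q b u = 0 := by rw [QuadraticMap.polar_comm]; exact hb1
  have hbωu : QuadraticMap.polar ⇑Q b (ω u) = 0 := by rw [QuadraticMap.polar_comm]; exact hb2
  refine ⟨eichO Q u b hu hb1, eichO_mem_omega Q hQ (by omega) u b hu hb1, ?_⟩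
  rintro ⟨a', b', h⟩
  have h3 := h u
  rw [mv_eichO, mv_eichO, eich_fix Q u b (ω u) huωu hbωu, eich_fix Q u b u huu hbu] at h3
  obtain ⟨ha', hb'⟩ := oc_indep Q hd u hu0 a' (b' - 1) (by
    rw [sub_smul, one_smul, ← add_sub_assoc]
    exact sub_eq_zero.mpr h3.symm)
  have hb'1 : b' = 1 := sub_eq_zero.mp hb'
  have h4 := h x
  have e3 : Helper44.eich Q u b (ω x) = ω x + QuadraticMap.polar ⇑Q b (ω x) • u := by
    unfold Helper44.eich
    rw [hωx1, hbQ]
    simp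
  have e4 : Helper44.eich Q u b x = x + QuadraticMap.polar ⇑Q b x • u := by
    unfold Helper44.eich
    rw [hx1, hbQ]
    simp
  rw [mv_eichO, mv_eichO, e3, e4, ha', hb'1, zero_smul, zero_add, one_smul, map_add,
    map_smul] at h4
  have h5 := add_left_cancel h4
  have h6 := (oc_indep Q hd u hu0 (QuadraticMap.polar ⇑Q b (ω x)) (-QuadraticMap.polar ⇑Q b x) (by
    rw [h5]
    module)).2
  apply hxb
  rw [QuadraticMap.polar_comm]
  exact neg_eq_zero.mp h6

end OC5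

section OC5Fun

variable {ι : Type} [Fintype ι] [DecidableEq ι] {F : Type u} [Field F] [Fintype F]

/-- **Maximality of the unitary `C₃` subgroups of `Ω(Q)`**: the normaliser in `Ω(Q)` of a
quadratic field subalgebra `K` of the matrix algebra whose elements rescale `Q`. -/
theorem oc_unitary_max (Q : (ι → F) → F) (hQ : IsNondegenerateQuadraticForm Q)
    (hn : 13 ≤ Fintype.card ι) (K : Subalgebra F (Matrix ι ι F)) (hK : IsFieldSubalgebra 2 K)
    (hsc : ∀ k ∈ K, ∃ c : F, ∀ v : ι → F, Q (k *ᵥ v) = c * Q v) :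
    IsMaximalIn (omegaGL Q) (subalgebraNormalizer K ⊓ omegaGL Q) := by
  have hne : Nonempty ι := Fintype.card_pos_iff.mp (by omega)
  obtain ⟨ω₀, hω₀K, hω₀, hKspan⟩ := oc_K_basis K hK.finrank_eq
  obtain ⟨Q', hQ'def⟩ : ∃ Q' : QuadraticForm F (ι → F), Q' = op_qf Q hQ := ⟨_, rfl⟩
  have hQQ' : ⇑Q' = Q := by rw [hQ'def]; rfl
  have hQ' : (QuadraticMap.polarBilin Q').Nondegenerate := by
    rw [hQ'def]
    exact op_qf_nondeg Q hQ
  subst hQQ'
  obtain ⟨τ, ν, hd⟩ := oc_data_of_scaling Q' hQ' K (IsFS.of hK) ω₀ hω₀K hω₀ hsc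
  have hinvM : ∀ g : GL ι F, (g : Matrix ι ι F) * ((g⁻¹ : GL ι F) : Matrix ι ι F) = 1 := by
    intro g
    rw [← Units.val_mul, mul_inv_cancel, Units.val_one]
  have hinvM' : ∀ g : GL ι F, ((g⁻¹ : GL ι F) : Matrix ι ι F) * (g : Matrix ι ι F) = 1 := by
    intro g
    rw [← Units.val_mul, inv_mul_cancel, Units.val_one]
  have hnorm1 : ∀ g : GL ι F, g ∈ subalgebraNormalizer K → ∃ a b : F, ∀ x : ι → F,
      (g : Matrix ι ι F) *ᵥ (ω₀ *ᵥ x) =
        a • ((g : Matrix ι ι F) *ᵥ x) + b • (ω₀ *ᵥ ((g : Matrix ι ι F) *ᵥ x)) := by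
    intro g hg
    have h1 := (hg ω₀).mp hω₀K
    obtain ⟨a, b, e⟩ := hKspan _ h1
    refine ⟨a, b, fun x => ?_⟩
    have e2 : (g : Matrix ι ι F) * ω₀ = (a • 1 + b • ω₀) * (g : Matrix ι ι F) := by
      rw [← e]
      simp only [mul_assoc]
      rw [hinvM', mul_one]
    rw [Matrix.mulVec_mulVec, e2, ← Matrix.mulVec_mulVec, Matrix.add_mulVec, Matrix.smul_mulVec,
      Matrix.smul_mulVec, Matrix.one_mulVec]
  have hnorm2 : ∀ g : GL ι F, (∃ a b : F, ∀ x : ι → F,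
      (g : Matrix ι ι F) *ᵥ (ω₀ *ᵥ x) =
        a • ((g : Matrix ι ι F) *ᵥ x) + b • (ω₀ *ᵥ ((g : Matrix ι ι F) *ᵥ x))) →
      g ∈ subalgebraNormalizer K := by
    rintro g ⟨a, b, h⟩
    have e2 : (g : Matrix ι ι F) * ω₀ = (a • 1 + b • ω₀) * (g : Matrix ι ι F) := by
      apply matrix_ext_mulVec
      intro x
      rw [← Matrix.mulVec_mulVec, h, ← Matrix.mulVec_mulVec, Matrix.add_mulVec,
        Matrix.smul_mulVec, Matrix.smul_mulVec, Matrix.one_mulVec]
    have e3 : (g : Matrix ι ι F) * ω₀ * ((g⁻¹ : GL ι F) : Matrix ι ι F) = a • 1 + b • ω₀ := by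
      rw [e2, mul_assoc, hinvM, mul_one]
    apply oc_normalizer_of_forall K g
    intro k hk
    obtain ⟨c, d, rfl⟩ := hKspan k hk
    have e4 : (g : Matrix ι ι F) * (c • 1 + d • ω₀) * ((g⁻¹ : GL ι F) : Matrix ι ι F) =
        c • 1 + d • (a • 1 + b • ω₀) := by
      rw [mul_add, add_mul, Matrix.mul_smul, Matrix.smul_mul, mul_one, hinvM, Matrix.mul_smul,
        Matrix.smul_mul, e3]
    rw [e4]
    exact K.add_mem (K.smul_mem K.one_mem c)
      (K.smul_mem (K.add_mem (K.smul_mem K.one_mem a) (K.smul_mem hω₀K b)) d)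
  constructor
  · rw [SetLike.lt_iff_le_and_exists]
    refine ⟨inf_le_right, ?_⟩
    obtain ⟨g, hgΩ, hg⟩ := oc_exists_not_comm Q' hQ' hn hd
    refine ⟨(g : GL ι F), Subgroup.mem_map_of_mem _ hgΩ, fun hmem => hg ?_⟩
    obtain ⟨a, b, hab⟩ := hnorm1 _ hmem.1
    exact ⟨a, b, hab⟩
  · intro M hHM hMG
    by_cases hMH : M = subalgebraNormalizer K ⊓ omegaGL ⇑Q'
    · exact Or.inl hMH
    right
    apply le_antisymm hMG
    obtain ⟨M', hM'⟩ : ∃ M' : Subgroup ↥(isometryGroup F ⇑Q'),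
        M' = M.comap (isometryGroup F ⇑Q').subtype := ⟨_, rfl⟩
    have hmemM' : ∀ g : ↥(isometryGroup F ⇑Q'), g ∈ M' ↔ (g : GL ι F) ∈ M := by
      intro g
      rw [hM']
      exact Subgroup.mem_comap
    suffices hΩ : Omega F ⇑Q' ≤ M' by
      unfold omegaGL
      rw [Subgroup.map_le_iff_le_comap, ← hM']
      exact hΩ
    have hM1 : ∀ g ∈ Omega F ⇑Q',
        (∀ x, mv ⇑Q' g (Matrix.toLin' ω₀ x) = Matrix.toLin' ω₀ (mv ⇑Q' g x)) → g ∈ M' := by
      intro g hg hcomm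
      rw [hmemM']
      apply hHM
      refine ⟨hnorm2 _ ⟨0, 1, fun x => ?_⟩, Subgroup.mem_map_of_mem _ hg⟩
      rw [zero_smul, zero_add, one_smul]
      exact hcomm x
    obtain ⟨y, hyM, hyH⟩ := SetLike.exists_of_lt (lt_of_le_of_ne hHM (Ne.symm hMH))
    obtain ⟨y', hy'Ω, rfl⟩ := Subgroup.mem_map.mp (hMG hyM)
    have hy'M : y' ∈ M' := (hmemM' y').mpr hyM
    have hd' := oc_conj_data Q' hd y'
    have hM2 : ∀ g ∈ Omega F ⇑Q',
        (∀ x, mv ⇑Q' g (ocConj Q' (Matrix.toLin' ω₀) y' x) =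
          ocConj Q' (Matrix.toLin' ω₀) y' (mv ⇑Q' g x)) → g ∈ M' := by
      intro g hg hcomm
      have hconj : y'⁻¹ * g * y' ∈ Omega F ⇑Q' := by
        have := (inferInstance : (Omega F ⇑Q').Normal).conj_mem g hg y'⁻¹
        rwa [inv_inv] at this
      have h1 : y'⁻¹ * g * y' ∈ M' := hM1 _ hconj (fun x => by
        rw [mv_mul, mv_mul, mv_mul, mv_mul]
        have h2 := hcomm (mv ⇑Q' y' x)
        rw [ocConj_apply, ocConj_apply, mv_inv_cancel'] at h2
        rw [h2, mv_inv_cancel'])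
      have e : g = y' * (y'⁻¹ * g * y') * y'⁻¹ := by group
      rw [e]
      exact M'.mul_mem (M'.mul_mem hy'M h1) (M'.inv_mem hy'M)
    refine oc_main Q' hQ' hn hd hd' M' hM1 hM2 ?_
    rintro ⟨a, b, hab⟩
    apply hyH
    refine ⟨hnorm2 _ ⟨a, b, fun x => ?_⟩, hMG hyM⟩
    have h3 := hab (mv ⇑Q' y' x)
    rw [ocConj_apply, mv_inv_cancel'] at h3
    exact h3

end OC5Fun

end Cfsg.Agent.Helper98
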