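import Mathlib
import Cfsg.Prelude.Def_GeometricClasses
import Cfsg.Agent.Helper93.Transv
import Cfsg.Agent.Helper93.TransvMax
import Cfsg.Agent.Helper98.FieldSub

set_option autoImplicit false

namespace Cfsg.Agent.Helper98

open Matrix Cfsg.Agent.Helper93

section SympMax

variable {ι : Type} [Fintype ι] [DecidableEq ι] {F : Type*} [Field F]

/-- The vector representing the functional `x ↦ B x w` as a dot product. -/
def rz (B : (ι → F) →ₗ[F] (ι → F) →ₗ[F] F) (w : ι → F) : ι → F :=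
  fun j => B (Pi.single j 1) w

theorem rz_dot (B : (ι → F) →ₗ[F] (ι → F) →ₗ[F] F) (w x : ι → F) : rz B w ⬝ᵥ x = B x w := by
  have h := LinearMap.pi_apply_eq_sum_univ (B.flip w) x
  rw [LinearMap.flip_apply] at h
  rw [h, dotProduct]
  refine Finset.sum_congr rfl (fun i _ => ?_)
  rw [LinearMap.flip_apply, smul_eq_mul, mul_comm]
  congr 1
  show B (Pi.single i 1) w = _
  congr 2
  funext j
  rw [Pi.single_apply]
  simp only [eq_comm]

/-- Every functional is represented by a vector, for a non-degenerate form. -/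
theorem exists_rz (B : (ι → F) →ₗ[F] (ι → F) →ₗ[F] F)
    (hnd : ∀ v, v ≠ 0 → ∃ x, B x v ≠ 0) (φ : ι → F) : ∃ w, rz B w = φ := by
  let R : (ι → F) →ₗ[F] (ι → F) :=
    { toFun := rz B
      map_add' := fun w w' => by
        funext j
        simp only [rz, map_add, Pi.add_apply]
      map_smul' := fun c w => by
        funext j
        simp only [rz, map_smul, Pi.smul_apply, RingHom.id_apply] }
  have hinj : Function.Injective R := by
    rw [← LinearMap.ker_eq_bot, LinearMap.ker_eq_bot']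
    intro w hw
    by_contra hw0
    obtain ⟨x, hx⟩ := hnd w hw0
    apply hx
    rw [← rz_dot]
    have : rz B w = 0 := hw
    rw [this, zero_dotProduct]
  exact LinearMap.injective_iff_surjective.mp hinj φ

/-- The transvection `x ↦ x + B x w • u`, for `B u w = 0`. -/
def ft (B : (ι → F) →ₗ[F] (ι → F) →ₗ[F] F) (u w : ι → F) (h : B u w = 0) : GL ι F :=
  tv u (rz B w) (by rw [rz_dot]; exact h)

theorem ft_mulVec (B : (ι → F) →ₗ[F] (ι → F) →ₗ[F] F) (u w : ι → F) (h : B u w = 0)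
    (x : ι → F) : ((ft B u w h : GL ι F) : Matrix ι ι F) *ᵥ x = x + B x w • u := by
  rw [ft, tv_mulVec, rz_dot]

theorem ft_mem_SL (B : (ι → F) →ₗ[F] (ι → F) →ₗ[F] F) (u w : ι → F) (h : B u w = 0) :
    ft B u w h ∈ Cfsg.Geo.specialLinear ι F :=
  tv_mem_SL _ _ _

theorem gl_ext' {g h : GL ι F}
    (H : ∀ x : ι → F, (g : Matrix ι ι F) *ᵥ x = (h : Matrix ι ι F) *ᵥ x) : g = h :=
  Units.ext (matrix_ext_mulVec H)

theorem gl_mul_inv_mulVec (g : GL ι F) (x : ι → F) :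
    (g : Matrix ι ι F) *ᵥ (((g⁻¹ : GL ι F) : Matrix ι ι F) *ᵥ x) = x := by
  rw [mulVec_mulVec, ← Units.val_mul, mul_inv_cancel, Units.val_one, one_mulVec]

theorem ft_congr (B : (ι → F) →ₗ[F] (ι → F) →ₗ[F] F) {u u' w w' : ι → F} (hu : u = u')
    (hw : w = w') (h : B u w = 0) (h' : B u' w' = 0) : ft B u w h = ft B u' w' h' := by
  subst hu hw
  rfl

/-- Conjugating a transvection by an isometry. -/
theorem ft_conj (B : (ι → F) →ₗ[F] (ι → F) →ₗ[F] F) (g : GL ι F)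
    (hg : ∀ x y, B ((g : Matrix ι ι F) *ᵥ x) ((g : Matrix ι ι F) *ᵥ y) = B x y)
    (u w : ι → F) (h : B u w = 0)
    (h' : B ((g : Matrix ι ι F) *ᵥ u) ((g : Matrix ι ι F) *ᵥ w) = 0) :
    g * ft B u w h * g⁻¹ = ft B ((g : Matrix ι ι F) *ᵥ u) ((g : Matrix ι ι F) *ᵥ w) h' := by
  apply gl_ext'
  intro x
  rw [Units.val_mul, Units.val_mul, ← mulVec_mulVec, ← mulVec_mulVec, ft_mulVec, ft_mulVec,
    mulVec_add, mulVec_smul, gl_mul_inv_mulVec]
  congr 2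
  rw [← hg, gl_mul_inv_mulVec]


/-- A non-degenerate alternating bilinear form. -/
structure IsSF (B : (ι → F) →ₗ[F] (ι → F) →ₗ[F] F) : Prop where
  skew : ∀ v w, B v w = - B w v
  alt : ∀ v, B v v = 0
  nd : ∀ v, v ≠ 0 → ∃ x, B x v ≠ 0

omit [Fintype ι] [DecidableEq ι] in
theorem IsSF.nd' {B : (ι → F) →ₗ[F] (ι → F) →ₗ[F] F} (hB : IsSF B) (v : ι → F) (hv : v ≠ 0) :
    ∃ x, B v x ≠ 0 := by
  obtain ⟨x, hx⟩ := hB.nd v hv
  refine ⟨x, ?_⟩
  rw [hB.skew]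
  exact neg_ne_zero.mpr hx

/-- The symplectic transvection `x ↦ x + a B(x, u) u`. -/
def st (B : (ι → F) →ₗ[F] (ι → F) →ₗ[F] F) (hB : IsSF B) (u : ι → F) (a : F) : GL ι F :=
  ft B u (a • u) (by rw [map_smul, hB.alt, smul_zero])

theorem st_mulVec {B : (ι → F) →ₗ[F] (ι → F) →ₗ[F] F} (hB : IsSF B) (u : ι → F) (a : F)
    (x : ι → F) : ((st B hB u a : GL ι F) : Matrix ι ι F) *ᵥ x = x + (a * B x u) • u := by
  rw [st, ft_mulVec, map_smul, smul_eq_mul]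

theorem st_iso {B : (ι → F) →ₗ[F] (ι → F) →ₗ[F] F} (hB : IsSF B) (u : ι → F) (a : F)
    (x y : ι → F) :
    B (((st B hB u a : GL ι F) : Matrix ι ι F) *ᵥ x)
      (((st B hB u a : GL ι F) : Matrix ι ι F) *ᵥ y) = B x y := by
  rw [st_mulVec, st_mulVec]
  simp only [map_add, map_smul, LinearMap.add_apply, LinearMap.smul_apply, smul_eq_mul, hB.alt,
    mul_zero, add_zero]
  rw [hB.skew u y]
  ring

theorem st_mem {B : (ι → F) →ₗ[F] (ι → F) →ₗ[F] F} (hB : IsSF B) (u : ι → F) (a : F) :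
    st B hB u a ∈ Cfsg.Geo.similarityGroup (fun x y => B x y) ⊓ Cfsg.Geo.specialLinear ι F := by
  refine ⟨⟨1, fun x y => ?_⟩, ft_mem_SL _ _ _ _⟩
  rw [Units.val_one, one_mul]
  exact st_iso hB u a x y

theorem move1 {B : (ι → F) →ₗ[F] (ι → F) →ₗ[F] F} (hB : IsSF B) (u₀ w w' : ι → F)
    (h0 : B u₀ w = 0) (h0' : B u₀ w' = 0) (hne : B w w' ≠ 0) :
    ∃ g : GL ι F, g ∈ Cfsg.Geo.similarityGroup (fun x y => B x y) ⊓ Cfsg.Geo.specialLinear ι F ∧
      (∀ x y, B ((g : Matrix ι ι F) *ᵥ x) ((g : Matrix ι ι F) *ᵥ y) = B x y) ∧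
      (g : Matrix ι ι F) *ᵥ u₀ = u₀ ∧ (g : Matrix ι ι F) *ᵥ w = w' := by
  refine ⟨st B hB (w - w') (B w w')⁻¹, st_mem hB _ _, st_iso hB _ _, ?_, ?_⟩
  · rw [st_mulVec, map_sub, h0, h0', sub_zero, mul_zero, zero_smul, add_zero]
  · rw [st_mulVec, map_sub, hB.alt, zero_sub, mul_neg, inv_mul_cancel₀ hne, neg_smul, one_smul]
    abel

omit [Fintype ι] [DecidableEq ι] in
theorem connect {B : (ι → F) →ₗ[F] (ι → F) →ₗ[F] F} (hB : IsSF B) (u₀ w w' : ι → F)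
    (ha : ∃ a, B u₀ a = 0 ∧ B w a ≠ 0) (hb : ∃ b, B u₀ b = 0 ∧ B w' b ≠ 0) :
    ∃ c, B u₀ c = 0 ∧ B w c ≠ 0 ∧ B c w' ≠ 0 := by
  obtain ⟨a, ha0, ha1⟩ := ha
  obtain ⟨b, hb0, hb1⟩ := hb
  by_cases h1 : B w' a = 0
  · by_cases h2 : B w b = 0
    · refine ⟨a + b, ?_, ?_, ?_⟩
      · rw [map_add, ha0, hb0, add_zero]
      · rw [map_add, h2, add_zero]
        exact ha1
      · rw [hB.skew, map_add, h1, zero_add]
        exact neg_ne_zero.mpr hb1
    · refine ⟨b, hb0, h2, ?_⟩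
      rw [hB.skew]
      exact neg_ne_zero.mpr hb1
  · refine ⟨a, ha0, ha1, ?_⟩
    rw [hB.skew]
    exact neg_ne_zero.mpr h1

theorem move {B : (ι → F) →ₗ[F] (ι → F) →ₗ[F] F} (hB : IsSF B) (u₀ w w' : ι → F)
    (h0 : B u₀ w = 0) (h0' : B u₀ w' = 0)
    (ha : ∃ a, B u₀ a = 0 ∧ B w a ≠ 0) (hb : ∃ b, B u₀ b = 0 ∧ B w' b ≠ 0) :
    ∃ g : GL ι F, g ∈ Cfsg.Geo.similarityGroup (fun x y => B x y) ⊓ Cfsg.Geo.specialLinear ι F ∧
      (∀ x y, B ((g : Matrix ι ι F) *ᵥ x) ((g : Matrix ι ι F) *ᵥ y) = B x y) ∧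
      (g : Matrix ι ι F) *ᵥ u₀ = u₀ ∧ (g : Matrix ι ι F) *ᵥ w = w' := by
  by_cases hne : B w w' = 0
  · obtain ⟨c, hc0, hc1, hc2⟩ := connect hB u₀ w w' ha hb
    obtain ⟨g₁, hg₁, hi₁, hu₁, hw₁⟩ := move1 hB u₀ w c h0 hc0 hc1
    obtain ⟨g₂, hg₂, hi₂, hu₂, hw₂⟩ := move1 hB u₀ c w' hc0 h0' hc2
    refine ⟨g₂ * g₁, Subgroup.mul_mem _ hg₂ hg₁, ?_, ?_, ?_⟩
    · intro x y
      rw [Units.val_mul, ← mulVec_mulVec, ← mulVec_mulVec, hi₂, hi₁]
    · rw [Units.val_mul, ← mulVec_mulVec, hu₁, hu₂]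
    · rw [Units.val_mul, ← mulVec_mulVec, hw₁, hw₂]
  · exact move1 hB u₀ w w' h0 h0' hne

omit [Fintype ι] [DecidableEq ι] in
theorem exists_free {B : (ι → F) →ₗ[F] (ι → F) →ₗ[F] F} (hB : IsSF B) (u₀ w : ι → F)
    (hu₀ : u₀ ≠ 0) (hw : ∀ c : F, w ≠ c • u₀) : ∃ a, B u₀ a = 0 ∧ B w a ≠ 0 := by
  by_contra hcon
  push Not at hcon
  obtain ⟨v₀, hv₀⟩ := hB.nd' u₀ hu₀
  have key : ∀ x, B (w - (B w v₀ * (B u₀ v₀)⁻¹) • u₀) x = 0 := by
    intro x
    have h1 : B u₀ (x - (B u₀ x * (B u₀ v₀)⁻¹) • v₀) = 0 := by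
      rw [map_sub, map_smul, smul_eq_mul, mul_assoc, inv_mul_cancel₀ hv₀, mul_one, sub_self]
    have h2 := hcon _ h1
    rw [map_sub, map_smul, smul_eq_mul, sub_eq_zero] at h2
    rw [map_sub, LinearMap.sub_apply, map_smul, LinearMap.smul_apply, smul_eq_mul, h2]
    ring
  have h3 : w - (B w v₀ * (B u₀ v₀)⁻¹) • u₀ = 0 := by
    by_contra h
    obtain ⟨x, hx⟩ := hB.nd' _ h
    exact hx (key x)
  exact hw _ (sub_eq_zero.mp h3)

/-- A transvection that is a similarity is a symplectic transvection. -/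
theorem sim_ft {B : (ι → F) →ₗ[F] (ι → F) →ₗ[F] F} (hB : IsSF B) (u w : ι → F) (hu : u ≠ 0)
    (h : B u w = 0)
    (hg : ft B u w h ∈ Cfsg.Geo.similarityGroup (fun x y => B x y)) : ∃ c : F, w = c • u := by
  obtain ⟨c, hc⟩ := hg
  obtain ⟨v₀, hv₀⟩ := hB.nd' u hu
  have hc1 : (c : F) = 1 := by
    have h1 := hc u v₀
    simp only [ft_mulVec, h, zero_smul, add_zero, map_add, map_smul, smul_eq_mul, hB.alt,
      mul_zero] at h1
    have h2 : ((c : F) - 1) * B u v₀ = 0 := by linear_combination -h1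
    rcases mul_eq_zero.mp h2 with h3 | h3
    · exact sub_eq_zero.mp h3
    · exact absurd h3 hv₀
  have key : ∀ x, B x (w - (- B v₀ w * (B u v₀)⁻¹) • u) = 0 := by
    intro x
    have h1 := hc x v₀
    simp only [ft_mulVec, map_add, map_smul, LinearMap.add_apply, LinearMap.smul_apply,
      smul_eq_mul, hB.alt, mul_zero, add_zero, hc1, one_mul] at h1
    rw [map_sub, map_smul, smul_eq_mul]
    have h2 : B x w * B u v₀ = - B v₀ w * B x u := by linear_combination h1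
    have h3 : B x w = - B v₀ w * (B u v₀)⁻¹ * B x u := by
      field_simp
      linear_combination h2
    rw [h3]
    ring
  refine ⟨- B v₀ w * (B u v₀)⁻¹, ?_⟩
  by_contra hne
  obtain ⟨x, hx⟩ := hB.nd _ (sub_ne_zero.mpr hne)
  exact hx (key x)


/-- An element `y` for which every conjugated symplectic transvection stays symplectic is a
similarity. -/
theorem sim_of_forall {B : (ι → F) →ₗ[F] (ι → F) →ₗ[F] F} (hB : IsSF B) (y : GL ι F)
    (v₁ : ι → F) (hv₁ : v₁ ≠ 0)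
    (H : ∀ v : ι → F, v ≠ 0 → ∃ c : F, ∀ x : ι → F,
      B (((y⁻¹ : GL ι F) : Matrix ι ι F) *ᵥ x) (((y⁻¹ : GL ι F) : Matrix ι ι F) *ᵥ v) = c * B x v) :
    y ∈ Cfsg.Geo.similarityGroup (fun x y => B x y) := by
  choose c hc using H
  -- `c` agrees on non-orthogonal vectors
  have h1 : ∀ (v v' : ι → F) (hv : v ≠ 0) (hv' : v' ≠ 0), B v v' ≠ 0 → c v hv = c v' hv' := by
    intro v v' hv hv' hne
    have e1 := hc v hv v'
    have e2 := hc v' hv' v
    rw [hB.skew, e2, hB.skew v' v] at e1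
    have e3 : (c v hv - c v' hv') * B v v' = 0 := by linear_combination e1
    rcases mul_eq_zero.mp e3 with h | h
    · exact sub_eq_zero.mp h
    · exact absurd h hne
  have h2 : ∀ (v : ι → F) (hv : v ≠ 0), c v hv = c v₁ hv₁ := by
    intro v hv
    have ha : ∃ a, B (0 : ι → F) a = 0 ∧ B v a ≠ 0 := by
      obtain ⟨a, ha⟩ := hB.nd' v hv
      exact ⟨a, by rw [map_zero, LinearMap.zero_apply], ha⟩
    have hb : ∃ b, B (0 : ι → F) b = 0 ∧ B v₁ b ≠ 0 := by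
      obtain ⟨b, hb⟩ := hB.nd' v₁ hv₁
      exact ⟨b, by rw [map_zero, LinearMap.zero_apply], hb⟩
    obtain ⟨z, -, hz1, hz2⟩ := connect hB 0 v v₁ ha hb
    have hz : z ≠ 0 := by
      rintro rfl
      rw [map_zero] at hz1
      exact hz1 rfl
    rw [h1 v z hv hz hz1, h1 z v₁ hz hv₁ hz2]
  have h3 : ∀ x v : ι → F,
      B (((y⁻¹ : GL ι F) : Matrix ι ι F) *ᵥ x) (((y⁻¹ : GL ι F) : Matrix ι ι F) *ᵥ v) =
        c v₁ hv₁ * B x v := by
    intro x v
    by_cases hv : v = 0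
    · rw [hv, mulVec_zero, map_zero, map_zero, mul_zero]
    · rw [hc v hv x, h2 v hv]
  have hc0 : c v₁ hv₁ ≠ 0 := by
    intro h0
    have hy : ((y⁻¹ : GL ι F) : Matrix ι ι F) *ᵥ v₁ ≠ 0 := by
      intro h
      apply hv₁
      have := congrArg (fun z => (y : Matrix ι ι F) *ᵥ z) h
      simp only [mulVec_zero] at this
      rw [← this]
      have h5 := gl_mul_inv_mulVec y v₁
      exact h5.symm
    obtain ⟨x', hx'⟩ := hB.nd _ hy
    have h4 := h3 ((y : Matrix ι ι F) *ᵥ x') v₁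
    rw [gl_inv_mulVec, h0, zero_mul] at h4
    exact hx' h4
  have hinv : y⁻¹ ∈ Cfsg.Geo.similarityGroup (fun x y => B x y) :=
    ⟨Units.mk0 _ hc0, fun u v => h3 u v⟩
  have := Subgroup.inv_mem _ hinv
  rwa [inv_inv] at this

/-- A proper overgroup of the symplectic similarity group contains a non-symplectic
transvection. -/
theorem exists_new {B : (ι → F) →ₗ[F] (ι → F) →ₗ[F] F} (hB : IsSF B)
    (M : Subgroup (GL ι F))
    (hHM : Cfsg.Geo.similarityGroup (fun x y => B x y) ⊓ Cfsg.Geo.specialLinear ι F ≤ M)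
    (y : GL ι F) (hyM : y ∈ M) (hy : y ∉ Cfsg.Geo.similarityGroup (fun x y => B x y))
    (v₁ : ι → F) (hv₁ : v₁ ≠ 0) :
    ∃ (u₀ w₀ : ι → F) (h : B u₀ w₀ = 0), u₀ ≠ 0 ∧ ft B u₀ w₀ h ∈ M ∧ ∀ c : F, w₀ ≠ c • u₀ := by
  by_contra hcon
  push Not at hcon
  apply hy
  apply sim_of_forall hB y v₁ hv₁
  intro v hv
  set u : ι → F := ((y⁻¹ : GL ι F) : Matrix ι ι F) *ᵥ v with hu
  have hyu : (y : Matrix ι ι F) *ᵥ u = v := gl_mul_inv_mulVec y v
  obtain ⟨w', hw'⟩ := exists_rz B hB.nd (rz B u ᵥ* ((y⁻¹ : GL ι F) : Matrix ι ι F))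
  have hw'x : ∀ x, B x w' = B (((y⁻¹ : GL ι F) : Matrix ι ι F) *ᵥ x) u := by
    intro x
    rw [← rz_dot B w' x, hw', ← dotProduct_mulVec, rz_dot]
  have hvw : B v w' = 0 := by
    rw [hw'x, ← hu, hB.alt]
  have hT : y * st B hB u 1 * y⁻¹ = ft B v w' hvw := by
    apply gl_ext'
    intro x
    rw [Units.val_mul, Units.val_mul, ← mulVec_mulVec, ← mulVec_mulVec, st_mulVec, ft_mulVec,
      mulVec_add, mulVec_smul, gl_mul_inv_mulVec, hyu, one_mul, hw'x]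
  have hTM : ft B v w' hvw ∈ M := by
    rw [← hT]
    exact M.mul_mem (M.mul_mem hyM (hHM (st_mem hB u 1))) (M.inv_mem hyM)
  obtain ⟨c, hc⟩ := hcon v w' hvw hv hTM
  refine ⟨c, fun x => ?_⟩
  rw [← hw'x, hc, map_smul, smul_eq_mul]

/-- One non-symplectic transvection with centre `u₀` gives all transvections with that centre. -/
theorem all_at {B : (ι → F) →ₗ[F] (ι → F) →ₗ[F] F} (hB : IsSF B)
    (M : Subgroup (GL ι F))
    (hHM : Cfsg.Geo.similarityGroup (fun x y => B x y) ⊓ Cfsg.Geo.specialLinear ι F ≤ M)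
    (u₀ w₀ : ι → F) (h₀ : B u₀ w₀ = 0) (hu₀ : u₀ ≠ 0) (hM₀ : ft B u₀ w₀ h₀ ∈ M)
    (hw₀ : ∀ c : F, w₀ ≠ c • u₀) (w : ι → F) (h : B u₀ w = 0) : ft B u₀ w h ∈ M := by
  by_cases hc : ∃ c : F, w = c • u₀
  · obtain ⟨c, rfl⟩ := hc
    exact hHM (st_mem hB u₀ c)
  · push Not at hc
    obtain ⟨g, hg, hiso, hgu, hgw⟩ := move hB u₀ w₀ w h₀ h
      (exists_free hB u₀ w₀ hu₀ hw₀) (exists_free hB u₀ w hu₀ hc)
    have h' : B ((g : Matrix ι ι F) *ᵥ u₀) ((g : Matrix ι ι F) *ᵥ w₀) = 0 := by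
      rw [hiso]
      exact h₀
    have e := ft_conj B g hiso u₀ w₀ h₀ h'
    rw [ft_congr B hgu hgw h' h] at e
    rw [← e]
    exact M.mul_mem (M.mul_mem (hHM hg) hM₀) (M.inv_mem (hHM hg))

/-- A proper overgroup of the symplectic similarity group contains all transvections. -/
theorem all_ft {B : (ι → F) →ₗ[F] (ι → F) →ₗ[F] F} (hB : IsSF B)
    (M : Subgroup (GL ι F))
    (hHM : Cfsg.Geo.similarityGroup (fun x y => B x y) ⊓ Cfsg.Geo.specialLinear ι F ≤ M)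
    (u₀ w₀ : ι → F) (h₀ : B u₀ w₀ = 0) (hu₀ : u₀ ≠ 0) (hM₀ : ft B u₀ w₀ h₀ ∈ M)
    (hw₀ : ∀ c : F, w₀ ≠ c • u₀) (u w : ι → F) (h : B u w = 0) : ft B u w h ∈ M := by
  by_cases hu : u = 0
  · have : ft B u w h = 1 := by
      apply gl_ext'
      intro x
      rw [ft_mulVec, hu, smul_zero, add_zero, Units.val_one, one_mulVec]
    rw [this]
    exact M.one_mem
  · have ha : ∃ a, B (0 : ι → F) a = 0 ∧ B u₀ a ≠ 0 := by
      obtain ⟨a, ha⟩ := hB.nd' u₀ hu₀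
      exact ⟨a, by rw [map_zero, LinearMap.zero_apply], ha⟩
    have hb : ∃ b, B (0 : ι → F) b = 0 ∧ B u b ≠ 0 := by
      obtain ⟨b, hb⟩ := hB.nd' u hu
      exact ⟨b, by rw [map_zero, LinearMap.zero_apply], hb⟩
    obtain ⟨g, hg, hiso, -, hgu⟩ := move hB 0 u₀ u (by rw [map_zero, LinearMap.zero_apply])
      (by rw [map_zero, LinearMap.zero_apply]) ha hb
    set w₁ : ι → F := ((g⁻¹ : GL ι F) : Matrix ι ι F) *ᵥ w with hw₁
    have hgw : (g : Matrix ι ι F) *ᵥ w₁ = w := gl_mul_inv_mulVec g w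
    have h1 : B u₀ w₁ = 0 := by
      rw [← hiso, hgu, hgw]
      exact h
    have h' : B ((g : Matrix ι ι F) *ᵥ u₀) ((g : Matrix ι ι F) *ᵥ w₁) = 0 := by
      rw [hiso]
      exact h1
    have e := ft_conj B g hiso u₀ w₁ h1 h'
    rw [ft_congr B hgu hgw h' h] at e
    rw [← e]
    exact M.mul_mem (M.mul_mem (hHM hg) (all_at hB M hHM u₀ w₀ h₀ hu₀ hM₀ hw₀ w₁ h1))
      (M.inv_mem (hHM hg))

/-- **The similarity group of a non-degenerate alternating form is maximal in `SL`** (in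
dimension at least 3). -/
theorem symp_similarity_max {B : (ι → F) →ₗ[F] (ι → F) →ₗ[F] F} (hB : IsSF B)
    (i0 i1 i2 : ι) (h01 : i0 ≠ i1) (h02 : i0 ≠ i2) (h12 : i1 ≠ i2) :
    Cfsg.Geo.IsMaximalIn (Cfsg.Geo.specialLinear ι F)
      (Cfsg.Geo.similarityGroup (fun x y => B x y) ⊓ Cfsg.Geo.specialLinear ι F) := by
  have : Nontrivial ι := ⟨⟨i0, i1, h01⟩⟩
  have he0 : (Pi.single i0 (1 : F) : ι → F) ≠ 0 := by
    intro h
    have := congrFun h i0
    rw [Pi.single_eq_same, Pi.zero_apply] at this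
    exact one_ne_zero this
  constructor
  · rw [SetLike.lt_iff_le_and_exists]
    refine ⟨inf_le_right, ?_⟩
    -- two transvections with centre `e₀`, not both symplectic
    obtain ⟨w₁, hw₁⟩ := exists_rz B hB.nd (Pi.single i1 (1 : F))
    obtain ⟨w₂, hw₂⟩ := exists_rz B hB.nd (Pi.single i2 (1 : F))
    have hx1 : ∀ x : ι → F, B x w₁ = x i1 := by
      intro x
      rw [← rz_dot, hw₁, single_dotProduct, one_mul]
    have hx2 : ∀ x : ι → F, B x w₂ = x i2 := by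
      intro x
      rw [← rz_dot, hw₂, single_dotProduct, one_mul]
    have h1 : B (Pi.single i0 (1 : F)) w₁ = 0 := by
      rw [hx1, Pi.single_eq_of_ne h01.symm]
    have h2 : B (Pi.single i0 (1 : F)) w₂ = 0 := by
      rw [hx2, Pi.single_eq_of_ne h02.symm]
    by_cases hm1 : ft B (Pi.single i0 (1 : F)) w₁ h1 ∈
        Cfsg.Geo.similarityGroup (fun x y => B x y)
    · refine ⟨ft B (Pi.single i0 (1 : F)) w₂ h2, ft_mem_SL _ _ _ _, fun hm2 => ?_⟩
      obtain ⟨c₁, hc₁⟩ := sim_ft hB _ _ he0 h1 hm1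
      obtain ⟨c₂, hc₂⟩ := sim_ft hB _ _ he0 h2 hm2.1
      have e1 := hx1 (Pi.single i1 (1 : F))
      rw [hc₁, map_smul, smul_eq_mul, Pi.single_eq_same] at e1
      have e2 := hx2 (Pi.single i1 (1 : F))
      rw [hc₂, map_smul, smul_eq_mul, Pi.single_eq_of_ne h12.symm] at e2
      have e3 := hx2 (Pi.single i2 (1 : F))
      rw [hc₂, map_smul, smul_eq_mul, Pi.single_eq_same] at e3
      have hne : B (Pi.single i1 (1 : F)) (Pi.single i0 (1 : F)) ≠ 0 := by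
        intro h
        rw [h, mul_zero] at e1
        exact zero_ne_one e1
      rcases mul_eq_zero.mp e2 with h | h
      · rw [h, zero_mul] at e3
        exact zero_ne_one e3
      · exact hne h
    · exact ⟨ft B (Pi.single i0 (1 : F)) w₁ h1, ft_mem_SL _ _ _ _, fun hm => hm1 hm.1⟩
  · intro M hHM hMS
    by_cases hM : M = Cfsg.Geo.similarityGroup (fun x y => B x y) ⊓ Cfsg.Geo.specialLinear ι F
    · exact Or.inl hM
    · right
      obtain ⟨y, hyM, hyH⟩ := SetLike.exists_of_lt (lt_of_le_of_ne hHM (Ne.symm hM))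
      have hy : y ∉ Cfsg.Geo.similarityGroup (fun x y => B x y) := fun h => hyH ⟨h, hMS hyM⟩
      obtain ⟨u₀, w₀, h₀, hu₀, hM₀, hw₀⟩ := exists_new hB M hHM y hyM hy _ he0
      apply le_antisymm hMS
      apply SL_le_of_all_tv
      intro u ψ h
      obtain ⟨w, rfl⟩ := exists_rz B hB.nd ψ
      have h' : B u w = 0 := by
        rw [← rz_dot]
        exact h
      exact all_ft hB M hHM u₀ w₀ h₀ hu₀ hM₀ hw₀ u w h'

end SympMax

end Cfsg.Agent.Helper98
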