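import Mathlib
import Cfsg.Prelude.Def_GeometricClasses
import Cfsg.Prelude.Def_LieClassical
import Cfsg.Agent.Helper93.Transv
import Cfsg.Agent.Helper93.TransvMax
import Cfsg.Agent.Helper98.FieldSub
import Cfsg.Agent.Helper98.SympMax

/-!
The symplectic subfield group `Sp_n(q)` (normaliser of a Baer subgeometry on which the Hermitian
form is alternating up to a scalar) is a maximal subgroup of `SU_n(q)`, given that `SU_n(q)` is
generated by unitary transvections.  Part 1: the Hermitian form and unitary transvections.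
-/

set_option autoImplicit false
set_option linter.unusedSectionVars false

namespace Cfsg.Agent.Helper98

open Matrix Cfsg.Agent.Helper93 Cfsg.Geo

section USub

variable {F : Type*} [Field F] [Fintype F] {n q : ℕ}

theorem us_two_le (hF : Fintype.card F = q ^ 2) : 2 ≤ q := by
  have h1 : 1 < Fintype.card F := Fintype.one_lt_card
  rw [hF] at h1
  by_contra h
  have : q = 0 ∨ q = 1 := by omega
  rcases this with rfl | rfl <;> simp at h1

theorem us_frob (hF : Fintype.card F = q ^ 2) : ∃ φ : F →+* F, ∀ x, φ x = x ^ q := by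
  have hp : Fact (ringChar F).Prime := ⟨CharP.char_is_prime F (ringChar F)⟩
  obtain ⟨e, hp', he⟩ := FiniteField.card F (ringChar F)
  have hdvd : q ∣ (ringChar F) ^ (e : ℕ) := by
    rw [← he, hF]
    exact dvd_pow_self q (by norm_num)
  obtain ⟨j, _, hj⟩ := (Nat.dvd_prime_pow hp').1 hdvd
  refine ⟨iterateFrobenius F (ringChar F) j, fun x => ?_⟩
  rw [iterateFrobenius_def, hj]

theorem us_pow_add (hF : Fintype.card F = q ^ 2) (a b : F) : (a + b) ^ q = a ^ q + b ^ q := by
  obtain ⟨φ, hφ⟩ := us_frob hF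
  rw [← hφ, ← hφ, ← hφ, map_add]

theorem us_pow_sum (hF : Fintype.card F = q ^ 2) {α : Type*} (s : Finset α) (f : α → F) :
    (∑ i ∈ s, f i) ^ q = ∑ i ∈ s, f i ^ q := by
  obtain ⟨φ, hφ⟩ := us_frob hF
  rw [← hφ, map_sum]
  exact Finset.sum_congr rfl (fun i _ => hφ _)

theorem us_pow_pow (hF : Fintype.card F = q ^ 2) (x : F) : (x ^ q) ^ q = x := by
  rw [← pow_mul, ← pow_two, ← hF]
  exact FiniteField.pow_card x

/-! ### The Hermitian form -/

theorem us_h_add_left (u u' v : Fin n → F) :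
    Cfsg.hermForm n F q (u + u') v = Cfsg.hermForm n F q u v + Cfsg.hermForm n F q u' v := by
  unfold Cfsg.hermForm
  rw [← Finset.sum_add_distrib]
  exact Finset.sum_congr rfl (fun i _ => by rw [Pi.add_apply, add_mul])

theorem us_h_smul_left (c : F) (u v : Fin n → F) :
    Cfsg.hermForm n F q (c • u) v = c * Cfsg.hermForm n F q u v := by
  unfold Cfsg.hermForm
  rw [Finset.mul_sum]
  exact Finset.sum_congr rfl (fun i _ => by rw [Pi.smul_apply, smul_eq_mul, mul_assoc])

theorem us_h_add_right (hF : Fintype.card F = q ^ 2) (u v v' : Fin n → F) :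
    Cfsg.hermForm n F q u (v + v') = Cfsg.hermForm n F q u v + Cfsg.hermForm n F q u v' := by
  unfold Cfsg.hermForm
  rw [← Finset.sum_add_distrib]
  exact Finset.sum_congr rfl (fun i _ => by rw [Pi.add_apply, us_pow_add hF, mul_add])

theorem us_h_smul_right (c : F) (u v : Fin n → F) :
    Cfsg.hermForm n F q u (c • v) = c ^ q * Cfsg.hermForm n F q u v := by
  unfold Cfsg.hermForm
  rw [Finset.mul_sum]
  exact Finset.sum_congr rfl (fun i _ => by rw [Pi.smul_apply, smul_eq_mul, mul_pow]; ring)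

theorem us_h_swap (hF : Fintype.card F = q ^ 2) (u v : Fin n → F) :
    Cfsg.hermForm n F q v u = (Cfsg.hermForm n F q u v) ^ q := by
  unfold Cfsg.hermForm
  rw [us_pow_sum hF]
  exact Finset.sum_congr rfl (fun i _ => by rw [mul_pow, us_pow_pow hF, mul_comm])

theorem us_h_dot (x w : Fin n → F) :
    (fun j => (w j) ^ q) ⬝ᵥ x = Cfsg.hermForm n F q x w := by
  unfold Cfsg.hermForm dotProduct
  exact Finset.sum_congr rfl (fun i _ => by rw [mul_comm])

theorem us_h_nd (hq : q ≠ 0) (w : Fin n → F) (h0 : ∀ x, Cfsg.hermForm n F q x w = 0) : w = 0 := by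
  funext i
  have h1 := h0 (Pi.single i 1)
  unfold Cfsg.hermForm at h1
  rw [Finset.sum_eq_single i] at h1
  · rw [Pi.single_eq_same, one_mul] at h1
    exact (pow_eq_zero_iff hq).mp h1
  · intro j _ hj
    rw [Pi.single_eq_of_ne hj, zero_mul]
  · intro h
    exact absurd (Finset.mem_univ i) h

/-! ### Unitary transvections -/

/-- The unitary transvection `x ↦ x + c h(x, w) w` for isotropic `w`. -/
def us_ut (n q : ℕ) (w : Fin n → F) (c : F) (hw : Cfsg.hermForm n F q w w = 0) : GL (Fin n) F :=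
  tv w (fun j => c * (w j) ^ q) (by
    have h1 : (fun j => c * (w j) ^ q) = c • (fun j => (w j) ^ q) := by
      funext j
      rw [Pi.smul_apply, smul_eq_mul]
    rw [h1, smul_dotProduct, us_h_dot, hw, smul_zero])

theorem us_ut_mulVec (w : Fin n → F) (c : F) (hw : Cfsg.hermForm n F q w w = 0) (x : Fin n → F) :
    ((us_ut n q w c hw : GL (Fin n) F) : Matrix (Fin n) (Fin n) F) *ᵥ x =
      x + (c * Cfsg.hermForm n F q x w) • w := by
  have h1 : (fun j => c * (w j) ^ q) = c • (fun j => (w j) ^ q) := by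
    funext j
    rw [Pi.smul_apply, smul_eq_mul]
  rw [us_ut, tv_mulVec, h1, smul_dotProduct, us_h_dot, smul_eq_mul]

theorem us_ut_val (w : Fin n → F) (c : F) (hw : Cfsg.hermForm n F q w w = 0) :
    ((us_ut n q w c hw : GL (Fin n) F) : Matrix (Fin n) (Fin n) F) =
      Cfsg.unitaryTransvection n q w c := by
  rw [us_ut, tv_val]
  unfold Cfsg.unitaryTransvection
  congr 1
  ext i j
  simp [vecMulVec_apply]
  ring

theorem us_mem_GU_iff (g : GL (Fin n) F) :
    g ∈ Cfsg.GU n F q ↔ ∀ u v, Cfsg.hermForm n F q ((g : Matrix (Fin n) (Fin n) F) *ᵥ u)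
      ((g : Matrix (Fin n) (Fin n) F) *ᵥ v) = Cfsg.hermForm n F q u v := Iff.rfl

theorem us_ut_mem (hF : Fintype.card F = q ^ 2) (w : Fin n → F) (c : F)
    (hw : Cfsg.hermForm n F q w w = 0) (hc : c ^ q = -c) :
    us_ut n q w c hw ∈ Cfsg.GU n F q ⊓ specialLinear (Fin n) F := by
  refine ⟨(us_mem_GU_iff _).mpr (fun u v => ?_), tv_mem_SL _ _ _⟩
  rw [us_ut_mulVec, us_ut_mulVec, us_h_add_left, us_h_add_right hF, us_h_add_right hF,
    us_h_smul_left, us_h_smul_left, us_h_smul_right, us_h_smul_right, hw, mul_pow, hc,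
    ← us_h_swap hF v w]
  ring

theorem us_ut_conj (g : GL (Fin n) F) (hg : g ∈ Cfsg.GU n F q) (w : Fin n → F) (c : F)
    (hw : Cfsg.hermForm n F q w w = 0)
    (hw' : Cfsg.hermForm n F q ((g : Matrix (Fin n) (Fin n) F) *ᵥ w)
      ((g : Matrix (Fin n) (Fin n) F) *ᵥ w) = 0) :
    g * us_ut n q w c hw * g⁻¹ = us_ut n q ((g : Matrix (Fin n) (Fin n) F) *ᵥ w) c hw' := by
  apply gl_ext'
  intro x
  rw [Units.val_mul, Units.val_mul, ← mulVec_mulVec, ← mulVec_mulVec, us_ut_mulVec, us_ut_mulVec,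
    mulVec_add, mulVec_smul, gl_mul_inv_mulVec]
  congr 3
  rw [← (us_mem_GU_iff g).mp hg, gl_mul_inv_mulVec]

theorem us_ut_smul (hF : Fintype.card F = q ^ 2) (l : F) (w : Fin n → F) (c : F)
    (hw : Cfsg.hermForm n F q w w = 0) (hw' : Cfsg.hermForm n F q (l • w) (l • w) = 0) :
    us_ut n q (l • w) c hw' = us_ut n q w (c * (l * l ^ q)) hw := by
  have _ := hF
  apply gl_ext'
  intro x
  rw [us_ut_mulVec, us_ut_mulVec, us_h_smul_right, smul_smul]
  congr 2
  ring

end USub

end Cfsg.Agent.Helper98
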