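import Mathlib
import Cfsg.Prelude.Def_GeometricClasses
import Cfsg.Prelude.Def_LieClassical
import Cfsg.Agent.Helper93.Transv
import Cfsg.Agent.Helper93.TransvMax
import Cfsg.Agent.Helper98.FieldSub
import Cfsg.Agent.Helper98.SympMax
import Cfsg.Agent.Helper98.USub

/-!
The symplectic subfield group `Sp_n(q)` in `SU_n(q)`, part 2: the rational structure, the induced
alternating form over the subfield, and the characterisation of the subfield group by its action
on rational vectors.
-/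

set_option autoImplicit false
set_option linter.unusedSectionVars false

namespace Cfsg.Agent.Helper98

open Matrix Cfsg.Agent.Helper93 Cfsg.Geo
open scoped Pointwise

section USub2

variable {F : Type*} [Field F] [Fintype F] {n q : ℕ}

/-- The data of a symplectic-type rational structure for the Hermitian form. -/
structure USData (n q : ℕ) (F₀ : Subfield F) (ζ : F) (P : GL (Fin n) F) : Prop where
  hF : Fintype.card F = q ^ 2
  hcard : Fintype.card F = Nat.card F₀ ^ 2
  hζ0 : ζ ≠ 0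
  hζ : ζ + ζ ^ q = 0
  hP : IsFormRationalStructure (Cfsg.hermForm n F q) F₀ ζ P
  halt : ∀ u : Fin n → F, (∀ i, u i ∈ F₀) →
    Cfsg.hermForm n F q ((P : Matrix (Fin n) (Fin n) F) *ᵥ u)
      ((P : Matrix (Fin n) (Fin n) F) *ᵥ u) = 0

variable {F₀ : Subfield F} {ζ : F} {P : GL (Fin n) F}

theorem USData.card_eq (D : USData n q F₀ ζ P) : Nat.card F₀ = q := by
  have h := D.hF.symm.trans D.hcard
  exact (Nat.pow_left_injective (by norm_num : 2 ≠ 0) h).symm

theorem USData.pow_mem (D : USData n q F₀ ζ P) (s : F₀) : (s : F) ^ q = s := by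
  have : Fintype F₀ := Fintype.ofFinite F₀
  have h1 : s ^ Fintype.card F₀ = s := FiniteField.pow_card s
  rw [← Nat.card_eq_fintype_card, D.card_eq] at h1
  have h2 := congrArg (Subtype.val) h1
  simpa using h2

theorem USData.mem_of_pow (D : USData n q F₀ ζ P) (x : F) (hx : x ^ q = x) : x ∈ F₀ := by
  classical
  have : Fintype F₀ := Fintype.ofFinite F₀
  have hq : 1 < q := us_two_le D.hF
  let S : Finset F := Finset.univ.filter (fun y => y ^ q = y)
  let T : Finset F := Finset.univ.image (Subtype.val : F₀ → F)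
  have hTS : T ⊆ S := by
    intro y hy
    obtain ⟨s, _, rfl⟩ := Finset.mem_image.mp hy
    exact Finset.mem_filter.mpr ⟨Finset.mem_univ _, D.pow_mem s⟩
  have hT : T.card = q := by
    rw [Finset.card_image_of_injective _ Subtype.val_injective, Finset.card_univ,
      ← Nat.card_eq_fintype_card, D.card_eq]
  have hS : S.card ≤ q := by
    have h1 : S ⊆ (Polynomial.X ^ q - Polynomial.X : Polynomial F).roots.toFinset := by
      intro y hy
      rw [Multiset.mem_toFinset, Polynomial.mem_roots (FiniteField.X_pow_card_sub_X_ne_zero F hq)]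
      simp [Polynomial.IsRoot, (Finset.mem_filter.mp hy).2]
    calc S.card ≤ _ := Finset.card_le_card h1
      _ ≤ (Polynomial.X ^ q - Polynomial.X : Polynomial F).roots.card :=
        Multiset.toFinset_card_le _
      _ ≤ (Polynomial.X ^ q - Polynomial.X : Polynomial F).natDegree := Polynomial.card_roots' _
      _ = q := FiniteField.X_pow_card_sub_X_natDegree_eq F hq
  have hEq : T = S := Finset.eq_of_subset_of_card_le hTS (by rw [hT]; exact hS)
  have hxS : x ∈ S := Finset.mem_filter.mpr ⟨Finset.mem_univ _, hx⟩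
  rw [← hEq] at hxS
  obtain ⟨s, _, rfl⟩ := Finset.mem_image.mp hxS
  exact s.2

theorem USData.exists_not_mem (D : USData n q F₀ ζ P) : ∃ ω : F, ω ∉ F₀ := by
  by_contra hcon
  push Not at hcon
  have h1 : Nat.card F₀ = Nat.card F := Nat.card_congr (Equiv.subtypeUnivEquiv hcon)
  rw [D.card_eq, Nat.card_eq_fintype_card, D.hF] at h1
  have hq := us_two_le D.hF
  nlinarith

theorem USData.pow_ne (D : USData n q F₀ ζ P) {ω : F} (hω : ω ∉ F₀) : ω ^ q - ω ≠ 0 := by
  intro h
  exact hω (D.mem_of_pow ω (sub_eq_zero.mp h))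

theorem USData.zeta_pow (D : USData n q F₀ ζ P) : ζ ^ q = -ζ := by
  have := D.hζ
  linear_combination this

theorem USData.decomp_inj (D : USData n q F₀ ζ P) {ω : F} (hω : ω ∉ F₀) (s t s' t' : F₀)
    (h : (s : F) + ω * t = s' + ω * t') : s = s' ∧ t = t' := by
  have _ := D
  by_cases ht : t = t'
  · subst ht
    refine ⟨?_, rfl⟩
    have : (s : F) = s' := add_right_cancel h
    exact Subtype.ext this
  · exfalso
    apply hω
    have h1 : ((t : F) - t') ≠ 0 := by
      intro h0
      exact ht (Subtype.ext (sub_eq_zero.mp h0))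
    have h2 : ω = ((s' : F) - s) / ((t : F) - t') := by
      rw [eq_div_iff h1]
      linear_combination h
    rw [h2]
    exact F₀.div_mem (F₀.sub_mem s'.2 s.2) (F₀.sub_mem t.2 t'.2)

theorem USData.decomp (D : USData n q F₀ ζ P) {ω : F} (hω : ω ∉ F₀) (c : F) :
    ∃ s t : F₀, c = s + ω * t := by
  have hinj : Function.Injective (fun p : F₀ × F₀ => (p.1 : F) + ω * p.2) := by
    rintro ⟨s, t⟩ ⟨s', t'⟩ h
    obtain ⟨h1, h2⟩ := D.decomp_inj hω s t s' t' h
    rw [h1, h2]
  have hbij := hinj.bijective_of_nat_card_le (by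
    rw [Nat.card_prod, D.card_eq, Nat.card_eq_fintype_card, D.hF, pow_two])
  obtain ⟨⟨s, t⟩, h⟩ := hbij.2 c
  exact ⟨s, t, h.symm⟩

/-! ### Rational vectors -/

/-- A vector over the subfield, seen over `F`. -/
def us_c {F₀ : Subfield F} (a : Fin n → F₀) : Fin n → F := fun i => (a i : F)

theorem us_c_add (a b : Fin n → F₀) : us_c (a + b) = us_c a + us_c b := by
  funext i
  simp [us_c]

theorem us_c_smul (s : F₀) (a : Fin n → F₀) : us_c (s • a) = (s : F) • us_c a := by
  funext i
  simp [us_c]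

theorem us_c_zero : us_c (0 : Fin n → F₀) = 0 := by
  funext i
  simp [us_c]

theorem us_c_inj (a b : Fin n → F₀) (h : us_c a = us_c b) : a = b := by
  funext i
  exact Subtype.ext (congrFun h i)

theorem us_c_single (j : Fin n) : us_c (Pi.single j (1 : F₀)) = Pi.single j (1 : F) := by
  funext i
  by_cases h : i = j
  · subst h
    simp [us_c]
  · simp [us_c, Pi.single_eq_of_ne h]

/-- The rational vectors: `E a = P a` for `a ∈ F₀ⁿ`. -/
def us_E (P : GL (Fin n) F) {F₀ : Subfield F} (a : Fin n → F₀) : Fin n → F :=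
  (P : Matrix (Fin n) (Fin n) F) *ᵥ us_c a

theorem us_E_add (a b : Fin n → F₀) : us_E P (a + b) = us_E P a + us_E P b := by
  unfold us_E
  rw [us_c_add, mulVec_add]

theorem us_E_smul (s : F₀) (a : Fin n → F₀) : us_E P (s • a) = (s : F) • us_E P a := by
  unfold us_E
  rw [us_c_smul, mulVec_smul]

theorem us_E_zero : us_E P (0 : Fin n → F₀) = 0 := by
  unfold us_E
  rw [us_c_zero, mulVec_zero]

theorem us_Pinv_E (a : Fin n → F₀) :
    ((P⁻¹ : GL (Fin n) F) : Matrix (Fin n) (Fin n) F) *ᵥ us_E P a = us_c a := by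
  unfold us_E
  rw [mulVec_mulVec, ← Units.val_mul, inv_mul_cancel, Units.val_one, one_mulVec]

theorem us_E_inj (a b : Fin n → F₀) (h : us_E P a = us_E P b) : a = b := by
  apply us_c_inj
  rw [← us_Pinv_E (P := P) a, h, us_Pinv_E]

theorem USData.vdecomp (D : USData n q F₀ ζ P) {ω : F} (hω : ω ∉ F₀) (x : Fin n → F) :
    ∃ a b : Fin n → F₀, x = us_E P a + ω • us_E P b := by
  choose s t hst using fun i =>
    D.decomp hω ((((P⁻¹ : GL (Fin n) F) : Matrix (Fin n) (Fin n) F) *ᵥ x) i)
  refine ⟨s, t, ?_⟩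
  unfold us_E
  rw [← mulVec_smul, ← mulVec_add]
  have h1 : us_c s + ω • us_c t = ((P⁻¹ : GL (Fin n) F) : Matrix (Fin n) (Fin n) F) *ᵥ x := by
    funext i
    rw [hst i]
    simp [us_c]
  rw [h1, mulVec_mulVec, ← Units.val_mul, mul_inv_cancel, Units.val_one, one_mulVec]

theorem USData.vdecomp_inj (D : USData n q F₀ ζ P) {ω : F} (hω : ω ∉ F₀) (a b a' b' : Fin n → F₀)
    (h : us_E P a + ω • us_E P b = us_E P a' + ω • us_E P b') : a = a' ∧ b = b' := by
  have h1 := congrArg (fun x => ((P⁻¹ : GL (Fin n) F) : Matrix (Fin n) (Fin n) F) *ᵥ x) h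
  simp only [mulVec_add, mulVec_smul, us_Pinv_E] at h1
  have h2 : ∀ i, a i = a' i ∧ b i = b' i := by
    intro i
    have := congrFun h1 i
    simp only [Pi.add_apply, Pi.smul_apply, smul_eq_mul, us_c] at this
    exact D.decomp_inj hω _ _ _ _ this
  exact ⟨funext fun i => (h2 i).1, funext fun i => (h2 i).2⟩

/-! ### The induced alternating form -/

/-- The alternating form over `F₀` induced on the rational structure. -/
def us_B (D : USData n q F₀ ζ P) : (Fin n → F₀) →ₗ[F₀] (Fin n → F₀) →ₗ[F₀] F₀ :=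
  LinearMap.mk₂ F₀ (fun a b => ⟨ζ * Cfsg.hermForm n F q (us_E P a) (us_E P b),
      D.hP _ _ (fun i => (a i).2) (fun i => (b i).2)⟩)
    (fun a a' b => by
      apply Subtype.ext
      show ζ * Cfsg.hermForm n F q (us_E P (a + a')) (us_E P b) =
        ζ * Cfsg.hermForm n F q (us_E P a) (us_E P b) + ζ * Cfsg.hermForm n F q (us_E P a') (us_E P b)
      rw [us_E_add, us_h_add_left, mul_add])
    (fun c a b => by
      apply Subtype.ext
      show ζ * Cfsg.hermForm n F q (us_E P (c • a)) (us_E P b) =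
        (c : F) * (ζ * Cfsg.hermForm n F q (us_E P a) (us_E P b))
      rw [us_E_smul, us_h_smul_left]
      ring)
    (fun a b b' => by
      apply Subtype.ext
      show ζ * Cfsg.hermForm n F q (us_E P a) (us_E P (b + b')) =
        ζ * Cfsg.hermForm n F q (us_E P a) (us_E P b) + ζ * Cfsg.hermForm n F q (us_E P a) (us_E P b')
      rw [us_E_add, us_h_add_right D.hF, mul_add])
    (fun c a b => by
      apply Subtype.ext
      show ζ * Cfsg.hermForm n F q (us_E P a) (us_E P (c • b)) =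
        (c : F) * (ζ * Cfsg.hermForm n F q (us_E P a) (us_E P b))
      rw [us_E_smul, us_h_smul_right, D.pow_mem]
      ring)

theorem us_B_val (D : USData n q F₀ ζ P) (a b : Fin n → F₀) :
    ((us_B D a b : F₀) : F) = ζ * Cfsg.hermForm n F q (us_E P a) (us_E P b) := rfl

theorem us_B_alt (D : USData n q F₀ ζ P) (a : Fin n → F₀) : us_B D a a = 0 := by
  apply Subtype.ext
  have h0 : Cfsg.hermForm n F q (us_E P a) (us_E P a) = 0 := D.halt _ (fun i => (a i).2)
  rw [us_B_val, h0, mul_zero]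
  rfl

theorem us_B_skew (D : USData n q F₀ ζ P) (a b : Fin n → F₀) : us_B D a b = - us_B D b a := by
  have h := us_B_alt D (a + b)
  simp only [map_add, LinearMap.add_apply, us_B_alt, zero_add, add_zero] at h
  exact eq_neg_of_add_eq_zero_right h

/-- `ζ h(E a + ω E b, E t) = B(a, t) + ω B(b, t)`. -/
theorem us_K1 (D : USData n q F₀ ζ P) (ω : F) (a b t : Fin n → F₀) :
    ζ * Cfsg.hermForm n F q (us_E P a + ω • us_E P b) (us_E P t) =
      (us_B D a t : F) + ω * (us_B D b t : F) := by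
  rw [us_B_val, us_B_val, us_h_add_left, us_h_smul_left]
  ring

/-- `ζ h(E t, E a + ω E b) = B(t, a) + ω^q B(t, b)`. -/
theorem us_K2 (D : USData n q F₀ ζ P) (ω : F) (a b t : Fin n → F₀) :
    ζ * Cfsg.hermForm n F q (us_E P t) (us_E P a + ω • us_E P b) =
      (us_B D t a : F) + ω ^ q * (us_B D t b : F) := by
  rw [us_B_val, us_B_val, us_h_add_right D.hF, us_h_smul_right]
  ring

/-- `ζ h(w, w) = (ω^q - ω) B(a, b)` for `w = E a + ω E b`. -/
theorem us_K3 (D : USData n q F₀ ζ P) (ω : F) (a b : Fin n → F₀) :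
    ζ * Cfsg.hermForm n F q (us_E P a + ω • us_E P b) (us_E P a + ω • us_E P b) =
      (ω ^ q - ω) * (us_B D a b : F) := by
  have h1 : ((us_B D a a : F₀) : F) = 0 := by rw [us_B_alt]; rfl
  have h2 : ((us_B D b b : F₀) : F) = 0 := by rw [us_B_alt]; rfl
  have h3 : ((us_B D b a : F₀) : F) = - (us_B D a b : F) := by rw [us_B_skew D b a]; rfl
  have hab := us_B_val D a b
  rw [us_B_val] at h1 h2 h3
  rw [us_h_add_left, us_h_smul_left, us_h_add_right D.hF, us_h_add_right D.hF,
    us_h_smul_right, us_h_smul_right]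
  linear_combination h1 + ω * ω ^ q * h2 + ω * h3 - ω ^ q * hab

theorem us_iso_iff (D : USData n q F₀ ζ P) {ω : F} (hω : ω ∉ F₀) (a b : Fin n → F₀) :
    Cfsg.hermForm n F q (us_E P a + ω • us_E P b) (us_E P a + ω • us_E P b) = 0 ↔
      us_B D a b = 0 := by
  have h := us_K3 D ω a b
  constructor
  · intro h0
    rw [h0, mul_zero] at h
    rcases mul_eq_zero.mp h.symm with h1 | h1
    · exact absurd h1 (D.pow_ne hω)
    · exact Subtype.ext h1
  · intro h0
    rw [h0] at h
    have h' : ζ * Cfsg.hermForm n F q (us_E P a + ω • us_E P b) (us_E P a + ω • us_E P b) = 0 := by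
      rw [h]
      simp
    rcases mul_eq_zero.mp h' with h1 | h1
    · exact absurd h1 D.hζ0
    · exact h1

theorem us_B_isSF (D : USData n q F₀ ζ P) : IsSF (us_B D) := by
  refine ⟨us_B_skew D, us_B_alt D, ?_⟩
  intro v hv
  by_contra hcon
  push Not at hcon
  obtain ⟨ω, hω⟩ := D.exists_not_mem
  apply hv
  apply us_E_inj (P := P)
  rw [us_E_zero]
  apply us_h_nd (q := q) (by have := us_two_le D.hF; omega)
  intro x
  obtain ⟨a, b, rfl⟩ := D.vdecomp hω x
  have h1 := us_K1 D ω a b v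
  rw [hcon a, hcon b] at h1
  have h2 : ζ * Cfsg.hermForm n F q (us_E P a + ω • us_E P b) (us_E P v) = 0 := by
    rw [h1]
    simp
  rcases mul_eq_zero.mp h2 with h3 | h3
  · exact absurd h3 D.hζ0
  · exact h3

/-! ### The subfield group and rational vectors -/

theorem us_rat_of_mem (g : GL (Fin n) F) (hg : g ∈ subfieldSubgroup F₀ P) (a : Fin n → F₀) :
    ∃ (l : F) (b : Fin n → F₀), (g : Matrix (Fin n) (Fin n) F) *ᵥ us_E P a = l • us_E P b := by
  unfold subfieldSubgroup at hg
  obtain ⟨k, hk, rfl⟩ := Subgroup.mem_map.mp hg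
  have hk' : k ∈ (((Matrix.GeneralLinearGroup.map (F₀.subtype : F₀ →+* F)).range :
      Subgroup (GL (Fin n) F)) : Set (GL (Fin n) F)) * (scalars (Fin n) F : Set (GL (Fin n) F)) := by
    rw [← Subgroup.mul_normal]
    exact hk
  obtain ⟨m, ⟨m₀, rfl⟩, z, hz, rfl⟩ := Set.mem_mul.mp hk'
  obtain ⟨c, hc⟩ := (mem_scalars_iff z).mp hz
  refine ⟨c, (m₀ : Matrix (Fin n) (Fin n) F₀) *ᵥ a, ?_⟩
  have h1 : ((Matrix.GeneralLinearGroup.map (F₀.subtype : F₀ →+* F) m₀ : GL (Fin n) F) :
      Matrix (Fin n) (Fin n) F) *ᵥ us_c a = us_c ((m₀ : Matrix (Fin n) (Fin n) F₀) *ᵥ a) := by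
    funext i
    exact (RingHom.map_mulVec (F₀.subtype) (m₀ : Matrix (Fin n) (Fin n) F₀) a i).symm
  simp only [MulEquiv.coe_toMonoidHom, MulAut.conj_apply]
  rw [Units.val_mul, Units.val_mul, Units.val_mul, ← mulVec_mulVec, ← mulVec_mulVec,
    ← mulVec_mulVec, us_Pinv_E, hc, smul_mulVec, one_mulVec, mulVec_smul, h1, mulVec_smul]
  rfl

theorem us_mem_subfield (D : USData n q F₀ ζ P) (j0 : Fin n) (g : GL (Fin n) F)
    (hg : ∀ a : Fin n → F₀, ∃ (l : F) (b : Fin n → F₀),
      (g : Matrix (Fin n) (Fin n) F) *ᵥ us_E P a = l • us_E P b) :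
    g ∈ subfieldSubgroup F₀ P := by
  have hB := us_B_isSF D
  obtain ⟨N, hN⟩ : ∃ N : GL (Fin n) F, N = P⁻¹ * g * P := ⟨_, rfl⟩
  have hNa : ∀ a : Fin n → F₀, ∃ (l : F) (b : Fin n → F₀),
      (N : Matrix (Fin n) (Fin n) F) *ᵥ us_c a = l • us_c b := by
    intro a
    obtain ⟨l, b, h⟩ := hg a
    refine ⟨l, b, ?_⟩
    rw [hN, Units.val_mul, Units.val_mul, ← mulVec_mulVec, ← mulVec_mulVec]
    have h1 : (P : Matrix (Fin n) (Fin n) F) *ᵥ us_c a = us_E P a := rfl
    rw [h1, h, mulVec_smul, us_Pinv_E]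
  have hNinj : ∀ x : Fin n → F, (N : Matrix (Fin n) (Fin n) F) *ᵥ x = 0 → x = 0 := by
    intro x hx
    have h1 := congrArg (fun y => ((N⁻¹ : GL (Fin n) F) : Matrix (Fin n) (Fin n) F) *ᵥ y) hx
    simpa [mulVec_mulVec, ← Units.val_mul] using h1
  choose l b hlb using fun j => hNa (Pi.single j 1)
  have hl0 : ∀ j, l j ≠ 0 := by
    intro j h0
    have h1 := hlb j
    rw [h0, zero_smul] at h1
    have h2 := hNinj _ h1
    rw [us_c_single] at h2
    have h3 := congrFun h2 j
    simp at h3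
  have hb0 : ∀ j, b j ≠ 0 := by
    intro j h0
    have h1 := hlb j
    rw [h0, us_c_zero, smul_zero] at h1
    have h2 := hNinj _ h1
    rw [us_c_single] at h2
    have h3 := congrFun h2 j
    simp at h3
  have hind : ∀ j j', j ≠ j' → ∀ c : F₀, b j ≠ c • b j' := by
    intro j j' hjj c hc
    have h1 := hlb j
    rw [hc, us_c_smul, smul_smul] at h1
    have h2 : (N : Matrix (Fin n) (Fin n) F) *ᵥ (us_c (Pi.single j (1 : F₀)) -
        (l j * c / l j') • us_c (Pi.single j' (1 : F₀))) = 0 := by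
      rw [mulVec_sub, mulVec_smul, h1, hlb j', smul_smul, div_mul_cancel₀ _ (hl0 j'), sub_self]
    have h3 := hNinj _ h2
    rw [us_c_single, us_c_single] at h3
    have h4 := congrFun h3 j
    simp [Pi.single_eq_of_ne hjj] at h4
  have hrat : ∀ j, ∃ s : F₀, l j = l j0 * s := by
    intro j
    by_cases hj : j = j0
    · subst hj
      exact ⟨1, by simp⟩
    · obtain ⟨l', b', h'⟩ := hNa (Pi.single j0 1 + Pi.single j 1)
      rw [us_c_add, mulVec_add, hlb j0, hlb j] at h'
      have hΦ : ∀ t : Fin n → F₀, l j0 * (us_B D (b j0) t : F) + l j * (us_B D (b j) t : F) =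
          l' * (us_B D b' t : F) := by
        intro t
        have h1 := congrArg (fun z => ζ * Cfsg.hermForm n F q
          ((P : Matrix (Fin n) (Fin n) F) *ᵥ z) (us_E P t)) h'
        simp only [mulVec_add, mulVec_smul, us_h_add_left, us_h_smul_left] at h1
        rw [us_B_val, us_B_val, us_B_val]
        unfold us_E at h1 ⊢
        linear_combination h1
      obtain ⟨t₁, ht₁, ht₁'⟩ := exists_free hB (b j) (b j0) (hb0 j) (hind j0 j (Ne.symm hj))
      obtain ⟨t₂, ht₂, ht₂'⟩ := exists_free hB (b j0) (b j) (hb0 j0) (hind j j0 hj)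
      have e1 := hΦ t₁
      have e2 := hΦ t₂
      rw [ht₁] at e1
      rw [ht₂] at e2
      simp only [ZeroMemClass.coe_zero, mul_zero, add_zero, zero_add] at e1 e2
      have hc1 : ((us_B D (b j0) t₁ : F₀) : F) ≠ 0 := fun h => ht₁' (Subtype.ext h)
      have hc2 : ((us_B D (b j) t₂ : F₀) : F) ≠ 0 := fun h => ht₂' (Subtype.ext h)
      have hc3 : ((us_B D b' t₁ : F₀) : F) ≠ 0 := by
        intro h0
        rw [h0, mul_zero] at e1
        exact (mul_ne_zero (hl0 j0) hc1) e1
      refine ⟨us_B D (b j0) t₁ * us_B D b' t₂ / (us_B D b' t₁ * us_B D (b j) t₂), ?_⟩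
      rw [Subfield.coe_div, Subfield.coe_mul, Subfield.coe_mul, ← mul_div_assoc,
        eq_div_iff (mul_ne_zero hc3 hc2)]
      linear_combination (us_B D b' t₁ : F) * e2 - (us_B D b' t₂ : F) * e1
  choose s hs using hrat
  obtain ⟨N₀, hN₀⟩ : ∃ N₀ : Matrix (Fin n) (Fin n) F₀, N₀ = Matrix.of (fun i j => s j * b j i) :=
    ⟨_, rfl⟩
  have hNval : (N : Matrix (Fin n) (Fin n) F) = l j0 • N₀.map (F₀.subtype) := by
    ext i j
    have h1 := congrFun (hlb j) i
    rw [us_c_single, mulVec_single_one] at h1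
    rw [Matrix.smul_apply, Matrix.map_apply, hN₀, Matrix.of_apply, smul_eq_mul]
    rw [show (N : Matrix (Fin n) (Fin n) F) i j = (l j • us_c (b j)) i from h1, hs j]
    simp [us_c]
    ring
  have hdet : N₀.det ≠ 0 := by
    intro h0
    have h1 : (N : Matrix (Fin n) (Fin n) F).det = 0 := by
      rw [hNval, det_smul, ← RingHom.mapMatrix_apply, ← RingHom.map_det, h0, map_zero, mul_zero]
    have h2 : (N : Matrix (Fin n) (Fin n) F).det ≠ 0 := by
      rw [← Matrix.GeneralLinearGroup.val_det_apply]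
      exact Units.ne_zero _
    exact h2 h1
  have hmem : N ∈ (Matrix.GeneralLinearGroup.map (F₀.subtype : F₀ →+* F)).range ⊔
      scalars (Fin n) F := by
    have h1 : N = Matrix.GeneralLinearGroup.map (F₀.subtype : F₀ →+* F)
        (Matrix.GeneralLinearGroup.mkOfDetNeZero N₀ hdet) *
        ((Matrix.GeneralLinearGroup.map (F₀.subtype : F₀ →+* F)
        (Matrix.GeneralLinearGroup.mkOfDetNeZero N₀ hdet))⁻¹ * N) := by
      rw [mul_inv_cancel_left]
    rw [h1]
    refine Subgroup.mul_mem_sup ⟨_, rfl⟩ ?_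
    rw [mem_scalars_iff]
    refine ⟨Units.mk0 (l j0) (hl0 j0), ?_⟩
    have h2 : ((Matrix.GeneralLinearGroup.map (F₀.subtype : F₀ →+* F)
        (Matrix.GeneralLinearGroup.mkOfDetNeZero N₀ hdet) : GL (Fin n) F) :
        Matrix (Fin n) (Fin n) F) = N₀.map (F₀.subtype) := rfl
    rw [Units.val_mul, hNval, Matrix.mul_smul, ← h2, ← Units.val_mul, inv_mul_cancel, Units.val_one]
    rfl
  unfold subfieldSubgroup
  refine Subgroup.mem_map.mpr ⟨N, hmem, ?_⟩
  simp only [MulEquiv.coe_toMonoidHom, MulAut.conj_apply]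
  rw [hN]
  group

end USub2

end Cfsg.Agent.Helper98
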