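import Mathlib
import Cfsg.Prelude.Def_GeometricClasses
import Cfsg.Prelude.Def_LieClassical
import Cfsg.Agent.Helper93.Transv
import Cfsg.Agent.Helper93.TransvMax
import Cfsg.Agent.Helper98.FieldSub
import Cfsg.Agent.Helper98.SympMax
import Cfsg.Agent.Helper98.USub
import Cfsg.Agent.Helper98.USub2

/-!
The symplectic subfield group `Sp_n(q)` in `SU_n(q)`, part 3: maximality, given that `SU_n(q)` is
generated by unitary transvections.
-/

set_option autoImplicit false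
set_option linter.unusedSectionVars false
set_option linter.unusedSimpArgs false

namespace Cfsg.Agent.Helper98

open Matrix Cfsg.Agent.Helper93 Cfsg.Geo

section USubT

variable {ι : Type} [Fintype ι] [DecidableEq ι] {K : Type*} [Field K]

/-- The monoid generated by the symplectic transvections. -/
def us_T (B : (ι → K) →ₗ[K] (ι → K) →ₗ[K] K) (hB : IsSF B) : Submonoid (GL ι K) :=
  Submonoid.closure {g | ∃ u a, g = st B hB u a}

theorem us_T_iso {B : (ι → K) →ₗ[K] (ι → K) →ₗ[K] K} (hB : IsSF B) (g : GL ι K)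
    (hg : g ∈ us_T B hB) (x y : ι → K) :
    B ((g : Matrix ι ι K) *ᵥ x) ((g : Matrix ι ι K) *ᵥ y) = B x y := by
  induction hg using Submonoid.closure_induction generalizing x y with
  | mem g hg =>
    obtain ⟨u, a, rfl⟩ := hg
    exact st_iso hB u a x y
  | one => simp
  | mul g h _ _ ihg ihh => rw [Units.val_mul, ← mulVec_mulVec, ← mulVec_mulVec, ihg, ihh]

theorem us_T_move1 {B : (ι → K) →ₗ[K] (ι → K) →ₗ[K] K} (hB : IsSF B) (u₀ w w' : ι → K)
    (h0 : B u₀ w = 0) (h0' : B u₀ w' = 0) (hne : B w w' ≠ 0) :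
    ∃ g ∈ us_T B hB, (g : Matrix ι ι K) *ᵥ u₀ = u₀ ∧ (g : Matrix ι ι K) *ᵥ w = w' := by
  refine ⟨st B hB (w - w') (B w w')⁻¹, Submonoid.subset_closure ⟨_, _, rfl⟩, ?_, ?_⟩
  · rw [st_mulVec, map_sub, h0, h0', sub_zero, mul_zero, zero_smul, add_zero]
  · rw [st_mulVec, map_sub, hB.alt, zero_sub, mul_neg, inv_mul_cancel₀ hne, neg_smul, one_smul]
    abel

theorem us_T_move {B : (ι → K) →ₗ[K] (ι → K) →ₗ[K] K} (hB : IsSF B) (u₀ w w' : ι → K)
    (h0 : B u₀ w = 0) (h0' : B u₀ w' = 0)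
    (ha : ∃ a, B u₀ a = 0 ∧ B w a ≠ 0) (hb : ∃ b, B u₀ b = 0 ∧ B w' b ≠ 0) :
    ∃ g ∈ us_T B hB, (g : Matrix ι ι K) *ᵥ u₀ = u₀ ∧ (g : Matrix ι ι K) *ᵥ w = w' := by
  by_cases hne : B w w' = 0
  · obtain ⟨c, hc0, hc1, hc2⟩ := connect hB u₀ w w' ha hb
    obtain ⟨g₁, hg₁, hu₁, hw₁⟩ := us_T_move1 hB u₀ w c h0 hc0 hc1
    obtain ⟨g₂, hg₂, hu₂, hw₂⟩ := us_T_move1 hB u₀ c w' hc0 h0' hc2
    refine ⟨g₂ * g₁, Submonoid.mul_mem _ hg₂ hg₁, ?_, ?_⟩
    · rw [Units.val_mul, ← mulVec_mulVec, hu₁, hu₂]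
    · rw [Units.val_mul, ← mulVec_mulVec, hw₁, hw₂]
  · exact us_T_move1 hB u₀ w w' h0 h0' hne

/-- Transitivity of the transvection monoid on independent orthogonal pairs. -/
theorem us_T_pair {B : (ι → K) →ₗ[K] (ι → K) →ₗ[K] K} (hB : IsSF B) (a b a' b' : ι → K)
    (ha : a ≠ 0) (hb : ∀ c : K, b ≠ c • a) (hab : B a b = 0)
    (ha' : a' ≠ 0) (hb' : ∀ c : K, b' ≠ c • a') (hab' : B a' b' = 0) :
    ∃ g ∈ us_T B hB, (g : Matrix ι ι K) *ᵥ a = a' ∧ (g : Matrix ι ι K) *ᵥ b = b' := by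
  obtain ⟨g₁, hg₁, _, h1⟩ := us_T_move hB 0 a a' (by simp) (by simp)
    (by obtain ⟨x, hx⟩ := hB.nd' a ha; exact ⟨x, by simp, hx⟩)
    (by obtain ⟨x, hx⟩ := hB.nd' a' ha'; exact ⟨x, by simp, hx⟩)
  have hb₁ : ∀ c : K, (g₁ : Matrix ι ι K) *ᵥ b ≠ c • a' := by
    intro c hc
    apply hb c
    rw [← h1, ← mulVec_smul] at hc
    have h2 := congrArg (fun y => ((g₁⁻¹ : GL ι K) : Matrix ι ι K) *ᵥ y) hc
    simpa [mulVec_mulVec, ← Units.val_mul] using h2
  have hab₁ : B a' ((g₁ : Matrix ι ι K) *ᵥ b) = 0 := by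
    rw [← h1, us_T_iso hB g₁ hg₁, hab]
  obtain ⟨g₂, hg₂, h2, h3⟩ := us_T_move hB a' ((g₁ : Matrix ι ι K) *ᵥ b) b' hab₁ hab'
    (exists_free hB a' _ ha' hb₁) (exists_free hB a' b' ha' hb')
  refine ⟨g₂ * g₁, Submonoid.mul_mem _ hg₂ hg₁, ?_, ?_⟩
  · rw [Units.val_mul, ← mulVec_mulVec, h1, h2]
  · rw [Units.val_mul, ← mulVec_mulVec, h3]

theorem us_exists_pair {B : (ι → K) →ₗ[K] (ι → K) →ₗ[K] K} (i0 i1 i2 : ι)
    (h01 : i0 ≠ i1) (h02 : i0 ≠ i2) (h12 : i1 ≠ i2) :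
    ∃ a b : ι → K, a ≠ 0 ∧ (∀ c : K, b ≠ c • a) ∧ B a b = 0 := by
  have ha : (Pi.single i0 (1 : K) : ι → K) ≠ 0 := by
    intro h
    have h1 := congrFun h i0
    simp at h1
  by_cases h1 : B (Pi.single i0 1) (Pi.single i1 1) = 0
  · refine ⟨Pi.single i0 1, Pi.single i1 1, ha, ?_, h1⟩
    intro c hc
    have h2 := congrFun hc i1
    simp [Pi.single_apply, h01, h01.symm] at h2
  · refine ⟨Pi.single i0 1, Pi.single i2 1 - (B (Pi.single i0 1) (Pi.single i2 1) /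
      B (Pi.single i0 1) (Pi.single i1 1)) • Pi.single i1 1, ha, ?_, ?_⟩
    · intro c hc
      have h2 := congrFun hc i2
      simp [Pi.single_apply, h02, h02.symm, h12, h12.symm] at h2
    · rw [map_sub, map_smul, smul_eq_mul, div_mul_cancel₀ _ h1, sub_self]

end USubT

section USub3

variable {F : Type*} [Field F] [Fintype F] {n q : ℕ} {F₀ : Subfield F} {ζ : F} {P : GL (Fin n) F}

/-- A rational unitary transvection acts on rational vectors as a symplectic transvection. -/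
theorem us_rat_tv (D : USData n q F₀ ζ P) (u : Fin n → F₀) (s : F₀)
    (hw : Cfsg.hermForm n F q (us_E P u) (us_E P u) = 0) (a : Fin n → F₀) :
    ((us_ut n q (us_E P u) (ζ * s) hw : GL (Fin n) F) : Matrix (Fin n) (Fin n) F) *ᵥ us_E P a =
      us_E P (((st (us_B D) (us_B_isSF D) u s : GL (Fin n) F₀) : Matrix (Fin n) (Fin n) F₀) *ᵥ a) := by
  rw [us_ut_mulVec, st_mulVec, us_E_add, us_E_smul]
  congr 2
  rw [Subfield.coe_mul, us_B_val]
  ring

theorem us_rat_tv_mem (D : USData n q F₀ ζ P) (j0 : Fin n) (u : Fin n → F₀) (c : F)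
    (hc : c ^ q = -c) (hw : Cfsg.hermForm n F q (us_E P u) (us_E P u) = 0) :
    us_ut n q (us_E P u) c hw ∈
      subfieldSubgroup F₀ P ⊓ (Cfsg.GU n F q ⊓ specialLinear (Fin n) F) := by
  have hs : c / ζ ∈ F₀ := by
    apply D.mem_of_pow
    rw [div_pow, hc, D.zeta_pow, neg_div_neg_eq]
  obtain ⟨s, hcs⟩ : ∃ s : F₀, c = ζ * s := ⟨⟨c / ζ, hs⟩, by
    show c = ζ * (c / ζ)
    rw [mul_div_cancel₀ _ D.hζ0]⟩
  subst hcs
  refine ⟨us_mem_subfield D j0 _ (fun a =>
    ⟨1, ((st (us_B D) (us_B_isSF D) u s : GL (Fin n) F₀) : Matrix (Fin n) (Fin n) F₀) *ᵥ a, ?_⟩),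
    us_ut_mem D.hF _ _ _ hc⟩
  rw [one_smul, us_rat_tv D u s hw a]

/-- The centres of the full unitary transvection groups contained in `M`. -/
def us_C (n q : ℕ) (M : Subgroup (GL (Fin n) F)) : Set (Fin n → F) :=
  {w | ∃ hw : Cfsg.hermForm n F q w w = 0, ∀ c : F, c ^ q = -c → us_ut n q w c hw ∈ M}

theorem us_C_smul (hF : Fintype.card F = q ^ 2) (M : Subgroup (GL (Fin n) F)) (w : Fin n → F)
    (hw : w ∈ us_C n q M) (l : F) : l • w ∈ us_C n q M := by
  obtain ⟨hw0, hwM⟩ := hw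
  have h0 : Cfsg.hermForm n F q (l • w) (l • w) = 0 := by
    rw [us_h_smul_left, us_h_smul_right, hw0, mul_zero, mul_zero]
  refine ⟨h0, fun c hc => ?_⟩
  rw [us_ut_smul hF l w c hw0 h0]
  apply hwM
  rw [mul_pow, mul_pow, us_pow_pow hF, hc]
  ring

theorem us_C_mul (M : Subgroup (GL (Fin n) F)) (hM : M ≤ Cfsg.GU n F q) (g : GL (Fin n) F)
    (hg : g ∈ M) (w : Fin n → F) (hw : w ∈ us_C n q M) :
    (g : Matrix (Fin n) (Fin n) F) *ᵥ w ∈ us_C n q M := by
  obtain ⟨hw0, hwM⟩ := hw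
  have h0 : Cfsg.hermForm n F q ((g : Matrix (Fin n) (Fin n) F) *ᵥ w)
      ((g : Matrix (Fin n) (Fin n) F) *ᵥ w) = 0 := by
    rw [(us_mem_GU_iff g).mp (hM hg), hw0]
  refine ⟨h0, fun c hc => ?_⟩
  rw [← us_ut_conj g (hM hg) w c hw0 h0]
  exact M.mul_mem (M.mul_mem hg (hwM c hc)) (M.inv_mem hg)

/-- The subfield group is a proper subgroup of the special unitary group. -/
theorem us_symp_lt (D : USData n q F₀ ζ P) (hn : 3 ≤ n) :
    subfieldSubgroup F₀ P ⊓ (Cfsg.GU n F q ⊓ specialLinear (Fin n) F) <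
      Cfsg.GU n F q ⊓ specialLinear (Fin n) F := by
  have hB := us_B_isSF D
  obtain ⟨ω, hω⟩ := D.exists_not_mem
  rw [SetLike.lt_iff_le_and_exists]
  refine ⟨inf_le_right, ?_⟩
  obtain ⟨a₀, b₀, ha₀, hb₀, hab₀⟩ := us_exists_pair (B := us_B D) (⟨0, by omega⟩ : Fin n)
    ⟨1, by omega⟩ ⟨2, by omega⟩ (by simp [Fin.ext_iff]) (by simp [Fin.ext_iff])
    (by simp [Fin.ext_iff])
  have hb₀0 : b₀ ≠ 0 := by
    intro h
    apply hb₀ 0
    rw [h, zero_smul]
  have ha₀' : ∀ c : F₀, a₀ ≠ c • b₀ := by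
    intro c hc
    by_cases hc0 : c = 0
    · apply ha₀
      rw [hc, hc0, zero_smul]
    · apply hb₀ c⁻¹
      rw [hc, smul_smul, inv_mul_cancel₀ hc0, one_smul]
  have hw : Cfsg.hermForm n F q (us_E P a₀ + ω • us_E P b₀) (us_E P a₀ + ω • us_E P b₀) = 0 :=
    (us_iso_iff D hω a₀ b₀).mpr hab₀
  refine ⟨us_ut n q _ ζ hw, us_ut_mem D.hF _ _ _ D.zeta_pow, fun hmem => ?_⟩
  obtain ⟨t₁, ht₁, ht₁'⟩ := exists_free hB b₀ a₀ hb₀0 ha₀'
  obtain ⟨l, b, hlb⟩ := us_rat_of_mem _ hmem.1 t₁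
  obtain ⟨s, t, rfl⟩ := D.decomp hω l
  have hβ : us_B D t₁ a₀ ≠ 0 := by
    rw [us_B_skew]
    exact neg_ne_zero.mpr ht₁'
  have h1 : ζ * Cfsg.hermForm n F q (us_E P t₁) (us_E P a₀ + ω • us_E P b₀) =
      (us_B D t₁ a₀ : F) := by
    rw [us_K2 D, us_B_skew D t₁ b₀, ht₁]
    simp
  rw [us_ut_mulVec, h1] at hlb
  have h2 : us_E P (t₁ + us_B D t₁ a₀ • a₀) + ω • us_E P (us_B D t₁ a₀ • b₀) =
      us_E P (s • b) + ω • us_E P (t • b) := by
    rw [us_E_add, us_E_smul, us_E_smul, us_E_smul, us_E_smul]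
    rw [add_smul, smul_add] at hlb
    rw [smul_smul, mul_comm ω, ← smul_smul, smul_smul ω, ← hlb]
    abel
  obtain ⟨e1, e2⟩ := D.vdecomp_inj hω _ _ _ _ h2
  have e3 := congrArg (fun x => us_B D x t₁) e1
  have e4 := congrArg (fun x => us_B D x t₁) e2
  simp only [map_add, map_smul, LinearMap.add_apply, LinearMap.smul_apply, smul_eq_mul,
    us_B_alt, zero_add, ht₁, mul_zero] at e3 e4
  have ht0 : t ≠ 0 := by
    intro h0
    rw [h0, zero_smul] at e2
    rcases smul_eq_zero.mp e2 with h3 | h3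
    · exact hβ h3
    · exact hb₀0 h3
  have e5 : us_B D b t₁ = 0 := by
    rcases mul_eq_zero.mp e4.symm with h3 | h3
    · exact absurd h3 ht0
    · exact h3
  rw [e5, mul_zero] at e3
  rcases mul_eq_zero.mp e3 with h3 | h3
  · exact hβ h3
  · exact ht₁' h3

/-- **Maximality of the symplectic subfield group in `SU_n(q)`**, given generation of `SU_n(q)`
by unitary transvections. -/
theorem us_symp_max (D : USData n q F₀ ζ P) (hn : 3 ≤ n)
    (hgen : ∀ M : Subgroup (GL (Fin n) F),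
      (∀ (w : Fin n → F) (c : F) (hw : Cfsg.hermForm n F q w w = 0), c ^ q = -c →
        us_ut n q w c hw ∈ M) → Cfsg.GU n F q ⊓ specialLinear (Fin n) F ≤ M) :
    IsMaximalIn (Cfsg.GU n F q ⊓ specialLinear (Fin n) F)
      (subfieldSubgroup F₀ P ⊓ (Cfsg.GU n F q ⊓ specialLinear (Fin n) F)) := by
  have hB := us_B_isSF D
  obtain ⟨ω, hω⟩ := D.exists_not_mem
  refine ⟨us_symp_lt D hn, fun M hHM hMG => ?_⟩
  by_cases hMH : M = subfieldSubgroup F₀ P ⊓ (Cfsg.GU n F q ⊓ specialLinear (Fin n) F)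
  · exact Or.inl hMH
  right
  apply le_antisymm hMG
  apply hgen
  have hMU : M ≤ Cfsg.GU n F q := hMG.trans inf_le_left
  -- rational vectors are centres
  have hrat : ∀ a : Fin n → F₀, us_E P a ∈ us_C n q M := fun a =>
    ⟨D.halt _ (fun i => (a i).2), fun c hc =>
      hHM (us_rat_tv_mem D ⟨0, by omega⟩ a c hc (D.halt _ (fun i => (a i).2)))⟩
  -- a new centre
  obtain ⟨y, hyM, hyH⟩ := SetLike.exists_of_lt (lt_of_le_of_ne hHM (Ne.symm hMH))
  have hyS : y ∉ subfieldSubgroup F₀ P := fun h => hyH ⟨h, hMG hyM⟩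
  obtain ⟨a₀, ha₀⟩ : ∃ a₀ : Fin n → F₀, ∀ (l : F) (b : Fin n → F₀),
      (y : Matrix (Fin n) (Fin n) F) *ᵥ us_E P a₀ ≠ l • us_E P b := by
    by_contra hcon
    push Not at hcon
    exact hyS (us_mem_subfield D ⟨0, by omega⟩ y hcon)
  have hw₁ := us_C_mul M hMU y hyM _ (hrat a₀)
  obtain ⟨a₁, b₁, hab₁⟩ := D.vdecomp hω ((y : Matrix (Fin n) (Fin n) F) *ᵥ us_E P a₀)
  rw [hab₁] at hw₁ ha₀
  have ha₁ : a₁ ≠ 0 := by
    intro h0
    apply ha₀ ω b₁
    rw [h0, us_E_zero, zero_add]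
  have hb₁ : ∀ c : F₀, b₁ ≠ c • a₁ := by
    intro c hc
    apply ha₀ (1 + ω * c) a₁
    rw [hc, us_E_smul, smul_smul, add_smul, one_smul]
  have hB₁ : us_B D a₁ b₁ = 0 := by
    obtain ⟨h0, _⟩ := hw₁
    exact (us_iso_iff D hω a₁ b₁).mp h0
  -- invariance of the pairs under the transvection monoid
  have hinv : ∀ g ∈ us_T (us_B D) hB, ∀ a b : Fin n → F₀,
      us_E P a + ω • us_E P b ∈ us_C n q M →
      us_E P ((g : Matrix (Fin n) (Fin n) F₀) *ᵥ a) +
        ω • us_E P ((g : Matrix (Fin n) (Fin n) F₀) *ᵥ b) ∈ us_C n q M := by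
    intro g hg
    induction hg using Submonoid.closure_induction with
    | mem g hg =>
      obtain ⟨u, s, rfl⟩ := hg
      intro a b hab
      have hu : Cfsg.hermForm n F q (us_E P u) (us_E P u) = 0 := D.halt _ (fun i => (u i).2)
      have hT : us_ut n q (us_E P u) (ζ * s) hu ∈ M := by
        apply hHM
        apply us_rat_tv_mem D ⟨0, by omega⟩ u (ζ * s) _ hu
        rw [mul_pow, D.zeta_pow, D.pow_mem]
        ring
      have h1 := us_C_mul M hMU _ hT _ hab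
      rw [mulVec_add, mulVec_smul, us_rat_tv D u s hu, us_rat_tv D u s hu] at h1
      exact h1
    | one =>
      intro a b hab
      rw [Units.val_one, one_mulVec, one_mulVec]
      exact hab
    | mul g h _ _ ihg ihh =>
      intro a b hab
      rw [Units.val_mul, ← mulVec_mulVec, ← mulVec_mulVec]
      exact ihg _ _ (ihh _ _ hab)
  -- every isotropic vector is a centre
  have hall : ∀ w : Fin n → F, Cfsg.hermForm n F q w w = 0 → w ∈ us_C n q M := by
    intro w hw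
    obtain ⟨a, b, rfl⟩ := D.vdecomp hω w
    have hab : us_B D a b = 0 := (us_iso_iff D hω a b).mp hw
    by_cases ha : a = 0
    · rw [ha, us_E_zero, zero_add]
      exact us_C_smul D.hF M _ (hrat b) ω
    by_cases hb : ∃ c : F₀, b = c • a
    · obtain ⟨c, rfl⟩ := hb
      have h1 : us_E P a + ω • us_E P (c • a) = (1 + ω * c) • us_E P a := by
        rw [us_E_smul, smul_smul, add_smul, one_smul]
      rw [h1]
      exact us_C_smul D.hF M _ (hrat a) _
    push Not at hb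
    obtain ⟨g, hg, hga, hgb⟩ := us_T_pair hB a₁ b₁ a b ha₁ hb₁ hB₁ ha hb hab
    have h2 := hinv g hg a₁ b₁ hw₁
    rw [hga, hgb] at h2
    exact h2
  intro w c hw hc
  obtain ⟨_, h⟩ := hall w hw
  exact h c hc

/-- Generation by unitary transvections, in the form used above, from the closure statement in
`SU_n(q)`. -/
theorem us_gen_of_closure (hF : Fintype.card F = q ^ 2)
    (hcl : Subgroup.closure {A : ↥(Cfsg.SU n F q) | ∃ (v : Fin n → F) (c : F),
      Cfsg.hermForm n F q v v = 0 ∧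
      ((A : Matrix.SpecialLinearGroup (Fin n) F) : Matrix (Fin n) (Fin n) F) =
        Cfsg.unitaryTransvection n q v c} = ⊤)
    (M : Subgroup (GL (Fin n) F))
    (hM : ∀ (w : Fin n → F) (c : F) (hw : Cfsg.hermForm n F q w w = 0), c ^ q = -c →
      us_ut n q w c hw ∈ M) :
    Cfsg.GU n F q ⊓ specialLinear (Fin n) F ≤ M := by
  have hq := us_two_le hF
  intro g hg
  obtain ⟨ψ, hψ⟩ : ∃ ψ : ↥(Cfsg.SU n F q) →* GL (Fin n) F,
      ψ = Matrix.SpecialLinearGroup.toGL.comp (Cfsg.SU n F q).subtype := ⟨_, rfl⟩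
  have hψv : ∀ A : ↥(Cfsg.SU n F q), ((ψ A : GL (Fin n) F) : Matrix (Fin n) (Fin n) F) =
      ((A : Matrix.SpecialLinearGroup (Fin n) F) : Matrix (Fin n) (Fin n) F) := by
    intro A
    rw [hψ]
    rfl
  have hle : Subgroup.closure {A : ↥(Cfsg.SU n F q) | ∃ (v : Fin n → F) (c : F),
      Cfsg.hermForm n F q v v = 0 ∧
      ((A : Matrix.SpecialLinearGroup (Fin n) F) : Matrix (Fin n) (Fin n) F) =
        Cfsg.unitaryTransvection n q v c} ≤ M.comap ψ := by
    rw [Subgroup.closure_le]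
    rintro A ⟨v, c, hv, hA⟩
    show ψ A ∈ M
    have hψA : ψ A = us_ut n q v c hv := by
      apply Units.ext
      rw [hψv, us_ut_val, hA]
    by_cases hv0 : v = 0
    · subst hv0
      have h1 : us_ut n q (0 : Fin n → F) c hv = 1 := by
        apply gl_ext'
        intro x
        rw [us_ut_mulVec, smul_zero, add_zero, Units.val_one, one_mulVec]
      rw [hψA, h1]
      exact M.one_mem
    · have hc : c ^ q = -c := by
        obtain ⟨x, hx⟩ : ∃ x, Cfsg.hermForm n F q x v ≠ 0 := by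
          by_contra hcon
          push Not at hcon
          exact hv0 (us_h_nd (by omega) v hcon)
        have h1 : Cfsg.hermForm n F q (((ψ A : GL (Fin n) F) : Matrix (Fin n) (Fin n) F) *ᵥ x)
            (((ψ A : GL (Fin n) F) : Matrix (Fin n) (Fin n) F) *ᵥ x) = Cfsg.hermForm n F q x x := by
          rw [hψv]
          exact A.2 x x
        rw [hψA, us_ut_mulVec, us_h_add_left, us_h_add_right hF, us_h_add_right hF,
          us_h_smul_left, us_h_smul_left, us_h_smul_right, us_h_smul_right, hv, mul_pow,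
          ← us_h_swap hF x v] at h1
        have h3 : (c ^ q + c) * (Cfsg.hermForm n F q x v * Cfsg.hermForm n F q v x) = 0 := by
          linear_combination h1
        rcases mul_eq_zero.mp h3 with h4 | h4
        · linear_combination h4
        · exfalso
          rcases mul_eq_zero.mp h4 with h5 | h5
          · exact hx h5
          · rw [us_h_swap hF x v] at h5
            exact hx ((pow_eq_zero_iff (by omega)).mp h5)
      rw [hψA]
      exact hM v c hv hc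
  have hdet : (g : Matrix (Fin n) (Fin n) F).det = 1 := by
    have h1 : Matrix.GeneralLinearGroup.det g = 1 := hg.2
    have h2 := congrArg (fun u : Fˣ => (u : F)) h1
    simpa using h2
  have hA₀ : (⟨(g : Matrix (Fin n) (Fin n) F), hdet⟩ : Matrix.SpecialLinearGroup (Fin n) F) ∈
      Cfsg.SU n F q := fun u v => hg.1 u v
  have h3 : (⟨⟨(g : Matrix (Fin n) (Fin n) F), hdet⟩, hA₀⟩ : ↥(Cfsg.SU n F q)) ∈ M.comap ψ :=
    hle (by rw [hcl]; trivial)
  have h4 : ψ ⟨⟨(g : Matrix (Fin n) (Fin n) F), hdet⟩, hA₀⟩ = g := by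
    apply Units.ext
    rw [hψv]
  rw [← h4]
  exact h3

end USub3

end Cfsg.Agent.Helper98
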