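import Cfsg.Statements.S1383

set_option autoImplicit false

/-! CALL BG83 (helper25, row S1383), piece NTI (double by helper98): a normal subset that is not
TI gives an element of prime order lying in a second conjugate of `M`. -/

namespace Cfsg.Agent.Helper98

open Cfsg Subgroup

universe u

variable {G : Type u} [Group G] [Finite G]

omit [Finite G] in
/-- NTI (pure). -/
theorem bg83_witness [Finite G] (M X : Subgroup G) (hXM : X ≤ M)
    (hMX : M ≤ normalizer (X : Set G)) (hnTI : ¬ IsTISubset (X : Set G)) :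
    ∃ x g : G, x ∈ X ∧ (orderOf x).Prime ∧ g ∉ M ∧ x ∈ M.map (MulAut.conj g).toMonoidHom := by
  classical
  unfold IsTISubset at hnTI
  simp only [not_forall] at hnTI
  obtain ⟨g, hg, y, hy, hgy, hy1⟩ := hnTI
  have hgM : g ∉ M := fun h => hg (hMX h)
  have hy'1 : g * y * g⁻¹ ≠ 1 := by
    intro h
    apply hy1
    have h2 : y = g⁻¹ * (g * y * g⁻¹) * g := by group
    rw [h2, h]; group
  have hord : orderOf (g * y * g⁻¹) ≠ 1 := by rwa [Ne, orderOf_eq_one_iff]
  have hpos : orderOf (g * y * g⁻¹) ≠ 0 := (orderOf_pos (g * y * g⁻¹)).ne'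
  obtain ⟨q, hq, hqd⟩ := Nat.exists_prime_and_dvd hord
  refine ⟨(g * y * g⁻¹) ^ (orderOf (g * y * g⁻¹) / q), g, ?_, ?_, hgM, ?_⟩
  · exact X.pow_mem hgy _
  · rw [orderOf_pow_orderOf_div hpos hqd]; exact hq
  · apply Subgroup.pow_mem
    exact Subgroup.mem_map.mpr ⟨y, hXM hy, by simp [MulAut.conj_apply]⟩

end Cfsg.Agent.Helper98
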