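import Mathlib
import Cfsg.Agent.Helper98.C2Defs
import Cfsg.Agent.Helper14.C2T
import Cfsg.Agent.Helper14.C2XA
import Cfsg.Agent.Helper20.C2I1
import Cfsg.Agent.Helper20.C2I3a
import Cfsg.Agent.Helper27.C2R1
import Cfsg.Agent.Helper28.C2P
import Cfsg.Agent.Helper28.C2X5b
import Cfsg.Agent.Helper28.C2Z
import Cfsg.Agent.Helper31.C2B3
import Cfsg.Agent.Helper33.C2LS
import Cfsg.Agent.Helper39.C2I2a
import Cfsg.Agent.Helper39.C2I2b
import Cfsg.Agent.Helper4.C2BS
import Cfsg.Agent.Helper4.C2FZ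
import Cfsg.Agent.Helper42.C2XI
import Cfsg.Agent.Helper48.C2X5a
import Cfsg.Agent.Helper55.C2R2
import Cfsg.Agent.Helper58.C2L
import Cfsg.Agent.Helper65.C2I3b
import Cfsg.Agent.Helper65.C2XM3
import Cfsg.Agent.Helper67.C2B2
import Cfsg.Agent.Helper73.C2A1
import Cfsg.Agent.Helper73.C2I4
import Cfsg.Agent.Helper75.C2X1
import Cfsg.Agent.Helper91.C2A2
import Cfsg.Agent.Helper91.C2G
import Cfsg.Agent.Helper91.C2I2c
import Cfsg.Agent.Helper97.C2XF
import Cfsg.Agent.Helper97.C2XM2
import Cfsg.Prelude.Def_GeometricClasses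

/-! Assembly for S5634 (class C2 maximality in SL_n). -/

set_option autoImplicit false
set_option linter.unusedSectionVars false
set_option linter.unusedVariables false
set_option linter.unusedSimpArgs false
set_option linter.style.haveILetI false

namespace Cfsg.Agent.Helper98.C2Asm

open Matrix Cfsg.Agent.Helper98.C2
open Cfsg.Agent.Helper14.C2T
open Cfsg.Agent.Helper14.C2XA
open Cfsg.Agent.Helper20.C2I1
open Cfsg.Agent.Helper20.C2I3a
open Cfsg.Agent.Helper27.C2R1
open Cfsg.Agent.Helper28.C2P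
open Cfsg.Agent.Helper28.C2X5b
open Cfsg.Agent.Helper28.C2Z
open Cfsg.Agent.Helper31.C2B3
open Cfsg.Agent.Helper33.C2LS
open Cfsg.Agent.Helper39.C2I2a
open Cfsg.Agent.Helper39.C2I2b
open Cfsg.Agent.Helper4.C2BS
open Cfsg.Agent.Helper4.C2FZ
open Cfsg.Agent.Helper42.C2XI
open Cfsg.Agent.Helper48.C2X5a
open Cfsg.Agent.Helper55.C2R2
open Cfsg.Agent.Helper58.C2L
open Cfsg.Agent.Helper65.C2I3b
open Cfsg.Agent.Helper65.C2XM3
open Cfsg.Agent.Helper67.C2B2
open Cfsg.Agent.Helper73.C2A1
open Cfsg.Agent.Helper73.C2I4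
open Cfsg.Agent.Helper75.C2X1
open Cfsg.Agent.Helper91.C2A2
open Cfsg.Agent.Helper91.C2G
open Cfsg.Agent.Helper91.C2I2c
open Cfsg.Agent.Helper97.C2XF
open Cfsg.Agent.Helper97.C2XM2
open scoped MatrixGroups

variable {K : Type*} [Field K]

/-- a `GL` element from a matrix of determinant one -/
noncomputable def glOfDet {ι : Type*} [Fintype ι] [DecidableEq ι] (A : Matrix ι ι K)
    (h : A.det = 1) : GL ι K :=
  Matrix.GeneralLinearGroup.mkOfDetNeZero A (by rw [h]; exact one_ne_zero)

theorem glOfDet_val {ι : Type*} [Fintype ι] [DecidableEq ι] (A : Matrix ι ι K)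
    (h : A.det = 1) : (glOfDet A h).1 = A := rfl

/-! ### GL side -/

theorem agl {ι : Type*} [Fintype ι] [DecidableEq ι] [Fintype K] (hq : 5 ≤ Fintype.card K)
    (hι : 3 ≤ Fintype.card ι) (X : Subgroup (GL ι K)) (hX : MonLE X)
    (g0 : GL ι K) (hg0 : g0 ∈ X) (hn : ¬ IsMono g0.1) :
    ∃ h ∈ X, ¬ IsMono h.1 ∧ FixesLine h.1 := by
  by_cases hz : ∃ i l, g0.1 i l = 0
  · obtain ⟨i, l, hz⟩ := hz
    exact agl_zero hq hι X hX g0 hg0 hn i l hz
  · push Not at hz
    obtain ⟨g', hg', hn', i, l, hz'⟩ := agl_dense hq hι X hX g0 hg0 hz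
    exact agl_zero hq hι X hX g' hg' hn' i l hz'

theorem card_ne_six [Fintype K] : Fintype.card K ≠ 6 := by
  intro h
  have hpp := Fintype.isPrimePow_card_of_field (α := K)
  rw [h, isPrimePow_iff_unique_prime_dvd] at hpp
  obtain ⟨p, -, hp⟩ := hpp
  have h2 := hp 2 ⟨Nat.prime_two, by norm_num⟩
  have h3 := hp 3 ⟨Nat.prime_three, by norm_num⟩
  omega

/-- Theorem B: a subgroup of `GL_m` containing all monomial matrices and a non-monomial one
contains an elementary transvection. -/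
theorem thmB [Fintype K] (hq : 5 ≤ Fintype.card K) :
    ∀ (m : ℕ), 2 ≤ m → (m = 2 → 7 ≤ Fintype.card K) → ∀ (X : Subgroup (GL (Fin m) K)), MonLE X →
      ∀ g0 : GL (Fin m) K, g0 ∈ X → ¬ IsMono g0.1 → HasTv X := by
  intro m hm
  induction m, hm using Nat.le_induction with
  | base =>
    intro h7 X hX g0 hg0 hn
    exact b2_seven (h7 rfl) X hX g0 hg0 hn
  | succ m hm ih =>
    intro _ X hX g0 hg0 hn
    obtain ⟨h, hh, hhm, hhf⟩ := agl hq (by simp; omega) X hX g0 hg0 hn
    obtain ⟨h', hh', hhm', hk0⟩ := fix_zero_gl m X hX h hh hhm hhf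
    obtain ⟨r, hr, hreq⟩ := blockSub_of_fix m X h' hh' hk0
    have hXb := monLE_blockSub m X hX
    have lift : HasTv (blockSub m X) → HasTv X := by
      rintro ⟨r', hr', a, b, hab, c, hc, heq⟩
      obtain ⟨k, hk, hk0', hkb⟩ := (mem_blockSub m X r').1 hr'
      exact lift_tv_gl hq m X hX k hk hk0' a b hab c hc (hkb.trans heq)
    by_cases hrm : IsMono r.1
    · exact lift_mono_gl hq m X hX h' hh' hk0 (by rwa [← hreq]) hhm'
    · by_cases hcase : m = 2 → 7 ≤ Fintype.card K
      · exact lift (ih hcase (blockSub m X) hXb r hr hrm)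
      · push Not at hcase
        obtain ⟨rfl, h7⟩ := hcase
        have h5 : Fintype.card K = 5 := by
          have := card_ne_six (K := K)
          omega
        rcases b2_five hq (blockSub 2 X) hXb r hr hrm with hT | ⟨g, hg, hgeq⟩
        · exact lift hT
        · obtain ⟨k, hk, hk0', hkb⟩ := (mem_blockSub 2 X g).1 hg
          exact b3_cert h5 X hX k hk hk0' (hkb.trans hgeq)

/-- `tv_sl`: a transvection in `M ≥` monomial det-1 group gives everything of det 1. -/
theorem tv_sl (n : ℕ) (hn : 3 ≤ n) (M : Subgroup (GL (Fin n) K)) (hH : MonSLLE M) (hT : HasTv M) :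
    ∀ g : GL (Fin n) K, g.1.det = 1 → g ∈ M := by
  apply sl_of_transvections M (tv_all n hn M hH hT)
  rintro g ⟨d, hd⟩ hdet
  refine hH g ⟨1, fun p q hpq => ?_⟩ hdet
  rw [hd]
  exact Matrix.diagonal_apply_ne _ (by simpa using hpq)

/-! ### Part I -/

theorem nf_pattern (n : ℕ) (hn : 7 ≤ n)
    (M : Subgroup (GL (Fin n) K)) (hH : MonSLLE M) (hNF : NoFix M)
    (g : GL (Fin n) K) (hg : g ∈ M)
    (hD1 : ∀ t a b : Fin n, a ≠ b → g.1 a t = 0 → g.1 b t = 0 → False)
    (l r : Fin n) (hlr : l ≠ r) :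
    ∃ (lam : K) (a : Fin n), ∀ x, x ≠ a → g.1 x l ≠ 0 → g.1 x r = lam * g.1 x l := by
  classical
  obtain ⟨S, hSdef⟩ : ∃ S : Finset (Fin n), S = Finset.univ.filter (fun x => g.1 x l ≠ 0) :=
    ⟨_, rfl⟩
  have hmem : ∀ x, x ∈ S ↔ g.1 x l ≠ 0 := by
    intro x
    rw [hSdef]
    simp
  have hS : 4 ≤ S.card := by
    have hc : (Finset.univ.filter (fun x => g.1 x l = 0)).card ≤ 1 := by
      rw [Finset.card_le_one]
      intro a ha b hb
      by_contra hab
      simp only [Finset.mem_filter, Finset.mem_univ, true_and] at ha hb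
      exact hD1 l a b hab ha hb
    have hsum := Finset.card_filter_add_card_filter_not (s := (Finset.univ : Finset (Fin n)))
      (fun x => g.1 x l = 0)
    rw [Finset.card_univ, Fintype.card_fin] at hsum
    have : S.card = (Finset.univ.filter (fun x => ¬ g.1 x l = 0)).card := by rw [hSdef]
    omega
  obtain ⟨lam, a, h⟩ := pat_comb S hS (fun x => g.1 x r / g.1 x l)
    (by
      intro a ha b hb c hc d hd hab hac had hbc hbd hcd h1 h2
      rw [hmem] at ha hb hc hd
      rw [div_eq_div_iff ha hb] at h1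
      rw [div_eq_div_iff hc hd] at h2
      rw [div_eq_div_iff ha hc]
      exact nf_pat_a n hn M hH hNF g hg hD1 l r hlr a b c d hab hac had hbc hbd hcd ha hb hc hd
        h1 h2)
    (by
      intro a ha b hb c hc d hd hab hac had hbc hbd hcd h1 h2 h3 h4 h5
      rw [hmem] at ha hb hc hd
      rw [Ne, div_eq_div_iff ha hc] at h1
      rw [Ne, div_eq_div_iff ha hd] at h2
      rw [Ne, div_eq_div_iff hc hd] at h3
      rw [Ne, div_eq_div_iff hb hc] at h4
      rw [Ne, div_eq_div_iff hb hd] at h5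
      exact nf_pat_b n hn M hH hNF g hg hD1 l r hlr a b c d hab hac had hbc hbd hcd ha hb hc hd
        h1 h2 h3 h4 h5)
  refine ⟨lam, a, fun x hxa hx => ?_⟩
  have h' := h x ((hmem x).2 hx) hxa
  rw [div_eq_iff hx] at h'
  exact h'

theorem nf_class (n : ℕ) (hn : 7 ≤ n)
    (M : Subgroup (GL (Fin n) K)) (hH : MonSLLE M) (hNF : NoFix M)
    (g : GL (Fin n) K) (hg : g ∈ M)
    (hD1 : ∀ t a b : Fin n, a ≠ b → g.1 a t = 0 → g.1 b t = 0 → False)
    (hPL : ∀ l r : Fin n, l ≠ r → ∃ (lam : K) (a : Fin n), ∀ x, x ≠ a →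
      g.1 x l ≠ 0 → g.1 x r = lam * g.1 x l) :
    ∃ (u : Fin n → K) (ρ : Equiv.Perm (Fin n)) (c : Fin n → K),
      (∀ i, u i ≠ 0) ∧ (∀ x, c x ≠ 0) ∧
      ∀ x i, g.1 i (ρ x) = if i = x then 0 else c x * u i :=
  nf_struct n hn M hH hNF g hg hD1 hPL (nf_one_zero n hn M hH hNF g hg hD1 hPL)

/-- Part I: an overgroup of the det-1 monomial group with a non-monomial element contains a
non-monomial element fixing a coordinate line. -/
theorem partI [Fintype K] (hq : 5 ≤ Fintype.card K) (n : ℕ) (hn : 7 ≤ n)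
    (M : Subgroup (GL (Fin n) K)) (hH : MonSLLE M)
    (g0 : GL (Fin n) K) (hg0 : g0 ∈ M) (hgm : ¬ IsMono g0.1) :
    ∃ h ∈ M, ¬ IsMono h.1 ∧ FixesLine h.1 := by
  by_contra hcon
  have hNF : NoFix M := by
    intro h hh hf
    by_contra hm
    exact hcon ⟨h, hh, hm, hf⟩
  have hD1 : ∀ g : GL (Fin n) K, g ∈ M → ¬ IsMono g.1 →
      ∀ t a b : Fin n, a ≠ b → g.1 a t = 0 → g.1 b t = 0 → False :=
    fun g hg hgm t a b hab ha hb =>
      nf_two_zeros hq n (by omega) M hH hNF g hg hgm t a b hab ha hb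
  have hPL := fun l r hlr => nf_pattern n hn M hH hNF g0 hg0 (hD1 g0 hg0 hgm) l r hlr
  obtain ⟨u, ρ, c, hu, hc, hform⟩ := nf_class n hn M hH hNF g0 hg0 (hD1 g0 hg0 hgm) hPL
  obtain ⟨g', hg', hgm', t, a, b, hab, ha, hb⟩ := nf_final hq n hn M hH g0 hg0 u ρ c hu hc hform
  exact hD1 g' hg' hgm' t a b hab ha hb

/-- the monomial case -/
theorem mono_main [Fintype K] (hq : 5 ≤ Fintype.card K) (m : ℕ) (hm : 12 ≤ m)
    (M : Subgroup (GL (Fin (m + 1)) K)) (hH : MonSLLE M)
    (hdet : ∀ g ∈ M, g.1.det = 1) (g0 : GL (Fin (m + 1)) K) (hg0 : g0 ∈ M)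
    (hgm : ¬ IsMono g0.1) :
    ∀ g : GL (Fin (m + 1)) K, g.1.det = 1 → g ∈ M := by
  obtain ⟨h, hh, hhm, hhf⟩ := partI hq (m + 1) (by omega) M hH g0 hg0 hgm
  obtain ⟨h', hh', hhm', hk0⟩ := fix_zero_sl m (by omega) M hH h hh hhm hhf
  obtain ⟨r, hr, hreq⟩ := blockSub_of_fix m M h' hh' hk0
  have hT : HasTv M := by
    by_cases hrm : IsMono r.1
    · exact lift_mono_sl hq m (by omega) M hH h' hh' (hdet h' hh') hk0 (by rwa [← hreq]) hhm'
    · obtain ⟨r', hr', a, b, hab, c, hc, heq⟩ :=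
        thmB hq m (by omega) (by omega) (blockSub m M) (monLE_blockSub_sl m M hH) r hr hrm
      obtain ⟨k, hk, hk0', hkb⟩ := (mem_blockSub m M r').1 hr'
      exact lift_tv_sl hq m (by omega) M hH k hk (hdet k hk) hk0' a b hab c hc (hkb.trans heq)
  exact tv_sl (m + 1) (by omega) M hH hT

/-! ### Blocks -/

theorem blk_cross [Fintype K] {n t : ℕ} (blk : Fin n → Fin t) (m : ℕ) (hm : 2 ≤ m)
    (hfib : ∀ b : Fin t, (Finset.univ.filter (fun i => blk i = b)).card = m)
    (hex : ¬ (m = 2 ∧ Fintype.card K = 2)) (ht3 : m = 2 → 3 ≤ t)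
    (M : Subgroup (GL (Fin n) K)) (hH : BlkLE blk M)
    (a φ : Fin n → K) (hφa : φ ⬝ᵥ a = 0) (hφ : φ ≠ 0)
    (ha : ∃ i j, blk i ≠ blk j ∧ a i ≠ 0 ∧ a j ≠ 0)
    (k : GL (Fin n) K) (hk : k ∈ M) (hkeq : k.1 = 1 + Matrix.vecMulVec a φ) :
    HasCrossTv blk M := by
  apply blk_caseI blk m hm hfib M hH
  by_cases hI : ∃ c1, (∃ i, blk i = c1 ∧ a i ≠ 0) ∧ (∀ i, blk i = c1 → φ i = 0)
  · obtain ⟨c1, h1, h2⟩ := hI
    exact ⟨a, φ, c1, hφa, hφ, h1, h2, k, hk, hkeq⟩
  · rcases Nat.lt_or_ge 2 m with h3 | h3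
    · exact blk_m3 blk m h3 hfib M hH a φ hφa hφ ha k hk hkeq
    · have hm2 : m = 2 := by omega
      subst hm2
      by_cases hc : ∃ c, (∃ i, blk i = c ∧ φ i ≠ 0) ∧ ((∀ i, blk i = c → a i = 0) ∨
          ∑ i ∈ Finset.univ.filter (fun i => blk i = c), φ i * a i ≠ 0)
      · obtain ⟨c, hc1, hc2⟩ := hc
        exact blk_m2 blk hfib M hH a φ hφa hφ ha k hk hkeq c hc1 hc2
      · have hq3 : 3 ≤ Fintype.card K := by
          have h1 := Fintype.one_lt_card (α := K)
          have h2 : Fintype.card K ≠ 2 := fun h => hex ⟨rfl, h⟩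
          omega
        refine blk_flag hq3 (ht3 rfl) blk hfib M hH a φ hφa hφ ha k hk hkeq ?_ ?_
        · intro c
          constructor
          · intro hφc
            by_contra hno
            exact hc ⟨c, hφc, Or.inl (fun i hi => by
              by_contra hai
              exact hno ⟨i, hi, hai⟩)⟩
          · intro hac
            by_contra hno
            exact hI ⟨c, hac, fun i hi => by
              by_contra hφi
              exact hno ⟨i, hi, hφi⟩⟩
        · intro c
          by_cases hφc : ∃ i, blk i = c ∧ φ i ≠ 0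
          · by_contra hne
            exact hc ⟨c, hφc, Or.inr hne⟩
          · apply Finset.sum_eq_zero
            intro i hi
            simp only [Finset.mem_filter, Finset.mem_univ, true_and] at hi
            have : φ i = 0 := by
              by_contra hφi
              exact hφc ⟨i, hi, hφi⟩
            rw [this, zero_mul]

theorem blk_sl {n t : ℕ} (blk : Fin n → Fin t) (m : ℕ) (hm : 2 ≤ m)
    (hfib : ∀ b : Fin t, (Finset.univ.filter (fun i => blk i = b)).card = m)
    (M : Subgroup (GL (Fin n) K)) (hH : BlkLE blk M) (hT : HasCrossTv blk M) :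
    ∀ g : GL (Fin n) K, g.1.det = 1 → g ∈ M := by
  obtain ⟨b1, b2, hb, hfull⟩ := blk_pair_full blk m hm hfib M hH hT
  have hcross := blk_all_cross blk m hm hfib M hH b1 b2 hb hfull
  apply sl_of_transvections M
  · intro i j hij c
    by_cases hbij : blk i = blk j
    · refine ⟨glOfDet (Matrix.transvection i j c) (Matrix.det_transvection_of_ne _ _ hij c),
        hH _ ⟨1, fun p q hpq => ?_⟩ (Matrix.det_transvection_of_ne _ _ hij c), rfl⟩
      rw [glOfDet_val]
      have hpq' : p ≠ q := fun h => hpq (by simp [h])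
      have hij' : ¬ (i = p ∧ j = q) := by
        rintro ⟨rfl, rfl⟩
        exact hpq (by simpa using hbij)
      simp [Matrix.transvection, Matrix.one_apply_ne hpq', Matrix.single_apply, hij']
    · exact hcross i j hbij c
  · rintro g ⟨d, hd⟩ hdet
    refine hH g ⟨1, fun p q hpq => ?_⟩ hdet
    rw [hd]
    exact Matrix.diagonal_apply_ne _ (fun h => hpq (by simp [h]))

theorem blk_reduce {F : Type*} [Field F] {n t : ℕ} (m : ℕ)
    (D : Fin t → Submodule F (Fin n → F)) (hD : Cfsg.Geo.IsMDecomposition m D) :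
    ∃ (P : GL (Fin n) F) (blk : Fin n → Fin t),
      (∀ b : Fin t, (Finset.univ.filter (fun i => blk i = b)).card = m) ∧
      ∀ g : GL (Fin n) F, g ∈ Cfsg.Geo.decompositionStabilizer D ↔
        IsBlkMono blk (P⁻¹ * g * P : GL (Fin n) F).1 := by
  obtain ⟨P, blk, hfib, hP⟩ := decomp_basis m D hD
  exact ⟨P, blk, hfib, fun g => stab_iff_blkMono D P blk hP g⟩

/-! ### Final assembly -/

theorem mem_sl_iff {F : Type*} [Field F] {n : ℕ} (g : GL (Fin n) F) :
    g ∈ Cfsg.Geo.specialLinear (Fin n) F ↔ g.1.det = 1 := by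
  unfold Cfsg.Geo.specialLinear
  rw [MonoidHom.mem_ker, Units.ext_iff]
  rfl

theorem det_conj {F : Type*} [Field F] {n : ℕ} (P g : GL (Fin n) F) :
    (P * g * P⁻¹ : GL (Fin n) F).1.det = g.1.det := by
  have h : Matrix.GeneralLinearGroup.det (P * g * P⁻¹) = Matrix.GeneralLinearGroup.det g := by
    rw [map_mul, map_mul, map_inv, mul_inv_cancel_comm]
  have h2 := congrArg Units.val h
  exact h2

theorem det_conj' {F : Type*} [Field F] {n : ℕ} (P g : GL (Fin n) F) :
    (P⁻¹ * g * P : GL (Fin n) F).1.det = g.1.det := by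
  have h := det_conj P⁻¹ g
  rwa [inv_inv] at h

theorem isBlkMono_iff_isMono {n t : ℕ} (blk : Fin n → Fin t)
    (hfib : ∀ b : Fin t, (Finset.univ.filter (fun i => blk i = b)).card = 1)
    (x : Matrix (Fin n) (Fin n) K) : IsBlkMono blk x ↔ IsMono x := by
  have hbij : Function.Bijective blk := by
    constructor
    · intro i j hij
      have h := hfib (blk i)
      rw [Finset.card_eq_one] at h
      obtain ⟨p, hp⟩ := h
      have hi : i ∈ Finset.univ.filter (fun k => blk k = blk i) := by simp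
      have hj : j ∈ Finset.univ.filter (fun k => blk k = blk i) := by simp [hij]
      rw [hp, Finset.mem_singleton] at hi hj
      rw [hi, hj]
    · intro b
      have h := hfib b
      rw [Finset.card_eq_one] at h
      obtain ⟨p, hp⟩ := h
      have hpm : p ∈ Finset.univ.filter (fun k => blk k = b) := by rw [hp]; simp
      exact ⟨p, by simpa using hpm⟩
  obtain ⟨e, he⟩ : ∃ e : Fin n ≃ Fin t, ∀ i, e i = blk i :=
    ⟨Equiv.ofBijective blk hbij, fun i => rfl⟩
  constructor
  · rintro ⟨σ, hσ⟩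
    refine ⟨e.trans (σ.trans e.symm), fun i j hij => hσ i j ?_⟩
    intro h
    apply hij
    simp only [Equiv.trans_apply]
    rw [he j, ← h, ← he i, Equiv.symm_apply_apply]
  · rintro ⟨σ, hσ⟩
    refine ⟨e.symm.trans (σ.trans e), fun i j hij => hσ i j ?_⟩
    intro h
    apply hij
    simp only [Equiv.trans_apply]
    rw [← he j, Equiv.symm_apply_apply, ← h, he i]

theorem c2_core {F : Type*} [Field F] [Fintype F] (n : ℕ) (hn : 13 ≤ n) {t : ℕ} (m : ℕ)
    (hm : 0 < m) (ht : 2 ≤ t)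
    (h1 : ¬ (m = 1 ∧ Fintype.card F ≤ 4)) (h2 : ¬ (m = 2 ∧ Fintype.card F = 2))
    (S : Subgroup (GL (Fin n) F)) (P : GL (Fin n) F) (blk : Fin n → Fin t)
    (hfib : ∀ b : Fin t, (Finset.univ.filter (fun i => blk i = b)).card = m)
    (hiff : ∀ g : GL (Fin n) F, g ∈ S ↔ IsBlkMono blk (P⁻¹ * g * P : GL (Fin n) F).1) :
    Cfsg.Geo.IsMaximalIn (Cfsg.Geo.specialLinear (Fin n) F)
      (S ⊓ Cfsg.Geo.specialLinear (Fin n) F) := by
  have hnt : n = t * m := by
    have h := Finset.card_eq_sum_card_fiberwise (f := blk) (s := Finset.univ)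
      (t := Finset.univ) (fun x _ => Finset.mem_univ _)
    simp only [hfib, Finset.sum_const, Finset.card_univ, Fintype.card_fin, smul_eq_mul] at h
    exact h
  have hfne : ∀ b : Fin t, ∃ i, blk i = b := by
    intro b
    have h := hfib b
    have hpos : 0 < (Finset.univ.filter (fun i => blk i = b)).card := by omega
    obtain ⟨i, hi⟩ := Finset.card_pos.1 hpos
    exact ⟨i, by simpa using hi⟩
  constructor
  · -- properness
    rw [SetLike.lt_iff_le_and_exists]
    refine ⟨inf_le_right, ?_⟩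
    obtain ⟨i, hi⟩ := hfne ⟨0, by omega⟩
    obtain ⟨j, hj⟩ := hfne ⟨1, by omega⟩
    have hbij : blk i ≠ blk j := by
      rw [hi, hj]
      intro h
      have := congrArg Fin.val h
      simp at this
    have hij : i ≠ j := fun h => hbij (by rw [h])
    obtain ⟨T, hT⟩ : ∃ T : GL (Fin n) F, T.1 = Matrix.transvection i j 1 :=
      ⟨glOfDet _ (Matrix.det_transvection_of_ne _ _ hij 1), rfl⟩
    refine ⟨P * T * P⁻¹, ?_, ?_⟩
    · rw [mem_sl_iff, det_conj, hT, Matrix.det_transvection_of_ne _ _ hij]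
    · intro hmem
      have hS := (hiff _).1 (Subgroup.mem_inf.1 hmem).1
      have hconj : P⁻¹ * (P * T * P⁻¹) * P = T := by group
      rw [hconj, hT] at hS
      obtain ⟨σ, hσ⟩ := hS
      have hdiag : ∀ p, blk p = σ (blk p) := by
        intro p
        by_contra hne
        have := hσ p p hne
        have hnp : ¬ (i = p ∧ j = p) := by
          rintro ⟨rfl, rfl⟩
          exact hij rfl
        simp [Matrix.transvection, Matrix.single_apply, hnp] at this
      have hoff : blk i = σ (blk j) := by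
        by_contra hne
        have := hσ i j hne
        simp [Matrix.transvection, Matrix.single_apply, hij] at this
      exact hbij (hoff.trans (hdiag j).symm)
  · -- maximality
    intro M' hle hleSL
    by_cases hMH : M' = S ⊓ Cfsg.Geo.specialLinear (Fin n) F
    · exact Or.inl hMH
    · right
      obtain ⟨g0, hg0, hg0H⟩ := SetLike.exists_of_lt (lt_of_le_of_ne hle (Ne.symm hMH))
      have hg0S : g0 ∉ S := fun h => hg0H (Subgroup.mem_inf.2 ⟨h, hleSL hg0⟩)
      obtain ⟨M'', hM''⟩ : ∃ M'' : Subgroup (GL (Fin n) F),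
          ∀ x, x ∈ M'' ↔ P * x * P⁻¹ ∈ M' :=
        ⟨M'.comap (MulAut.conj P).toMonoidHom, fun x => by
          rw [Subgroup.mem_comap]
          rfl⟩
      have hBlk : BlkLE blk M'' := by
        intro x hx hdet
        rw [hM'']
        apply hle
        refine Subgroup.mem_inf.2 ⟨(hiff _).2 ?_, (mem_sl_iff _).2 ?_⟩
        · have hconj : P⁻¹ * (P * x * P⁻¹) * P = x := by group
          rw [hconj]
          exact hx
        · rw [det_conj]
          exact hdet
      have hdetM : ∀ x ∈ M'', x.1.det = 1 := by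
        intro x hx
        rw [hM''] at hx
        have := (mem_sl_iff _).1 (hleSL hx)
        rwa [det_conj] at this
      have hg0' : P⁻¹ * g0 * P ∈ M'' := by
        rw [hM'']
        have hconj : P * (P⁻¹ * g0 * P) * P⁻¹ = g0 := by group
        rw [hconj]
        exact hg0
      have hg0n : ¬ IsBlkMono blk (P⁻¹ * g0 * P : GL (Fin n) F).1 := fun h => hg0S ((hiff _).2 h)
      have hall : ∀ x : GL (Fin n) F, x.1.det = 1 → x ∈ M'' := by
        rcases Nat.lt_or_ge m 2 with hm1 | hm2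
        · have hm1' : m = 1 := by omega
          subst hm1'
          have hq : 5 ≤ Fintype.card F := by
            by_contra hlt
            exact h1 ⟨rfl, by omega⟩
          have hMon : MonSLLE M'' := fun x hx hdet =>
            hBlk x ((isBlkMono_iff_isMono blk hfib _).2 hx) hdet
          have hg0m : ¬ IsMono (P⁻¹ * g0 * P : GL (Fin n) F).1 := fun h =>
            hg0n ((isBlkMono_iff_isMono blk hfib _).2 h)
          obtain ⟨m', rfl⟩ : ∃ m', n = m' + 1 := ⟨n - 1, by omega⟩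
          exact mono_main hq m' (by omega) M'' hMon hdetM _ hg0' hg0m
        · obtain ⟨a, φ, hφa, hφ, ha, k, hk, hkeq⟩ :=
            blk_mixed blk m hm2 hfib M'' hBlk _ hg0' hg0n
          have ht3 : m = 2 → 3 ≤ t := by
            intro hm2'
            subst hm2'
            omega
          have hT := blk_cross blk m hm2 hfib h2 ht3 M'' hBlk a φ hφa hφ ha k hk hkeq
          exact blk_sl blk m hm2 hfib M'' hBlk hT
      apply le_antisymm hleSL
      intro g hg
      have hg' := hall (P⁻¹ * g * P) (by rw [det_conj']; exact (mem_sl_iff g).1 hg)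
      rw [hM''] at hg'
      have hconj : P * (P⁻¹ * g * P) * P⁻¹ = g := by group
      rwa [hconj] at hg'

end Cfsg.Agent.Helper98.C2Asm
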