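import Mathlib
import Cfsg.Prelude.Def_GeometricClasses
import Cfsg.Agent.Helper98.OC5

/-!
Further general lemmas on quadratic-extension data (odd characteristic / non-singular vectors)
and on normalisers of two-dimensional subalgebras.
-/

set_option autoImplicit false
set_option linter.unusedSectionVars false
set_option linter.unusedVariables false
set_option linter.unusedSimpArgs false

universe u

namespace Cfsg.Agent.Helper98

open Matrix Cfsg Cfsg.Geo Cfsg.Agent.Helper45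

section OC6

variable {ι : Type} [Fintype ι] [DecidableEq ι] {F : Type u} [Field F] [Fintype F]
  (Q : QuadraticForm F (ι → F))

variable {ω : (ι → F) →ₗ[F] (ι → F)} {τ ν : F}

theorem oc_W_mem_omega (hd : OcData Q ω τ ν) (u x : ι → F) (hx : x ∈ ocW Q ω u) :
    ω x ∈ ocW Q ω u := by
  rw [oc_mem_W] at hx ⊢
  exact oc_W_omega Q hd u x hx.1 hx.2

/-- A common non-singular "neighbour" of two non-singular vectors. -/
theorem oc_exists_x3 (hQ : (QuadraticMap.polarBilin Q).Nondegenerate) (h2 : (2 : F) ≠ 0)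
    (hn : 12 ≤ Fintype.card ι) (hd : OcData Q ω τ ν) (x₁ x₂ : ι → F) (h1 : Q x₁ ≠ 0)
    (h2' : Q x₂ ≠ 0) :
    ∃ x₃, Q x₃ ≠ 0 ∧ x₃ ∉ ocK ω x₁ ∧ x₃ ∉ ocK ω x₂ ∧ QuadraticMap.polar ⇑Q x₁ x₃ ≠ 0 ∧ QuadraticMap.polar ⇑Q x₂ x₃ ≠ 0 := by
  have h11 : QuadraticMap.polar ⇑Q x₁ x₁ ≠ 0 := by
    rw [Helper44.polar_self_eq]
    exact mul_ne_zero h2 h1
  have h22 : QuadraticMap.polar ⇑Q x₂ x₂ ≠ 0 := by
    rw [Helper44.polar_self_eq]
    exact mul_ne_zero h2 h2'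
  obtain ⟨c, hcS, hc1, hc2⟩ : ∃ c ∈ ocK ω x₁ ⊔ ocK ω x₂, QuadraticMap.polar ⇑Q x₁ c ≠ 0 ∧ QuadraticMap.polar ⇑Q x₂ c ≠ 0 := by
    by_cases h : QuadraticMap.polar ⇑Q x₂ x₁ = 0
    · refine ⟨x₁ + x₂, Submodule.add_mem _ (Submodule.mem_sup_left (oc_self_mem_K ω x₁))
        (Submodule.mem_sup_right (oc_self_mem_K ω x₂)), ?_, ?_⟩
      · rw [QuadraticMap.polar_add_right, QuadraticMap.polar_comm ⇑Q x₁ x₂, h, add_zero]
        exact h11
      · rw [QuadraticMap.polar_add_right, h, zero_add]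
        exact h22
    · exact ⟨x₁, Submodule.mem_sup_left (oc_self_mem_K ω x₁), h11, h⟩
  obtain ⟨E, hE⟩ : ∃ E : Submodule F (ι → F), E = ⊤ ⊓ perpSub Q x₁ ⊓ perpSub Q (ω x₁) ⊓
      perpSub Q x₂ ⊓ perpSub Q (ω x₂) ⊓ perpSub Q c := ⟨_, rfl⟩
  have hEdim : Fintype.card ι ≤ Module.finrank F E + 5 := by
    have e1 := finrank_inf_perpSub_ge Q ⊤ x₁
    have e2 := finrank_inf_perpSub_ge Q (⊤ ⊓ perpSub Q x₁) (ω x₁)
    have e3 := finrank_inf_perpSub_ge Q (⊤ ⊓ perpSub Q x₁ ⊓ perpSub Q (ω x₁)) x₂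
    have e4 := finrank_inf_perpSub_ge Q (⊤ ⊓ perpSub Q x₁ ⊓ perpSub Q (ω x₁) ⊓ perpSub Q x₂)
      (ω x₂)
    have e5 := finrank_inf_perpSub_ge Q
      (⊤ ⊓ perpSub Q x₁ ⊓ perpSub Q (ω x₁) ⊓ perpSub Q x₂ ⊓ perpSub Q (ω x₂)) c
    have e0 : Module.finrank F ↥(⊤ : Submodule F (ι → F)) = Fintype.card ι := by
      rw [finrank_top, Module.finrank_fintype_fun_eq_card]
    rw [hE]
    omega
  have hEmem : ∀ e ∈ E, QuadraticMap.polar ⇑Q x₁ e = 0 ∧ QuadraticMap.polar ⇑Q (ω x₁) e = 0 ∧ QuadraticMap.polar ⇑Q x₂ e = 0 ∧ QuadraticMap.polar ⇑Q (ω x₂) e = 0 ∧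
      QuadraticMap.polar ⇑Q c e = 0 := by
    intro e he
    rw [hE] at he
    obtain ⟨he, he5⟩ := Submodule.mem_inf.mp he
    obtain ⟨he, he4⟩ := Submodule.mem_inf.mp he
    obtain ⟨he, he3⟩ := Submodule.mem_inf.mp he
    obtain ⟨he, he2⟩ := Submodule.mem_inf.mp he
    obtain ⟨he, he1⟩ := Submodule.mem_inf.mp he
    exact ⟨(mem_perpSub Q _ _).mp he1, (mem_perpSub Q _ _).mp he2, (mem_perpSub Q _ _).mp he3,
      (mem_perpSub Q _ _).mp he4, (mem_perpSub Q _ _).mp he5⟩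
  have hS : Module.finrank F ↥(ocK ω x₁ ⊔ ocK ω x₂) ≤ 4 := by
    have e1 := Submodule.finrank_add_le_finrank_add_finrank (ocK ω x₁) (ocK ω x₂)
    have e2 := oc_finrank_K_le ω x₁
    have e3 := oc_finrank_K_le ω x₂
    omega
  obtain ⟨e, heE, heS, heQ⟩ : ∃ e ∈ E, e ∉ ocK ω x₁ ⊔ ocK ω x₂ ∧ Q c + Q e ≠ 0 := by
    by_cases hcQ : Q c = 0
    · obtain ⟨e, heE, heQ⟩ := oc_exists_nonsing Q hQ E (by omega)
      refine ⟨e, heE, ?_, by rw [hcQ, zero_add]; exact heQ⟩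
      intro heS
      obtain ⟨s₁, hs₁, s₂, hs₂, rfl⟩ := Submodule.mem_sup.mp heS
      obtain ⟨g1, g2, g3, g4, -⟩ := hEmem _ heE
      have k1 := oc_K_perp Q x₁ s₁ hs₁ _ g1 g2
      have k2 := oc_K_perp Q x₂ s₂ hs₂ _ g3 g4
      have k3 : QuadraticMap.polar ⇑Q (s₁ + s₂) (s₁ + s₂) = 0 := by
        rw [QuadraticMap.polar_add_left, k1, k2, add_zero]
      rw [Helper44.polar_self_eq] at k3
      rcases mul_eq_zero.mp k3 with k4 | k4
      · exact h2 k4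
      · exact heQ k4
    · obtain ⟨e, heE, heS, heQ⟩ := oc_exists_sing_notMem Q E (ocK ω x₁ ⊔ ocK ω x₂) (by omega)
      exact ⟨e, heE, heS, by rw [heQ, add_zero]; exact hcQ⟩
  obtain ⟨g1, g2, g3, g4, g5⟩ := hEmem _ heE
  refine ⟨c + e, ?_, ?_, ?_, ?_, ?_⟩
  · rw [Helper13.Q_add', g5, add_zero]
    exact heQ
  · intro h
    apply heS
    have := Submodule.sub_mem _ (Submodule.mem_sup_left h : c + e ∈ ocK ω x₁ ⊔ ocK ω x₂) hcS
    rwa [add_sub_cancel_left] at this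
  · intro h
    apply heS
    have := Submodule.sub_mem _ (Submodule.mem_sup_right h : c + e ∈ ocK ω x₁ ⊔ ocK ω x₂) hcS
    rwa [add_sub_cancel_left] at this
  · rw [QuadraticMap.polar_add_right, g1, add_zero]
    exact hc1
  · rw [QuadraticMap.polar_add_right, g3, add_zero]
    exact hc2

/-- In odd characteristic: if `ω'` is not in `F + Fω`, some non-singular vector `u` has
`ω'u ∉ Ku`. -/
theorem oc_exists_good_ns (hQ : (QuadraticMap.polarBilin Q).Nondegenerate) (h2 : (2 : F) ≠ 0)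
    (hn : 12 ≤ Fintype.card ι) (hd : OcData Q ω τ ν) (ω' : (ι → F) →ₗ[F] (ι → F))
    (hne : ¬∃ a b : F, ∀ x, ω' x = a • x + b • ω x) : ∃ u, Q u ≠ 0 ∧ ω' u ∉ ocK ω u := by
  by_contra hcon
  push Not at hcon
  have h0 : Module.finrank F ↥(⊤ : Submodule F (ι → F)) = Fintype.card ι := by
    rw [finrank_top, Module.finrank_fintype_fun_eq_card]
  obtain ⟨π₀, -, hπ₀⟩ := oc_exists_nonsing Q hQ ⊤ (by omega)
  obtain ⟨a₀, b₀, e₀⟩ := (oc_mem_K ω π₀ _).mp (hcon π₀ hπ₀)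
  apply hne
  refine ⟨a₀, b₀, ?_⟩
  have hne0 : ∀ x, Q x ≠ 0 → x ≠ 0 := by
    rintro x hx rfl
    exact hx (QuadraticMap.map_zero Q)
  have hpair : ∀ (x x₃ : ι → F) (a b a₃ b₃ : F), Q x ≠ 0 → Q x₃ ≠ 0 → x₃ ∉ ocK ω x →
      QuadraticMap.polar ⇑Q x x₃ ≠ 0 → a • x + b • ω x = ω' x → a₃ • x₃ + b₃ • ω x₃ = ω' x₃ →
      a = a₃ ∧ b = b₃ := by
    intro x x₃ a b a₃ b₃ hx hx₃ hx₃K hB e e₃
    by_cases hs : Q (x + x₃) ≠ 0
    · obtain ⟨a₄, b₄, e₄⟩ := (oc_mem_K ω (x + x₃) _).mp (hcon _ hs)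
      exact oc_cmp Q hd ω' x x₃ (hne0 x hx) hx₃K a b a₃ b₃ a₄ b₄ e.symm e₃.symm e₄.symm
    · push Not at hs
      have hs' : Q (x + -x₃) ≠ 0 := by
        rw [Helper13.Q_add', QuadraticMap.map_neg, QuadraticMap.polar_neg_right]
        rw [Helper13.Q_add'] at hs
        intro h
        have h3 : 2 * QuadraticMap.polar ⇑Q x x₃ = 0 := by linear_combination hs - h
        rcases mul_eq_zero.mp h3 with h4 | h4
        · exact h2 h4
        · exact hB h4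
      obtain ⟨a₄, b₄, e₄⟩ := (oc_mem_K ω (x + -x₃) _).mp (hcon _ hs')
      have e₃' : ω' (-x₃) = a₃ • (-x₃) + b₃ • ω (-x₃) := by
        rw [map_neg, map_neg, ← e₃]
        module
      have hK' : -x₃ ∉ ocK ω x := fun h => hx₃K (by
        have := Submodule.neg_mem _ h
        rwa [neg_neg] at this)
      exact oc_cmp Q hd ω' x (-x₃) (hne0 x hx) hK' a b a₃ b₃ a₄ b₄ e.symm e₃' e₄.symm
  have hns : ∀ x, Q x ≠ 0 → ω' x = a₀ • x + b₀ • ω x := by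
    intro x hx
    obtain ⟨a₁, b₁, e₁⟩ := (oc_mem_K ω x _).mp (hcon x hx)
    obtain ⟨x₃, hx₃Q, hx₃K1, hx₃K2, hB1, hB2⟩ := oc_exists_x3 Q hQ h2 hn hd π₀ x hπ₀ hx
    obtain ⟨a₃, b₃, e₃⟩ := (oc_mem_K ω x₃ _).mp (hcon x₃ hx₃Q)
    have c1 := hpair π₀ x₃ a₀ b₀ a₃ b₃ hπ₀ hx₃Q hx₃K1 hB1 e₀ e₃
    have c2 := hpair x x₃ a₁ b₁ a₃ b₃ hx hx₃Q hx₃K2 hB2 e₁ e₃
    rw [← e₁, c2.1, c2.2, ← c1.1, ← c1.2]
  intro x
  by_cases hx : Q x ≠ 0
  · exact hns x hx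
  · push Not at hx
    have e1 := finrank_inf_perpSub_ge Q ⊤ x
    obtain ⟨y, hyP, hyQ⟩ := oc_exists_nonsing Q hQ (⊤ ⊓ perpSub Q x) (by omega)
    have hxy : QuadraticMap.polar ⇑Q x y = 0 := (mem_perpSub Q x y).mp (Submodule.mem_inf.mp hyP).2
    have h1 : Q (x + y) ≠ 0 := by
      rw [Helper13.Q_add', hx, hxy, zero_add, add_zero]
      exact hyQ
    have e : ω' x = ω' (x + y) - ω' y := by
      rw [map_add]
      abel
    rw [e, hns _ h1, hns _ hyQ, map_add]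
    module

/-- A singular vector outside `W_x` and outside `W_y`. -/
theorem oc_exists_sing_both (hQ : (QuadraticMap.polarBilin Q).Nondegenerate)
    (hn : 3 ≤ Fintype.card ι) (hd : OcData Q ω τ ν) (x y : ι → F) (hx : x ≠ 0) (hy : y ≠ 0) :
    ∃ s, Q s = 0 ∧ s ∉ ocW Q ω x ∧ s ∉ ocW Q ω y := by
  have h0 : Module.finrank F ↥(⊤ : Submodule F (ι → F)) = Fintype.card ι := by
    rw [finrank_top, Module.finrank_fintype_fun_eq_card]
  obtain ⟨z, -, hz0, hzQ⟩ := exists_sing_in Q ⊤ (by omega)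
  obtain ⟨c, hc⟩ : ∃ c, QuadraticMap.polar ⇑Q z c ≠ 0 := by
    by_contra h
    push Not at h
    exact hz0 (hQ.1 z h)
  have key : ∀ v : ι → F, v ≠ 0 → ∃ s, Q s = 0 ∧ QuadraticMap.polar ⇑Q v s ≠ 0 := by
    intro v hv
    obtain ⟨a, ha⟩ : ∃ a, QuadraticMap.polar ⇑Q v a ≠ 0 := by
      by_contra h
      push Not at h
      exact hv (hQ.1 v h)
    obtain ⟨s, -, hsQ, hvs⟩ := oc_exists_sing_pair Q ⊤ v a Submodule.mem_top ha z c
      Submodule.mem_top Submodule.mem_top hzQ hc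
    exact ⟨s, hsQ, hvs⟩
  obtain ⟨s₁, hs₁Q, hxs₁⟩ := key x hx
  obtain ⟨s₂, hs₂Q, hys₂⟩ := key y hy
  have hs₁x : s₁ ∉ ocW Q ω x := fun h => hxs₁ ((oc_mem_W Q ω x s₁).mp h).1
  have hs₂y : s₂ ∉ ocW Q ω y := fun h => hys₂ ((oc_mem_W Q ω y s₂).mp h).1
  by_cases h1 : s₁ ∈ ocW Q ω y
  · by_cases h2 : s₂ ∈ ocW Q ω x
    · obtain ⟨α, β, hαβ, hzero⟩ : ∃ α β : F, ¬(α = 0 ∧ β = 0) ∧
          α * QuadraticMap.polar ⇑Q s₁ s₂ + β * QuadraticMap.polar ⇑Q s₁ (ω s₂) = 0 := by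
        by_cases h3 : QuadraticMap.polar ⇑Q s₁ s₂ = 0
        · exact ⟨1, 0, fun h => one_ne_zero h.1, by rw [h3]; ring⟩
        · exact ⟨QuadraticMap.polar ⇑Q s₁ (ω s₂), -QuadraticMap.polar ⇑Q s₁ s₂, fun h => h3 (neg_eq_zero.mp h.2), by ring⟩
      have hk : α • s₂ + β • ω s₂ ∈ ocW Q ω x :=
        Submodule.add_mem _ (Submodule.smul_mem _ _ h2)
          (Submodule.smul_mem _ _ (oc_W_mem_omega Q hd x s₂ h2))
      refine ⟨s₁ + (α • s₂ + β • ω s₂), ?_, ?_, ?_⟩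
      · rw [Helper13.Q_add', hs₁Q, oc_Q_comb Q hd, hs₂Q, QuadraticMap.polar_add_right,
          QuadraticMap.polar_smul_right, QuadraticMap.polar_smul_right]
        simp only [smul_eq_mul]
        rw [hzero]
        ring
      · intro h
        apply hs₁x
        have := Submodule.sub_mem _ h hk
        rwa [add_sub_cancel_right] at this
      · intro h
        apply hs₂y
        have h4 := Submodule.sub_mem _ h h1
        rw [add_sub_cancel_left] at h4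
        exact oc_kline Q hd (ocW Q ω y) (oc_W_mem_omega Q hd y) α β s₂ h4 hαβ
    · exact ⟨s₂, hs₂Q, h2, hs₂y⟩
  · exact ⟨s₁, hs₁Q, hs₁x, h1⟩

end OC6

section OC6Mat

variable {ι : Type} [Fintype ι] [DecidableEq ι] {F : Type u} [Field F] [Fintype F]

/-- A two-dimensional subalgebra is spanned by `1` and a given non-scalar element. -/
theorem oc_K_span [Nonempty ι] (K : Subalgebra F (Matrix ι ι F))
    (hK : Module.finrank F K = 2) (ω₀ : Matrix ι ι F) (hω₀K : ω₀ ∈ K)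
    (hω₀ : ∀ a : F, ω₀ ≠ a • (1 : Matrix ι ι F)) :
    ∀ k ∈ K, ∃ a b : F, k = a • (1 : Matrix ι ι F) + b • ω₀ := by
  have hfin : Module.finrank F ↥(Subalgebra.toSubmodule K) = 2 := hK
  have h1 : (1 : Matrix ι ι F) ≠ 0 := one_ne_zero
  have hs1 : Module.finrank F ↥(Submodule.span F {(1 : Matrix ι ι F)}) = 1 :=
    finrank_span_singleton h1
  have hω₀' : ω₀ ∉ Submodule.span F {(1 : Matrix ι ι F)} := by
    rw [Submodule.mem_span_singleton]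
    rintro ⟨a, ha⟩
    exact hω₀ a ha.symm
  have hle : Submodule.span F {(1 : Matrix ι ι F), ω₀} ≤ Subalgebra.toSubmodule K := by
    rw [Submodule.span_le]
    intro x hx
    rcases hx with rfl | rfl
    · exact K.one_mem
    · exact hω₀K
  have hlt : Submodule.span F {(1 : Matrix ι ι F)} <
      Submodule.span F {(1 : Matrix ι ι F), ω₀} := by
    rw [SetLike.lt_iff_le_and_exists]
    exact ⟨Submodule.span_mono (by simp), ω₀, Submodule.subset_span (by simp), hω₀'⟩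
  have h2 := Submodule.finrank_lt_finrank_of_lt hlt
  have h3 := Submodule.finrank_mono hle
  have heq : Submodule.span F {(1 : Matrix ι ι F), ω₀} = Subalgebra.toSubmodule K :=
    Submodule.eq_of_le_of_finrank_eq hle (by omega)
  intro k hk
  have hk' : k ∈ Submodule.span F {(1 : Matrix ι ι F), ω₀} := by
    rw [heq]
    exact hk
  obtain ⟨a, b, e⟩ := Submodule.mem_span_pair.mp hk'
  exact ⟨a, b, e.symm⟩

theorem oc_of_norm (K : Subalgebra F (Matrix ι ι F)) (ω₀ : Matrix ι ι F) (hω₀K : ω₀ ∈ K)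
    (hKspan : ∀ k ∈ K, ∃ a b : F, k = a • (1 : Matrix ι ι F) + b • ω₀) (g : GL ι F)
    (hg : g ∈ subalgebraNormalizer K) : ∃ a b : F, ∀ x : ι → F,
      (g : Matrix ι ι F) *ᵥ (ω₀ *ᵥ x) =
        a • ((g : Matrix ι ι F) *ᵥ x) + b • (ω₀ *ᵥ ((g : Matrix ι ι F) *ᵥ x)) := by
  have hinvM' : ((g⁻¹ : GL ι F) : Matrix ι ι F) * (g : Matrix ι ι F) = 1 := by
    rw [← Units.val_mul, inv_mul_cancel, Units.val_one]
  have h1 := (hg ω₀).mp hω₀K
  obtain ⟨a, b, e⟩ := hKspan _ h1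
  refine ⟨a, b, fun x => ?_⟩
  have e2 : (g : Matrix ι ι F) * ω₀ = (a • 1 + b • ω₀) * (g : Matrix ι ι F) := by
    rw [← e]
    simp only [mul_assoc]
    rw [hinvM', mul_one]
  rw [Matrix.mulVec_mulVec, e2, ← Matrix.mulVec_mulVec, Matrix.add_mulVec, Matrix.smul_mulVec,
    Matrix.smul_mulVec, Matrix.one_mulVec]

theorem oc_norm_of (K : Subalgebra F (Matrix ι ι F)) (ω₀ : Matrix ι ι F) (hω₀K : ω₀ ∈ K)
    (hKspan : ∀ k ∈ K, ∃ a b : F, k = a • (1 : Matrix ι ι F) + b • ω₀) (g : GL ι F)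
    (h : ∃ a b : F, ∀ x : ι → F, (g : Matrix ι ι F) *ᵥ (ω₀ *ᵥ x) =
        a • ((g : Matrix ι ι F) *ᵥ x) + b • (ω₀ *ᵥ ((g : Matrix ι ι F) *ᵥ x))) :
    g ∈ subalgebraNormalizer K := by
  have hinvM : (g : Matrix ι ι F) * ((g⁻¹ : GL ι F) : Matrix ι ι F) = 1 := by
    rw [← Units.val_mul, mul_inv_cancel, Units.val_one]
  obtain ⟨a, b, h⟩ := h
  have e2 : (g : Matrix ι ι F) * ω₀ = (a • 1 + b • ω₀) * (g : Matrix ι ι F) := by
    apply matrix_ext_mulVec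
    intro x
    rw [← Matrix.mulVec_mulVec, h, ← Matrix.mulVec_mulVec, Matrix.add_mulVec,
      Matrix.smul_mulVec, Matrix.smul_mulVec, Matrix.one_mulVec]
  have e3 : (g : Matrix ι ι F) * ω₀ * ((g⁻¹ : GL ι F) : Matrix ι ι F) = a • 1 + b • ω₀ := by
    rw [e2, mul_assoc, hinvM, mul_one]
  apply oc_normalizer_of_forall K g
  intro k hk
  obtain ⟨c, d, rfl⟩ := hKspan k hk
  have e4 : (g : Matrix ι ι F) * (c • 1 + d • ω₀) * ((g⁻¹ : GL ι F) : Matrix ι ι F) =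
      c • 1 + d • (a • 1 + b • ω₀) := by
    rw [mul_add, add_mul, Matrix.mul_smul, Matrix.smul_mul, mul_one, hinvM, Matrix.mul_smul,
      Matrix.smul_mul, e3]
  rw [e4]
  exact K.add_mem (K.smul_mem K.one_mem c)
    (K.smul_mem (K.add_mem (K.smul_mem K.one_mem a) (K.smul_mem hω₀K b)) d)

end OC6Mat

end Cfsg.Agent.Helper98
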