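import Mathlib
import Cfsg.Prelude.Def_GeometricClasses
import Cfsg.Agent.Helper98.OPair

/-!
Maximality in `Ω(Q)` of the stabiliser of a decomposition into two complementary totally
singular subspaces which are interchanged by some element of `Ω(Q)`.
-/

set_option autoImplicit false
set_option linter.unusedSectionVars false
set_option linter.unusedVariables false
set_option linter.unusedSimpArgs false

universe u

namespace Cfsg.Agent.Helper98

open Matrix Cfsg Cfsg.Geo Cfsg.Agent.Helper45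

section OPairMax

variable {ι : Type} [Fintype ι] [DecidableEq ι] {F : Type u} [Field F] [Fintype F]
  (Q : QuadraticForm F (ι → F))

theorem opr_map_eq_imgSub (g : ↥(isometryGroup F ⇑Q)) (W : Submodule F (ι → F)) :
    W.map (Matrix.toLin' ((g : GL ι F) : Matrix ι ι F)) = imgSub Q g W := by
  ext x
  rw [Submodule.mem_map, mem_imgSub]
  constructor
  · rintro ⟨w, hw, rfl⟩
    rw [Matrix.toLin'_apply]
    have h1 := mv_inv_cancel' Q g w
    have h2 : ((g : GL ι F) : Matrix ι ι F) *ᵥ w = mv ⇑Q g w := rfl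
    rw [h2, h1]
    exact hw
  · intro hx
    refine ⟨mv ⇑Q g⁻¹ x, hx, ?_⟩
    rw [Matrix.toLin'_apply]
    exact mv_inv_cancel Q g x

theorem opr_imgSub_eq (g : ↥(isometryGroup F ⇑Q)) (W W' : Submodule F (ι → F))
    (hm : ∀ v ∈ W, mv ⇑Q g v ∈ W') (hf : Module.finrank F W = Module.finrank F W') :
    imgSub Q g W = W' := by
  apply Submodule.eq_of_le_of_finrank_eq
  · intro x hx
    rw [mem_imgSub] at hx
    have h1 := hm _ hx
    rwa [mv_inv_cancel] at h1
  · rw [finrank_imgSub]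
    exact hf

/-- **Maximality of the stabiliser of a pair of complementary totally singular subspaces** in
`Ω(Q)`, given an element of `Ω(Q)` interchanging them. -/
theorem opr_pair_max (hQ : (QuadraticMap.polarBilin Q).Nondegenerate)
    (hn : 10 ≤ Fintype.card ι) (k : ℕ) (D : Fin 2 → Submodule F (ι → F))
    (hD : IsMDecomposition k D) (hts : ∀ i, ∀ w ∈ D i, Q w = 0)
    (hswap : ∃ g : GL ι F, g ∈ omegaGL ⇑Q ∧ (∀ x ∈ D 0, (g : Matrix ι ι F) *ᵥ x ∈ D 1) ∧
      (∀ x ∈ D 1, (g : Matrix ι ι F) *ᵥ x ∈ D 0)) :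
    IsMaximalIn (omegaGL ⇑Q) (decompositionStabilizer D ⊓ omegaGL ⇑Q) := by
  have hpair : OprPair Q (D 0) (D 1) := by
    refine ⟨hts 0, hts 1, ?_⟩
    rw [← hD.iSup_eq_top]
    apply le_antisymm
    · exact sup_le (le_iSup D 0) (le_iSup D 1)
    · apply iSup_le
      intro i
      fin_cases i
      · exact le_sup_left
      · exact le_sup_right
  have hd := opr_finrank Q hQ hpair
  have hmem1 : ∀ g : ↥(isometryGroup F ⇑Q), imgSub Q g (D 0) = D 0 → imgSub Q g (D 1) = D 1 →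
      (g : GL ι F) ∈ decompositionStabilizer D := by
    intro g h0 h1
    refine ⟨1, fun i => ?_⟩
    rw [opr_map_eq_imgSub]
    fin_cases i
    · exact h0
    · exact h1
  have hmem2 : ∀ g : ↥(isometryGroup F ⇑Q), imgSub Q g (D 0) = D 1 → imgSub Q g (D 1) = D 0 →
      (g : GL ι F) ∈ decompositionStabilizer D := by
    intro g h0 h1
    refine ⟨Equiv.swap 0 1, fun i => ?_⟩
    rw [opr_map_eq_imgSub]
    fin_cases i
    · show imgSub Q g (D 0) = D (Equiv.swap 0 1 0)
      rw [Equiv.swap_apply_left]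
      exact h0
    · show imgSub Q g (D 1) = D (Equiv.swap 0 1 1)
      rw [Equiv.swap_apply_right]
      exact h1
  constructor
  · rw [SetLike.lt_iff_le_and_exists]
    refine ⟨inf_le_right, ?_⟩
    have hD0ne : D 0 ≠ ⊥ := by
      intro e
      have h1 := hd.1
      rw [e, finrank_bot] at h1
      omega
    obtain ⟨w, hw0, hwne⟩ := (Submodule.ne_bot_iff _).mp hD0ne
    obtain ⟨u, hu1, _, huw⟩ := opr_dual Q hQ hpair ⊥ bot_le w hw0
      (by rw [Submodule.mem_bot]; exact hwne)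
    obtain ⟨b, hb1, hbS⟩ := opr_exists_notMem_pair (D 1) (by omega) u u
    have hub : QuadraticMap.polar ⇑Q u b = 0 := ts_polar Q (D 1) hpair.ts1 u hu1 b hb1
    refine ⟨((eichO Q u b (hpair.ts1 u hu1) hub : ↥(isometryGroup F ⇑Q)) : GL ι F),
      Subgroup.mem_map_of_mem _
        (eichO_mem_omega Q hQ (by omega) u b (hpair.ts1 u hu1) hub), fun hmem => ?_⟩
    obtain ⟨σ, hσ⟩ := hmem.1
    have h0 := hσ 0
    rw [opr_map_eq_imgSub] at h0
    have hgw : mv ⇑Q (eichO Q u b (hpair.ts1 u hu1) hub) w ∈ D (σ 0) := by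
      rw [← h0, mem_imgSub, mv_inv_cancel']
      exact hw0
    rw [mv_eichO] at hgw
    have hdiff_eq : Helper44.eich Q u b w - w =
        (QuadraticMap.polar ⇑Q b w - Q b * QuadraticMap.polar ⇑Q u w) • u -
          QuadraticMap.polar ⇑Q u w • b := by
      unfold Helper44.eich
      abel
    have hdiff : Helper44.eich Q u b w - w ∈ D 1 := by
      rw [hdiff_eq]
      exact (D 1).sub_mem ((D 1).smul_mem _ hu1) ((D 1).smul_mem _ hb1)
    have hdne : Helper44.eich Q u b w - w ≠ 0 := by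
      intro e
      rw [hdiff_eq, sub_eq_zero] at e
      apply hbS
      rw [Submodule.mem_span_pair]
      refine ⟨(QuadraticMap.polar ⇑Q u w)⁻¹ *
        (QuadraticMap.polar ⇑Q b w - Q b * QuadraticMap.polar ⇑Q u w), 0, ?_⟩
      rw [zero_smul, add_zero, ← smul_smul, e, smul_smul, inv_mul_cancel₀ huw, one_smul]
    have h01 : σ 0 = 0 ∨ σ 0 = 1 := by
      generalize σ 0 = t
      fin_cases t <;> simp
    rcases h01 with h | h
    · rw [h] at hgw
      exact hdne (opr_inf Q hQ hpair _ (Submodule.sub_mem _ hgw hw0) hdiff)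
    · rw [h] at hgw
      apply hwne
      apply opr_inf Q hQ hpair w hw0
      have h2 := Submodule.sub_mem _ hgw hdiff
      rwa [sub_sub_cancel] at h2
  · intro M hHM hMG
    by_cases hMH : M = decompositionStabilizer D ⊓ omegaGL ⇑Q
    · exact Or.inl hMH
    right
    apply le_antisymm hMG
    obtain ⟨M', hM'⟩ : ∃ M' : Subgroup ↥(isometryGroup F ⇑Q),
        M' = M.comap (isometryGroup F ⇑Q).subtype := ⟨_, rfl⟩
    have hmemM' : ∀ g : ↥(isometryGroup F ⇑Q), g ∈ M' ↔ (g : GL ι F) ∈ M := by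
      intro g
      rw [hM']
      exact Subgroup.mem_comap
    suffices hΩ : Omega F ⇑Q ≤ M' by
      unfold omegaGL
      rw [Subgroup.map_le_iff_le_comap, ← hM']
      exact hΩ
    have hF1 : ∀ g : ↥(isometryGroup F ⇑Q), g ∈ Omega F ⇑Q →
        (g : GL ι F) ∈ decompositionStabilizer D → g ∈ M' := by
      intro g hg hgD
      rw [hmemM']
      exact hHM ⟨hgD, Subgroup.mem_map_of_mem _ hg⟩
    have hH : opr_H Q (D 0) (D 1) M' := by
      intro w₀ hw0 w₁ hw1 h0 hp
      refine hF1 _ (eichO_mem_omega Q hQ (by omega) w₀ w₁ h0 hp)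
        (hmem1 _ (opr_imgSub_eq Q _ _ _ (fun v hv => ?_) rfl)
          (opr_imgSub_eq Q _ _ _ (fun v hv => ?_) rfl))
      · rw [mv_eichO]
        unfold Helper44.eich
        rw [ts_polar Q (D 0) hpair.ts0 w₀ hw0 v hv]
        simp only [mul_zero, sub_zero, zero_smul]
        exact (D 0).add_mem hv ((D 0).smul_mem _ hw0)
      · rw [mv_eichO]
        unfold Helper44.eich
        rw [ts_polar Q (D 1) hpair.ts1 w₁ hw1 v hv, hpair.ts1 w₁ hw1]
        simp only [zero_mul, sub_zero, zero_smul, add_zero]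
        exact (D 1).sub_mem hv ((D 1).smul_mem _ hw1)
    obtain ⟨g, hgΩ, hg0, hg1⟩ := hswap
    obtain ⟨s, hsΩ, rfl⟩ := Subgroup.mem_map.mp hgΩ
    have hs0 : ∀ w ∈ D 0, mv ⇑Q s w ∈ D 1 := hg0
    have hs1 : ∀ w ∈ D 1, mv ⇑Q s w ∈ D 0 := hg1
    have hsM : s ∈ M' := hF1 s hsΩ
      (hmem2 s (opr_imgSub_eq Q s _ _ hs0 (by omega)) (opr_imgSub_eq Q s _ _ hs1 (by omega)))
    obtain ⟨y, hyM, hyH⟩ := SetLike.exists_of_lt (lt_of_le_of_ne hHM (Ne.symm hMH))
    obtain ⟨y', hy'Ω, rfl⟩ := Subgroup.mem_map.mp (hMG hyM)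
    have hy'M : y' ∈ M' := (hmemM' y').mpr hyM
    exact opr_omega_le Q hQ hn hpair M' hH s hsM hs0 hs1 y' hy'M
      (fun h => hyH ⟨hmem1 y' h.1 h.2, hMG hyM⟩) (fun h => hyH ⟨hmem2 y' h.1 h.2, hMG hyM⟩)

end OPairMax

section OPairMaxFun

variable {ι : Type} [Fintype ι] [DecidableEq ι] {F : Type u} [Field F] [Fintype F]

/-- The same, for a form given as a function. -/
theorem opr_pair_max_fun (Q : (ι → F) → F) (hQ : IsNondegenerateQuadraticForm Q)
    (hn : 10 ≤ Fintype.card ι) (k : ℕ) (D : Fin 2 → Submodule F (ι → F))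
    (hD : IsMDecomposition k D) (hts : ∀ i, IsTotallySingularQuad Q (D i))
    (hswap : ∃ g : GL ι F, g ∈ omegaGL Q ∧ (∀ x ∈ D 0, (g : Matrix ι ι F) *ᵥ x ∈ D 1) ∧
      (∀ x ∈ D 1, (g : Matrix ι ι F) *ᵥ x ∈ D 0)) :
    IsMaximalIn (omegaGL Q) (decompositionStabilizer D ⊓ omegaGL Q) :=
  opr_pair_max (op_qf Q hQ) (op_qf_nondeg Q hQ) hn k D hD hts hswap

end OPairMaxFun

end Cfsg.Agent.Helper98
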