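import Mathlib
import Cfsg.Agent.Helper43.TwoFamGeo

/-!
An element of `Ω⁺_{4r}(F)` interchanging two complementary maximal totally singular subspaces
(the commutator of two permutation matrices in the standard model, transported along a hyperbolic
frame).
-/

set_option autoImplicit false
set_option linter.unusedSectionVars false
set_option linter.unusedVariables false
set_option linter.unusedSimpArgs false

namespace Cfsg.Agent.Helper98

open Matrix Cfsg Cfsg.Agent.Helper43 Cfsg.Agent.Helper43.TwoFam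

section Swap

variable (r : ℕ)

/-- The swap of the hyperbolic pairs with index `< r`. -/
def ops_half : Equiv.Perm (Fin (r + r) ⊕ Fin (r + r)) where
  toFun x := Sum.elim (fun i => if i.val < r then Sum.inr i else Sum.inl i)
    (fun i => if i.val < r then Sum.inl i else Sum.inr i) x
  invFun x := Sum.elim (fun i => if i.val < r then Sum.inr i else Sum.inl i)
    (fun i => if i.val < r then Sum.inl i else Sum.inr i) x
  left_inv x := by
    cases x with
    | inl i => by_cases h : i.val < r <;> simp [h]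
    | inr i => by_cases h : i.val < r <;> simp [h]
  right_inv x := by
    cases x with
    | inl i => by_cases h : i.val < r <;> simp [h]
    | inr i => by_cases h : i.val < r <;> simp [h]

theorem ops_half_inl_lt (i : Fin (r + r)) (h : i.val < r) :
    ops_half r (Sum.inl i) = Sum.inr i := by
  show (if i.val < r then Sum.inr i else Sum.inl i) = _
  rw [if_pos h]

theorem ops_half_inl_ge (i : Fin (r + r)) (h : ¬ i.val < r) :
    ops_half r (Sum.inl i) = Sum.inl i := by
  show (if i.val < r then Sum.inr i else Sum.inl i) = _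
  rw [if_neg h]

theorem ops_half_inr_lt (i : Fin (r + r)) (h : i.val < r) :
    ops_half r (Sum.inr i) = Sum.inl i := by
  show (if i.val < r then Sum.inl i else Sum.inr i) = _
  rw [if_pos h]

theorem ops_half_inr_ge (i : Fin (r + r)) (h : ¬ i.val < r) :
    ops_half r (Sum.inr i) = Sum.inr i := by
  show (if i.val < r then Sum.inl i else Sum.inr i) = _
  rw [if_neg h]

theorem ops_half_inv : (ops_half r)⁻¹ = ops_half r := Equiv.ext fun _ => rfl

/-- The exchange of the two halves of `Fin (r + r)`. -/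
def ops_rot : Equiv.Perm (Fin (r + r)) where
  toFun i := if h : i.val < r then ⟨i.val + r, by omega⟩ else ⟨i.val - r, by omega⟩
  invFun i := if h : i.val < r then ⟨i.val + r, by omega⟩ else ⟨i.val - r, by omega⟩
  left_inv i := by
    by_cases h : i.val < r
    · simp only [dif_pos h]
      rw [dif_neg (by simp)]
      apply Fin.ext
      simp
    · simp only [dif_neg h]
      have h2 : i.val - r < r := by omega
      rw [dif_pos h2]
      apply Fin.ext
      simp only
      omega
  right_inv i := by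
    by_cases h : i.val < r
    · simp only [dif_pos h]
      rw [dif_neg (by simp)]
      apply Fin.ext
      simp
    · simp only [dif_neg h]
      have h2 : i.val - r < r := by omega
      rw [dif_pos h2]
      apply Fin.ext
      simp only
      omega

theorem ops_rot_inv : (ops_rot r)⁻¹ = ops_rot r := Equiv.ext fun _ => rfl

theorem ops_rot_lt (i : Fin (r + r)) (h : i.val < r) : ¬ (ops_rot r i).val < r := by
  show ¬ (if h : i.val < r then (⟨i.val + r, by omega⟩ : Fin (r + r))
    else ⟨i.val - r, by omega⟩).val < r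
  rw [dif_pos h]
  simp

theorem ops_rot_ge (i : Fin (r + r)) (h : ¬ i.val < r) : (ops_rot r i).val < r := by
  show (if h : i.val < r then (⟨i.val + r, by omega⟩ : Fin (r + r))
    else ⟨i.val - r, by omega⟩).val < r
  rw [dif_neg h]
  show i.val - r < r
  omega

theorem ops_rot_rot (i : Fin (r + r)) : ops_rot r (ops_rot r i) = i :=
  (ops_rot r).left_inv i

variable {F : Type*} [Field F]

theorem ops_half_mem : (permGL (ops_half r) : GL (Fin (r + r) ⊕ Fin (r + r)) F)
    ∈ Cfsg.isometryGroup F (Cfsg.quadFormPlus (r + r) F) := by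
  rw [mem_iso_iff]
  intro u
  rw [permGL_mulVec]
  unfold Cfsg.quadFormPlus
  refine Finset.sum_congr rfl fun j _ => ?_
  simp only [Function.comp_apply]
  by_cases h : j.val < r
  · rw [ops_half_inl_lt r j h, ops_half_inr_lt r j h, mul_comm]
  · rw [ops_half_inl_ge r j h, ops_half_inr_ge r j h]

/-- An element of the commutator subgroup of the isometry group of the standard hyperbolic form
in dimension `4r` which interchanges the two standard totally singular subspaces. -/
theorem ops_exists_swap :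
    ∃ g : Cfsg.isometryGroup F (Cfsg.quadFormPlus (r + r) F),
      g ∈ commutator (Cfsg.isometryGroup F (Cfsg.quadFormPlus (r + r) F)) ∧
      ∀ (v : Fin (r + r) ⊕ Fin (r + r) → F),
        (∀ i, (((g : GL (Fin (r + r) ⊕ Fin (r + r)) F) :
          Matrix (Fin (r + r) ⊕ Fin (r + r)) (Fin (r + r) ⊕ Fin (r + r)) F) *ᵥ v) (Sum.inl i)
            = v (Sum.inr i)) ∧
        (∀ i, (((g : GL (Fin (r + r) ⊕ Fin (r + r)) F) :
          Matrix (Fin (r + r) ⊕ Fin (r + r)) (Fin (r + r) ⊕ Fin (r + r)) F) *ᵥ v) (Sum.inr i)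
            = v (Sum.inl i)) := by
  obtain ⟨A, hA⟩ : ∃ A : Cfsg.isometryGroup F (Cfsg.quadFormPlus (r + r) F),
      (A : GL (Fin (r + r) ⊕ Fin (r + r)) F) = permGL (pairPerm (ops_rot r)) :=
    ⟨⟨_, pairPerm_mem _⟩, rfl⟩
  obtain ⟨B, hB⟩ : ∃ B : Cfsg.isometryGroup F (Cfsg.quadFormPlus (r + r) F),
      (B : GL (Fin (r + r) ⊕ Fin (r + r)) F) = permGL (ops_half r) :=
    ⟨⟨_, ops_half_mem r⟩, rfl⟩
  refine ⟨A * B * A⁻¹ * B⁻¹, comm_mem_commutator _ _, fun v => ⟨fun i => ?_, fun i => ?_⟩⟩
  · rw [comm_mulVec, hA, hB, permGL_mulVec, permGL_mulVec, permGL_inv_mulVec, permGL_inv_mulVec]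
    simp only [Function.comp_apply, pairPerm_inl]
    by_cases h : i.val < r
    · rw [ops_half_inl_ge r _ (ops_rot_lt r i h), pairPerm_inv_inl, ops_rot_inv, ops_rot_rot,
        ops_half_inv, ops_half_inl_lt r i h]
    · rw [ops_half_inl_lt r _ (ops_rot_ge r i h), pairPerm_inv_inr, ops_rot_inv, ops_rot_rot,
        ops_half_inv, ops_half_inr_ge r i h]
  · rw [comm_mulVec, hA, hB, permGL_mulVec, permGL_mulVec, permGL_inv_mulVec, permGL_inv_mulVec]
    simp only [Function.comp_apply, pairPerm_inr]
    by_cases h : i.val < r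
    · rw [ops_half_inr_ge r _ (ops_rot_lt r i h), pairPerm_inv_inr, ops_rot_inv, ops_rot_rot,
        ops_half_inv, ops_half_inr_lt r i h]
    · rw [ops_half_inr_lt r _ (ops_rot_ge r i h), pairPerm_inv_inl, ops_rot_inv, ops_rot_rot,
        ops_half_inv, ops_half_inl_ge r i h]

/-- In a hyperbolic quadratic space of dimension `4r`, some element of `Ω` interchanges two
given complementary maximal totally singular subspaces. -/
theorem ops_swap {ι : Type} [Fintype ι] [DecidableEq ι] (Q : (ι → F) → F)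
    (hQ : Cfsg.Geo.IsNondegenerateQuadraticForm Q) (hcard : Fintype.card ι = 2 * (r + r))
    (D₀ D₁ : Submodule F (ι → F)) (hD0 : MTS Q (r + r) D₀) (hD1 : MTS Q (r + r) D₁)
    (hdisj : D₀ ⊓ D₁ = ⊥) :
    ∃ g : GL ι F, g ∈ Cfsg.Geo.omegaGL Q ∧ (∀ x ∈ D₀, (g : Matrix ι ι F) *ᵥ x ∈ D₁) ∧
      (∀ x ∈ D₁, (g : Matrix ι ι F) *ᵥ x ∈ D₀) := by
  classical
  have hS := qspace_of Q hQ (m := r + r) hcard
  obtain ⟨e, he⟩ : ∃ e : Fin (r + r) → (ι → F),
      e = fun i => ((Module.finBasisOfFinrankEq F D₀ hD0.1 i : ↥D₀) : ι → F) := ⟨_, rfl⟩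
  have heW : ∀ i, e i ∈ D₀ := fun i => by rw [he]; exact Submodule.coe_mem _
  have heli : LinearIndependent F e := by
    rw [he]
    exact (Module.finBasisOfFinrankEq F D₀ hD0.1).linearIndependent.map'
      D₀.subtype (Submodule.ker_subtype _)
  obtain ⟨f, hf, hfE⟩ := hS.exists_frame_in hD0 hD1 hdisj e heli heW
  obtain ⟨P', h1, h2⟩ := frameMat_exists_inv hS hf
  have hQP := frameMat_Q hS hf
  have hiff0 := frameMat_mem_iff hS hf hD0 heW
  have hiff1 := frameMat_mem_iff' hS hf hD1 hfE
  obtain ⟨g₀, hg₀, hact⟩ := ops_exists_swap (F := F) r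
  refine ⟨conjGL _ P' h1 h2 (g₀ : GL (Fin (r + r) ⊕ Fin (r + r)) F),
    conjGL_mem_omega _ _ h1 h2 hQP hg₀, ?_, ?_⟩
  · intro x hx
    obtain ⟨w, hw⟩ : ∃ w, w = P' *ᵥ x := ⟨_, rfl⟩
    have hxw : x = frameMat e f *ᵥ w := by rw [hw, mulVec_surj (frameMat e f) P' h1 x]
    rw [hxw] at hx ⊢
    rw [conjGL_mulVec, hiff1]
    rw [hiff0] at hx
    intro i
    rw [(hact w).1 i]
    exact hx i
  · intro x hx
    obtain ⟨w, hw⟩ : ∃ w, w = P' *ᵥ x := ⟨_, rfl⟩
    have hxw : x = frameMat e f *ᵥ w := by rw [hw, mulVec_surj (frameMat e f) P' h1 x]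
    rw [hxw] at hx ⊢
    rw [conjGL_mulVec, hiff0]
    rw [hiff1] at hx
    intro i
    rw [(hact w).2 i]
    exact hx i

end Swap

end Cfsg.Agent.Helper98
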