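import Mathlib
import Cfsg.Prelude.Def_GeometricClasses
import Cfsg.Agent.Helper93.Transv
import Cfsg.Agent.Helper93.TransvMax
import Cfsg.Agent.Helper94.Quad
import Cfsg.Agent.Helper98.FieldSub
import Cfsg.Agent.Helper98.SympMax

/-!
The similarity group of a non-degenerate quadratic form over a finite field of odd order is a
maximal subgroup of `SL` (dimension at least 11), by an elementary argument with reflections and
transvections.  Part 1: anisotropic vectors with prescribed orthogonality.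
-/

set_option autoImplicit false
set_option linter.unusedSectionVars false

namespace Cfsg.Agent.Helper98

open Matrix Cfsg.Agent.Helper93 Cfsg.Agent.Helper94 Cfsg.Geo

section QuadMax

variable {ι : Type} [Fintype ι] [DecidableEq ι] {F : Type*} [Field F]
variable {Q : (ι → F) → F}

theorem qm_nd (hQ : IsNondegenerateQuadraticForm Q) (v : ι → F) (hv : v ≠ 0) :
    ∃ x, polB hQ x v ≠ 0 :=
  (hQ.nondegenerate v hv).1

theorem qm_two (hQ : IsNondegenerateQuadraticForm Q) {v : ι → F} (h2 : (2 : F) ≠ 0)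
    (hv : Q v ≠ 0) : polB hQ v v ≠ 0 := by
  rw [polB_self]
  exact mul_ne_zero h2 hv

/-- An anisotropic vector in the kernel of a linear map of small rank. -/
theorem qm_exists_aniso_ker (hQ : IsNondegenerateQuadraticForm Q) {k : ℕ}
    (L : (ι → F) →ₗ[F] (Fin k → F)) (hk : 2 * k < Fintype.card ι) :
    ∃ x, Q x ≠ 0 ∧ L x = 0 := by
  by_contra hcon
  push Not at hcon
  have hzero : ∀ x ∈ LinearMap.ker L, Q x = 0 := by
    intro x hx
    by_contra h
    exact hcon x h hx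
  have hiso : LinearMap.ker L ≤ LinearMap.BilinForm.orthogonal (polB hQ) (LinearMap.ker L) := by
    intro y hy
    rw [LinearMap.BilinForm.mem_orthogonal_iff]
    intro x hx
    rw [polB_apply]
    unfold QuadraticMap.polar
    rw [hzero _ ((LinearMap.ker L).add_mem hx hy), hzero x hx, hzero y hy]
    ring
  have hker : LinearMap.ker (polB hQ) = ⊥ := by
    rw [LinearMap.ker_eq_bot']
    intro v hv
    by_contra hv0
    obtain ⟨x, hx⟩ := (hQ.nondegenerate v hv0).2
    apply hx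
    rw [← polB_apply hQ, hv, LinearMap.zero_apply]
  have h1 := LinearMap.BilinForm.finrank_add_finrank_orthogonal' (B := polB hQ) (LinearMap.ker L)
  rw [hker, inf_bot_eq, finrank_bot, add_zero, Module.finrank_fintype_fun_eq_card] at h1
  have h2 := Submodule.finrank_mono hiso
  have h3 := LinearMap.finrank_range_add_finrank_ker L
  rw [Module.finrank_fintype_fun_eq_card] at h3
  have h4 : Module.finrank F (LinearMap.range L) ≤ k := by
    have := Submodule.finrank_le (LinearMap.range L)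
    rwa [Module.finrank_fin_fun] at this
  omega

/-- An anisotropic vector orthogonal to `k` given vectors. -/
theorem qm_exists_aniso (hQ : IsNondegenerateQuadraticForm Q) {k : ℕ}
    (z : Fin k → (ι → F)) (hk : 2 * k < Fintype.card ι) :
    ∃ x, Q x ≠ 0 ∧ ∀ i, polB hQ x (z i) = 0 := by
  obtain ⟨x, hx, h⟩ := qm_exists_aniso_ker hQ
    (LinearMap.pi (fun i => (polB hQ).flip (z i))) hk
  refine ⟨x, hx, fun i => ?_⟩
  have := congrFun h i
  simpa using this

/-- If `Q x = 0` and `Q e ≠ 0` then `x + e` or `x - e` is anisotropic. -/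
theorem qm_add_or_sub (hQ : IsNondegenerateQuadraticForm Q) (h2 : (2 : F) ≠ 0) (x e : ι → F)
    (hx : Q x = 0) (he : Q e ≠ 0) : Q (x + e) ≠ 0 ∨ Q (x - e) ≠ 0 := by
  by_contra hcon
  push Not at hcon
  obtain ⟨h1, h3⟩ := hcon
  rw [q_add hQ, hx, zero_add] at h1
  rw [q_sub hQ, hx, zero_add] at h3
  apply he
  have : 2 * Q e = 0 := by linear_combination h1 + h3
  exact (mul_eq_zero.mp this).resolve_left h2

/-- An anisotropic vector orthogonal to `z` and not orthogonal to `p`. -/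
theorem qm_exists_aniso_ne (hQ : IsNondegenerateQuadraticForm Q) {k : ℕ}
    (z : Fin k → (ι → F)) (p x : ι → F)
    (hx : ∀ i, polB hQ x (z i) = 0) (hp : polB hQ x p ≠ 0)
    (hk : 2 * (k + 2) < Fintype.card ι) :
    ∃ a, Q a ≠ 0 ∧ (∀ i, polB hQ a (z i) = 0) ∧ polB hQ a p ≠ 0 := by
  by_cases hqx : Q x ≠ 0
  · exact ⟨x, hqx, hx, hp⟩
  · rw [not_not] at hqx
    obtain ⟨e, he, h⟩ := qm_exists_aniso hQ (Fin.cons x (Fin.cons p z)) hk
    have h0 : polB hQ e x = 0 := h 0
    have h1 : polB hQ e p = 0 := h (Fin.succ 0)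
    have hz : ∀ i, polB hQ e (z i) = 0 := fun i => h i.succ.succ
    refine ⟨x + e, ?_, ?_, ?_⟩
    · rw [q_add hQ, hqx, zero_add, polB_comm hQ, h0, add_zero]
      exact he
    · intro i
      rw [map_add, LinearMap.add_apply, hx, hz, add_zero]
    · rw [map_add, LinearMap.add_apply, h1, add_zero]
      exact hp

/-- An anisotropic vector orthogonal to `z` and not orthogonal to `p₁` and `p₂`. -/
theorem qm_exists_aniso_ne2 (hQ : IsNondegenerateQuadraticForm Q) {k : ℕ}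
    (z : Fin k → (ι → F)) (p₁ p₂ x₁ x₂ : ι → F)
    (hx₁ : ∀ i, polB hQ x₁ (z i) = 0) (hp₁ : polB hQ x₁ p₁ ≠ 0)
    (hx₂ : ∀ i, polB hQ x₂ (z i) = 0) (hp₂ : polB hQ x₂ p₂ ≠ 0)
    (hk : 2 * (k + 3) < Fintype.card ι) :
    ∃ a, Q a ≠ 0 ∧ (∀ i, polB hQ a (z i) = 0) ∧ polB hQ a p₁ ≠ 0 ∧ polB hQ a p₂ ≠ 0 := by
  obtain ⟨x, hx, hxp₁, hxp₂⟩ : ∃ x, (∀ i, polB hQ x (z i) = 0) ∧ polB hQ x p₁ ≠ 0 ∧
      polB hQ x p₂ ≠ 0 := by
    by_cases h1 : polB hQ x₁ p₂ = 0
    · by_cases h3 : polB hQ x₂ p₁ = 0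
      · refine ⟨x₁ + x₂, fun i => ?_, ?_, ?_⟩
        · rw [map_add, LinearMap.add_apply, hx₁, hx₂, add_zero]
        · rw [map_add, LinearMap.add_apply, h3, add_zero]
          exact hp₁
        · rw [map_add, LinearMap.add_apply, h1, zero_add]
          exact hp₂
      · exact ⟨x₂, hx₂, h3, hp₂⟩
    · exact ⟨x₁, hx₁, hp₁, h1⟩
  by_cases hqx : Q x ≠ 0
  · exact ⟨x, hqx, hx, hxp₁, hxp₂⟩
  · rw [not_not] at hqx
    obtain ⟨e, he, h⟩ := qm_exists_aniso hQ (Fin.cons x (Fin.cons p₁ (Fin.cons p₂ z))) hk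
    have h0 : polB hQ e x = 0 := h 0
    have h1 : polB hQ e p₁ = 0 := h (Fin.succ 0)
    have h3 : polB hQ e p₂ = 0 := h (Fin.succ (Fin.succ 0))
    have hz : ∀ i, polB hQ e (z i) = 0 := fun i => h i.succ.succ.succ
    refine ⟨x + e, ?_, ?_, ?_, ?_⟩
    · rw [q_add hQ, hqx, zero_add, polB_comm hQ, h0, add_zero]
      exact he
    · intro i
      rw [map_add, LinearMap.add_apply, hx, hz, add_zero]
    · rw [map_add, LinearMap.add_apply, h1, add_zero]
      exact hxp₁
    · rw [map_add, LinearMap.add_apply, h3, add_zero]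
      exact hxp₂

/-! ### Reflections -/

/-- The coefficient functional of the reflection along `u`. -/
noncomputable def qm_cf (hQ : IsNondegenerateQuadraticForm Q) (u : ι → F) : (ι → F) →ₗ[F] F :=
  (Q u)⁻¹ • (polB hQ).flip u

theorem qm_cf_apply (hQ : IsNondegenerateQuadraticForm Q) (u x : ι → F) :
    qm_cf hQ u x = (Q u)⁻¹ * polB hQ x u := rfl

theorem qm_refl_mulVec (hQ : IsNondegenerateQuadraticForm Q) (u : ι → F) (hu : Q u ≠ 0)
    (x : ι → F) :
    ((reflGL hQ u hu : GL ι F) : Matrix ι ι F) *ᵥ x = x - qm_cf hQ u x • u := by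
  rw [reflGL_mulVec, reflLin_apply, qm_cf_apply]

theorem qm_cf_self (hQ : IsNondegenerateQuadraticForm Q) (u : ι → F) (hu : Q u ≠ 0) :
    qm_cf hQ u u = 2 := by
  rw [qm_cf_apply, polB_self]
  field_simp

theorem qm_cf_orth (hQ : IsNondegenerateQuadraticForm Q) (u x : ι → F)
    (h : polB hQ x u = 0) : qm_cf hQ u x = 0 := by
  rw [qm_cf_apply, h, mul_zero]

theorem qm_refl_iso (hQ : IsNondegenerateQuadraticForm Q) (u : ι → F) (hu : Q u ≠ 0)
    (x y : ι → F) :
    polB hQ (((reflGL hQ u hu : GL ι F) : Matrix ι ι F) *ᵥ x)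
      (((reflGL hQ u hu : GL ι F) : Matrix ι ι F) *ᵥ y) = polB hQ x y := by
  rw [polB_apply, polB_apply]
  unfold QuadraticMap.polar
  rw [← mulVec_add, reflGL_mulVec, reflGL_mulVec, reflGL_mulVec, q_reflLin hQ hu,
    q_reflLin hQ hu, q_reflLin hQ hu]

theorem qm_one_add_vecMulVec_mulVec (v φ x : ι → F) :
    (1 + vecMulVec v φ) *ᵥ x = x + (φ ⬝ᵥ x) • v := by
  rw [add_mulVec, one_mulVec, vecMulVec_mulVec]
  congr 1
  ext i
  simp [mul_comm]

theorem qm_refl_det (hQ : IsNondegenerateQuadraticForm Q) (u : ι → F) (hu : Q u ≠ 0) :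
    ((reflGL hQ u hu : GL ι F) : Matrix ι ι F).det = -1 := by
  have hmat : ((reflGL hQ u hu : GL ι F) : Matrix ι ι F) =
      1 + vecMulVec (-u) (rz (polB hQ) ((Q u)⁻¹ • u)) := by
    apply matrix_ext_mulVec
    intro x
    rw [qm_refl_mulVec, qm_one_add_vecMulVec_mulVec, rz_dot, qm_cf_apply, map_smul, smul_eq_mul,
      smul_neg, sub_eq_add_neg]
  rw [hmat, vecMulVec_eq Unit, det_one_add_replicateCol_mul_replicateRow, rz_dot, map_neg,
    LinearMap.neg_apply, map_smul, smul_eq_mul, polB_self]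
  field_simp
  ring

/-- A product of two reflections lies in the similarity group and in `SL`. -/
theorem qm_refl2_mem (hQ : IsNondegenerateQuadraticForm Q) (a b : ι → F) (ha : Q a ≠ 0)
    (hb : Q b ≠ 0) :
    reflGL hQ a ha * reflGL hQ b hb ∈ quadSimilarityGroup Q ⊓ specialLinear ι F := by
  refine ⟨⟨1, fun v => ?_⟩, ?_⟩
  · rw [Units.val_one, one_mul, Units.val_mul, ← mulVec_mulVec, reflGL_mulVec, reflGL_mulVec,
      q_reflLin hQ ha, q_reflLin hQ hb]
  · change _ ∈ (Matrix.GeneralLinearGroup.det : GL ι F →* Fˣ).ker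
    rw [MonoidHom.mem_ker]
    apply Units.ext
    rw [Matrix.GeneralLinearGroup.val_det_apply, Units.val_mul, det_mul, qm_refl_det,
      qm_refl_det]
    simp

theorem qm_refl2_iso (hQ : IsNondegenerateQuadraticForm Q) (a b : ι → F) (ha : Q a ≠ 0)
    (hb : Q b ≠ 0) (x y : ι → F) :
    polB hQ (((reflGL hQ a ha * reflGL hQ b hb : GL ι F) : Matrix ι ι F) *ᵥ x)
      (((reflGL hQ a ha * reflGL hQ b hb : GL ι F) : Matrix ι ι F) *ᵥ y) = polB hQ x y := by
  rw [Units.val_mul, ← mulVec_mulVec, ← mulVec_mulVec, qm_refl_iso, qm_refl_iso]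

/-! ### The relation `R`: pairs `(u, w)` whose transvection `x ↦ x + B(x, w) u` lies in `M` -/

/-- `(u, w)` is an orthogonal pair whose transvection lies in `M`. -/
def qm_R (hQ : IsNondegenerateQuadraticForm Q) (M : Subgroup (GL ι F)) (u w : ι → F) : Prop :=
  ∃ h : polB hQ u w = 0, ft (polB hQ) u w h ∈ M

theorem qm_R_orth {hQ : IsNondegenerateQuadraticForm Q} {M : Subgroup (GL ι F)} {u w : ι → F}
    (h : qm_R hQ M u w) : polB hQ u w = 0 := h.1

theorem qm_R_zero_right (hQ : IsNondegenerateQuadraticForm Q) (M : Subgroup (GL ι F))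
    (u : ι → F) : qm_R hQ M u 0 := by
  refine ⟨by rw [map_zero], ?_⟩
  have : ft (polB hQ) u 0 (by rw [map_zero]) = 1 := by
    apply gl_ext'
    intro x
    rw [ft_mulVec, map_zero, zero_smul, add_zero, Units.val_one, one_mulVec]
  rw [this]
  exact M.one_mem

theorem qm_R_add_right {hQ : IsNondegenerateQuadraticForm Q} {M : Subgroup (GL ι F)}
    {u w w' : ι → F} (h : qm_R hQ M u w) (h' : qm_R hQ M u w') : qm_R hQ M u (w + w') := by
  obtain ⟨h0, hM⟩ := h
  obtain ⟨h0', hM'⟩ := h'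
  have h1 : polB hQ u (w + w') = 0 := by rw [map_add, h0, h0', add_zero]
  refine ⟨h1, ?_⟩
  have : ft (polB hQ) u (w + w') h1 = ft (polB hQ) u w h0 * ft (polB hQ) u w' h0' := by
    apply gl_ext'
    intro x
    rw [Units.val_mul, ← mulVec_mulVec, ft_mulVec, ft_mulVec, ft_mulVec]
    simp only [map_add, map_smul, LinearMap.add_apply, LinearMap.smul_apply, smul_eq_mul, h0,
      mul_zero, add_zero]
    module
  rw [this]
  exact M.mul_mem hM hM'

theorem qm_R_neg_right {hQ : IsNondegenerateQuadraticForm Q} {M : Subgroup (GL ι F)}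
    {u w : ι → F} (h : qm_R hQ M u w) : qm_R hQ M u (-w) := by
  obtain ⟨h0, hM⟩ := h
  have h1 : polB hQ u (-w) = 0 := by rw [map_neg, h0, neg_zero]
  refine ⟨h1, ?_⟩
  have : ft (polB hQ) u (-w) h1 = (ft (polB hQ) u w h0)⁻¹ := by
    rw [eq_inv_iff_mul_eq_one]
    apply gl_ext'
    intro x
    rw [Units.val_mul, ← mulVec_mulVec, ft_mulVec, ft_mulVec, Units.val_one, one_mulVec]
    simp only [map_add, map_neg, map_smul, LinearMap.add_apply, LinearMap.smul_apply,
      smul_eq_mul, h0, mul_zero, add_zero]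
    module
  rw [this]
  exact M.inv_mem hM

theorem qm_R_sub_right {hQ : IsNondegenerateQuadraticForm Q} {M : Subgroup (GL ι F)}
    {u w w' : ι → F} (h : qm_R hQ M u w) (h' : qm_R hQ M u w') : qm_R hQ M u (w - w') := by
  rw [sub_eq_add_neg]
  exact qm_R_add_right h (qm_R_neg_right h')

theorem qm_R_smul {hQ : IsNondegenerateQuadraticForm Q} {M : Subgroup (GL ι F)}
    {u w : ι → F} (c : F) : qm_R hQ M (c • u) w ↔ qm_R hQ M u (c • w) := by
  have key : ∀ (h1 : polB hQ (c • u) w = 0) (h2 : polB hQ u (c • w) = 0),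
      ft (polB hQ) (c • u) w h1 = ft (polB hQ) u (c • w) h2 := by
    intro h1 h2
    apply gl_ext'
    intro x
    rw [ft_mulVec, ft_mulVec, map_smul, smul_eq_mul, smul_smul, mul_comm]
  constructor
  · rintro ⟨h1, hM⟩
    have h2 : polB hQ u (c • w) = 0 := by
      rw [map_smul, smul_eq_mul]
      rw [map_smul, LinearMap.smul_apply, smul_eq_mul] at h1
      exact h1
    exact ⟨h2, by rw [← key h1 h2]; exact hM⟩
  · rintro ⟨h2, hM⟩
    have h1 : polB hQ (c • u) w = 0 := by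
      rw [map_smul, LinearMap.smul_apply, smul_eq_mul]
      rw [map_smul, smul_eq_mul] at h2
      exact h2
    exact ⟨h1, by rw [key h1 h2]; exact hM⟩

theorem qm_R_add_left {hQ : IsNondegenerateQuadraticForm Q} {M : Subgroup (GL ι F)}
    {u u' w : ι → F} (h : qm_R hQ M u w) (h' : qm_R hQ M u' w) : qm_R hQ M (u + u') w := by
  obtain ⟨h0, hM⟩ := h
  obtain ⟨h0', hM'⟩ := h'
  have h1 : polB hQ (u + u') w = 0 := by rw [map_add, LinearMap.add_apply, h0, h0', add_zero]
  refine ⟨h1, ?_⟩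
  have : ft (polB hQ) (u + u') w h1 = ft (polB hQ) u w h0 * ft (polB hQ) u' w h0' := by
    apply gl_ext'
    intro x
    rw [Units.val_mul, ← mulVec_mulVec, ft_mulVec, ft_mulVec, ft_mulVec]
    simp only [map_add, map_smul, LinearMap.add_apply, LinearMap.smul_apply, smul_eq_mul, h0',
      mul_zero, add_zero]
    module
  rw [this]
  exact M.mul_mem hM hM'

theorem qm_R_neg_left {hQ : IsNondegenerateQuadraticForm Q} {M : Subgroup (GL ι F)}
    {u w : ι → F} (h : qm_R hQ M u w) : qm_R hQ M (-u) w := by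
  have h1 : qm_R hQ M u ((-1 : F) • w) := by
    rw [neg_one_smul]
    exact qm_R_neg_right h
  have h2 := (qm_R_smul (-1 : F)).mpr h1
  rwa [neg_one_smul] at h2

theorem qm_R_sub_left {hQ : IsNondegenerateQuadraticForm Q} {M : Subgroup (GL ι F)}
    {u u' w : ι → F} (h : qm_R hQ M u w) (h' : qm_R hQ M u' w) : qm_R hQ M (u - u') w := by
  rw [sub_eq_add_neg]
  exact qm_R_add_left h (qm_R_neg_left h')

/-- Conjugation by an isometry in `M`. -/
theorem qm_R_conj {hQ : IsNondegenerateQuadraticForm Q} {M : Subgroup (GL ι F)}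
    {u w : ι → F} (h : qm_R hQ M u w) (g : GL ι F) (hg : g ∈ M)
    (hiso : ∀ x y, polB hQ ((g : Matrix ι ι F) *ᵥ x) ((g : Matrix ι ι F) *ᵥ y) = polB hQ x y) :
    qm_R hQ M ((g : Matrix ι ι F) *ᵥ u) ((g : Matrix ι ι F) *ᵥ w) := by
  obtain ⟨h0, hM⟩ := h
  have h' : polB hQ ((g : Matrix ι ι F) *ᵥ u) ((g : Matrix ι ι F) *ᵥ w) = 0 := by
    rw [hiso]
    exact h0
  refine ⟨h', ?_⟩
  rw [← ft_conj (polB hQ) g hiso u w h0 h']
  exact M.mul_mem (M.mul_mem hg hM) (M.inv_mem hg)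

/-- The commutator rule. -/
theorem qm_R_comm {hQ : IsNondegenerateQuadraticForm Q} {M : Subgroup (GL ι F)}
    {u w u' w' : ι → F} (h : qm_R hQ M u w) (h' : qm_R hQ M u' w')
    (huw' : polB hQ u w' = 0) : qm_R hQ M u (polB hQ u' w • w') := by
  have hn := qm_R_neg_right h
  have hn' := qm_R_neg_right h'
  obtain ⟨h0, hM⟩ := h
  obtain ⟨h0', hM'⟩ := h'
  obtain ⟨h1, hN⟩ := hn
  obtain ⟨h1', hN'⟩ := hn'
  have h2 : polB hQ u (polB hQ u' w • w') = 0 := by
    rw [map_smul, huw', smul_zero]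
  refine ⟨h2, ?_⟩
  have : ft (polB hQ) u (polB hQ u' w • w') h2 =
      ft (polB hQ) u w h0 * ft (polB hQ) u' w' h0' * ft (polB hQ) u (-w) h1 *
        ft (polB hQ) u' (-w') h1' := by
    apply gl_ext'
    intro x
    rw [Units.val_mul, Units.val_mul, Units.val_mul, ← mulVec_mulVec, ← mulVec_mulVec,
      ← mulVec_mulVec, ft_mulVec, ft_mulVec, ft_mulVec, ft_mulVec, ft_mulVec]
    simp only [map_add, map_neg, map_smul, LinearMap.add_apply, LinearMap.smul_apply,
      smul_eq_mul, h0, h0', huw', mul_zero, add_zero]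
    module
  rw [this]
  exact M.mul_mem (M.mul_mem (M.mul_mem hM hM') hN) hN'

/-! ### Consequences of reflection invariance -/

/-- Invariance of `R` under a single reflection. -/
theorem qm_R_refl {hQ : IsNondegenerateQuadraticForm Q} {M : Subgroup (GL ι F)}
    (hHM : quadSimilarityGroup Q ⊓ specialLinear ι F ≤ M) (hn : 4 < Fintype.card ι)
    {u w : ι → F} (h : qm_R hQ M u w) (a : ι → F) (ha : Q a ≠ 0) :
    qm_R hQ M (u - qm_cf hQ a u • a) (w - qm_cf hQ a w • a) := by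
  obtain ⟨b, hb, hbz⟩ := qm_exists_aniso hQ ![u, w] (by omega)
  have hbu : polB hQ b u = 0 := hbz 0
  have hbw : polB hQ b w = 0 := hbz 1
  have h1 := qm_R_conj h (reflGL hQ a ha * reflGL hQ b hb) (hHM (qm_refl2_mem hQ a b ha hb))
    (qm_refl2_iso hQ a b ha hb)
  rw [Units.val_mul, ← mulVec_mulVec, ← mulVec_mulVec, qm_refl_mulVec hQ b hb u,
    qm_refl_mulVec hQ b hb w, qm_cf_orth hQ b u (by rw [polB_comm]; exact hbu),
    qm_cf_orth hQ b w (by rw [polB_comm]; exact hbw), zero_smul, sub_zero, sub_zero,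
    qm_refl_mulVec, qm_refl_mulVec] at h1
  exact h1

theorem qm_R_right_refl {hQ : IsNondegenerateQuadraticForm Q} {M : Subgroup (GL ι F)}
    (hHM : quadSimilarityGroup Q ⊓ specialLinear ι F ≤ M) (hn : 4 < Fintype.card ι)
    {u w : ι → F} (h : qm_R hQ M u w) (a : ι → F) (ha : Q a ≠ 0) (hau : polB hQ a u = 0) :
    qm_R hQ M u (qm_cf hQ a w • a) := by
  have h1 := qm_R_refl hHM hn h a ha
  rw [qm_cf_orth hQ a u (by rw [polB_comm]; exact hau), zero_smul, sub_zero] at h1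
  have h3 := qm_R_sub_right h h1
  rwa [sub_sub_cancel] at h3

theorem qm_R_left_refl {hQ : IsNondegenerateQuadraticForm Q} {M : Subgroup (GL ι F)}
    (hHM : quadSimilarityGroup Q ⊓ specialLinear ι F ≤ M) (hn : 4 < Fintype.card ι)
    {u w : ι → F} (h : qm_R hQ M u w) (a : ι → F) (ha : Q a ≠ 0) (haw : polB hQ a w = 0) :
    qm_R hQ M a (qm_cf hQ a u • w) := by
  have h1 := qm_R_refl hHM hn h a ha
  rw [qm_cf_orth hQ a w (by rw [polB_comm]; exact haw), zero_smul, sub_zero] at h1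
  have h3 := qm_R_sub_left h h1
  rw [sub_sub_cancel] at h3
  exact (qm_R_smul _).mp h3

theorem qm_two_squares [Fintype F] (hodd : Odd (Fintype.card F)) (α β γ : F) (hα : α ≠ 0)
    (hβ : β ≠ 0) : ∃ s t : F, α * s ^ 2 + β * t ^ 2 = γ := by
  have hf : (Polynomial.C α * Polynomial.X ^ 2 - Polynomial.C γ : Polynomial F).degree = 2 := by
    rw [Polynomial.degree_sub_eq_left_of_degree_lt, Polynomial.degree_C_mul_X_pow 2 hα]
    · rfl
    · rw [Polynomial.degree_C_mul_X_pow 2 hα]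
      exact lt_of_le_of_lt Polynomial.degree_C_le (by norm_num)
  have hg : (Polynomial.C β * Polynomial.X ^ 2 : Polynomial F).degree = 2 := by
    rw [Polynomial.degree_C_mul_X_pow 2 hβ]
    rfl
  obtain ⟨s, t, h⟩ := FiniteField.exists_root_sum_quadratic hf hg (Nat.odd_iff.mp hodd)
  refine ⟨s, t, ?_⟩
  simp only [Polynomial.eval_sub, Polynomial.eval_mul, Polynomial.eval_C, Polynomial.eval_pow,
    Polynomial.eval_X] at h
  linear_combination h

/-! ### Scalar closure -/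

/-- Scalar closure of `R` in the second variable, for pairs of anisotropic vectors. -/
theorem qm_R_scal [Fintype F] {hQ : IsNondegenerateQuadraticForm Q} {M : Subgroup (GL ι F)}
    (hHM : quadSimilarityGroup Q ⊓ specialLinear ι F ≤ M) (hodd : Odd (Fintype.card F))
    (h2 : (2 : F) ≠ 0) (hn : 10 < Fintype.card ι)
    {u w : ι → F} (h : qm_R hQ M u w) (hu : Q u ≠ 0) (hw : Q w ≠ 0) (K : F) :
    qm_R hQ M u (K • w) := by
  have huw : polB hQ u w = 0 := h.1
  have hwu : polB hQ w u = 0 := by rw [polB_comm]; exact huw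
  by_cases hK : K = 0
  · rw [hK, zero_smul]
    exact qm_R_zero_right hQ M u
  obtain ⟨e, he, hez⟩ := qm_exists_aniso hQ ![u, w] (by omega)
  have heu : polB hQ e u = 0 := hez 0
  have hew : polB hQ e w = 0 := hez 1
  have hue : polB hQ u e = 0 := by rw [polB_comm]; exact heu
  obtain ⟨a, ha, haz, haw, hae⟩ := qm_exists_aniso_ne2 hQ ![u] w e w e
    (fun i => by fin_cases i; exact hwu) (qm_two hQ h2 hw)
    (fun i => by fin_cases i; exact heu) (qm_two hQ h2 he) (by omega)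
  have hau : polB hQ a u = 0 := haz 0
  have hua : polB hQ u a = 0 := by rw [polB_comm]; exact hau
  obtain ⟨n₂, hn₂, hn₂z⟩ := qm_exists_aniso hQ ![u, w, a, e] (by omega)
  have hn₂u : polB hQ n₂ u = 0 := hn₂z 0
  have hn₂w : polB hQ n₂ w = 0 := hn₂z 1
  have hn₂a : polB hQ n₂ a = 0 := hn₂z 2
  have hn₂e : polB hQ n₂ e = 0 := hn₂z 3
  obtain ⟨n₃, hn₃, hn₃z⟩ := qm_exists_aniso hQ ![u, w, a, e, n₂] (by omega)
  have hn₃u : polB hQ n₃ u = 0 := hn₃z 0
  have hn₃w : polB hQ n₃ w = 0 := hn₃z 1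
  have hn₃a : polB hQ n₃ a = 0 := hn₃z 2
  have hn₃e : polB hQ n₃ e = 0 := hn₃z 3
  have hn₃n₂ : polB hQ n₃ n₂ = 0 := hn₃z 4
  have hun₂ : polB hQ u n₂ = 0 := by rw [polB_comm]; exact hn₂u
  have hun₃ : polB hQ u n₃ = 0 := by rw [polB_comm]; exact hn₃u
  have hen₂ : polB hQ e n₂ = 0 := by rw [polB_comm]; exact hn₂e
  have hen₃ : polB hQ e n₃ = 0 := by rw [polB_comm]; exact hn₃e
  have han₂ : polB hQ a n₂ = 0 := by rw [polB_comm]; exact hn₂a
  have han₃ : polB hQ a n₃ = 0 := by rw [polB_comm]; exact hn₃a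
  have hn₂n₃ : polB hQ n₂ n₃ = 0 := by rw [polB_comm]; exact hn₃n₂
  obtain ⟨t₂, t₃, ht⟩ := qm_two_squares hodd (Q n₂) (Q n₃)
    (2 * Q u * polB hQ a w * polB hQ a e * (Q a)⁻¹ * K⁻¹ - Q u - Q e) hn₂ hn₃
  have hQb : Q (u + e + t₂ • n₂ + t₃ • n₃) =
      2 * Q u * polB hQ a w * polB hQ a e * (Q a)⁻¹ * K⁻¹ := by
    rw [q_add hQ, q_add hQ, q_add hQ, q_smul hQ, q_smul hQ]
    simp only [map_add, map_smul, LinearMap.add_apply, LinearMap.smul_apply, smul_eq_mul, hue,
      hun₂, hun₃, hen₂, hen₃, hn₂n₃, mul_zero, add_zero]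
    linear_combination ht
  have hb0 : Q (u + e + t₂ • n₂ + t₃ • n₃) ≠ 0 := by
    rw [hQb]
    exact mul_ne_zero (mul_ne_zero (mul_ne_zero (mul_ne_zero (mul_ne_zero h2 hu) haw) hae)
      (inv_ne_zero ha)) (inv_ne_zero hK)
  have hbw : polB hQ (u + e + t₂ • n₂ + t₃ • n₃) w = 0 := by
    simp only [map_add, map_smul, LinearMap.add_apply, LinearMap.smul_apply, smul_eq_mul, huw,
      hew, hn₂w, hn₃w, mul_zero, add_zero]
  have hwb : polB hQ w (u + e + t₂ • n₂ + t₃ • n₃) = 0 := by rw [polB_comm]; exact hbw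
  have hub : polB hQ u (u + e + t₂ • n₂ + t₃ • n₃) = 2 * Q u := by
    simp only [map_add, map_smul, smul_eq_mul, hue, hun₂, hun₃, mul_zero, add_zero,
      polB_self]
  have hba : polB hQ (u + e + t₂ • n₂ + t₃ • n₃) a = polB hQ a e := by
    rw [polB_comm]
    simp only [map_add, map_smul, smul_eq_mul, hau, han₂, han₃, mul_zero, add_zero, zero_add]
  have hg := qm_R_conj h (reflGL hQ a ha * reflGL hQ (u + e + t₂ • n₂ + t₃ • n₃) hb0)
    (hHM (qm_refl2_mem hQ a _ ha hb0)) (qm_refl2_iso hQ a _ ha hb0)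
  have hgw : ((reflGL hQ a ha * reflGL hQ (u + e + t₂ • n₂ + t₃ • n₃) hb0 : GL ι F) :
      Matrix ι ι F) *ᵥ w = w - qm_cf hQ a w • a := by
    rw [Units.val_mul, ← mulVec_mulVec, qm_refl_mulVec hQ _ hb0 w, qm_cf_orth hQ _ w hwb,
      zero_smul, sub_zero, qm_refl_mulVec]
  have hgu : ((reflGL hQ a ha * reflGL hQ (u + e + t₂ • n₂ + t₃ • n₃) hb0 : GL ι F) :
      Matrix ι ι F) *ᵥ u = u - qm_cf hQ (u + e + t₂ • n₂ + t₃ • n₃) u •
        (u + e + t₂ • n₂ + t₃ • n₃) + (qm_cf hQ (u + e + t₂ • n₂ + t₃ • n₃) u *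
          qm_cf hQ a (u + e + t₂ • n₂ + t₃ • n₃)) • a := by
    rw [Units.val_mul, ← mulVec_mulVec, qm_refl_mulVec hQ _ hb0 u, qm_refl_mulVec]
    rw [map_sub, map_smul, smul_eq_mul, qm_cf_orth hQ a u hua]
    module
  rw [hgu, hgw] at hg
  have huw' : polB hQ u (w - qm_cf hQ a w • a) = 0 := by
    rw [map_sub, map_smul, huw, hua, smul_zero, sub_zero]
  have hc := qm_R_comm h hg huw'
  have hval : polB hQ (u - qm_cf hQ (u + e + t₂ • n₂ + t₃ • n₃) u •
        (u + e + t₂ • n₂ + t₃ • n₃) + (qm_cf hQ (u + e + t₂ • n₂ + t₃ • n₃) u *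
          qm_cf hQ a (u + e + t₂ • n₂ + t₃ • n₃)) • a) w = K := by
    rw [map_add, map_sub, map_smul, map_smul, LinearMap.add_apply, LinearMap.sub_apply,
      LinearMap.smul_apply, LinearMap.smul_apply, huw, hbw, smul_zero, sub_zero, zero_add,
      smul_eq_mul, qm_cf_apply, qm_cf_apply, hub, hba, hQb]
    field_simp
  rw [hval] at hc
  have hr := qm_R_refl hHM (by omega) hc a ha
  have e1 : u - qm_cf hQ a u • a = u := by
    rw [qm_cf_orth hQ a u hua, zero_smul, sub_zero]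
  have e2 : K • (w - qm_cf hQ a w • a) - qm_cf hQ a (K • (w - qm_cf hQ a w • a)) • a =
      K • w := by
    rw [map_smul, map_sub, map_smul, smul_eq_mul, smul_eq_mul, qm_cf_self hQ a ha]
    module
  rw [e1, e2] at hr
  exact hr

/-! ### Full centres -/

/-- If `(u, w)` lies in `R` with `u`, `w` anisotropic, then `(u, w')` lies in `R` for every `w'`
orthogonal to `u`. -/
theorem qm_R_full [Fintype F] {hQ : IsNondegenerateQuadraticForm Q} {M : Subgroup (GL ι F)}
    (hHM : quadSimilarityGroup Q ⊓ specialLinear ι F ≤ M) (hodd : Odd (Fintype.card F))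
    (h2 : (2 : F) ≠ 0) (hn : 10 < Fintype.card ι)
    {u w : ι → F} (h : qm_R hQ M u w) (hu : Q u ≠ 0) (hw : Q w ≠ 0) (w' : ι → F)
    (hw' : polB hQ u w' = 0) : qm_R hQ M u w' := by
  have huw : polB hQ u w = 0 := h.1
  have key : ∀ a, Q a ≠ 0 → polB hQ a u = 0 → polB hQ w a ≠ 0 → qm_R hQ M u a := by
    intro a ha hau hwa
    have h1 := qm_R_right_refl hHM (by omega) h a ha hau
    have hc : qm_cf hQ a w ≠ 0 := by
      rw [qm_cf_apply]
      exact mul_ne_zero (inv_ne_zero ha) hwa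
    have hq : Q (qm_cf hQ a w • a) ≠ 0 := by
      rw [q_smul hQ]
      exact mul_ne_zero (pow_ne_zero 2 hc) ha
    have h3 := qm_R_scal hHM hodd h2 hn h1 hu hq (qm_cf hQ a w)⁻¹
    rwa [smul_smul, inv_mul_cancel₀ hc, one_smul] at h3
  have keyA : ∀ w'', polB hQ u w'' = 0 → polB hQ w w'' ≠ 0 → qm_R hQ M u w'' := by
    intro w'' huw'' hww''
    by_cases hq : Q w'' ≠ 0
    · exact key w'' hq (by rw [polB_comm]; exact huw'') hww''
    · rw [not_not] at hq
      have hw''u : polB hQ w'' u = 0 := by rw [polB_comm]; exact huw''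
      obtain ⟨e, he, hez, hew⟩ := qm_exists_aniso_ne hQ ![u, w''] w w''
        (fun i => by
          fin_cases i
          · exact hw''u
          · show polB hQ w'' w'' = 0
            rw [polB_self, hq, mul_zero])
        (by rw [polB_comm]; exact hww'') (by omega)
      have heu : polB hQ e u = 0 := hez 0
      have hew'' : polB hQ e w'' = 0 := hez 1
      have hRe := key e he heu (by rw [polB_comm]; exact hew)
      by_cases hs : polB hQ w (w'' + e) ≠ 0
      · have h5 := key (w'' + e)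
          (by rw [q_add hQ, hq, zero_add, polB_comm hQ, hew'', add_zero]; exact he)
          (by rw [map_add, LinearMap.add_apply, hw''u, heu, add_zero]) hs
        have h6 := qm_R_sub_right h5 hRe
        rwa [add_sub_cancel_right] at h6
      · rw [not_not] at hs
        have hs' : polB hQ w (w'' - e) ≠ 0 := by
          intro h7
          rw [map_add] at hs
          rw [map_sub] at h7
          apply hww''
          have : 2 * polB hQ w w'' = 0 := by linear_combination hs + h7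
          exact (mul_eq_zero.mp this).resolve_left h2
        have h5 := key (w'' - e)
          (by rw [q_sub hQ, hq, zero_add, polB_comm hQ, hew'', sub_zero]; exact he)
          (by rw [map_sub, LinearMap.sub_apply, hw''u, heu, sub_zero]) hs'
        have h6 := qm_R_add_right h5 hRe
        rwa [sub_add_cancel] at h6
  by_cases h3 : polB hQ w w' ≠ 0
  · exact keyA w' hw' h3
  · rw [not_not] at h3
    have h4 := keyA (w' - w) (by rw [map_sub, hw', huw, sub_zero])
      (by rw [map_sub, h3, zero_sub, polB_self]; exact neg_ne_zero.mpr (mul_ne_zero h2 hw))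
    have h5 := qm_R_add_right h4 h
    rwa [sub_add_cancel] at h5

theorem qm_full_of_ne [Fintype F] {hQ : IsNondegenerateQuadraticForm Q} {M : Subgroup (GL ι F)}
    (hHM : quadSimilarityGroup Q ⊓ specialLinear ι F ≤ M) (hodd : Odd (Fintype.card F))
    (h2 : (2 : F) ≠ 0) (hn : 10 < Fintype.card ι)
    {u₀ : ι → F} (hfull : ∀ w, polB hQ u₀ w = 0 → qm_R hQ M u₀ w) (a : ι → F) (ha : Q a ≠ 0)
    (hau : polB hQ a u₀ ≠ 0) (w : ι → F) (hw : polB hQ a w = 0) : qm_R hQ M a w := by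
  obtain ⟨w₁, hw₁, hz⟩ := qm_exists_aniso hQ ![u₀, a] (by omega)
  have h1 : polB hQ w₁ u₀ = 0 := hz 0
  have h3 : polB hQ w₁ a = 0 := hz 1
  have h4 := hfull w₁ (by rw [polB_comm]; exact h1)
  have h5 := qm_R_left_refl hHM (by omega) h4 a ha (by rw [polB_comm]; exact h3)
  have hc : qm_cf hQ a u₀ ≠ 0 := by
    rw [qm_cf_apply]
    exact mul_ne_zero (inv_ne_zero ha) (by rw [polB_comm]; exact hau)
  exact qm_R_full hHM hodd h2 hn h5 ha
    (by rw [q_smul hQ]; exact mul_ne_zero (pow_ne_zero 2 hc) hw₁) w hw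

theorem qm_full_all [Fintype F] {hQ : IsNondegenerateQuadraticForm Q} {M : Subgroup (GL ι F)}
    (hHM : quadSimilarityGroup Q ⊓ specialLinear ι F ≤ M) (hodd : Odd (Fintype.card F))
    (h2 : (2 : F) ≠ 0) (hn : 10 < Fintype.card ι)
    {u₀ : ι → F} (hu₀ : Q u₀ ≠ 0) (hfull : ∀ w, polB hQ u₀ w = 0 → qm_R hQ M u₀ w)
    (a : ι → F) (ha : Q a ≠ 0) (w : ι → F) (hw : polB hQ a w = 0) : qm_R hQ M a w := by
  obtain ⟨a', ha', -, h1, h3⟩ := qm_exists_aniso_ne2 hQ (Fin.elim0 : Fin 0 → (ι → F)) u₀ a u₀ a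
    (fun i => i.elim0) (qm_two hQ h2 hu₀) (fun i => i.elim0) (qm_two hQ h2 ha) (by omega)
  have hfull' := qm_full_of_ne hHM hodd h2 hn hfull a' ha' h1
  exact qm_full_of_ne hHM hodd h2 hn hfull' a ha (by rw [polB_comm]; exact h3) w hw

theorem qm_R_all [Fintype F] {hQ : IsNondegenerateQuadraticForm Q} {M : Subgroup (GL ι F)}
    (hHM : quadSimilarityGroup Q ⊓ specialLinear ι F ≤ M) (hodd : Odd (Fintype.card F))
    (h2 : (2 : F) ≠ 0) (hn : 10 < Fintype.card ι)
    {u₀ : ι → F} (hu₀ : Q u₀ ≠ 0) (hfull : ∀ w, polB hQ u₀ w = 0 → qm_R hQ M u₀ w)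
    (u w : ι → F) (huw : polB hQ u w = 0) : qm_R hQ M u w := by
  by_cases hu : Q u ≠ 0
  · exact qm_full_all hHM hodd h2 hn hu₀ hfull u hu w huw
  · rw [not_not] at hu
    obtain ⟨e, he, hz⟩ := qm_exists_aniso hQ ![w] (by omega)
    have hew : polB hQ e w = 0 := hz 0
    have hRe := qm_full_all hHM hodd h2 hn hu₀ hfull e he w hew
    rcases qm_add_or_sub hQ h2 u e hu he with h | h
    · have h5 := qm_full_all hHM hodd h2 hn hu₀ hfull (u + e) h w
        (by rw [map_add, LinearMap.add_apply, huw, hew, add_zero])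
      have h6 := qm_R_sub_left h5 hRe
      rwa [add_sub_cancel_right] at h6
    · have h5 := qm_full_all hHM hodd h2 hn hu₀ hfull (u - e) h w
        (by rw [map_sub, LinearMap.sub_apply, huw, hew, sub_zero])
      have h6 := qm_R_add_left h5 hRe
      rwa [sub_add_cancel] at h6

/-- One transvection with anisotropic centre in `M` gives all transvections. -/
theorem qm_R_of_start [Fintype F] {hQ : IsNondegenerateQuadraticForm Q} {M : Subgroup (GL ι F)}
    (hHM : quadSimilarityGroup Q ⊓ specialLinear ι F ≤ M) (hodd : Odd (Fintype.card F))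
    (h2 : (2 : F) ≠ 0) (hn : 10 < Fintype.card ι)
    {v₀ w₀ : ι → F} (h : qm_R hQ M v₀ w₀) (hv₀ : Q v₀ ≠ 0) (hw₀ : w₀ ≠ 0)
    (u w : ι → F) (huw : polB hQ u w = 0) : qm_R hQ M u w := by
  obtain ⟨x₀, hx₀⟩ := qm_nd hQ w₀ hw₀
  obtain ⟨a₁, ha₁, haz, haw⟩ := qm_exists_aniso_ne hQ ![v₀] w₀
    (x₀ - (polB hQ x₀ v₀ * (polB hQ v₀ v₀)⁻¹) • v₀)
    (fun i => by
      fin_cases i
      show polB hQ (x₀ - (polB hQ x₀ v₀ * (polB hQ v₀ v₀)⁻¹) • v₀) v₀ = 0
      rw [map_sub, LinearMap.sub_apply, map_smul, LinearMap.smul_apply, smul_eq_mul, mul_assoc,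
        inv_mul_cancel₀ (qm_two hQ h2 hv₀), mul_one, sub_self])
    (by
      rw [map_sub, LinearMap.sub_apply, map_smul, LinearMap.smul_apply, smul_eq_mul, h.1,
        mul_zero, sub_zero]
      exact hx₀) (by omega)
  have h1 := qm_R_right_refl hHM (by omega) h a₁ ha₁ (haz 0)
  have hc : qm_cf hQ a₁ w₀ ≠ 0 := by
    rw [qm_cf_apply]
    exact mul_ne_zero (inv_ne_zero ha₁) (by rw [polB_comm]; exact haw)
  have hfull := qm_R_full hHM hodd h2 hn h1 hv₀
    (by rw [q_smul hQ]; exact mul_ne_zero (pow_ne_zero 2 hc) ha₁)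
  exact qm_R_all hHM hodd h2 hn hv₀ hfull u w huw

/-! ### Two quadratic forms: the first transvection -/

section TwoForms

variable {Q' : (ι → F) → F}

/-- Riesz representation of the functional `B'(·, c)` with respect to `B`. -/
theorem qm_riesz (hQ : IsNondegenerateQuadraticForm Q) (hQ' : IsNondegenerateQuadraticForm Q')
    (c : ι → F) : ∃ c', ∀ x, polB hQ x c' = polB hQ' x c := by
  obtain ⟨c', hc'⟩ := exists_rz (polB hQ) (qm_nd hQ) (rz (polB hQ') c)
  refine ⟨c', fun x => ?_⟩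
  rw [← rz_dot, hc', rz_dot]

/-- A product of reflections for two forms which is a transvection. -/
theorem qm_comm_refl (hQ : IsNondegenerateQuadraticForm Q) (hQ' : IsNondegenerateQuadraticForm Q')
    (v w c d : ι → F) (hv : Q v ≠ 0) (hw : Q w ≠ 0) (hc : Q' c ≠ 0) (hd : Q' d ≠ 0)
    (hdv : polB hQ d v = 0) (hwv : polB hQ w v = 0) (hcw : polB hQ c w = 0)
    (hdw : polB hQ d w = 0) (hdc' : polB hQ' d c = 0) (hvc' : polB hQ' v c = 0)
    (hwc' : polB hQ' w c = 0) (hvd' : polB hQ' v d = 0) (hwd' : polB hQ' w d = 0)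
    (x : ι → F) :
    ((reflGL hQ v hv * reflGL hQ w hw * (reflGL hQ' c hc * reflGL hQ' d hd) *
        (reflGL hQ w hw * reflGL hQ v hv) * (reflGL hQ' d hd * reflGL hQ' c hc) : GL ι F) :
        Matrix ι ι F) *ᵥ x = x - (qm_cf hQ' c x * qm_cf hQ v c) • v := by
  have f1 : qm_cf hQ v d = 0 := qm_cf_orth hQ v d hdv
  have f2 : qm_cf hQ v v = 2 := qm_cf_self hQ v hv
  have f3 : qm_cf hQ v w = 0 := qm_cf_orth hQ v w hwv
  have f4 : qm_cf hQ w c = 0 := qm_cf_orth hQ w c hcw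
  have f5 : qm_cf hQ w d = 0 := qm_cf_orth hQ w d hdw
  have f6 : qm_cf hQ w v = 0 := qm_cf_orth hQ w v (by rw [polB_comm]; exact hwv)
  have f7 : qm_cf hQ w w = 2 := qm_cf_self hQ w hw
  have f8 : qm_cf hQ' c c = 2 := qm_cf_self hQ' c hc
  have f9 : qm_cf hQ' c d = 0 := qm_cf_orth hQ' c d hdc'
  have f10 : qm_cf hQ' c v = 0 := qm_cf_orth hQ' c v hvc'
  have f11 : qm_cf hQ' c w = 0 := qm_cf_orth hQ' c w hwc'
  have f12 : qm_cf hQ' d c = 0 := qm_cf_orth hQ' d c (by rw [polB_comm]; exact hdc')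
  have f13 : qm_cf hQ' d d = 2 := qm_cf_self hQ' d hd
  have f14 : qm_cf hQ' d v = 0 := qm_cf_orth hQ' d v hvd'
  have f15 : qm_cf hQ' d w = 0 := qm_cf_orth hQ' d w hwd'
  simp only [Units.val_mul, ← mulVec_mulVec, qm_refl_mulVec, map_sub, map_smul, smul_eq_mul,
    f1, f2, f3, f4, f5, f6, f7, f8, f9, f10, f11, f12, f13, f14, f15, mul_zero, sub_zero]
  module

/-- Two non-proportional forms: a `Q'`-anisotropic `c` and a `Q`-anisotropic `v`, orthogonal for
`Q'` and not for `Q`. -/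
theorem qm_exists_cv (hQ : IsNondegenerateQuadraticForm Q) (hQ' : IsNondegenerateQuadraticForm Q')
    (h2 : (2 : F) ≠ 0) (hn : 10 < Fintype.card ι) (hne : ¬ ∃ l : F, ∀ x, Q x = l * Q' x) :
    ∃ c v, Q' c ≠ 0 ∧ Q v ≠ 0 ∧ polB hQ' v c = 0 ∧ polB hQ v c ≠ 0 := by
  by_contra hcon
  push Not at hcon
  apply hne
  have h1 : ∀ c, Q' c ≠ 0 → ∀ v, polB hQ' v c = 0 → polB hQ v c = 0 := by
    intro c hc v hvc
    by_cases hv : Q v ≠ 0
    · exact hcon c v hc hv hvc
    · rw [not_not] at hv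
      obtain ⟨c', hc'⟩ := qm_riesz hQ hQ' c
      obtain ⟨e, he, hez⟩ := qm_exists_aniso hQ ![c'] (by omega)
      have hec : polB hQ' e c = 0 := by
        rw [← hc']
        exact hez 0
      have hec2 := hcon c e hc he hec
      rcases qm_add_or_sub hQ h2 v e hv he with h | h
      · have h3 := hcon c (v + e) hc h (by rw [map_add, LinearMap.add_apply, hvc, hec, add_zero])
        rw [map_add, LinearMap.add_apply, hec2, add_zero] at h3
        exact h3
      · have h3 := hcon c (v - e) hc h (by rw [map_sub, LinearMap.sub_apply, hvc, hec, sub_zero])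
        rw [map_sub, LinearMap.sub_apply, hec2, sub_zero] at h3
        exact h3
  have h3 : ∀ c, Q' c ≠ 0 → ∀ x, polB hQ x c * Q' c = polB hQ' x c * Q c := by
    intro c hc x
    have h4 := h1 c hc (x - (polB hQ' x c * (polB hQ' c c)⁻¹) • c)
      (by rw [map_sub, LinearMap.sub_apply, map_smul, LinearMap.smul_apply, smul_eq_mul,
        mul_assoc, inv_mul_cancel₀ (qm_two hQ' h2 hc), mul_one, sub_self])
    rw [map_sub, LinearMap.sub_apply, map_smul, LinearMap.smul_apply, smul_eq_mul, polB_self,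
      polB_self, sub_eq_zero] at h4
    rw [h4]
    field_simp
  have h4 : ∀ c c', Q' c ≠ 0 → Q' c' ≠ 0 → polB hQ' c c' ≠ 0 → Q c * Q' c' = Q c' * Q' c := by
    intro c c' hc hc' hne'
    have e1 := h3 c hc c'
    have e2 := h3 c' hc' c
    rw [polB_comm hQ c' c, polB_comm hQ' c' c] at e1
    have h5 : polB hQ' c c' * (Q c * Q' c' - Q c' * Q' c) = 0 := by
      linear_combination Q' c * e2 - Q' c' * e1
    rcases mul_eq_zero.mp h5 with h | h
    · exact absurd h hne'
    · exact sub_eq_zero.mp h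
  have h5 : ∀ c c', Q' c ≠ 0 → Q' c' ≠ 0 → Q c * Q' c' = Q c' * Q' c := by
    intro c c' hc hc'
    obtain ⟨c'', hc'', -, k1, k2⟩ := qm_exists_aniso_ne2 hQ' (Fin.elim0 : Fin 0 → (ι → F))
      c c' c c' (fun i => i.elim0) (qm_two hQ' h2 hc) (fun i => i.elim0) (qm_two hQ' h2 hc')
      (by omega)
    have e1 := h4 c c'' hc hc'' (by rw [polB_comm]; exact k1)
    have e2 := h4 c'' c' hc'' hc' k2
    have h6 : Q' c'' * (Q c * Q' c' - Q c' * Q' c) = 0 := by
      linear_combination Q' c' * e1 + Q' c * e2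
    rcases mul_eq_zero.mp h6 with h | h
    · exact absurd h hc''
    · exact sub_eq_zero.mp h
  obtain ⟨c₀, hc₀, -⟩ := qm_exists_aniso hQ' (Fin.elim0 : Fin 0 → (ι → F)) (by omega)
  refine ⟨Q c₀ * (Q' c₀)⁻¹, ?_⟩
  have h6 : ∀ c, Q' c ≠ 0 → ∀ x, polB hQ x c = Q c₀ * (Q' c₀)⁻¹ * polB hQ' x c := by
    intro c hc x
    have e1 := h3 c hc x
    have e2 := h5 c c₀ hc hc₀
    have h7 : Q' c * (polB hQ x c * Q' c₀ - Q c₀ * polB hQ' x c) = 0 := by
      linear_combination Q' c₀ * e1 + polB hQ' x c * e2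
    have h8 := sub_eq_zero.mp ((mul_eq_zero.mp h7).resolve_left hc)
    field_simp
    exact h8
  have h7 : ∀ c x, polB hQ x c = Q c₀ * (Q' c₀)⁻¹ * polB hQ' x c := by
    intro c x
    by_cases hc : Q' c ≠ 0
    · exact h6 c hc x
    · rw [not_not] at hc
      have e2 := h6 c₀ hc₀ x
      rcases qm_add_or_sub hQ' h2 c c₀ hc hc₀ with h | h
      · have e1 := h6 (c + c₀) h x
        rw [map_add, map_add] at e1
        linear_combination e1 - e2
      · have e1 := h6 (c - c₀) h x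
        rw [map_sub, map_sub] at e1
        linear_combination e1 + e2
  intro x
  have e := h7 x x
  rw [polB_self, polB_self] at e
  have h8 : 2 * (Q x - Q c₀ * (Q' c₀)⁻¹ * Q' x) = 0 := by linear_combination e
  exact sub_eq_zero.mp ((mul_eq_zero.mp h8).resolve_left h2)

/-- A subgroup containing the products of two reflections of two non-proportional quadratic forms
contains a transvection with anisotropic centre. -/
theorem qm_first_tv (hQ : IsNondegenerateQuadraticForm Q) (hQ' : IsNondegenerateQuadraticForm Q')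
    (M : Subgroup (GL ι F)) (hHM : quadSimilarityGroup Q ⊓ specialLinear ι F ≤ M)
    (hM' : ∀ (c d : ι → F) (hc : Q' c ≠ 0) (hd : Q' d ≠ 0),
      reflGL hQ' c hc * reflGL hQ' d hd ∈ M)
    (h2 : (2 : F) ≠ 0) (hn : 10 < Fintype.card ι) (hne : ¬ ∃ l : F, ∀ x, Q x = l * Q' x) :
    ∃ v w₀, qm_R hQ M v w₀ ∧ Q v ≠ 0 ∧ w₀ ≠ 0 := by
  obtain ⟨c, v, hc, hv, hvc', hvc⟩ := qm_exists_cv hQ hQ' h2 hn hne
  obtain ⟨v', hv'⟩ := qm_riesz hQ' hQ v
  obtain ⟨d, hd, hdz⟩ := qm_exists_aniso hQ' ![c, v, v'] (by omega)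
  have hdc' : polB hQ' d c = 0 := hdz 0
  have hdv' : polB hQ' d v = 0 := hdz 1
  have hdv : polB hQ d v = 0 := by
    rw [← hv']
    exact hdz 2
  obtain ⟨c₁, hc₁⟩ := qm_riesz hQ hQ' c
  obtain ⟨d₁, hd₁⟩ := qm_riesz hQ hQ' d
  obtain ⟨w, hw, hwz⟩ := qm_exists_aniso hQ ![v, c, d, c₁, d₁] (by omega)
  have hwv : polB hQ w v = 0 := hwz 0
  have hwc : polB hQ w c = 0 := hwz 1
  have hwd : polB hQ w d = 0 := hwz 2
  have hwc' : polB hQ' w c = 0 := by
    rw [← hc₁]
    exact hwz 3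
  have hwd' : polB hQ' w d = 0 := by
    rw [← hd₁]
    exact hwz 4
  have hT : reflGL hQ v hv * reflGL hQ w hw * (reflGL hQ' c hc * reflGL hQ' d hd) *
      (reflGL hQ w hw * reflGL hQ v hv) * (reflGL hQ' d hd * reflGL hQ' c hc) ∈ M :=
    M.mul_mem (M.mul_mem (M.mul_mem (hHM (qm_refl2_mem hQ v w hv hw)) (hM' c d hc hd))
      (hHM (qm_refl2_mem hQ w v hw hv))) (hM' d c hd hc)
  obtain ⟨w₀, hw₀⟩ := exists_rz (polB hQ) (qm_nd hQ)
    ((-(qm_cf hQ v c) * (Q' c)⁻¹) • rz (polB hQ') c)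
  have hw₀x : ∀ x, polB hQ x w₀ = -(qm_cf hQ' c x * qm_cf hQ v c) := by
    intro x
    rw [← rz_dot, hw₀, smul_dotProduct, rz_dot, qm_cf_apply hQ', smul_eq_mul]
    ring
  have hvw₀ : polB hQ v w₀ = 0 := by
    rw [hw₀x, qm_cf_orth hQ' c v hvc', zero_mul, neg_zero]
  refine ⟨v, w₀, ⟨hvw₀, ?_⟩, hv, ?_⟩
  · have hft : ft (polB hQ) v w₀ hvw₀ = reflGL hQ v hv * reflGL hQ w hw *
        (reflGL hQ' c hc * reflGL hQ' d hd) * (reflGL hQ w hw * reflGL hQ v hv) *
        (reflGL hQ' d hd * reflGL hQ' c hc) := by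
      apply gl_ext'
      intro x
      rw [ft_mulVec, qm_comm_refl hQ hQ' v w c d hv hw hc hd hdv hwv
        (by rw [polB_comm]; exact hwc) (by rw [polB_comm]; exact hwd) hdc' hvc' hwc'
        (by rw [polB_comm]; exact hdv') hwd', hw₀x]
      module
    rw [hft]
    exact hT
  · intro h0
    have h3 := hw₀x c
    rw [h0, map_zero, qm_cf_self hQ' c hc, qm_cf_apply] at h3
    have h4 : (Q v)⁻¹ * polB hQ c v ≠ 0 :=
      mul_ne_zero (inv_ne_zero hv) (by rw [polB_comm]; exact hvc)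
    apply h4
    have h5 : 2 * ((Q v)⁻¹ * polB hQ c v) = 0 := by linear_combination h3
    exact (mul_eq_zero.mp h5).resolve_left h2

end TwoForms

/-! ### The conjugated form -/

/-- The form `Q ∘ y⁻¹`. -/
abbrev qm_conjQ (Q : (ι → F) → F) (y : GL ι F) : (ι → F) → F :=
  fun x => Q (((y⁻¹ : GL ι F) : Matrix ι ι F) *ᵥ x)

theorem qm_conjQ_polar (Q : (ι → F) → F) (y : GL ι F) (u v : ι → F) :
    QuadraticMap.polar (qm_conjQ Q y) u v =
      QuadraticMap.polar Q (((y⁻¹ : GL ι F) : Matrix ι ι F) *ᵥ u)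
        (((y⁻¹ : GL ι F) : Matrix ι ι F) *ᵥ v) := by
  unfold QuadraticMap.polar qm_conjQ
  rw [mulVec_add]

theorem qm_conjQ_nd (hQ : IsNondegenerateQuadraticForm Q) (y : GL ι F) :
    IsNondegenerateQuadraticForm (qm_conjQ Q y) := by
  refine ⟨?_, ⟨?_, ?_, ?_, ?_⟩, ?_⟩
  · intro c v
    unfold qm_conjQ
    rw [mulVec_smul]
    exact hQ.smul _ _
  · intro x z v
    rw [qm_conjQ_polar, qm_conjQ_polar, qm_conjQ_polar, mulVec_add]
    exact hQ.polar_bilinear.add_left _ _ _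
  · intro c x v
    rw [qm_conjQ_polar, qm_conjQ_polar, mulVec_smul]
    exact hQ.polar_bilinear.smul_left _ _ _
  · intro v x z
    rw [qm_conjQ_polar, qm_conjQ_polar, qm_conjQ_polar, mulVec_add]
    exact hQ.polar_bilinear.add_right _ _ _
  · intro c v x
    rw [qm_conjQ_polar, qm_conjQ_polar, mulVec_smul]
    exact hQ.polar_bilinear.smul_right _ _ _
  · intro v hv
    have hv' : ((y⁻¹ : GL ι F) : Matrix ι ι F) *ᵥ v ≠ 0 := by
      intro h
      apply hv
      have h3 := gl_mul_inv_mulVec y v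
      rw [h, mulVec_zero] at h3
      exact h3.symm
    obtain ⟨⟨x, hx⟩, ⟨x', hx'⟩⟩ := hQ.nondegenerate _ hv'
    refine ⟨⟨(y : Matrix ι ι F) *ᵥ x, ?_⟩, ⟨(y : Matrix ι ι F) *ᵥ x', ?_⟩⟩
    · rw [qm_conjQ_polar, gl_inv_mulVec]
      exact hx
    · rw [qm_conjQ_polar, gl_inv_mulVec]
      exact hx'

theorem qm_conjQ_polB (hQ : IsNondegenerateQuadraticForm Q) (y : GL ι F) (u v : ι → F) :
    polB (qm_conjQ_nd hQ y) u v = polB hQ (((y⁻¹ : GL ι F) : Matrix ι ι F) *ᵥ u)
        (((y⁻¹ : GL ι F) : Matrix ι ι F) *ᵥ v) := by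
  rw [polB_apply, polB_apply, qm_conjQ_polar]

/-- Reflections of the conjugated form are conjugates of reflections. -/
theorem qm_refl_conj (hQ : IsNondegenerateQuadraticForm Q) (y : GL ι F) (c : ι → F)
    (hc : Q (((y⁻¹ : GL ι F) : Matrix ι ι F) *ᵥ c) ≠ 0) (hc' : qm_conjQ Q y c ≠ 0) :
    y * reflGL hQ (((y⁻¹ : GL ι F) : Matrix ι ι F) *ᵥ c) hc * y⁻¹ =
      reflGL (qm_conjQ_nd hQ y) c hc' := by
  apply gl_ext'
  intro x
  rw [Units.val_mul, Units.val_mul, ← mulVec_mulVec, ← mulVec_mulVec, qm_refl_mulVec,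
    qm_refl_mulVec, mulVec_sub, mulVec_smul, gl_mul_inv_mulVec, gl_mul_inv_mulVec, qm_cf_apply,
    qm_cf_apply, qm_conjQ_polB]

/-- **The similarity group of a non-degenerate quadratic form over a finite field of odd order is
maximal in `SL`** (dimension at least 11). -/
theorem quad_similarity_max [Fintype F] (hQ : IsNondegenerateQuadraticForm Q)
    (hodd : Odd (Fintype.card F)) (hn : 10 < Fintype.card ι) :
    IsMaximalIn (specialLinear ι F) (quadSimilarityGroup Q ⊓ specialLinear ι F) := by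
  have h2 : (2 : F) ≠ 0 := by
    apply Ring.two_ne_zero
    intro hchar
    have := FiniteField.even_card_of_char_two hchar
    have := Nat.odd_iff.mp hodd
    omega
  have : Nontrivial ι := Fintype.one_lt_card_iff_nontrivial.mp (by omega)
  constructor
  · rw [SetLike.lt_iff_le_and_exists]
    refine ⟨inf_le_right, ?_⟩
    obtain ⟨v, hv, -⟩ := qm_exists_aniso hQ (Fin.elim0 : Fin 0 → (ι → F)) (by omega)
    obtain ⟨w, hw, hwz⟩ := qm_exists_aniso hQ ![v] (by omega)
    have hwv : polB hQ w v = 0 := hwz 0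
    have hvw : polB hQ v w = 0 := by
      rw [polB_comm]
      exact hwv
    refine ⟨ft (polB hQ) v w hvw, ft_mem_SL _ _ _ _, fun hmem => ?_⟩
    obtain ⟨c, hc⟩ := hmem.1
    have e1 := hc v
    rw [ft_mulVec, hvw, zero_smul, add_zero] at e1
    have hc1 : (c : F) = 1 := by
      have h3 : ((c : F) - 1) * Q v = 0 := by linear_combination -e1
      exact sub_eq_zero.mp ((mul_eq_zero.mp h3).resolve_right hv)
    have e2 := hc w
    rw [ft_mulVec, q_add hQ, q_smul hQ, map_smul, smul_eq_mul, hwv, mul_zero, add_zero, hc1,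
      one_mul, polB_self] at e2
    have h4 : (2 * Q w) ^ 2 * Q v ≠ 0 :=
      mul_ne_zero (pow_ne_zero 2 (mul_ne_zero h2 hw)) hv
    apply h4
    linear_combination e2
  · intro M hHM hMS
    by_cases hM : M = quadSimilarityGroup Q ⊓ specialLinear ι F
    · exact Or.inl hM
    · right
      obtain ⟨y, hyM, hyH⟩ := SetLike.exists_of_lt (lt_of_le_of_ne hHM (Ne.symm hM))
      have hy : y ∉ quadSimilarityGroup Q := fun h => hyH ⟨h, hMS hyM⟩
      have hM' : ∀ (c d : ι → F) (hc : qm_conjQ Q y c ≠ 0) (hd : qm_conjQ Q y d ≠ 0),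
          reflGL (qm_conjQ_nd hQ y) c hc * reflGL (qm_conjQ_nd hQ y) d hd ∈ M := by
        intro c d hc hd
        rw [← qm_refl_conj hQ y c hc hc, ← qm_refl_conj hQ y d hd hd]
        have h3 : y * reflGL hQ (((y⁻¹ : GL ι F) : Matrix ι ι F) *ᵥ c) hc * y⁻¹ *
            (y * reflGL hQ (((y⁻¹ : GL ι F) : Matrix ι ι F) *ᵥ d) hd * y⁻¹) =
            y * (reflGL hQ (((y⁻¹ : GL ι F) : Matrix ι ι F) *ᵥ c) hc *
              reflGL hQ (((y⁻¹ : GL ι F) : Matrix ι ι F) *ᵥ d) hd) * y⁻¹ := by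
          group
        rw [h3]
        exact M.mul_mem (M.mul_mem hyM (hHM (qm_refl2_mem hQ _ _ hc hd))) (M.inv_mem hyM)
      have hne : ¬ ∃ l : F, ∀ x, Q x = l * qm_conjQ Q y x := by
        rintro ⟨l, hl⟩
        apply hy
        have hl0 : l ≠ 0 := by
          rintro rfl
          obtain ⟨v, hv, -⟩ := qm_exists_aniso hQ (Fin.elim0 : Fin 0 → (ι → F)) (by omega)
          exact hv (by rw [hl, zero_mul])
        refine ⟨Units.mk0 l hl0, fun v => ?_⟩
        rw [hl ((y : Matrix ι ι F) *ᵥ v)]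
        unfold qm_conjQ
        rw [gl_inv_mulVec, Units.val_mk0]
      obtain ⟨v₀, w₀, hR, hv₀, hw₀⟩ := qm_first_tv hQ (qm_conjQ_nd hQ y) M hHM hM' h2 hn hne
      apply le_antisymm hMS
      apply SL_le_of_all_tv
      intro u ψ h
      obtain ⟨w, rfl⟩ := exists_rz (polB hQ) (qm_nd hQ) ψ
      have h' : polB hQ u w = 0 := by
        rw [← rz_dot]
        exact h
      obtain ⟨_, hmem⟩ := qm_R_of_start hHM hodd h2 hn hR hv₀ hw₀ u w h'
      exact hmem

end QuadMax

end Cfsg.Agent.Helper98
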