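import Mathlib
import Cfsg.Prelude.Def_GeometricClasses
import Cfsg.Agent.Helper98.OC6
import Cfsg.Agent.Helper94.SpGen

/-!
Skew quadratic-extension data on the standard symplectic space (`ω² = −ν`, `f(ωx, y) = −f(x, ωy)`:
the structure of a Hermitian space over `F(ω)` inside a symplectic space, odd characteristic),
the associated quadratic form `x ↦ f(x, ωx)`, and the elements of `Sp` used for the maximality
of the unitary `C₃` subgroups: the involutions on non-degenerate `K`-lines, unitary transvections,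
norm-one scalars and Heisenberg elements.
-/

set_option autoImplicit false
set_option linter.unusedSectionVars false
set_option linter.unusedVariables false
set_option linter.unusedSimpArgs false

universe u

namespace Cfsg.Agent.Helper98

open Matrix Cfsg Cfsg.Geo Cfsg.Agent.Helper45 Cfsg.Agent.Helper94

section SU1

variable {F : Type u} [Field F] [Fintype F] {m : ℕ}

/-- Skew quadratic-extension data for the standard alternating form. -/
structure SuData (ω : (Fin m ⊕ Fin m → F) →ₗ[F] (Fin m ⊕ Fin m → F)) (ν : F) : Prop where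
  sq : ∀ x, ω (ω x) = -(ν • x)
  irr : ∀ a b : F, a * a + ν * b * b = 0 → a = 0 ∧ b = 0
  adj : ∀ x y, sympForm m F (ω x) y = -sympForm m F x (ω y)

variable {ω : (Fin m ⊕ Fin m → F) →ₗ[F] (Fin m ⊕ Fin m → F)} {ν : F}

theorem su_ww (hd : SuData ω ν) (x y : (Fin m ⊕ Fin m → F)) : sympForm m F (ω x) (ω y) = ν * sympForm m F x y := by
  rw [hd.adj, hd.sq, sf_neg_right, sf_smul_right, neg_neg]

theorem su_nu_ne (hd : SuData ω ν) : ν ≠ 0 := by
  intro h
  have := hd.irr 0 1 (by rw [h]; ring)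
  exact one_ne_zero this.2

/-- The Hermitian norm form `x ↦ f(x, ωx)`. -/
noncomputable def suQ (ω : (Fin m ⊕ Fin m → F) →ₗ[F] (Fin m ⊕ Fin m → F)) : QuadraticForm F (Fin m ⊕ Fin m → F) :=
  LinearMap.BilinMap.toQuadraticMap ((sympB m F).compl₂ ω)

theorem suQ_apply (ω : (Fin m ⊕ Fin m → F) →ₗ[F] (Fin m ⊕ Fin m → F)) (x : (Fin m ⊕ Fin m → F)) : suQ ω x = sympForm m F x (ω x) := by
  unfold suQ
  rw [LinearMap.BilinMap.toQuadraticMap_apply, LinearMap.compl₂_apply, sympB_apply]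

theorem su_polar (hd : SuData ω ν) (x y : (Fin m ⊕ Fin m → F)) :
    QuadraticMap.polar ⇑(suQ ω) x y = 2 * sympForm m F x (ω y) := by
  unfold QuadraticMap.polar
  rw [suQ_apply, suQ_apply, suQ_apply]
  simp only [sf_add_left, sf_add_right, sf_smul_left, sf_smul_right, sf_sub_left, sf_sub_right, sf_neg_left, sf_neg_right, map_add, map_sub, map_smul, map_neg, smul_eq_mul]
  have e : sympForm m F y (ω x) = sympForm m F x (ω y) := by rw [sf_swap, hd.adj, neg_neg]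
  rw [e]
  ring

theorem su_ocdata (hd : SuData ω ν) : OcData (suQ ω) ω 0 ν := by
  refine ⟨?_, ?_, ?_, ?_, ?_⟩
  · intro x
    rw [hd.sq, zero_smul, zero_sub]
  · intro a b h
    apply hd.irr
    rw [← h]
    ring
  · intro x y
    rw [su_polar hd (ω x) y, su_polar hd x y, su_polar hd x (ω y), su_ww hd, hd.sq, sf_neg_right,
      sf_smul_right]
    ring
  · intro x
    rw [suQ_apply, suQ_apply, hd.sq, sf_neg_right, sf_smul_right, hd.adj]
    ring
  · intro x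
    rw [su_polar hd, hd.sq, sf_neg_right, sf_smul_right, sf_self]
    ring

theorem su_nondeg (hd : SuData ω ν) (h2 : (2 : F) ≠ 0) :
    (QuadraticMap.polarBilin (suQ ω)).Nondegenerate := by
  have key : ∀ x : (Fin m ⊕ Fin m → F), (∀ y, QuadraticMap.polar ⇑(suQ ω) x y = 0) → x = 0 := by
    intro x hx
    apply Helper13.sympForm_sep
    intro z
    have h1 := hx (ω z)
    rw [su_polar hd, hd.sq, sf_neg_right, sf_smul_right] at h1
    rcases mul_eq_zero.mp h1 with h | h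
    · exact absurd h h2
    · rcases mul_eq_zero.mp (neg_eq_zero.mp h) with h' | h'
      · exact absurd h' (su_nu_ne hd)
      · exact h'
  constructor
  · intro x hx
    exact key x hx
  · intro y hy
    apply key
    intro x
    rw [QuadraticMap.polar_comm]
    exact hy x

theorem su_mem_W (hd : SuData ω ν) (h2 : (2 : F) ≠ 0) (u x : (Fin m ⊕ Fin m → F)) :
    x ∈ ocW (suQ ω) ω u ↔ sympForm m F u x = 0 ∧ sympForm m F u (ω x) = 0 := by
  rw [oc_mem_W, su_polar hd, su_polar hd, su_ww hd]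
  constructor
  · rintro ⟨h1, h3⟩
    refine ⟨?_, ?_⟩
    · rcases mul_eq_zero.mp h3 with h | h
      · exact absurd h h2
      · rcases mul_eq_zero.mp h with h' | h'
        · exact absurd h' (su_nu_ne hd)
        · exact h'
    · rcases mul_eq_zero.mp h1 with h | h
      · exact absurd h h2
      · exact h
  · rintro ⟨h1, h3⟩
    rw [h1, h3]
    simp

/-- An element of `GL` from a linear map with a two-sided inverse. -/
noncomputable def suGL (φ ψ : (Fin m ⊕ Fin m → F) →ₗ[F] (Fin m ⊕ Fin m → F)) (h₁ : φ ∘ₗ ψ = LinearMap.id)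
    (h₂ : ψ ∘ₗ φ = LinearMap.id) : GL (Fin m ⊕ Fin m) F :=
  ⟨LinearMap.toMatrix' φ, LinearMap.toMatrix' ψ,
    by rw [← LinearMap.toMatrix'_comp, h₁, LinearMap.toMatrix'_id],
    by rw [← LinearMap.toMatrix'_comp, h₂, LinearMap.toMatrix'_id]⟩

theorem suGL_mulVec (φ ψ : (Fin m ⊕ Fin m → F) →ₗ[F] (Fin m ⊕ Fin m → F)) (h₁ : φ ∘ₗ ψ = LinearMap.id)
    (h₂ : ψ ∘ₗ φ = LinearMap.id) (x : (Fin m ⊕ Fin m → F)) :
    ((suGL φ ψ h₁ h₂ : GL (Fin m ⊕ Fin m) F) : Matrix (Fin m ⊕ Fin m) (Fin m ⊕ Fin m) F) *ᵥ x = φ x :=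
  LinearMap.toMatrix'_mulVec _ _

/-- The involution `−1` on the hyperbolic plane `⟨π, a⟩`, `+1` on its orthogonal. -/
noncomputable def suRlin (π a : (Fin m ⊕ Fin m → F)) : (Fin m ⊕ Fin m → F) →ₗ[F] (Fin m ⊕ Fin m → F) :=
  LinearMap.id - (2 : F) • (((sympB m F).flip a).smulRight π - ((sympB m F).flip π).smulRight a)

theorem suRlin_apply (π a x : (Fin m ⊕ Fin m → F)) :
    suRlin π a x = x - (2 : F) • (sympForm m F x a • π - sympForm m F x π • a) := by
  simp [suRlin, sympB_apply]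

theorem suRlin_invol (π a : (Fin m ⊕ Fin m → F)) (h : sympForm m F π a = 1) (x : (Fin m ⊕ Fin m → F)) :
    suRlin π a (suRlin π a x) = x := by
  have h' : sympForm m F a π = -1 := by rw [sf_swap, h]
  rw [suRlin_apply, suRlin_apply]
  simp only [sf_add_left, sf_add_right, sf_smul_left, sf_smul_right, sf_sub_left, sf_sub_right, sf_neg_left, sf_neg_right, map_add, map_sub, map_smul, map_neg, smul_eq_mul, h, h', sf_self]
  module

noncomputable def suR (π a : (Fin m ⊕ Fin m → F)) (h : sympForm m F π a = 1) : GL (Fin m ⊕ Fin m) F :=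
  suGL (suRlin π a) (suRlin π a) (LinearMap.ext (suRlin_invol π a h))
    (LinearMap.ext (suRlin_invol π a h))

theorem suR_mulVec (π a : (Fin m ⊕ Fin m → F)) (h : sympForm m F π a = 1) (x : (Fin m ⊕ Fin m → F)) :
    ((suR π a h : GL (Fin m ⊕ Fin m) F) : Matrix (Fin m ⊕ Fin m) (Fin m ⊕ Fin m) F) *ᵥ x = x - (2 : F) • (sympForm m F x a • π - sympForm m F x π • a) := by
  unfold suR
  rw [suGL_mulVec, suRlin_apply]

theorem suR_mem (π a : (Fin m ⊕ Fin m → F)) (h : sympForm m F π a = 1) : suR π a h ∈ spGL m F := by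
  rw [mem_spGL_iff]
  intro x y
  rw [suR_mulVec, suR_mulVec]
  have h' : sympForm m F a π = -1 := by rw [sf_swap, h]
  simp only [sf_add_left, sf_add_right, sf_smul_left, sf_smul_right, sf_sub_left, sf_sub_right, sf_neg_left, sf_neg_right, map_add, map_sub, map_smul, map_neg, smul_eq_mul, h, h', sf_self]
  rw [sf_swap π y, sf_swap a y]
  ring

theorem suR_conj {t : GL (Fin m ⊕ Fin m) F} (ht : t ∈ spGL m F) (π a : (Fin m ⊕ Fin m → F)) (h : sympForm m F π a = 1)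
    (h' : sympForm m F ((t : Matrix (Fin m ⊕ Fin m) (Fin m ⊕ Fin m) F) *ᵥ π) ((t : Matrix (Fin m ⊕ Fin m) (Fin m ⊕ Fin m) F) *ᵥ a) = 1) :
    t * suR π a h * t⁻¹ = suR ((t : Matrix (Fin m ⊕ Fin m) (Fin m ⊕ Fin m) F) *ᵥ π) ((t : Matrix (Fin m ⊕ Fin m) (Fin m ⊕ Fin m) F) *ᵥ a) h' := by
  apply gl_ext
  intro x
  rw [gl_mul_mulVec, gl_mul_mulVec, suR_mulVec, suR_mulVec, mulVec_sub, mulVec_smul, mulVec_sub,
    mulVec_smul, mulVec_smul, gl_mulVec_inv]
  have e1 : sympForm m F (((t⁻¹ : GL (Fin m ⊕ Fin m) F) : Matrix (Fin m ⊕ Fin m) (Fin m ⊕ Fin m) F) *ᵥ x) a = sympForm m F x ((t : Matrix (Fin m ⊕ Fin m) (Fin m ⊕ Fin m) F) *ᵥ a) := by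
    have := sp_apply ht (((t⁻¹ : GL (Fin m ⊕ Fin m) F) : Matrix (Fin m ⊕ Fin m) (Fin m ⊕ Fin m) F) *ᵥ x) a
    rw [gl_mulVec_inv] at this
    exact this.symm
  have e2 : sympForm m F (((t⁻¹ : GL (Fin m ⊕ Fin m) F) : Matrix (Fin m ⊕ Fin m) (Fin m ⊕ Fin m) F) *ᵥ x) π = sympForm m F x ((t : Matrix (Fin m ⊕ Fin m) (Fin m ⊕ Fin m) F) *ᵥ π) := by
    have := sp_apply ht (((t⁻¹ : GL (Fin m ⊕ Fin m) F) : Matrix (Fin m ⊕ Fin m) (Fin m ⊕ Fin m) F) *ᵥ x) π
    rw [gl_mulVec_inv] at this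
    exact this.symm
  rw [e1, e2]

theorem suR_comm (hd : SuData ω ν) (π : (Fin m ⊕ Fin m → F)) (hq : sympForm m F π (ω π) ≠ 0)
    (h : sympForm m F π ((sympForm m F π (ω π))⁻¹ • ω π) = 1) (x : (Fin m ⊕ Fin m → F)) :
    ((suR π ((sympForm m F π (ω π))⁻¹ • ω π) h : GL (Fin m ⊕ Fin m) F) : Matrix (Fin m ⊕ Fin m) (Fin m ⊕ Fin m) F) *ᵥ (ω x) =
      ω (((suR π ((sympForm m F π (ω π))⁻¹ • ω π) h : GL (Fin m ⊕ Fin m) F) : Matrix (Fin m ⊕ Fin m) (Fin m ⊕ Fin m) F) *ᵥ x) := by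
  rw [suR_mulVec, suR_mulVec]
  simp only [sf_add_left, sf_add_right, sf_smul_left, sf_smul_right, sf_sub_left, sf_sub_right, sf_neg_left, sf_neg_right, map_add, map_sub, map_smul, map_neg, smul_eq_mul, hd.sq, hd.adj x]
  module

/-- `P_w(x) = ν f(x, w) w + f(x, ωw) ωw`. -/
def suP (ω : (Fin m ⊕ Fin m → F) →ₗ[F] (Fin m ⊕ Fin m → F)) (ν : F) (w x : (Fin m ⊕ Fin m → F)) : (Fin m ⊕ Fin m → F) :=
  (ν * sympForm m F x w) • w + sympForm m F x (ω w) • ω w

/-- The unitary transvection `1 − c P_w` (for isotropic `w`). -/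
noncomputable def suT (ω : (Fin m ⊕ Fin m → F) →ₗ[F] (Fin m ⊕ Fin m → F)) (ν : F) (w : (Fin m ⊕ Fin m → F)) (c : F) : GL (Fin m ⊕ Fin m) F :=
  stGL w (-(c * ν)) * stGL (ω w) (-c)

theorem suT_mulVec (w : (Fin m ⊕ Fin m → F)) (hw : sympForm m F w (ω w) = 0) (c : F) (x : (Fin m ⊕ Fin m → F)) :
    ((suT ω ν w c : GL (Fin m ⊕ Fin m) F) : Matrix (Fin m ⊕ Fin m) (Fin m ⊕ Fin m) F) *ᵥ x = x - c • suP ω ν w x := by
  unfold suT suP
  rw [gl_mul_mulVec, stGL_mulVec, stGL_mulVec]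
  have hw' : sympForm m F (ω w) w = 0 := by rw [sf_swap, hw, neg_zero]
  simp only [sf_add_left, sf_add_right, sf_smul_left, sf_smul_right, sf_sub_left, sf_sub_right, sf_neg_left, sf_neg_right, map_add, map_sub, map_smul, map_neg, smul_eq_mul, hw']
  module

theorem suT_mem (ω : (Fin m ⊕ Fin m → F) →ₗ[F] (Fin m ⊕ Fin m → F)) (ν : F) (w : (Fin m ⊕ Fin m → F)) (c : F) : suT ω ν w c ∈ spGL m F :=
  (spGL m F).mul_mem (stGL_mem _ _) (stGL_mem _ _)

theorem suP_omega (hd : SuData ω ν) (w x : (Fin m ⊕ Fin m → F)) : suP ω ν w (ω x) = ω (suP ω ν w x) := by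
  unfold suP
  rw [map_add, map_smul, map_smul, hd.sq, hd.adj x w, su_ww hd]
  module

theorem suT_comm (hd : SuData ω ν) (w : (Fin m ⊕ Fin m → F)) (hw : sympForm m F w (ω w) = 0) (c : F) (x : (Fin m ⊕ Fin m → F)) :
    ((suT ω ν w c : GL (Fin m ⊕ Fin m) F) : Matrix (Fin m ⊕ Fin m) (Fin m ⊕ Fin m) F) *ᵥ (ω x) = ω (((suT ω ν w c : GL (Fin m ⊕ Fin m) F) : Matrix (Fin m ⊕ Fin m) (Fin m ⊕ Fin m) F) *ᵥ x) := by
  rw [suT_mulVec w hw, suT_mulVec w hw, suP_omega hd, map_sub, map_smul]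

/-- Multiplication by the norm-one scalar `l₀ + l₁ω`. -/
noncomputable def suZ (hd : SuData ω ν) (l₀ l₁ : F) (h : l₀ * l₀ + ν * l₁ * l₁ = 1) : GL (Fin m ⊕ Fin m) F :=
  suGL (l₀ • LinearMap.id + l₁ • ω) (l₀ • LinearMap.id - l₁ • ω)
    (LinearMap.ext (fun x => by
      simp only [LinearMap.comp_apply, LinearMap.add_apply, LinearMap.sub_apply,
        LinearMap.smul_apply, LinearMap.id_apply, map_sub, map_smul, hd.sq]
      have e : l₀ • (l₀ • x + l₁ • ω x) - l₁ • (l₀ • ω x + l₁ • -(ν • x)) =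
          (l₀ * l₀ + ν * l₁ * l₁) • x := by module
      rw [e, h, one_smul]))
    (LinearMap.ext (fun x => by
      simp only [LinearMap.comp_apply, LinearMap.add_apply, LinearMap.sub_apply,
        LinearMap.smul_apply, LinearMap.id_apply, map_add, map_smul, hd.sq]
      have e : l₀ • (l₀ • x - l₁ • ω x) + l₁ • (l₀ • ω x - l₁ • -(ν • x)) =
          (l₀ * l₀ + ν * l₁ * l₁) • x := by module
      rw [e, h, one_smul]))

theorem suZ_mulVec (hd : SuData ω ν) (l₀ l₁ : F) (h : l₀ * l₀ + ν * l₁ * l₁ = 1) (x : (Fin m ⊕ Fin m → F)) :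
    ((suZ hd l₀ l₁ h : GL (Fin m ⊕ Fin m) F) : Matrix (Fin m ⊕ Fin m) (Fin m ⊕ Fin m) F) *ᵥ x = l₀ • x + l₁ • ω x := by
  unfold suZ
  rw [suGL_mulVec]
  rfl

theorem suZ_mem (hd : SuData ω ν) (l₀ l₁ : F) (h : l₀ * l₀ + ν * l₁ * l₁ = 1) :
    suZ hd l₀ l₁ h ∈ spGL m F := by
  rw [mem_spGL_iff]
  intro x y
  rw [suZ_mulVec, suZ_mulVec]
  simp only [sf_add_left, sf_add_right, sf_smul_left, sf_smul_right, sf_sub_left, sf_sub_right, sf_neg_left, sf_neg_right, map_add, map_sub, map_smul, map_neg, smul_eq_mul, su_ww hd, hd.adj x y]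
  linear_combination (sympForm m F x y) * h

theorem suZ_comm (hd : SuData ω ν) (l₀ l₁ : F) (h : l₀ * l₀ + ν * l₁ * l₁ = 1) (x : (Fin m ⊕ Fin m → F)) :
    ((suZ hd l₀ l₁ h : GL (Fin m ⊕ Fin m) F) : Matrix (Fin m ⊕ Fin m) (Fin m ⊕ Fin m) F) *ᵥ (ω x) = ω (((suZ hd l₀ l₁ h : GL (Fin m ⊕ Fin m) F) : Matrix (Fin m ⊕ Fin m) (Fin m ⊕ Fin m) F) *ᵥ x) := by
  rw [suZ_mulVec, suZ_mulVec, map_add, map_smul, map_smul]

/-- The Heisenberg element `x ↦ x + f(x, π) b + f(x, b) π + c f(x, π) π` (for `b ⊥ π`). -/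
noncomputable def suH (π b : (Fin m ⊕ Fin m → F)) (c : F) : GL (Fin m ⊕ Fin m) F :=
  stGL (π + b) 1 * stGL b (-1) * stGL π (c - 1)

theorem suH_mulVec (π b : (Fin m ⊕ Fin m → F)) (hb : sympForm m F π b = 0) (c : F) (x : (Fin m ⊕ Fin m → F)) :
    ((suH π b c : GL (Fin m ⊕ Fin m) F) : Matrix (Fin m ⊕ Fin m) (Fin m ⊕ Fin m) F) *ᵥ x = x + sympForm m F x π • b + sympForm m F x b • π + (c * sympForm m F x π) • π := by
  unfold suH
  rw [gl_mul_mulVec, gl_mul_mulVec, stGL_mulVec, stGL_mulVec, stGL_mulVec]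
  have hb' : sympForm m F b π = 0 := by rw [sf_swap, hb, neg_zero]
  simp only [sf_add_left, sf_add_right, sf_smul_left, sf_smul_right, sf_sub_left, sf_sub_right, sf_neg_left, sf_neg_right, map_add, map_sub, map_smul, map_neg, smul_eq_mul, hb, hb', sf_self]
  module

theorem suH_mem (π b : (Fin m ⊕ Fin m → F)) (c : F) : suH π b c ∈ spGL m F :=
  (spGL m F).mul_mem ((spGL m F).mul_mem (stGL_mem _ _) (stGL_mem _ _)) (stGL_mem _ _)

theorem suH_conj {h : GL (Fin m ⊕ Fin m) F} (hh : h ∈ spGL m F) (π b : (Fin m ⊕ Fin m → F)) (c : F) :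
    h * suH π b c * h⁻¹ = suH ((h : Matrix (Fin m ⊕ Fin m) (Fin m ⊕ Fin m) F) *ᵥ π) ((h : Matrix (Fin m ⊕ Fin m) (Fin m ⊕ Fin m) F) *ᵥ b) c := by
  unfold suH
  have e : h * (stGL (π + b) 1 * stGL b (-1) * stGL π (c - 1)) * h⁻¹ =
      (h * stGL (π + b) 1 * h⁻¹) * (h * stGL b (-1) * h⁻¹) * (h * stGL π (c - 1) * h⁻¹) := by
    group
  rw [e, stGL_conj hh, stGL_conj hh, stGL_conj hh, mulVec_add]

theorem suH_comm (π b b' : (Fin m ⊕ Fin m → F)) (hb : sympForm m F π b = 0) (hb' : sympForm m F π b' = 0) (c c' : F) :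
    suH π b c * suH π b' c' = stGL π (2 * sympForm m F b' b) * (suH π b' c' * suH π b c) := by
  apply gl_ext
  intro x
  have hbπ : sympForm m F b π = 0 := by rw [sf_swap, hb, neg_zero]
  have hb'π : sympForm m F b' π = 0 := by rw [sf_swap, hb', neg_zero]
  simp only [gl_mul_mulVec, suH_mulVec π b hb, suH_mulVec π b' hb', stGL_mulVec]
  simp only [sf_add_left, sf_add_right, sf_smul_left, sf_smul_right, sf_sub_left, sf_sub_right, sf_neg_left, sf_neg_right, map_add, map_sub, map_smul, map_neg, smul_eq_mul, hb, hb', hbπ, hb'π, sf_self]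
  rw [sf_swap b b']
  module

theorem suR_mul (π a a₂ : (Fin m ⊕ Fin m → F)) (h : sympForm m F π a = 1) (h₂ : sympForm m F π a₂ = 1) :
    suR π a h * suR π a₂ h₂ = suH π ((2 : F) • (a₂ - a)) (4 * sympForm m F a a₂) := by
  have hb : sympForm m F π ((2 : F) • (a₂ - a)) = 0 := by
    rw [sf_smul_right, sf_sub_right, h, h₂]
    ring
  have h' : sympForm m F a π = -1 := by rw [sf_swap, h]
  have h₂' : sympForm m F a₂ π = -1 := by rw [sf_swap, h₂]
  apply gl_ext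
  intro x
  rw [gl_mul_mulVec, suH_mulVec _ _ hb]
  simp only [suR_mulVec]
  simp only [sf_add_left, sf_add_right, sf_smul_left, sf_smul_right, sf_sub_left, sf_sub_right, sf_neg_left, sf_neg_right, map_add, map_sub, map_smul, map_neg, smul_eq_mul, h, h₂, h', h₂', sf_self]
  rw [sf_swap a₂ a]
  module

end SU1

end Cfsg.Agent.Helper98
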