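import Mathlib
import Cfsg.Prelude.Def_GeometricClasses
import Cfsg.Agent.Helper98.SU1

/-!
The closure theorem for the unitary `C₃` subgroups of `Sp_{2m}(q)`, `q` odd: a subgroup containing
the centralisers in `Sp` of two skew quadratic-extension structures `ω`, `ω'` with
`ω' ∉ F + Fω` contains `Sp`.
-/

set_option autoImplicit false
set_option linter.unusedSectionVars false
set_option linter.unusedVariables false
set_option linter.unusedSimpArgs false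

universe u

namespace Cfsg.Agent.Helper98

open Matrix Cfsg Cfsg.Geo Cfsg.Agent.Helper45 Cfsg.Agent.Helper94

section SU2

variable {F : Type u} [Field F] [Fintype F] {m : ℕ}

variable {ω : (Fin m ⊕ Fin m → F) →ₗ[F] (Fin m ⊕ Fin m → F)} {ν : F}

theorem suR_congr (π π' a a' : (Fin m ⊕ Fin m → F)) (hπ : π = π') (ha : a = a') (h : sympForm m F π a = 1)
    (h' : sympForm m F π' a' = 1) : suR π a h = suR π' a' h' := by
  subst hπ
  subst ha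
  rfl

theorem suT_form (w : (Fin m ⊕ Fin m → F)) (hw : sympForm m F w (ω w) = 0) (c : F) (b : (Fin m ⊕ Fin m → F)) :
    sympForm m F (((suT ω ν w c : GL (Fin m ⊕ Fin m) F) : Matrix (Fin m ⊕ Fin m) (Fin m ⊕ Fin m) F) *ᵥ b) b =
      c * (ν * sympForm m F b w * sympForm m F b w + sympForm m F b (ω w) * sympForm m F b (ω w)) := by
  rw [suT_mulVec w hw]
  unfold suP
  simp only [sf_add_left, sf_add_right, sf_smul_left, sf_smul_right, sf_sub_left, sf_sub_right, sf_neg_left, sf_neg_right, map_add, map_sub, map_smul, map_neg, smul_eq_mul, sf_self]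
  rw [sf_swap w b, sf_swap (ω w) b]
  ring

theorem su_two (h2 : (2 : F) ≠ 0) {x : F} (h : 2 * x = 0) : x = 0 :=
  (mul_eq_zero.mp h).resolve_left h2

theorem su_center_aux {ω' : (Fin m ⊕ Fin m → F) →ₗ[F] (Fin m ⊕ Fin m → F)} {ν' : F} (hd' : SuData ω' ν')
    (h2 : (2 : F) ≠ 0) (hm : 7 ≤ m) (M : Subgroup (GL (Fin m ⊕ Fin m) F))
    (hM' : ∀ g ∈ spGL m F, (∀ x, ((g : GL (Fin m ⊕ Fin m) F) : Matrix (Fin m ⊕ Fin m) (Fin m ⊕ Fin m) F) *ᵥ (ω' x) = ω' (((g : GL (Fin m ⊕ Fin m) F) : Matrix (Fin m ⊕ Fin m) (Fin m ⊕ Fin m) F) *ᵥ x)) → g ∈ M)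
    (π a : (Fin m ⊕ Fin m → F)) (h1 : sympForm m F π a = 1) (hr : suR π a h1 ∈ M) (haK : a ∉ ocK ω' π) :
    π ∈ tvCentres M := by
  have hcard : 7 ≤ Fintype.card (Fin m ⊕ Fin m) := by
    rw [Fintype.card_sum, Fintype.card_fin]
    omega
  have hν' := su_nu_ne hd'
  have hO' := su_ocdata hd'
  have hQn' := su_nondeg hd' h2
  obtain ⟨w, hwQ, hw1, hw2, hwK, hw3⟩ := oc_SW' (suQ ω') hQn' hcard π a haK
  obtain ⟨w₂, hw₂Q, hw₂1, hw₂2, hw₂3, hw₂4⟩ :=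
    oc_partner (suQ ω') hQn' hO' π w hwQ hw1 hw2 hwK
  rw [suQ_apply] at hwQ hw₂Q
  rw [su_polar hd'] at hw1 hw3 hw₂1 hw₂3
  rw [su_polar hd', su_ww hd'] at hw2 hw₂2 hw₂4
  have A1 : sympForm m F π (ω' w) = 0 := su_two h2 hw1
  have A2 : sympForm m F π w = 0 := (mul_eq_zero.mp (su_two h2 hw2)).resolve_left hν'
  have A3 : sympForm m F a (ω' w) ≠ 0 := fun h => hw3 (by rw [h, mul_zero])
  have B1 : sympForm m F π (ω' w₂) = 0 := su_two h2 hw₂1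
  have B2 : sympForm m F π w₂ = 0 := (mul_eq_zero.mp (su_two h2 hw₂2)).resolve_left hν'
  have B3 : sympForm m F w (ω' w₂) = 0 := su_two h2 hw₂3
  have ht : suT ω' ν' w 1 ∈ M := hM' _ (suT_mem _ _ _ _) (suT_comm hd' w hwQ 1)
  have htπ : ((suT ω' ν' w 1 : GL (Fin m ⊕ Fin m) F) : Matrix (Fin m ⊕ Fin m) (Fin m ⊕ Fin m) F) *ᵥ π = π := by
    rw [suT_mulVec w hwQ]
    unfold suP
    rw [A1, A2]
    simp
  obtain ⟨a₂, ha₂⟩ : ∃ a₂ : (Fin m ⊕ Fin m → F), a₂ = ((suT ω' ν' w 1 : GL (Fin m ⊕ Fin m) F) : Matrix (Fin m ⊕ Fin m) (Fin m ⊕ Fin m) F) *ᵥ a := ⟨_, rfl⟩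
  have h1' : sympForm m F (((suT ω' ν' w 1 : GL (Fin m ⊕ Fin m) F) : Matrix (Fin m ⊕ Fin m) (Fin m ⊕ Fin m) F) *ᵥ π) (((suT ω' ν' w 1 : GL (Fin m ⊕ Fin m) F) : Matrix (Fin m ⊕ Fin m) (Fin m ⊕ Fin m) F) *ᵥ a) = 1 := by
    rw [sp_apply (suT_mem _ _ _ _)]
    exact h1
  have h1₂ : sympForm m F π a₂ = 1 := by
    rw [ha₂]
    rw [htπ] at h1'
    exact h1'
  have hr₂ : suR π a₂ h1₂ ∈ M := by
    have e := suR_conj (suT_mem ω' ν' w 1) π a h1 h1'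
    rw [suR_congr _ _ _ _ htπ.symm ha₂ h1₂ h1', ← e]
    exact M.mul_mem (M.mul_mem ht hr) (M.inv_mem ht)
  have hg₀ : suH π ((2 : F) • (a₂ - a)) (4 * sympForm m F a a₂) ∈ M := by
    rw [← suR_mul π a a₂ h1 h1₂]
    exact M.mul_mem hr hr₂
  obtain ⟨b₀, hb₀⟩ : ∃ b₀ : (Fin m ⊕ Fin m → F), b₀ = (2 : F) • (a₂ - a) := ⟨_, rfl⟩
  rw [← hb₀] at hg₀
  have ha₂' : a₂ = a - (1 : F) • suP ω' ν' w a := by
    rw [ha₂, suT_mulVec w hwQ]
  have hb : sympForm m F π b₀ = 0 := by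
    rw [hb₀, sf_smul_right, sf_sub_right, h1, h1₂]
    ring
  have hb1 : sympForm m F b₀ (ω' w₂) = -sympForm m F a (ω' w) := by
    rw [hb₀, ha₂']
    unfold suP
    simp only [sf_add_left, sf_add_right, sf_smul_left, sf_smul_right, sf_sub_left, sf_sub_right, sf_neg_left, sf_neg_right, map_add, map_sub, map_smul, map_neg, smul_eq_mul, su_ww hd', B3]
    linear_combination (-sympForm m F a (ω' w)) * hw₂4
  obtain ⟨N, hNdef⟩ : ∃ N : F,
      N = ν' * sympForm m F b₀ w₂ * sympForm m F b₀ w₂ + sympForm m F b₀ (ω' w₂) * sympForm m F b₀ (ω' w₂) := ⟨_, rfl⟩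
  have hN : N ≠ 0 := by
    intro h
    rw [hNdef] at h
    have := hd'.irr (sympForm m F b₀ (ω' w₂)) (sympForm m F b₀ w₂) (by linear_combination h)
    rw [hb1] at this
    exact A3 (neg_eq_zero.mp this.1)
  intro c
  obtain ⟨c₂, hc₂⟩ : ∃ c₂ : F, c₂ = c * (2 * N)⁻¹ := ⟨_, rfl⟩
  have hh : suT ω' ν' w₂ c₂ ∈ M := hM' _ (suT_mem _ _ _ _) (suT_comm hd' w₂ hw₂Q c₂)
  have hhπ : ((suT ω' ν' w₂ c₂ : GL (Fin m ⊕ Fin m) F) : Matrix (Fin m ⊕ Fin m) (Fin m ⊕ Fin m) F) *ᵥ π = π := by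
    rw [suT_mulVec w₂ hw₂Q]
    unfold suP
    rw [B1, B2]
    simp
  have hg₁ : suH π (((suT ω' ν' w₂ c₂ : GL (Fin m ⊕ Fin m) F) : Matrix (Fin m ⊕ Fin m) (Fin m ⊕ Fin m) F) *ᵥ b₀) (4 * sympForm m F a a₂) ∈ M := by
    have e := suH_conj (suT_mem ω' ν' w₂ c₂) π b₀ (4 * sympForm m F a a₂)
    rw [hhπ] at e
    rw [← e]
    exact M.mul_mem (M.mul_mem hh hg₀) (M.inv_mem hh)
  have hb' : sympForm m F π (((suT ω' ν' w₂ c₂ : GL (Fin m ⊕ Fin m) F) : Matrix (Fin m ⊕ Fin m) (Fin m ⊕ Fin m) F) *ᵥ b₀) = 0 := by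
    have := sp_apply (suT_mem ω' ν' w₂ c₂) π b₀
    rw [hhπ] at this
    rw [this]
    exact hb
  have key := suH_comm π b₀ (((suT ω' ν' w₂ c₂ : GL (Fin m ⊕ Fin m) F) : Matrix (Fin m ⊕ Fin m) (Fin m ⊕ Fin m) F) *ᵥ b₀) hb hb' (4 * sympForm m F a a₂)
    (4 * sympForm m F a a₂)
  have key2 := eq_mul_inv_of_mul_eq key.symm
  have e3 : 2 * sympForm m F (((suT ω' ν' w₂ c₂ : GL (Fin m ⊕ Fin m) F) : Matrix (Fin m ⊕ Fin m) (Fin m ⊕ Fin m) F) *ᵥ b₀) b₀ = c := by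
    rw [suT_form w₂ hw₂Q, ← hNdef, hc₂]
    field_simp
  rw [e3] at key2
  rw [key2]
  exact M.mul_mem (M.mul_mem hg₀ hg₁) (M.inv_mem (M.mul_mem hg₁ hg₀))

/-- A non-isotropic vector `π` with `ω'π ∉ Kπ` is the centre of transvections in `M`. -/
theorem su_center {ω' : (Fin m ⊕ Fin m → F) →ₗ[F] (Fin m ⊕ Fin m → F)} {ν' : F} (hd : SuData ω ν) (hd' : SuData ω' ν')
    (h2 : (2 : F) ≠ 0) (hm : 7 ≤ m) (M : Subgroup (GL (Fin m ⊕ Fin m) F))
    (hM : ∀ g ∈ spGL m F, (∀ x, ((g : GL (Fin m ⊕ Fin m) F) : Matrix (Fin m ⊕ Fin m) (Fin m ⊕ Fin m) F) *ᵥ (ω x) = ω (((g : GL (Fin m ⊕ Fin m) F) : Matrix (Fin m ⊕ Fin m) (Fin m ⊕ Fin m) F) *ᵥ x)) → g ∈ M)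
    (hM' : ∀ g ∈ spGL m F, (∀ x, ((g : GL (Fin m ⊕ Fin m) F) : Matrix (Fin m ⊕ Fin m) (Fin m ⊕ Fin m) F) *ᵥ (ω' x) = ω' (((g : GL (Fin m ⊕ Fin m) F) : Matrix (Fin m ⊕ Fin m) (Fin m ⊕ Fin m) F) *ᵥ x)) → g ∈ M)
    (π : (Fin m ⊕ Fin m → F)) (hq : sympForm m F π (ω π) ≠ 0) (hπ : ω' π ∉ ocK ω π) : π ∈ tvCentres M := by
  have h1 : sympForm m F π ((sympForm m F π (ω π))⁻¹ • ω π) = 1 := by rw [sf_smul_right, inv_mul_cancel₀ hq]
  have hr : suR π _ h1 ∈ M := hM _ (suR_mem _ _ _) (suR_comm hd π hq h1)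
  have haK : (sympForm m F π (ω π))⁻¹ • ω π ∉ ocK ω' π := by
    intro hK
    obtain ⟨α, β, e⟩ := (oc_mem_K ω' π _).mp hK
    apply hπ
    by_cases hβ : β = 0
    · exfalso
      rw [hβ, zero_smul, add_zero] at e
      have h3 : sympForm m F π (α • π) = 1 := by rw [e]; exact h1
      rw [sf_smul_right, sf_self, mul_zero] at h3
      exact zero_ne_one h3
    · rw [oc_mem_K]
      refine ⟨-(β⁻¹ * α), β⁻¹ * (sympForm m F π (ω π))⁻¹, ?_⟩
      have h3 : ω' π = β⁻¹ • ((sympForm m F π (ω π))⁻¹ • ω π - α • π) := by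
        rw [← e, add_sub_cancel_left, smul_smul, inv_mul_cancel₀ hβ, one_smul]
      rw [h3]
      module
  exact su_center_aux hd' h2 hm M hM' π _ h1 hr haK

/-- The `K`-line of a non-isotropic centre consists of centres. -/
theorem su_Kline (hd : SuData ω ν) (h2 : (2 : F) ≠ 0) (M : Subgroup (GL (Fin m ⊕ Fin m) F))
    (hM : ∀ g ∈ spGL m F, (∀ x, ((g : GL (Fin m ⊕ Fin m) F) : Matrix (Fin m ⊕ Fin m) (Fin m ⊕ Fin m) F) *ᵥ (ω x) = ω (((g : GL (Fin m ⊕ Fin m) F) : Matrix (Fin m ⊕ Fin m) (Fin m ⊕ Fin m) F) *ᵥ x)) → g ∈ M)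
    (x : (Fin m ⊕ Fin m → F)) (hx : x ∈ tvCentres M) (hq : sympForm m F x (ω x) ≠ 0) (a b : F) :
    a • x + b • ω x ∈ tvCentres M := by
  have h1ν : 1 + ν ≠ 0 := by
    intro h
    have := hd.irr 1 1 (by linear_combination h)
    exact one_ne_zero this.1
  have hl : ((1 - ν) / (1 + ν)) * ((1 - ν) / (1 + ν)) + ν * (2 / (1 + ν)) * (2 / (1 + ν)) = 1 := by
    field_simp
    ring
  have hZ : suZ hd _ _ hl ∈ M := hM _ (suZ_mem hd _ _ hl) (suZ_comm hd _ _ hl)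
  have hZx := tvCentres_map M hZ (suZ_mem hd _ _ hl) hx
  rw [suZ_mulVec] at hZx
  have hne : sympForm m F x (((1 - ν) / (1 + ν)) • x + (2 / (1 + ν)) • ω x) ≠ 0 := by
    rw [sf_add_right, sf_smul_right, sf_smul_right, sf_self, mul_zero, zero_add]
    exact mul_ne_zero (div_ne_zero h2 h1ν) hq
  have h3 := tvCentres_line M hx hZx hne (a - b * (1 + ν) / 2 * ((1 - ν) / (1 + ν)))
    (b * (1 + ν) / 2)
  have e1 : (a - b * (1 + ν) / 2 * ((1 - ν) / (1 + ν))) +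
      b * (1 + ν) / 2 * ((1 - ν) / (1 + ν)) = a := by ring
  have e2 : b * (1 + ν) / 2 * (2 / (1 + ν)) = b := by field_simp
  have e : (a - b * (1 + ν) / 2 * ((1 - ν) / (1 + ν))) • x +
      (b * (1 + ν) / 2) • (((1 - ν) / (1 + ν)) • x + (2 / (1 + ν)) • ω x) = a • x + b • ω x := by
    rw [smul_add, smul_smul, smul_smul, ← add_assoc, ← add_smul, e1, e2]
  rw [← e]
  exact h3

/-- If the `K`-line of `x` consists of centres, so does every isotropic vector not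
`K`-orthogonal to `x`. -/
theorem su_step (hd : SuData ω ν) (h2 : (2 : F) ≠ 0) (M : Subgroup (GL (Fin m ⊕ Fin m) F))
    (hM : ∀ g ∈ spGL m F, (∀ x, ((g : GL (Fin m ⊕ Fin m) F) : Matrix (Fin m ⊕ Fin m) (Fin m ⊕ Fin m) F) *ᵥ (ω x) = ω (((g : GL (Fin m ⊕ Fin m) F) : Matrix (Fin m ⊕ Fin m) (Fin m ⊕ Fin m) F) *ᵥ x)) → g ∈ M)
    (x : (Fin m ⊕ Fin m → F)) (hx : ∀ a b : F, a • x + b • ω x ∈ tvCentres M)
    (w : (Fin m ⊕ Fin m → F)) (hw : sympForm m F w (ω w) = 0) (hwx : w ∉ ocW (suQ ω) ω x) : w ∈ tvCentres M := by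
  rw [su_mem_W hd h2] at hwx
  have hν := su_nu_ne hd
  obtain ⟨N, hN⟩ : ∃ N : F, N = ν * sympForm m F x w * sympForm m F x w + sympForm m F x (ω w) * sympForm m F x (ω w) := ⟨_, rfl⟩
  have hN0 : N ≠ 0 := by
    intro h
    rw [hN] at h
    have := hd.irr (sympForm m F x (ω w)) (sympForm m F x w) (by linear_combination h)
    exact hwx ⟨this.2, this.1⟩
  obtain ⟨p, hp⟩ : ∃ p : (Fin m ⊕ Fin m → F), p = (ν * sympForm m F x w) • x + (-sympForm m F x (ω w)) • ω x := ⟨_, rfl⟩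
  have hpC : p ∈ tvCentres M := by
    rw [hp]
    exact hx _ _
  have ht : suT ω ν w 1 ∈ M := hM _ (suT_mem _ _ _ _) (suT_comm hd w hw 1)
  have htp := tvCentres_map M ht (suT_mem _ _ _ _) hpC
  have e1 : sympForm m F p w = N := by
    rw [hp, hN]
    simp only [sf_add_left, sf_add_right, sf_smul_left, sf_smul_right, sf_sub_left, sf_sub_right, sf_neg_left, sf_neg_right, map_add, map_sub, map_smul, map_neg, smul_eq_mul, hd.adj x w]
    ring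
  have e2 : sympForm m F p (ω w) = 0 := by
    rw [hp]
    simp only [sf_add_left, sf_add_right, sf_smul_left, sf_smul_right, sf_sub_left, sf_sub_right, sf_neg_left, sf_neg_right, map_add, map_sub, map_smul, map_neg, smul_eq_mul, su_ww hd]
    ring
  have e3 : ((suT ω ν w 1 : GL (Fin m ⊕ Fin m) F) : Matrix (Fin m ⊕ Fin m) (Fin m ⊕ Fin m) F) *ᵥ p = p - (ν * N) • w := by
    rw [suT_mulVec w hw]
    unfold suP
    rw [e1, e2]
    module
  rw [e3] at htp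
  have hne : sympForm m F p (p - (ν * N) • w) ≠ 0 := by
    rw [sf_sub_right, sf_smul_right, sf_self, e1, zero_sub]
    exact neg_ne_zero.mpr (mul_ne_zero (mul_ne_zero hν hN0) hN0)
  have h3 := tvCentres_line M hpC htp hne ((ν * N)⁻¹) (-(ν * N)⁻¹)
  have e : ((ν * N)⁻¹) • p + (-(ν * N)⁻¹) • (p - (ν * N) • w) = w := by
    rw [smul_sub, smul_smul, neg_mul, inv_mul_cancel₀ (mul_ne_zero hν hN0)]
    module
  rw [e] at h3
  exact h3

theorem su_step' (hd : SuData ω ν) (h2 : (2 : F) ≠ 0) (M : Subgroup (GL (Fin m ⊕ Fin m) F))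
    (hM : ∀ g ∈ spGL m F, (∀ x, ((g : GL (Fin m ⊕ Fin m) F) : Matrix (Fin m ⊕ Fin m) (Fin m ⊕ Fin m) F) *ᵥ (ω x) = ω (((g : GL (Fin m ⊕ Fin m) F) : Matrix (Fin m ⊕ Fin m) (Fin m ⊕ Fin m) F) *ᵥ x)) → g ∈ M)
    (x : (Fin m ⊕ Fin m → F)) (hx : ∀ a b : F, a • x + b • ω x ∈ tvCentres M)
    (w : (Fin m ⊕ Fin m → F)) (hw : sympForm m F w (ω w) = 0) (hwx : w ∉ ocW (suQ ω) ω x) (a b : F) :
    a • w + b • ω w ∈ tvCentres M := by
  by_cases hab : a = 0 ∧ b = 0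
  · rw [hab.1, hab.2, zero_smul, zero_smul, add_zero]
    exact zero_mem_tvCentres M
  · have hw' : sympForm m F (ω w) w = 0 := by rw [sf_swap, hw, neg_zero]
    apply su_step hd h2 M hM x hx
    · simp only [sf_add_left, sf_add_right, sf_smul_left, sf_smul_right, sf_sub_left, sf_sub_right, sf_neg_left, sf_neg_right, map_add, map_sub, map_smul, map_neg, smul_eq_mul, hd.sq, sf_self, hw, hw']
      ring
    · intro h
      exact hwx (oc_kline (suQ ω) (su_ocdata hd) _ (oc_W_mem_omega (suQ ω) (su_ocdata hd) x)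
        a b w h hab)

/-- All isotropic vectors are centres. -/
theorem su_iso (hd : SuData ω ν) (h2 : (2 : F) ≠ 0) (hm : 2 ≤ m) (M : Subgroup (GL (Fin m ⊕ Fin m) F))
    (hM : ∀ g ∈ spGL m F, (∀ x, ((g : GL (Fin m ⊕ Fin m) F) : Matrix (Fin m ⊕ Fin m) (Fin m ⊕ Fin m) F) *ᵥ (ω x) = ω (((g : GL (Fin m ⊕ Fin m) F) : Matrix (Fin m ⊕ Fin m) (Fin m ⊕ Fin m) F) *ᵥ x)) → g ∈ M)
    (π : (Fin m ⊕ Fin m → F)) (hπ : π ∈ tvCentres M) (hq : sympForm m F π (ω π) ≠ 0)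
    (w : (Fin m ⊕ Fin m → F)) (hw : sympForm m F w (ω w) = 0) : w ∈ tvCentres M := by
  have hcard : 3 ≤ Fintype.card (Fin m ⊕ Fin m) := by
    rw [Fintype.card_sum, Fintype.card_fin]
    omega
  have hO := su_ocdata hd
  have hQn := su_nondeg hd h2
  have hπ0 : π ≠ 0 := by
    rintro rfl
    apply hq
    rw [map_zero, sf_self]
  obtain ⟨w₀, hw₀Q, hw₀π, -⟩ := oc_exists_sing_both (suQ ω) hQn hcard hO π π hπ0 hπ0
  rw [suQ_apply] at hw₀Q
  have hKπ := su_Kline hd h2 M hM π hπ hq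
  have hKw₀ := su_step' hd h2 M hM π hKπ w₀ hw₀Q hw₀π
  have hw₀0 : w₀ ≠ 0 := by
    rintro rfl
    exact hw₀π (Submodule.zero_mem _)
  by_cases hw0 : w = 0
  · rw [hw0]
    exact zero_mem_tvCentres M
  obtain ⟨w₁, hw₁Q, hw₁w₀, hw₁w⟩ := oc_exists_sing_both (suQ ω) hQn hcard hO w₀ w hw₀0 hw0
  rw [suQ_apply] at hw₁Q
  have hKw₁ := su_step' hd h2 M hM w₀ hKw₀ w₁ hw₁Q hw₁w₀
  apply su_step hd h2 M hM w₁ hKw₁ w hw
  rw [su_mem_W hd h2] at hw₁w ⊢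
  intro h
  apply hw₁w
  refine ⟨?_, ?_⟩
  · rw [sf_swap, h.1, neg_zero]
  · rw [sf_swap, hd.adj, neg_neg]
    exact h.2

/-- All vectors are centres. -/
theorem su_spread (hd : SuData ω ν) (h2 : (2 : F) ≠ 0) (hm : 2 ≤ m) (M : Subgroup (GL (Fin m ⊕ Fin m) F))
    (hM : ∀ g ∈ spGL m F, (∀ x, ((g : GL (Fin m ⊕ Fin m) F) : Matrix (Fin m ⊕ Fin m) (Fin m ⊕ Fin m) F) *ᵥ (ω x) = ω (((g : GL (Fin m ⊕ Fin m) F) : Matrix (Fin m ⊕ Fin m) (Fin m ⊕ Fin m) F) *ᵥ x)) → g ∈ M)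
    (π : (Fin m ⊕ Fin m → F)) (hπ : π ∈ tvCentres M) (hq : sympForm m F π (ω π) ≠ 0) (x : (Fin m ⊕ Fin m → F)) : x ∈ tvCentres M := by
  have hiso := su_iso hd h2 hm M hM π hπ hq
  by_cases hx : sympForm m F x (ω x) = 0
  · exact hiso x hx
  have hcard : 3 ≤ Fintype.card (Fin m ⊕ Fin m) := by
    rw [Fintype.card_sum, Fintype.card_fin]
    omega
  have hO := su_ocdata hd
  have hQn := su_nondeg hd h2
  have hx0 : x ≠ 0 := by
    rintro rfl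
    apply hx
    rw [map_zero, sf_self]
  obtain ⟨w₀, hw₀Q, hw₀x, -⟩ := oc_exists_sing_both (suQ ω) hQn hcard hO x x hx0 hx0
  rw [suQ_apply] at hw₀Q
  rw [su_mem_W hd h2] at hw₀x
  have hw₀' : sympForm m F (ω w₀) w₀ = 0 := by rw [sf_swap, hw₀Q, neg_zero]
  have hsum : sympForm m F (w₀ + ω w₀) (ω (w₀ + ω w₀)) = 0 := by
    simp only [sf_add_left, sf_add_right, sf_smul_left, sf_smul_right, sf_sub_left, sf_sub_right, sf_neg_left, sf_neg_right, map_add, map_sub, map_smul, map_neg, smul_eq_mul, hd.sq, sf_self, hw₀Q, hw₀']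
    ring
  obtain ⟨w, hwQ, hw1, hw2⟩ : ∃ w, sympForm m F w (ω w) = 0 ∧ sympForm m F x w ≠ 0 ∧ sympForm m F x (ω w) ≠ 0 := by
    by_cases hα : sympForm m F x w₀ = 0
    · have hβ : sympForm m F x (ω w₀) ≠ 0 := fun h => hw₀x ⟨hα, h⟩
      refine ⟨w₀ + ω w₀, hsum, ?_, ?_⟩
      · rw [sf_add_right, hα, zero_add]
        exact hβ
      · rw [map_add, hd.sq, sf_add_right, sf_neg_right, sf_smul_right, hα, mul_zero, neg_zero,
          add_zero]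
        exact hβ
    · by_cases hβ : sympForm m F x (ω w₀) = 0
      · refine ⟨w₀ + ω w₀, hsum, ?_, ?_⟩
        · rw [sf_add_right, hβ, add_zero]
          exact hα
        · rw [map_add, hd.sq, sf_add_right, sf_neg_right, sf_smul_right, hβ, zero_add]
          exact neg_ne_zero.mpr (mul_ne_zero (su_nu_ne hd) hα)
      · exact ⟨w₀, hw₀Q, hα, hβ⟩
  obtain ⟨s, hs⟩ : ∃ s : F, s = -sympForm m F x (ω x) / (2 * sympForm m F x (ω w)) := ⟨_, rfl⟩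
  have hs' : s * (2 * sympForm m F x (ω w)) = -sympForm m F x (ω x) := by
    rw [hs]
    field_simp
  have hyQ : sympForm m F (x + s • w) (ω (x + s • w)) = 0 := by
    have e : sympForm m F w (ω x) = sympForm m F x (ω w) := by rw [sf_swap, hd.adj, neg_neg]
    simp only [sf_add_left, sf_add_right, sf_smul_left, sf_smul_right, sf_sub_left, sf_sub_right, sf_neg_left, sf_neg_right, map_add, map_sub, map_smul, map_neg, smul_eq_mul, hwQ, e]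
    linear_combination hs'
  have hy := hiso _ hyQ
  have hwC := hiso w hwQ
  have hne : sympForm m F (x + s • w) w ≠ 0 := by
    rw [sf_add_left, sf_smul_left, sf_self, mul_zero, add_zero]
    exact hw1
  have h3 := tvCentres_line M hy hwC hne 1 (-s)
  have e : (1 : F) • (x + s • w) + (-s) • w = x := by module
  rw [e] at h3
  exact h3

/-- **Closure theorem** (symplectic/unitary): a subgroup containing the centralisers in `Sp` of
two skew quadratic-extension structures, the second not in the span of `1` and the first,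
contains `Sp`. -/
theorem su_main {ω' : (Fin m ⊕ Fin m → F) →ₗ[F] (Fin m ⊕ Fin m → F)} {ν' : F} (hd : SuData ω ν) (hd' : SuData ω' ν')
    (h2 : (2 : F) ≠ 0) (hm : 7 ≤ m) (M : Subgroup (GL (Fin m ⊕ Fin m) F))
    (hM : ∀ g ∈ spGL m F, (∀ x, ((g : GL (Fin m ⊕ Fin m) F) : Matrix (Fin m ⊕ Fin m) (Fin m ⊕ Fin m) F) *ᵥ (ω x) = ω (((g : GL (Fin m ⊕ Fin m) F) : Matrix (Fin m ⊕ Fin m) (Fin m ⊕ Fin m) F) *ᵥ x)) → g ∈ M)
    (hM' : ∀ g ∈ spGL m F, (∀ x, ((g : GL (Fin m ⊕ Fin m) F) : Matrix (Fin m ⊕ Fin m) (Fin m ⊕ Fin m) F) *ᵥ (ω' x) = ω' (((g : GL (Fin m ⊕ Fin m) F) : Matrix (Fin m ⊕ Fin m) (Fin m ⊕ Fin m) F) *ᵥ x)) → g ∈ M)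
    (hne : ¬∃ a b : F, ∀ x, ω' x = a • x + b • ω x) : spGL m F ≤ M := by
  have hcard : 12 ≤ Fintype.card (Fin m ⊕ Fin m) := by
    rw [Fintype.card_sum, Fintype.card_fin]
    omega
  obtain ⟨π, hπQ, hπ⟩ := oc_exists_good_ns (suQ ω) (su_nondeg hd h2) h2 hcard (su_ocdata hd) ω' hne
  rw [suQ_apply] at hπQ
  have hπC := su_center hd hd' h2 hm M hM hM' π hπQ hπ
  exact spGL_le_of_tvCentres M (su_spread hd h2 (by omega) M hM π hπC hπQ)

end SU2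

end Cfsg.Agent.Helper98
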