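import Mathlib
import Cfsg.Prelude.Def_GeometricClasses
import Cfsg.Agent.Helper19.TEINVB
import Cfsg.Agent.Helper19.TEXC2b
import Cfsg.Agent.Helper26.TERANK
import Cfsg.Agent.Helper27.TECOMB
import Cfsg.Agent.Helper27.TEKCH
import Cfsg.Agent.Helper27.TEROOTS
import Cfsg.Agent.Helper27.TEXC1
import Cfsg.Agent.Helper4.TECNT
import Cfsg.Agent.Helper51.TECEN2
import Cfsg.Agent.Helper55.TECEN1
import Cfsg.Agent.Helper55.TEKID
import Cfsg.Agent.Helper55.TEKPOW
import Cfsg.Agent.Helper55.TEPAR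
import Cfsg.Agent.Helper55.TERK1
import Cfsg.Agent.Helper55.TERK2
import Cfsg.Agent.Helper55.TETVP
import Cfsg.Agent.Helper61.TENT1
import Cfsg.Agent.Helper61.TENT2
import Cfsg.Agent.Helper61.TEORD
import Cfsg.Agent.Helper61.TEXC2a
import Cfsg.Agent.Helper76.TEDIAG
import Cfsg.Agent.Helper51.TEARR

/-!
helper98: assembly for S5979 (tensor product subgroups of `SL_n(q)`, elements of prime order
fixing a coset).  Part A: transport between `GL (Fin n) F` and matrices on `Fin a × Fin b`.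
-/

set_option autoImplicit false

namespace Cfsg.Agent.Helper98.TEAsm

open Matrix Polynomial
open scoped Kronecker
open Cfsg.Agent.Helper19.TEINVB (conj_of_sq_nonsquare)
open Cfsg.Agent.Helper19.TEXC2b (exists_mat_of_factor)
open Cfsg.Agent.Helper26.TERANK (kron_rank)
open Cfsg.Agent.Helper27.TECOMB (comb_count)
open Cfsg.Agent.Helper27.TEKCH (kron_charpoly)
open Cfsg.Agent.Helper27.TEROOTS (exists_roots)
open Cfsg.Agent.Helper27.TEXC1 (exists_elt_split)
open Cfsg.Agent.Helper4.TECNT (count_of_prod)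
open Cfsg.Agent.Helper51.TECEN2 (exists_comm_det_nonsquare)
open Cfsg.Agent.Helper55.TECEN1 (exists_comm_det_diag)
open Cfsg.Agent.Helper55.TEKID (kron_eq_one)
open Cfsg.Agent.Helper55.TEKPOW (kron_pow)
open Cfsg.Agent.Helper55.TEPAR (even_count_neg)
open Cfsg.Agent.Helper55.TERK1 (rank_transvection_sub_one_le)
open Cfsg.Agent.Helper55.TERK2 (rank_diag_sub_le)
open Cfsg.Agent.Helper55.TETVP (transvection_pow_char)
open Cfsg.Agent.Helper61.TENT1 (prime_dvd_card_GL)
open Cfsg.Agent.Helper61.TENT2 (exists_pow_eq_neg_one_iff)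
open Cfsg.Agent.Helper61.TEORD (pow_card_sub_one_eq_one)
open Cfsg.Agent.Helper61.TEXC2a (exists_irred_factor)
open Cfsg.Agent.Helper76.TEDIAG (diag_of_pow)
open Cfsg.Agent.Helper51.TEARR (arrange_diag)

theorem mem_sl {F : Type*} [Field F] {n : ℕ} (g : GL (Fin n) F) :
    g ∈ Cfsg.Geo.specialLinear (Fin n) F ↔ (g : Matrix (Fin n) (Fin n) F).det = 1 := by
  unfold Cfsg.Geo.specialLinear
  rw [MonoidHom.mem_ker, Units.ext_iff]
  rfl

theorem mem_tps {F : Type*} [Field F] {n a b : ℕ} (e : Fin n ≃ Fin a × Fin b)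
    (P y : GL (Fin n) F) :
    y ∈ Cfsg.Geo.tensorProductSubgroup a b e P ↔
      ∃ (A : GL (Fin a) F) (B : GL (Fin b) F), (y : Matrix (Fin n) (Fin n) F) =
        (P : Matrix (Fin n) (Fin n) F) *
          ((A : Matrix (Fin a) (Fin a) F) ⊗ₖ (B : Matrix (Fin b) (Fin b) F)).submatrix e e *
          ((P⁻¹ : GL (Fin n) F) : Matrix (Fin n) (Fin n) F) := by
  unfold Cfsg.Geo.tensorProductSubgroup
  constructor
  · rintro ⟨k', ⟨k, ⟨A, B, hk⟩, rfl⟩, rfl⟩
    refine ⟨A, B, ?_⟩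
    rw [← hk]
    rfl
  · rintro ⟨A, B, h⟩
    have h1 : ((A : Matrix (Fin a) (Fin a) F) ⊗ₖ (B : Matrix (Fin b) (Fin b) F)) *
        (((A⁻¹ : GL (Fin a) F) : Matrix (Fin a) (Fin a) F) ⊗ₖ
          ((B⁻¹ : GL (Fin b) F) : Matrix (Fin b) (Fin b) F)) = 1 := by
      rw [← Matrix.mul_kronecker_mul, ← Units.val_mul, ← Units.val_mul, mul_inv_cancel,
        mul_inv_cancel, Units.val_one, Units.val_one, Matrix.one_kronecker_one]
    have h2 : (((A⁻¹ : GL (Fin a) F) : Matrix (Fin a) (Fin a) F) ⊗ₖ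
          ((B⁻¹ : GL (Fin b) F) : Matrix (Fin b) (Fin b) F)) *
        ((A : Matrix (Fin a) (Fin a) F) ⊗ₖ (B : Matrix (Fin b) (Fin b) F)) = 1 := by
      rw [← Matrix.mul_kronecker_mul, ← Units.val_mul, ← Units.val_mul, inv_mul_cancel,
        inv_mul_cancel, Units.val_one, Units.val_one, Matrix.one_kronecker_one]
    refine ⟨Cfsg.Geo.glReindex e.symm ⟨_, _, h1, h2⟩, ⟨_, ⟨A, B, rfl⟩, rfl⟩, ?_⟩
    apply Units.ext
    rw [h]
    rfl

theorem conj_pow {ι : Type*} [Fintype ι] [DecidableEq ι] {F : Type*} [Field F]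
    (U U' M : Matrix ι ι F) (hU : U * U' = 1) (hU' : U' * U = 1) (k : ℕ) :
    (U' * M * U) ^ k = U' * M ^ k * U := by
  induction k with
  | zero => rw [pow_zero, pow_zero, Matrix.mul_one, hU']
  | succ k ih =>
    rw [pow_succ, ih, pow_succ]
    calc U' * M ^ k * U * (U' * M * U) = U' * M ^ k * (U * U') * M * U := by
          simp only [Matrix.mul_assoc]
      _ = U' * (M ^ k * M) * U := by rw [hU, Matrix.mul_one, Matrix.mul_assoc U']

theorem submatrix_pow {ι κ : Type*} [Fintype ι] [DecidableEq ι] [Fintype κ] [DecidableEq κ]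
    {F : Type*} [Field F] (e : κ ≃ ι) (M : Matrix ι ι F) (k : ℕ) :
    (M.submatrix e e) ^ k = (M ^ k).submatrix e e := by
  induction k with
  | zero => rw [pow_zero, pow_zero, Matrix.submatrix_one_equiv]
  | succ k ih => rw [pow_succ, ih, pow_succ, Matrix.submatrix_mul_equiv]

theorem submatrix_sub_smul_one {ι κ : Type*} [Fintype ι] [DecidableEq ι] [Fintype κ]
    [DecidableEq κ] {F : Type*} [Field F] (e : κ ≃ ι) (M : Matrix ι ι F) (c : F) :
    M.submatrix e e - c • (1 : Matrix κ κ F) = (M - c • (1 : Matrix ι ι F)).submatrix e e := by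
  ext i j
  simp [Matrix.one_apply, e.injective.eq_iff]

theorem rank_sub_submatrix {ι κ : Type*} [Fintype ι] [DecidableEq ι] [Fintype κ]
    [DecidableEq κ] {F : Type*} [Field F] (e : κ ≃ ι) (M : Matrix ι ι F) (c : F) :
    (M.submatrix e e - c • (1 : Matrix κ κ F)).rank = (M - c • (1 : Matrix ι ι F)).rank := by
  rw [submatrix_sub_smul_one, Matrix.rank_submatrix]

/-- From the fixed-point hypothesis to a Kronecker decomposition up to similarity. -/
theorem core {F : Type*} [Field F] {n a b : ℕ} (e : Fin n ≃ Fin a × Fin b) (P : GL (Fin n) F)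
    (r : ℕ)
    (h : ∀ x ∈ Cfsg.Geo.specialLinear (Fin n) F,
      (∃ z : F, ((x ^ r : GL (Fin n) F) : Matrix (Fin n) (Fin n) F) =
        z • (1 : Matrix (Fin n) (Fin n) F)) →
      (∀ z : F, (x : Matrix (Fin n) (Fin n) F) ≠ z • (1 : Matrix (Fin n) (Fin n) F)) →
      ∃ g ∈ Cfsg.Geo.specialLinear (Fin n) F,
        g⁻¹ * x * g ∈ Cfsg.Geo.tensorProductSubgroup a b e P)
    (X : Matrix (Fin n) (Fin n) F) (hdet : X.det = 1) (z : F)
    (hX : X ^ r = z • (1 : Matrix (Fin n) (Fin n) F))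
    (hns : ∀ z : F, X ≠ z • (1 : Matrix (Fin n) (Fin n) F)) :
    ∃ (U U' : Matrix (Fin a × Fin b) (Fin a × Fin b) F) (A : Matrix (Fin a) (Fin a) F)
      (B : Matrix (Fin b) (Fin b) F), U * U' = 1 ∧ U' * U = 1 ∧
      A ⊗ₖ B = U' * X.submatrix e.symm e.symm * U := by
  obtain ⟨x, hxv⟩ : ∃ x : GL (Fin n) F, (x : Matrix (Fin n) (Fin n) F) = X :=
    ⟨Matrix.GeneralLinearGroup.mkOfDetNeZero X (by rw [hdet]; exact one_ne_zero), rfl⟩
  obtain ⟨g, -, hg⟩ := h x ((mem_sl x).2 (by rw [hxv, hdet]))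
    ⟨z, by rw [Units.val_pow_eq_pow_val, hxv, hX]⟩ (by rw [hxv]; exact hns)
  obtain ⟨A, B, hAB⟩ := (mem_tps e P _).1 hg
  have hy : (((g * P)⁻¹ * x * (g * P) : GL (Fin n) F) : Matrix (Fin n) (Fin n) F) =
      ((A : Matrix (Fin a) (Fin a) F) ⊗ₖ (B : Matrix (Fin b) (Fin b) F)).submatrix e e := by
    have h1 : (g * P)⁻¹ * x * (g * P) = P⁻¹ * (g⁻¹ * x * g) * P := by group
    rw [h1, Units.val_mul, Units.val_mul, hAB, ← mul_assoc, ← mul_assoc, ← Units.val_mul,
      inv_mul_cancel, Units.val_one, one_mul, mul_assoc, ← Units.val_mul, inv_mul_cancel,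
      Units.val_one, mul_one]
  refine ⟨((g * P : GL (Fin n) F) : Matrix (Fin n) (Fin n) F).submatrix e.symm e.symm,
    (((g * P)⁻¹ : GL (Fin n) F) : Matrix (Fin n) (Fin n) F).submatrix e.symm e.symm,
    (A : Matrix (Fin a) (Fin a) F), (B : Matrix (Fin b) (Fin b) F), ?_, ?_, ?_⟩
  · rw [Matrix.submatrix_mul_equiv, ← Units.val_mul, mul_inv_cancel, Units.val_one,
      Matrix.submatrix_one_equiv]
  · rw [Matrix.submatrix_mul_equiv, ← Units.val_mul, inv_mul_cancel, Units.val_one,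
      Matrix.submatrix_one_equiv]
  · rw [Matrix.submatrix_mul_equiv, Matrix.submatrix_mul_equiv, ← hxv, ← Units.val_mul,
      ← Units.val_mul, hy]
    ext i j
    simp

/-- Small rank of `X' - c` forces `X'` to be scalar, for a conjugate of a Kronecker product. -/
theorem scalar_of_rank {F : Type*} [Field F] {a b : ℕ} (hab : a ≤ b)
    (U U' : Matrix (Fin a × Fin b) (Fin a × Fin b) F) (A : Matrix (Fin a) (Fin a) F)
    (B : Matrix (Fin b) (Fin b) F) (hU : U * U' = 1) (hU' : U' * U = 1)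
    (X' : Matrix (Fin a × Fin b) (Fin a × Fin b) F) (hAB : A ⊗ₖ B = U' * X' * U) (c : F)
    (hc : c ≠ 0)
    (hrk : (X' - c • (1 : Matrix (Fin a × Fin b) (Fin a × Fin b) F)).rank < a) :
    X' = c • (1 : Matrix (Fin a × Fin b) (Fin a × Fin b) F) := by
  have h1 : (c⁻¹ • A) ⊗ₖ B - 1 = (c⁻¹ • U') * (X' - c • 1) * U := by
    rw [Matrix.smul_kronecker, hAB, Matrix.smul_mul, Matrix.smul_mul, Matrix.mul_sub,
      Matrix.sub_mul, smul_sub, Matrix.mul_smul, Matrix.smul_mul, Matrix.mul_one, hU',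
      smul_smul, inv_mul_cancel₀ hc, one_smul]
  have hdU : IsUnit U.det := by
    have := congrArg Matrix.det hU
    rw [Matrix.det_mul, Matrix.det_one] at this
    exact IsUnit.of_mul_eq_one _ this
  have hdU' : IsUnit (c⁻¹ • U').det := by
    have := congrArg Matrix.det hU'
    rw [Matrix.det_mul, Matrix.det_one] at this
    rw [Matrix.det_smul]
    exact (IsUnit.pow _ (isUnit_iff_ne_zero.2 (inv_ne_zero hc))).mul
      (IsUnit.of_mul_eq_one _ this)
  have h2 : ((c⁻¹ • A) ⊗ₖ B - 1).rank = (X' - c • 1).rank := by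
    rw [h1, Matrix.rank_mul_eq_left_of_isUnit_det _ _ hdU,
      Matrix.rank_mul_eq_right_of_isUnit_det _ _ hdU']
  have h3 := kron_rank hab (c⁻¹ • A) B (by rw [h2]; exact hrk)
  rw [Matrix.smul_kronecker, hAB] at h3
  have h4 : U' * X' * U = c • 1 := by
    rw [← h3, smul_smul, mul_inv_cancel₀ hc, one_smul]
  calc X' = (U * U') * X' * (U * U') := by rw [hU, Matrix.one_mul, Matrix.mul_one]
    _ = U * (U' * X' * U) * U' := by simp only [Matrix.mul_assoc]
    _ = c • 1 := by rw [h4, Matrix.mul_smul, Matrix.smul_mul, Matrix.mul_one, hU]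

/-- The workhorse for the "only if" direction. -/
theorem scalar_of_rank_of_fix {F : Type*} [Field F] {n a b : ℕ} (hab : a ≤ b)
    (e : Fin n ≃ Fin a × Fin b) (P : GL (Fin n) F) (r : ℕ)
    (h : ∀ x ∈ Cfsg.Geo.specialLinear (Fin n) F,
      (∃ z : F, ((x ^ r : GL (Fin n) F) : Matrix (Fin n) (Fin n) F) =
        z • (1 : Matrix (Fin n) (Fin n) F)) →
      (∀ z : F, (x : Matrix (Fin n) (Fin n) F) ≠ z • (1 : Matrix (Fin n) (Fin n) F)) →
      ∃ g ∈ Cfsg.Geo.specialLinear (Fin n) F,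
        g⁻¹ * x * g ∈ Cfsg.Geo.tensorProductSubgroup a b e P)
    (X : Matrix (Fin n) (Fin n) F) (hdet : X.det = 1) (z : F)
    (hX : X ^ r = z • (1 : Matrix (Fin n) (Fin n) F)) (c : F) (hc : c ≠ 0)
    (hrk : (X - c • (1 : Matrix (Fin n) (Fin n) F)).rank < a) :
    ∃ z' : F, X = z' • (1 : Matrix (Fin n) (Fin n) F) := by
  by_contra hns
  push Not at hns
  obtain ⟨U, U', A, B, hU, hU', hAB⟩ := core e P r h X hdet z hX hns
  have h1 := scalar_of_rank hab U U' A B hU hU' _ hAB c hc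
    (by rw [rank_sub_submatrix]; exact hrk)
  apply hns c
  ext i j
  have h2 := congrFun (congrFun h1 (e i)) (e j)
  simp only [Matrix.submatrix_apply, Equiv.symm_apply_apply, Matrix.smul_apply,
    Matrix.one_apply, e.injective.eq_iff] at h2
  rw [h2, Matrix.smul_apply, Matrix.one_apply]

/-- The prime `r` is not the characteristic: a transvection would be a counterexample. -/
theorem no_char {F : Type*} [Field F] {n a b : ℕ} (hab : n = a * b) (ha : 2 ≤ a) (hlt : a < b)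
    (e : Fin n ≃ Fin a × Fin b) (P : GL (Fin n) F) (r : ℕ) (hr : r.Prime)
    (h : ∀ x ∈ Cfsg.Geo.specialLinear (Fin n) F,
      (∃ z : F, ((x ^ r : GL (Fin n) F) : Matrix (Fin n) (Fin n) F) =
        z • (1 : Matrix (Fin n) (Fin n) F)) →
      (∀ z : F, (x : Matrix (Fin n) (Fin n) F) ≠ z • (1 : Matrix (Fin n) (Fin n) F)) →
      ∃ g ∈ Cfsg.Geo.specialLinear (Fin n) F,
        g⁻¹ * x * g ∈ Cfsg.Geo.tensorProductSubgroup a b e P)
    (hrF : (r : F) = 0) : False := by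
  have hn : 6 ≤ n := by subst hab; nlinarith
  have hchar : ringChar F = r := CharP.ringChar_of_prime_eq_zero hr hrF
  have : CharP F r := hchar ▸ ringChar.charP F
  obtain ⟨i0, hi0⟩ : ∃ i : Fin n, i.val = 0 := ⟨⟨0, by omega⟩, rfl⟩
  obtain ⟨i1, hi1⟩ : ∃ i : Fin n, i.val = 1 := ⟨⟨1, by omega⟩, rfl⟩
  have h01 : i0 ≠ i1 := by
    intro h'
    rw [h'] at hi0
    omega
  obtain ⟨z', hz'⟩ := scalar_of_rank_of_fix hlt.le e P r h (Matrix.transvection i0 i1 (1 : F))
    (Matrix.det_transvection_of_ne i0 i1 h01 1) 1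
    (by rw [transvection_pow_char r i0 i1 h01, one_smul]) 1 one_ne_zero
    (by rw [one_smul]; exact lt_of_le_of_lt (rank_transvection_sub_one_le i0 i1 1) (by omega))
  have h1 := congrFun (congrFun hz' i0) i1
  simp [Matrix.transvection, h01] at h1

/-- A diagonal matrix with few entries `-w` and the others `w` would be a counterexample. -/
theorem diag_case {F : Type*} [Field F] {n a b : ℕ} (hab : a ≤ b)
    (e : Fin n ≃ Fin a × Fin b) (P : GL (Fin n) F)
    (h : ∀ x ∈ Cfsg.Geo.specialLinear (Fin n) F,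
      (∃ z : F, ((x ^ 2 : GL (Fin n) F) : Matrix (Fin n) (Fin n) F) =
        z • (1 : Matrix (Fin n) (Fin n) F)) →
      (∀ z : F, (x : Matrix (Fin n) (Fin n) F) ≠ z • (1 : Matrix (Fin n) (Fin n) F)) →
      ∃ g ∈ Cfsg.Geo.specialLinear (Fin n) F,
        g⁻¹ * x * g ∈ Cfsg.Geo.tensorProductSubgroup a b e P)
    (S : Finset (Fin n)) (hS : S.card < a) (i0 i1 : Fin n) (hi0 : i0 ∈ S) (hi1 : i1 ∉ S)
    (w : F) (hw : w ≠ -w) (hw0 : w ≠ 0) (hdet : w ^ n * (-1) ^ S.card = 1) : False := by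
  classical
  obtain ⟨d, hd⟩ : ∃ d : Fin n → F, d = fun i => w * (if i ∈ S then (-1 : F) else 1) :=
    ⟨_, rfl⟩
  have hdS : ∀ i, i ∈ S → d i = -w := by
    intro i hi
    rw [hd]
    simp [hi]
  have hdS' : ∀ i, i ∉ S → d i = w := by
    intro i hi
    rw [hd]
    simp [hi]
  have hdsq : ∀ i, d i ^ 2 = w ^ 2 := by
    intro i
    by_cases hi : i ∈ S
    · rw [hdS i hi, neg_sq]
    · rw [hdS' i hi]
  have h1 : (Matrix.diagonal d).det = 1 := by
    rw [Matrix.det_diagonal, hd, Finset.prod_mul_distrib, Finset.prod_const, Finset.card_univ,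
      Fintype.card_fin, Finset.prod_ite_mem, Finset.univ_inter, Finset.prod_const]
    exact hdet
  have h2 : (Matrix.diagonal d) ^ 2 = (w ^ 2) • (1 : Matrix (Fin n) (Fin n) F) := by
    rw [Matrix.diagonal_pow, Matrix.smul_one_eq_diagonal]
    congr 1
    funext i
    exact hdsq i
  have h3 : Nat.card {i : Fin n // d i ≠ w} ≤ S.card := by
    rw [Nat.card_eq_fintype_card, Fintype.card_subtype]
    apply Finset.card_le_card
    intro i hi
    rw [Finset.mem_filter] at hi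
    by_contra hiS
    exact hi.2 (hdS' i hiS)
  obtain ⟨z', hz'⟩ := scalar_of_rank_of_fix hab e P 2 h (Matrix.diagonal d) h1 (w ^ 2) h2 w hw0
    (lt_of_le_of_lt (rank_diag_sub_le d w S.card h3) hS)
  have h4 := congrFun (congrFun hz' i0) i0
  have h5 := congrFun (congrFun hz' i1) i1
  simp only [Matrix.diagonal_apply_eq, Matrix.smul_apply, Matrix.one_apply_eq, smul_eq_mul,
    mul_one] at h4 h5
  rw [hdS i0 hi0] at h4
  rw [hdS' i1 hi1] at h5
  exact hw (h5.trans h4.symm)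

theorem charpoly_smul_one {F : Type*} [Field F] {n : ℕ} (z : F) :
    (z • (1 : Matrix (Fin n) (Fin n) F)).charpoly = (X - C z) ^ n := by
  rw [Matrix.smul_one_eq_diagonal, Matrix.charpoly_diagonal, Finset.prod_const,
    Finset.card_univ, Fintype.card_fin]

theorem nonscalar_of_charpoly {F : Type*} [Field F] {n : ℕ} (hn : 2 ≤ n)
    (x : Matrix (Fin n) (Fin n) F) (Φ : F[X]) (hΦ : Φ.Separable) (h1 : Φ.eval 1 ≠ 0)
    (hdeg : 1 ≤ Φ.natDegree) (hx : x.charpoly = Φ * (X - 1) ^ (n - Φ.natDegree)) (z : F) :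
    x ≠ z • (1 : Matrix (Fin n) (Fin n) F) := by
  intro hxz
  rw [hxz, charpoly_smul_one] at hx
  have hsq : Squarefree Φ := hΦ.squarefree
  have hdvd : Φ ∣ X - C z := (hsq.dvd_pow_iff_dvd (by omega)).1 ⟨_, hx⟩
  have hk : Φ.natDegree ≤ 1 := by
    have h2 := Polynomial.natDegree_le_of_dvd hdvd (X_sub_C_ne_zero z)
    rwa [natDegree_X_sub_C] at h2
  have hk1 : Φ.natDegree = 1 := le_antisymm hk hdeg
  rw [hk1] at hx
  have hz : z = 1 := by
    have h2 := congrArg (Polynomial.eval 1) hx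
    simp only [eval_pow, eval_sub, eval_X, eval_C, eval_mul, eval_one, sub_self] at h2
    rw [zero_pow (by omega), mul_zero] at h2
    have h3 := (pow_eq_zero_iff (by omega)).1 h2
    exact (sub_eq_zero.1 h3).symm
  subst hz
  have h2 : (X - 1 : F[X]) ^ n = (X - 1) * (X - 1) ^ (n - 1) := by
    rw [← pow_succ']
    congr 1
    omega
  rw [C_1, h2] at hx
  have hne : (X - 1 : F[X]) ^ (n - 1) ≠ 0 := by
    apply pow_ne_zero
    rw [← C_1]
    exact X_sub_C_ne_zero 1
  have h3 := mul_right_cancel₀ hne hx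
  rw [← h3] at h1
  simp at h1

theorem map_kron {F K : Type*} [Field F] [Field K] (φ : F →+* K) {a b : ℕ}
    (A : Matrix (Fin a) (Fin a) F) (B : Matrix (Fin b) (Fin b) F) :
    (A.map φ) ⊗ₖ (B.map φ) = (A ⊗ₖ B).map φ := by
  ext i j
  simp [Matrix.kroneckerMap_apply]

theorem map_pow_smul {F K : Type*} [Field F] [Field K] (φ : F →+* K) {m : ℕ}
    (A : Matrix (Fin m) (Fin m) F) (r : ℕ) (s : F)
    (h : A ^ r = s • (1 : Matrix (Fin m) (Fin m) F)) :
    (A.map φ) ^ r = φ s • (1 : Matrix (Fin m) (Fin m) K) := by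
  have h1 := map_pow φ.mapMatrix A r
  rw [RingHom.mapMatrix_apply, RingHom.mapMatrix_apply] at h1
  rw [← h1, h]
  ext i j
  by_cases hij : i = j
  · simp [Matrix.map_apply, hij]
  · simp [Matrix.map_apply, hij]

/-- The prime `r` is not odd: an element of order `r` with a large fixed space would be a
counterexample. -/
theorem no_odd {F : Type*} [Field F] [Fintype F] {n a b : ℕ} (hab : n = a * b) (ha : 2 ≤ a)
    (hlt : a < b) (e : Fin n ≃ Fin a × Fin b) (P : GL (Fin n) F) (r : ℕ) (hr : r.Prime)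
    (h : ∀ x ∈ Cfsg.Geo.specialLinear (Fin n) F,
      (∃ z : F, ((x ^ r : GL (Fin n) F) : Matrix (Fin n) (Fin n) F) =
        z • (1 : Matrix (Fin n) (Fin n) F)) →
      (∀ z : F, (x : Matrix (Fin n) (Fin n) F) ≠ z • (1 : Matrix (Fin n) (Fin n) F)) →
      ∃ g ∈ Cfsg.Geo.specialLinear (Fin n) F,
        g⁻¹ * x * g ∈ Cfsg.Geo.tensorProductSubgroup a b e P)
    (hrF : (r : F) ≠ 0) (hr2 : r ≠ 2) (hdvd : r ∣ Nat.card (GL (Fin n) F)) : False := by
  classical
  have hb : 3 ≤ b := by omega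
  have habn : a + b + 1 ≤ a * b := by
    obtain ⟨a', rfl⟩ := Nat.exists_eq_add_of_le ha
    obtain ⟨b', rfl⟩ := Nat.exists_eq_add_of_le hb
    nlinarith [Nat.zero_le (a' * b')]
  have hn : 6 ≤ n := by omega
  obtain ⟨j, hj0, hjn, hj⟩ : ∃ j : ℕ, 0 < j ∧ j ≤ n ∧ r ∣ Fintype.card F ^ j - 1 := by
    rcases prime_dvd_card_GL n r hr hdvd with h0 | h0
    · exact absurd h0 hrF
    · exact h0
  obtain ⟨x, Φ, hxr, hxdet, hsep, hev, hdeg1, hdegn, hxc, hcase⟩ :
      ∃ (x : Matrix (Fin n) (Fin n) F) (Φ : F[X]), x ^ r = 1 ∧ x.det = 1 ∧ Φ.Separable ∧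
        Φ.eval 1 ≠ 0 ∧ 1 ≤ Φ.natDegree ∧ Φ.natDegree ≤ n ∧
        x.charpoly = Φ * (X - 1) ^ (n - Φ.natDegree) ∧
        (Φ.natDegree = 2 ∨
          ∀ j' : ℕ, 0 < j' → r ∣ Fintype.card F ^ j' - 1 → Φ.natDegree ≤ j') := by
    by_cases hq1 : r ∣ Fintype.card F - 1
    · obtain ⟨x, Φ, h1, h2, h3, h4, h5, h6⟩ := exists_elt_split r hr hr2 hq1 n (by omega)
      exact ⟨x, Φ, h1, h2, h3, h4, by omega, by omega, by rw [h5]; exact h6, Or.inl h5⟩
    · obtain ⟨Φ, hm, hirr, hsep, hd, hev, hmin⟩ := exists_irred_factor (F := F) r hr hrF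
      have hle : Φ.natDegree ≤ n := (hmin j hj0 hj).trans hjn
      obtain ⟨x, h1, h2, h3⟩ := exists_mat_of_factor r hr hq1 Φ hm hirr hd n hle
      exact ⟨x, Φ, h1, h2, hsep, hev, hirr.natDegree_pos, hle, h3, Or.inr hmin⟩
  have hns : ∀ z : F, x ≠ z • (1 : Matrix (Fin n) (Fin n) F) :=
    nonscalar_of_charpoly (by omega) x Φ hsep hev hdeg1 hxc
  obtain ⟨U, U', A, B, hU, hU', hAB⟩ := core e P r h x hxdet 1 (by rw [hxr, one_smul]) hns
  obtain ⟨X', hX'⟩ : ∃ X' : Matrix (Fin a × Fin b) (Fin a × Fin b) F,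
      X' = x.submatrix e.symm e.symm := ⟨_, rfl⟩
  rw [← hX'] at hAB
  have hX'r : X' ^ r = 1 := by
    rw [hX', submatrix_pow, hxr, Matrix.submatrix_one_equiv]
  have hABr : (A ⊗ₖ B) ^ r = 1 := by
    rw [hAB, conj_pow U U' X' hU hU', hX'r, Matrix.mul_one, hU']
  have hABr' := hABr
  rw [kron_pow] at hABr'
  obtain ⟨s, hs, hAs, hBs⟩ := kron_eq_one (by omega) (by omega) _ _ hABr'
  have hX'AB : X' = U * (A ⊗ₖ B) * U' := by
    rw [hAB]
    calc X' = (U * U') * X' * (U * U') := by rw [hU, Matrix.one_mul, Matrix.mul_one]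
      _ = U * (U' * X' * U) * U' := by simp only [Matrix.mul_assoc]
  have hcp : (A ⊗ₖ B).charpoly = Φ * (X - 1) ^ (n - Φ.natDegree) := by
    rw [hAB, Matrix.charpoly_mul_comm, ← Matrix.mul_assoc, hU, Matrix.one_mul, ← hxc, hX']
    exact Matrix.charpoly_reindex e x
  obtain ⟨φ, hφ⟩ : ∃ φ : F →+* AlgebraicClosure F, Function.Injective φ :=
    ⟨algebraMap F (AlgebraicClosure F), (algebraMap F (AlgebraicClosure F)).injective⟩
  have hrK : (r : AlgebraicClosure F) ≠ 0 := by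
    intro h0
    apply hrF
    apply hφ
    rw [map_natCast, map_zero, h0]
  obtain ⟨θ₁, hθ₁, hθ₁s⟩ := exists_roots r hr.pos hrK (φ s)
    (by rw [Ne, map_eq_zero]; exact hs)
  obtain ⟨θ₂, hθ₂, hθ₂s⟩ := exists_roots r hr.pos hrK (φ s⁻¹)
    (by rw [Ne, map_eq_zero]; exact inv_ne_zero hs)
  obtain ⟨P₁, P₁', lam, hP₁, hP₁', hAd, -⟩ := diag_of_pow r hr.pos (A.map φ) (φ s)
    (map_pow_smul φ A r s hAs) θ₁ hθ₁ hθ₁s
  obtain ⟨Q₁, Q₁', nu, hQ₁, hQ₁', hBd, -⟩ := diag_of_pow r hr.pos (B.map φ) (φ s⁻¹)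
    (map_pow_smul φ B r s⁻¹ hBs) θ₂ hθ₂ hθ₂s
  have hK := kron_charpoly P₁ P₁' Q₁ Q₁' hP₁ hP₁' hQ₁ hQ₁' lam nu
  rw [← hAd, ← hBd, map_kron, Matrix.charpoly_map, hcp] at hK
  have hK' : ∏ p : Fin a × Fin b, (X - C (lam p.1 * nu p.2)) =
      Φ.map φ * (X - 1) ^ (n - Φ.natDegree) := by
    rw [← hK, Polynomial.map_mul, Polynomial.map_pow, Polynomial.map_sub, Polynomial.map_X,
      Polynomial.map_one]
  obtain ⟨hdist, hcard, hne⟩ := count_of_prod (fun p : Fin a × Fin b => lam p.1 * nu p.2)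
    (Φ.map φ) (n - Φ.natDegree) hsep.map
    (by rw [Polynomial.eval_one_map, Ne, map_eq_zero]; exact hev)
    (by rw [Polynomial.natDegree_map]; exact hdeg1) hK'
  have hcomb := comb_count ha (by omega) lam nu hdist hne
  rw [hcard] at hcomb
  have hkb : b < Φ.natDegree := by omega
  have hmin : ∀ j' : ℕ, 0 < j' → j' ≤ b → ¬ r ∣ Fintype.card F ^ j' - 1 := by
    intro j' hj'0 hj'b hd
    rcases hcase with h2 | hmin
    · omega
    · have h3 := hmin j' hj'0 hd
      omega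
  have hA1 := pow_card_sub_one_eq_one r hr hrF (fun j' h0 hle => hmin j' h0 (by omega)) A s hs
    hAs
  have hB1 := pow_card_sub_one_eq_one r hr hrF (fun j' h0 hle => hmin j' h0 hle) B s⁻¹
    (inv_ne_zero hs) hBs
  have hAB1 : (A ⊗ₖ B) ^ (Fintype.card F - 1) = 1 := by
    rw [kron_pow, hA1, hB1, Matrix.one_kronecker_one]
  have hq1 : ¬ r ∣ Fintype.card F - 1 := by
    have h3 := hmin 1 one_pos (by omega)
    rwa [pow_one] at h3
  have hcop : Nat.Coprime r (Fintype.card F - 1) := (Nat.Prime.coprime_iff_not_dvd hr).2 hq1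
  have hone : A ⊗ₖ B = 1 := by
    have h3 := pow_gcd_eq_one.2 ⟨hABr, hAB1⟩
    rwa [Nat.Coprime.gcd_eq_one hcop, pow_one] at h3
  apply hns 1
  rw [one_smul]
  have hX1 : X' = 1 := by rw [hX'AB, hone, Matrix.mul_one, hU]
  ext i j
  have h2 := congrFun (congrFun hX1 (e i)) (e j)
  simp only [hX', Matrix.submatrix_apply, Equiv.symm_apply_apply, Matrix.one_apply,
    e.injective.eq_iff] at h2
  rw [h2, Matrix.one_apply]

/-- Conjugating into the tensor product subgroup by an element of determinant one. -/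
theorem fix_of_conj {F : Type*} [Field F] {n a b : ℕ} (e : Fin n ≃ Fin a × Fin b)
    (P x : GL (Fin n) F)
    (Pc Pc' : Matrix (Fin a × Fin b) (Fin a × Fin b) F) (hP : Pc * Pc' = 1)
    (hP' : Pc' * Pc = 1)
    (A₀ : Matrix (Fin a) (Fin a) F) (B₀ : Matrix (Fin b) (Fin b) F) (hA : A₀.det ≠ 0)
    (hB : B₀.det ≠ 0)
    (hX : (x : Matrix (Fin n) (Fin n) F).submatrix e.symm e.symm = Pc * (A₀ ⊗ₖ B₀) * Pc')
    (hcen : ∀ δ : F, δ ≠ 0 → ∃ m m' : Matrix (Fin a × Fin b) (Fin a × Fin b) F,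
      m * m' = 1 ∧ m' * m = 1 ∧ m.det = δ ∧ m * (A₀ ⊗ₖ B₀) = (A₀ ⊗ₖ B₀) * m) :
    ∃ g ∈ Cfsg.Geo.specialLinear (Fin n) F,
      g⁻¹ * x * g ∈ Cfsg.Geo.tensorProductSubgroup a b e P := by
  have hdPc : Pc.det * Pc'.det = 1 := by
    rw [← Matrix.det_mul, hP, Matrix.det_one]
  have hdPc0 : Pc.det ≠ 0 := left_ne_zero_of_mul_eq_one hdPc
  have hdP : (P : Matrix (Fin n) (Fin n) F).det *
      ((P⁻¹ : GL (Fin n) F) : Matrix (Fin n) (Fin n) F).det = 1 := by
    rw [← Matrix.det_mul, ← Units.val_mul, mul_inv_cancel, Units.val_one, Matrix.det_one]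
  have hdP0 : (P : Matrix (Fin n) (Fin n) F).det ≠ 0 := left_ne_zero_of_mul_eq_one hdP
  obtain ⟨m, m', hm, hm', hmdet, hmc⟩ := hcen ((P : Matrix (Fin n) (Fin n) F).det * Pc.det⁻¹)
    (mul_ne_zero hdP0 (inv_ne_zero hdPc0))
  have hG : ((Pc * m).submatrix e e * ((P⁻¹ : GL (Fin n) F) : Matrix (Fin n) (Fin n) F)) *
      ((P : Matrix (Fin n) (Fin n) F) * (m' * Pc').submatrix e e) = 1 := by
    have h1 : Pc * m * (m' * Pc') = 1 := by
      rw [Matrix.mul_assoc, ← Matrix.mul_assoc m, hm, Matrix.one_mul, hP]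
    rw [Matrix.mul_assoc, ← Matrix.mul_assoc _ (P : Matrix (Fin n) (Fin n) F),
      ← Units.val_mul, inv_mul_cancel, Units.val_one, Matrix.one_mul,
      Matrix.submatrix_mul_equiv, h1, Matrix.submatrix_one_equiv]
  have hG' : ((P : Matrix (Fin n) (Fin n) F) * (m' * Pc').submatrix e e) *
      ((Pc * m).submatrix e e * ((P⁻¹ : GL (Fin n) F) : Matrix (Fin n) (Fin n) F)) = 1 := by
    have h1 : m' * Pc' * (Pc * m) = 1 := by
      rw [Matrix.mul_assoc, ← Matrix.mul_assoc Pc', hP', Matrix.one_mul, hm']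
    rw [Matrix.mul_assoc, ← Matrix.mul_assoc ((m' * Pc').submatrix e e),
      Matrix.submatrix_mul_equiv, h1, Matrix.submatrix_one_equiv, Matrix.one_mul,
      ← Units.val_mul, mul_inv_cancel, Units.val_one]
  obtain ⟨g, hgv, hgi⟩ : ∃ g : GL (Fin n) F,
      (g : Matrix (Fin n) (Fin n) F) =
        (Pc * m).submatrix e e * ((P⁻¹ : GL (Fin n) F) : Matrix (Fin n) (Fin n) F) ∧
      ((g⁻¹ : GL (Fin n) F) : Matrix (Fin n) (Fin n) F) =
        (P : Matrix (Fin n) (Fin n) F) * (m' * Pc').submatrix e e :=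
    ⟨⟨_, _, hG, hG'⟩, rfl, rfl⟩
  refine ⟨g, ?_, ?_⟩
  · rw [mem_sl, hgv, Matrix.det_mul, Matrix.det_submatrix_equiv_self, Matrix.det_mul, hmdet]
    calc Pc.det * ((P : Matrix (Fin n) (Fin n) F).det * Pc.det⁻¹) *
          ((P⁻¹ : GL (Fin n) F) : Matrix (Fin n) (Fin n) F).det
        = (Pc.det * Pc.det⁻¹) * ((P : Matrix (Fin n) (Fin n) F).det *
          ((P⁻¹ : GL (Fin n) F) : Matrix (Fin n) (Fin n) F).det) := by ring
      _ = 1 := by rw [mul_inv_cancel₀ hdPc0, hdP, one_mul]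
  · rw [mem_tps]
    refine ⟨Matrix.GeneralLinearGroup.mkOfDetNeZero A₀ hA,
      Matrix.GeneralLinearGroup.mkOfDetNeZero B₀ hB, ?_⟩
    have hx : (x : Matrix (Fin n) (Fin n) F) = (Pc * (A₀ ⊗ₖ B₀) * Pc').submatrix e e := by
      rw [← hX]
      ext i j
      simp
    have hmid : (m' * Pc') * (Pc * (A₀ ⊗ₖ B₀) * Pc') * (Pc * m) = A₀ ⊗ₖ B₀ := by
      calc (m' * Pc') * (Pc * (A₀ ⊗ₖ B₀) * Pc') * (Pc * m)
          = m' * (Pc' * Pc) * (A₀ ⊗ₖ B₀) * (Pc' * Pc) * m := by
            simp only [Matrix.mul_assoc]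
        _ = m' * ((A₀ ⊗ₖ B₀) * m) := by
            rw [hP', Matrix.mul_one, Matrix.mul_one, Matrix.mul_assoc]
        _ = m' * (m * (A₀ ⊗ₖ B₀)) := by rw [hmc]
        _ = A₀ ⊗ₖ B₀ := by rw [← Matrix.mul_assoc, hm', Matrix.one_mul]
    rw [Units.val_mul, Units.val_mul, hgv, hgi, hx]
    calc (P : Matrix (Fin n) (Fin n) F) * (m' * Pc').submatrix e e *
          (Pc * (A₀ ⊗ₖ B₀) * Pc').submatrix e e *
          ((Pc * m).submatrix e e * ((P⁻¹ : GL (Fin n) F) : Matrix (Fin n) (Fin n) F))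
        = (P : Matrix (Fin n) (Fin n) F) * ((m' * Pc').submatrix e e *
          (Pc * (A₀ ⊗ₖ B₀) * Pc').submatrix e e * (Pc * m).submatrix e e) *
          ((P⁻¹ : GL (Fin n) F) : Matrix (Fin n) (Fin n) F) := by
            simp only [Matrix.mul_assoc]
      _ = _ := by
            rw [Matrix.submatrix_mul_equiv, Matrix.submatrix_mul_equiv, hmid]
            rfl

/-- The case of a square `z = w * w`. -/
theorem sq_case {F : Type*} [Field F] {n b : ℕ} (hn : n = 2 * b) (hb : 0 < b)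
    (e : Fin n ≃ Fin 2 × Fin b) (P x : GL (Fin n) F)
    (hdet : (x : Matrix (Fin n) (Fin n) F).det = 1) (w : F) (hw0 : w ≠ 0) (hw : w ≠ -w)
    (hx2 : (x : Matrix (Fin n) (Fin n) F) ^ 2 = (w * w) • (1 : Matrix (Fin n) (Fin n) F))
    (hno : ¬ ∃ w' : F, w' ^ (2 * b) = -1) :
    ∃ g ∈ Cfsg.Geo.specialLinear (Fin n) F,
      g⁻¹ * x * g ∈ Cfsg.Geo.tensorProductSubgroup 2 b e P := by
  classical
  have hθ : Function.Injective ![w, -w] := by
    intro i j hij
    fin_cases i <;> fin_cases j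
    · rfl
    · exact absurd hij hw
    · exact absurd hij.symm hw
    · rfl
  have hθ2 : ∀ k : Fin 2, ![w, -w] k ^ 2 = w * w := by
    intro k
    fin_cases k
    · simp [pow_two]
    · simp [pow_two]
  obtain ⟨P₁, P₁', d, hP₁, hP₁', hxd, hd2⟩ := diag_of_pow 2 (by norm_num)
    (x : Matrix (Fin n) (Fin n) F) (w * w) hx2 ![w, -w] hθ hθ2
  have hd : ∀ i, d i = w ∨ d i = -w := by
    intro i
    have h1 := hd2 i
    rw [← pow_two] at h1
    exact sq_eq_sq_iff_eq_or_eq_neg.1 h1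
  have hprod : ∏ i, d i = 1 := by
    have h1 : P₁.det * P₁'.det = 1 := by rw [← Matrix.det_mul, hP₁, Matrix.det_one]
    rw [← Matrix.det_diagonal, ← hdet, hxd, Matrix.det_mul, Matrix.det_mul]
    calc (Matrix.diagonal d).det = (Matrix.diagonal d).det * (P₁.det * P₁'.det) := by
          rw [h1, mul_one]
      _ = _ := by ring
  have heven := even_count_neg b (by rw [Fintype.card_fin]; exact hn) w d hd hprod hno
  have hcard : Nat.card {p : Fin 2 × Fin b // (d ∘ e.symm) p = -w} =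
      Nat.card {i : Fin n // d i = -w} :=
    Nat.card_congr (e.symm.subtypeEquiv (fun p => Iff.rfl))
  rw [← hcard] at heven
  obtain ⟨P₂, P₂', D, hP₂, hP₂', hD, hdD⟩ := arrange_diag w hw (d ∘ e.symm) (fun p => hd _)
    heven
  have hDdet : (Matrix.diagonal D).det ≠ 0 := by
    rw [Matrix.det_diagonal, Finset.prod_ne_zero_iff]
    intro j _
    rcases hD j with h | h <;> rw [h]
    · exact hw0
    · exact neg_ne_zero.2 hw0
  have hsub : (P₁ * Matrix.diagonal d * P₁').submatrix e.symm e.symm =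
      P₁.submatrix e.symm e.symm * (Matrix.diagonal d).submatrix e.symm e.symm *
        P₁'.submatrix e.symm e.symm := by
    rw [Matrix.submatrix_mul_equiv, Matrix.submatrix_mul_equiv]
  refine fix_of_conj e P x (P₁.submatrix e.symm e.symm * P₂)
    (P₂' * P₁'.submatrix e.symm e.symm) ?_ ?_ 1 (Matrix.diagonal D)
    (by rw [Matrix.det_one]; exact one_ne_zero) hDdet ?_
    (fun δ hδ => exists_comm_det_diag hb D δ hδ)
  · rw [Matrix.mul_assoc, ← Matrix.mul_assoc P₂, hP₂, Matrix.one_mul,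
      Matrix.submatrix_mul_equiv, hP₁, Matrix.submatrix_one_equiv]
  · rw [Matrix.mul_assoc, ← Matrix.mul_assoc (P₁'.submatrix _ _), Matrix.submatrix_mul_equiv,
      hP₁', Matrix.submatrix_one_equiv, Matrix.one_mul, hP₂']
  · rw [hxd, hsub, Matrix.submatrix_diagonal_equiv, hdD]
    simp only [Matrix.mul_assoc]

/-- The case of a non-square `z`. -/
theorem nonsq_case {F : Type*} [Field F] [Fintype F] {n b : ℕ} (hb : 0 < b)
    (e : Fin n ≃ Fin 2 × Fin b) (P x : GL (Fin n) F) (h2 : (2 : F) ≠ 0) (z : F)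
    (hz : ¬ IsSquare z)
    (hx2 : (x : Matrix (Fin n) (Fin n) F) ^ 2 = z • (1 : Matrix (Fin n) (Fin n) F)) :
    ∃ g ∈ Cfsg.Geo.specialLinear (Fin n) F,
      g⁻¹ * x * g ∈ Cfsg.Geo.tensorProductSubgroup 2 b e P := by
  have hX' : (x : Matrix (Fin n) (Fin n) F).submatrix e.symm e.symm *
      (x : Matrix (Fin n) (Fin n) F).submatrix e.symm e.symm =
      z • (1 : Matrix (Fin 2 × Fin b) (Fin 2 × Fin b) F) := by
    rw [Matrix.submatrix_mul_equiv, ← pow_two, hx2]
    ext i j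
    simp [Matrix.one_apply, e.symm.injective.eq_iff]
  obtain ⟨Pc, Pc', hP, hP', hX⟩ := conj_of_sq_nonsquare z hz _ hX'
  have hz0 : z ≠ 0 := fun h0 => hz (by rw [h0]; exact ⟨0, by simp⟩)
  exact fix_of_conj e P x Pc Pc' hP hP' !![0, z; 1, 0] 1
    (by rw [Matrix.det_fin_two_of]; simpa using hz0)
    (by rw [Matrix.det_one]; exact one_ne_zero) hX
    (fun δ hδ => exists_comm_det_nonsquare hb h2 z hz δ hδ)

/-- The statement of S5979. -/
theorem main {F : Type*} [Field F] [Fintype F] {q : ℕ} (hq : Fintype.card F = q)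
    (n a b : ℕ) (hab : n = a * b) (ha : 2 ≤ a) (hlt : a < b) (e : Fin n ≃ Fin a × Fin b)
    (P : GL (Fin n) F) (r : ℕ) (hr : r.Prime)
    (hΩ : r ∣ (Cfsg.Geo.tensorProductSubgroup a b e P).relIndex
      (Cfsg.Geo.specialLinear (Fin n) F)) :
    (∀ x ∈ Cfsg.Geo.specialLinear (Fin n) F,
      (∃ z : F, ((x ^ r : GL (Fin n) F) : Matrix (Fin n) (Fin n) F) =
        z • (1 : Matrix (Fin n) (Fin n) F)) →
      (∀ z : F, (x : Matrix (Fin n) (Fin n) F) ≠ z • (1 : Matrix (Fin n) (Fin n) F)) →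
      ∃ g ∈ Cfsg.Geo.specialLinear (Fin n) F,
        g⁻¹ * x * g ∈ Cfsg.Geo.tensorProductSubgroup a b e P) ↔
    (r = 2 ∧ a = 2 ∧ Odd q ∧ padicValNat 2 (q - 1) ≤ padicValNat 2 n) := by
  classical
  subst hq
  have hb : 3 ≤ b := by omega
  have hn6 : 6 ≤ n := by
    subst hab
    nlinarith
  constructor
  · intro hfix
    have hrF : (r : F) ≠ 0 := fun h0 => no_char hab ha hlt e P r hr hfix h0
    have hr2 : r = 2 := by
      by_contra hne
      exact no_odd hab ha hlt e P r hr hfix hrF hne (dvd_trans hΩ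
        (dvd_trans (Subgroup.relIndex_dvd_card _ _) (Subgroup.card_subgroup_dvd_card _)))
    subst hr2
    have h2 : (2 : F) ≠ 0 := by exact_mod_cast hrF
    obtain ⟨i0, hi0⟩ : ∃ i : Fin n, i.val = 0 := ⟨⟨0, by omega⟩, rfl⟩
    obtain ⟨i1, hi1⟩ : ∃ i : Fin n, i.val = 1 := ⟨⟨1, by omega⟩, rfl⟩
    obtain ⟨i2, hi2⟩ : ∃ i : Fin n, i.val = 2 := ⟨⟨2, by omega⟩, rfl⟩
    have h01 : i0 ≠ i1 := by
      intro h'
      rw [h'] at hi0
      omega
    have h20 : i2 ≠ i0 := by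
      intro h'
      rw [h'] at hi2
      omega
    have h21 : i2 ≠ i1 := by
      intro h'
      rw [h'] at hi2
      omega
    refine ⟨rfl, ?_, ?_, ?_⟩
    · by_contra ha2
      refine diag_case hlt.le e P hfix {i0, i1} ?_ i0 i2 (by simp) (by simp [h20, h21]) 1 ?_
        one_ne_zero ?_
      · rw [Finset.card_pair h01]
        omega
      · intro h'
        apply h2
        linear_combination h'
      · rw [Finset.card_pair h01]
        simp
    · have hc : ringChar F ≠ 2 := by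
        intro hc
        apply h2
        have h3 := ringChar.Nat.cast_ringChar (R := F)
        rw [hc] at h3
        exact_mod_cast h3
      exact Nat.odd_iff.2 (FiniteField.odd_card_of_char_ne_two hc)
    · by_contra hlt'
      push Not at hlt'
      obtain ⟨w, hw⟩ := (exists_pow_eq_neg_one_iff h2 n (by omega)).2 hlt'
      have hw0 : w ≠ 0 := by
        rintro rfl
        rw [zero_pow (by omega)] at hw
        exact one_ne_zero (neg_eq_zero.1 hw.symm)
      refine diag_case hlt.le e P hfix {i0} ?_ i0 i1 (by simp) (by simp [h01.symm]) w ?_ hw0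
        ?_
      · rw [Finset.card_singleton]
        omega
      · intro h'
        have h3 : (2 : F) * w = 0 := by linear_combination h'
        rcases mul_eq_zero.1 h3 with h4 | h4
        · exact h2 h4
        · exact hw0 h4
      · rw [Finset.card_singleton, hw]
        simp
  · rintro ⟨hr2, ha2, hodd, hv⟩ x hx ⟨z, hz⟩ hns
    subst hr2
    subst ha2
    have h2 : (2 : F) ≠ 0 := by
      intro h0
      have hc : ringChar F = 2 :=
        CharP.ringChar_of_prime_eq_zero Nat.prime_two (by exact_mod_cast h0)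
      have h3 := FiniteField.even_card_of_char_two hc
      rcases hodd with ⟨k, hk⟩
      omega
    have hno : ¬ ∃ w' : F, w' ^ (2 * b) = -1 := by
      rw [← hab]
      intro hex
      have h3 := (exists_pow_eq_neg_one_iff h2 n (by omega)).1 hex
      omega
    have hdet : (x : Matrix (Fin n) (Fin n) F).det = 1 := (mem_sl x).1 hx
    have hx2 : (x : Matrix (Fin n) (Fin n) F) ^ 2 = z • (1 : Matrix (Fin n) (Fin n) F) := by
      rw [← Units.val_pow_eq_pow_val]
      exact hz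
    by_cases hsq : IsSquare z
    · obtain ⟨w, rfl⟩ := hsq
      have hw0 : w ≠ 0 := by
        rintro rfl
        have h3 := congrArg Matrix.det hx2
        have hne : Nonempty (Fin n) := ⟨⟨0, by omega⟩⟩
        rw [Matrix.det_pow, hdet, one_pow, mul_zero, zero_smul, Matrix.det_zero] at h3
        exact one_ne_zero h3
      have hw : w ≠ -w := by
        intro h'
        have h3 : (2 : F) * w = 0 := by linear_combination h'
        rcases mul_eq_zero.1 h3 with h4 | h4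
        · exact h2 h4
        · exact hw0 h4
      exact sq_case hab (by omega) e P x hdet w hw0 hw hx2 hno
    · exact nonsq_case (by omega) e P x h2 z hsq hx2


end Cfsg.Agent.Helper98.TEAsm
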