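import Mathlib
import Cfsg.Prelude.Def_GeometricClasses
import Cfsg.Prelude.Def_ClassicalGeometry
import Cfsg.Agent.Helper98.TEAsm
import Cfsg.Agent.Helper98.TFGen
import Cfsg.Agent.Helper13.Symp
import Cfsg.Agent.Helper5.SympCard
import Cfsg.Agent.Helper27.TFDSP
import Cfsg.Agent.Helper27.TFG1
import Cfsg.Agent.Helper27.TFHS
import Cfsg.Agent.Helper27.TFTSP
import Cfsg.Agent.Helper31.TFCARD
import Cfsg.Agent.Helper34.TFG2
import Cfsg.Agent.Helper4.TFNTS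
import Cfsg.Agent.Helper60.TFFRM2
import Cfsg.Agent.Helper61.TFFRM1
import Cfsg.Agent.Helper66.TFSPXA
import Cfsg.Agent.Helper83.TFRANK2
import Cfsg.Agent.Helper46.TFSPXB

/-!
helper98: assembly for S5980 (tensor product subgroups `Sp_a ⊗ O_b` of `Sp_{2d}(q)`, `q` odd:
elements of prime order fixing a coset).
-/

set_option autoImplicit false

namespace Cfsg.Agent.Helper98.TFAsm

open Matrix Polynomial
open scoped Kronecker
open Cfsg.Agent.Helper26.TERANK (kron_rank)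
open Cfsg.Agent.Helper27.TECOMB (comb_count)
open Cfsg.Agent.Helper27.TEKCH (kron_charpoly)
open Cfsg.Agent.Helper27.TEROOTS (exists_roots)
open Cfsg.Agent.Helper4.TECNT (count_of_prod)
open Cfsg.Agent.Helper55.TEKID (kron_eq_one)
open Cfsg.Agent.Helper55.TEKPOW (kron_pow)
open Cfsg.Agent.Helper61.TEORD (pow_card_sub_one_eq_one)
open Cfsg.Agent.Helper76.TEDIAG (diag_of_pow)
open Cfsg.Agent.Helper98.TEAsm (conj_pow submatrix_pow rank_sub_submatrix map_kron map_pow_smul)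
open Cfsg.Agent.Helper98.TFGen
open Cfsg.Agent.Helper27.TFDSP (diagonal_symp)
open Cfsg.Agent.Helper27.TFG1 (gram_symp_two)
open Cfsg.Agent.Helper27.TFHS (tensor_structure_matrix)
open Cfsg.Agent.Helper27.TFTSP (transvection_symp)
open Cfsg.Agent.Helper31.TFCARD (card_spGL_dvd)
open Cfsg.Agent.Helper34.TFG2 (gram_symm_diag)
open Cfsg.Agent.Helper4.TFNTS (exists_dvd_of_dvd_card_sp)
open Cfsg.Agent.Helper60.TFFRM2 (frame_neg)
open Cfsg.Agent.Helper61.TFFRM1 (frame_invol)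
open Cfsg.Agent.Helper66.TFSPXA (exists_sp_elt_even)
open Cfsg.Agent.Helper83.TFRANK2 (kron_rank_min)
open Cfsg.Agent.Helper46.TFSPXB (exists_sp_elt_odd)

/-! ### Part A: transport -/

theorem mem_tps_gen {F : Type*} [Field F] {ι : Type} [Fintype ι] [DecidableEq ι] {a b : ℕ}
    (e : ι ≃ Fin a × Fin b) (P y : GL ι F) :
    y ∈ Cfsg.Geo.tensorProductSubgroup a b e P ↔
      ∃ (A : GL (Fin a) F) (B : GL (Fin b) F), (y : Matrix ι ι F) =
        (P : Matrix ι ι F) *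
          ((A : Matrix (Fin a) (Fin a) F) ⊗ₖ (B : Matrix (Fin b) (Fin b) F)).submatrix e e *
          ((P⁻¹ : GL ι F) : Matrix ι ι F) := by
  unfold Cfsg.Geo.tensorProductSubgroup
  constructor
  · rintro ⟨k', ⟨k, ⟨A, B, hk⟩, rfl⟩, rfl⟩
    refine ⟨A, B, ?_⟩
    rw [← hk]
    rfl
  · rintro ⟨A, B, h⟩
    have h1 : ((A : Matrix (Fin a) (Fin a) F) ⊗ₖ (B : Matrix (Fin b) (Fin b) F)) *
        (((A⁻¹ : GL (Fin a) F) : Matrix (Fin a) (Fin a) F) ⊗ₖ
          ((B⁻¹ : GL (Fin b) F) : Matrix (Fin b) (Fin b) F)) = 1 := by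
      rw [← Matrix.mul_kronecker_mul, ← Units.val_mul, ← Units.val_mul, mul_inv_cancel,
        mul_inv_cancel, Units.val_one, Units.val_one, Matrix.one_kronecker_one]
    have h2 : (((A⁻¹ : GL (Fin a) F) : Matrix (Fin a) (Fin a) F) ⊗ₖ
          ((B⁻¹ : GL (Fin b) F) : Matrix (Fin b) (Fin b) F)) *
        ((A : Matrix (Fin a) (Fin a) F) ⊗ₖ (B : Matrix (Fin b) (Fin b) F)) = 1 := by
      rw [← Matrix.mul_kronecker_mul, ← Units.val_mul, ← Units.val_mul, inv_mul_cancel,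
        inv_mul_cancel, Units.val_one, Units.val_one, Matrix.one_kronecker_one]
    refine ⟨Cfsg.Geo.glReindex e.symm ⟨_, _, h1, h2⟩, ⟨_, ⟨A, B, rfl⟩, rfl⟩, ?_⟩
    apply Units.ext
    rw [h]
    rfl

theorem mem_spGL_iff {F : Type*} [Field F] {d : ℕ} (x : GL (Fin d ⊕ Fin d) F) :
    x ∈ Cfsg.spGL d F ↔
      (x : Matrix (Fin d ⊕ Fin d) (Fin d ⊕ Fin d) F) ∈ Matrix.symplecticGroup (Fin d) F := by
  rw [Cfsg.Agent.Helper13.mem_symplecticGroup_iff_sympForm]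
  rfl

/-- From the fixed-point hypothesis to a Kronecker decomposition up to similarity. -/
theorem core_sp {F : Type*} [Field F] {d a b : ℕ} (e : (Fin d ⊕ Fin d) ≃ Fin a × Fin b)
    (P : GL (Fin d ⊕ Fin d) F) (r : ℕ)
    (h : ∀ x ∈ Cfsg.spGL d F,
      (∃ z : F, ((x ^ r : GL (Fin d ⊕ Fin d) F) : Matrix (Fin d ⊕ Fin d) (Fin d ⊕ Fin d) F) =
        z • (1 : Matrix (Fin d ⊕ Fin d) (Fin d ⊕ Fin d) F)) →
      (∀ z : F, (x : Matrix (Fin d ⊕ Fin d) (Fin d ⊕ Fin d) F) ≠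
        z • (1 : Matrix (Fin d ⊕ Fin d) (Fin d ⊕ Fin d) F)) →
      ∃ g ∈ Cfsg.spGL d F, g⁻¹ * x * g ∈ Cfsg.Geo.tensorProductSubgroup a b e P)
    (X : Matrix (Fin d ⊕ Fin d) (Fin d ⊕ Fin d) F)
    (hXs : X ∈ Matrix.symplecticGroup (Fin d) F) (z : F)
    (hX : X ^ r = z • (1 : Matrix (Fin d ⊕ Fin d) (Fin d ⊕ Fin d) F))
    (hns : ∀ z : F, X ≠ z • (1 : Matrix (Fin d ⊕ Fin d) (Fin d ⊕ Fin d) F)) :
    ∃ (U U' : Matrix (Fin a × Fin b) (Fin a × Fin b) F) (A : Matrix (Fin a) (Fin a) F)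
      (B : Matrix (Fin b) (Fin b) F), U * U' = 1 ∧ U' * U = 1 ∧
      A ⊗ₖ B = U' * X.submatrix e.symm e.symm * U := by
  obtain ⟨x, hxv⟩ : ∃ x : GL (Fin d ⊕ Fin d) F,
      (x : Matrix (Fin d ⊕ Fin d) (Fin d ⊕ Fin d) F) = X :=
    ⟨Matrix.GeneralLinearGroup.mkOfDetNeZero X (SymplecticGroup.symplectic_det hXs).ne_zero, rfl⟩
  obtain ⟨g, -, hg⟩ := h x ((mem_spGL_iff x).2 (by rw [hxv]; exact hXs))
    ⟨z, by rw [Units.val_pow_eq_pow_val, hxv, hX]⟩ (by rw [hxv]; exact hns)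
  obtain ⟨A, B, hAB⟩ := (mem_tps_gen e P _).1 hg
  have hy : (((g * P)⁻¹ * x * (g * P) : GL (Fin d ⊕ Fin d) F) :
      Matrix (Fin d ⊕ Fin d) (Fin d ⊕ Fin d) F) =
      ((A : Matrix (Fin a) (Fin a) F) ⊗ₖ (B : Matrix (Fin b) (Fin b) F)).submatrix e e := by
    have h1 : (g * P)⁻¹ * x * (g * P) = P⁻¹ * (g⁻¹ * x * g) * P := by group
    rw [h1, Units.val_mul, Units.val_mul, hAB, ← mul_assoc, ← mul_assoc, ← Units.val_mul,
      inv_mul_cancel, Units.val_one, one_mul, mul_assoc, ← Units.val_mul, inv_mul_cancel,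
      Units.val_one, mul_one]
  refine ⟨((g * P : GL (Fin d ⊕ Fin d) F) :
      Matrix (Fin d ⊕ Fin d) (Fin d ⊕ Fin d) F).submatrix e.symm e.symm,
    (((g * P)⁻¹ : GL (Fin d ⊕ Fin d) F) :
      Matrix (Fin d ⊕ Fin d) (Fin d ⊕ Fin d) F).submatrix e.symm e.symm,
    (A : Matrix (Fin a) (Fin a) F), (B : Matrix (Fin b) (Fin b) F), ?_, ?_, ?_⟩
  · rw [Matrix.submatrix_mul_equiv, ← Units.val_mul, mul_inv_cancel, Units.val_one,
      Matrix.submatrix_one_equiv]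
  · rw [Matrix.submatrix_mul_equiv, ← Units.val_mul, inv_mul_cancel, Units.val_one,
      Matrix.submatrix_one_equiv]
  · rw [Matrix.submatrix_mul_equiv, Matrix.submatrix_mul_equiv, ← hxv, ← Units.val_mul,
      ← Units.val_mul, hy]
    ext i j
    simp

/-- Small rank of `X' - c` forces `X'` to be scalar, for a conjugate of a Kronecker product. -/
theorem scalar_of_rank_min {F : Type*} [Field F] {a b : ℕ}
    (U U' : Matrix (Fin a × Fin b) (Fin a × Fin b) F) (A : Matrix (Fin a) (Fin a) F)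
    (B : Matrix (Fin b) (Fin b) F) (hU : U * U' = 1) (hU' : U' * U = 1)
    (X' : Matrix (Fin a × Fin b) (Fin a × Fin b) F) (hAB : A ⊗ₖ B = U' * X' * U) (c : F)
    (hc : c ≠ 0)
    (hrka : (X' - c • (1 : Matrix (Fin a × Fin b) (Fin a × Fin b) F)).rank < a)
    (hrkb : (X' - c • (1 : Matrix (Fin a × Fin b) (Fin a × Fin b) F)).rank < b) :
    X' = c • (1 : Matrix (Fin a × Fin b) (Fin a × Fin b) F) := by
  have h1 : (c⁻¹ • A) ⊗ₖ B - 1 = (c⁻¹ • U') * (X' - c • 1) * U := by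
    rw [Matrix.smul_kronecker, hAB, Matrix.smul_mul, Matrix.smul_mul, Matrix.mul_sub,
      Matrix.sub_mul, smul_sub, Matrix.mul_smul, Matrix.smul_mul, Matrix.mul_one, hU',
      smul_smul, inv_mul_cancel₀ hc, one_smul]
  have hdU : IsUnit U.det := by
    have := congrArg Matrix.det hU
    rw [Matrix.det_mul, Matrix.det_one] at this
    exact IsUnit.of_mul_eq_one _ this
  have hdU' : IsUnit (c⁻¹ • U').det := by
    have := congrArg Matrix.det hU'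
    rw [Matrix.det_mul, Matrix.det_one] at this
    rw [Matrix.det_smul]
    exact (IsUnit.pow _ (isUnit_iff_ne_zero.2 (inv_ne_zero hc))).mul
      (IsUnit.of_mul_eq_one _ this)
  have h2 : ((c⁻¹ • A) ⊗ₖ B - 1).rank = (X' - c • 1).rank := by
    rw [h1, Matrix.rank_mul_eq_left_of_isUnit_det _ _ hdU,
      Matrix.rank_mul_eq_right_of_isUnit_det _ _ hdU']
  have h3 := kron_rank_min (c⁻¹ • A) B (by rw [h2]; exact hrka) (by rw [h2]; exact hrkb)
  rw [Matrix.smul_kronecker, hAB] at h3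
  have h4 : U' * X' * U = c • 1 := by
    rw [← h3, smul_smul, mul_inv_cancel₀ hc, one_smul]
  calc X' = (U * U') * X' * (U * U') := by rw [hU, Matrix.one_mul, Matrix.mul_one]
    _ = U * (U' * X' * U) * U' := by simp only [Matrix.mul_assoc]
    _ = c • 1 := by rw [h4, Matrix.mul_smul, Matrix.smul_mul, Matrix.mul_one, hU]

/-- The workhorse for the "only if" direction. -/
theorem scalar_of_rank_of_fix_sp {F : Type*} [Field F] {d a b : ℕ}
    (e : (Fin d ⊕ Fin d) ≃ Fin a × Fin b) (P : GL (Fin d ⊕ Fin d) F) (r : ℕ)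
    (h : ∀ x ∈ Cfsg.spGL d F,
      (∃ z : F, ((x ^ r : GL (Fin d ⊕ Fin d) F) : Matrix (Fin d ⊕ Fin d) (Fin d ⊕ Fin d) F) =
        z • (1 : Matrix (Fin d ⊕ Fin d) (Fin d ⊕ Fin d) F)) →
      (∀ z : F, (x : Matrix (Fin d ⊕ Fin d) (Fin d ⊕ Fin d) F) ≠
        z • (1 : Matrix (Fin d ⊕ Fin d) (Fin d ⊕ Fin d) F)) →
      ∃ g ∈ Cfsg.spGL d F, g⁻¹ * x * g ∈ Cfsg.Geo.tensorProductSubgroup a b e P)
    (X : Matrix (Fin d ⊕ Fin d) (Fin d ⊕ Fin d) F)
    (hXs : X ∈ Matrix.symplecticGroup (Fin d) F) (z : F)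
    (hX : X ^ r = z • (1 : Matrix (Fin d ⊕ Fin d) (Fin d ⊕ Fin d) F)) (c : F) (hc : c ≠ 0)
    (hrka : (X - c • (1 : Matrix (Fin d ⊕ Fin d) (Fin d ⊕ Fin d) F)).rank < a)
    (hrkb : (X - c • (1 : Matrix (Fin d ⊕ Fin d) (Fin d ⊕ Fin d) F)).rank < b) :
    ∃ z' : F, X = z' • (1 : Matrix (Fin d ⊕ Fin d) (Fin d ⊕ Fin d) F) := by
  by_contra hns
  push Not at hns
  obtain ⟨U, U', A, B, hU, hU', hAB⟩ := core_sp e P r h X hXs z hX hns
  have h1 := scalar_of_rank_min U U' A B hU hU' _ hAB c hc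
    (by rw [rank_sub_submatrix]; exact hrka) (by rw [rank_sub_submatrix]; exact hrkb)
  apply hns c
  ext i j
  have h2 := congrFun (congrFun h1 (e i)) (e j)
  simp only [Matrix.submatrix_apply, Equiv.symm_apply_apply, Matrix.smul_apply,
    Matrix.one_apply, e.injective.eq_iff] at h2
  rw [h2, Matrix.smul_apply, Matrix.one_apply]

/-- The prime `r` is not the characteristic: a transvection would be a counterexample. -/
theorem no_char_sp {F : Type*} [Field F] {d a b : ℕ} (hd : 1 ≤ d) (ha : 2 ≤ a) (hb : 2 ≤ b)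
    (e : (Fin d ⊕ Fin d) ≃ Fin a × Fin b) (P : GL (Fin d ⊕ Fin d) F) (r : ℕ) (hr : r.Prime)
    (h : ∀ x ∈ Cfsg.spGL d F,
      (∃ z : F, ((x ^ r : GL (Fin d ⊕ Fin d) F) : Matrix (Fin d ⊕ Fin d) (Fin d ⊕ Fin d) F) =
        z • (1 : Matrix (Fin d ⊕ Fin d) (Fin d ⊕ Fin d) F)) →
      (∀ z : F, (x : Matrix (Fin d ⊕ Fin d) (Fin d ⊕ Fin d) F) ≠
        z • (1 : Matrix (Fin d ⊕ Fin d) (Fin d ⊕ Fin d) F)) →
      ∃ g ∈ Cfsg.spGL d F, g⁻¹ * x * g ∈ Cfsg.Geo.tensorProductSubgroup a b e P)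
    (hrF : (r : F) = 0) : False := by
  have hchar : ringChar F = r := CharP.ringChar_of_prime_eq_zero hr hrF
  have : CharP F r := hchar ▸ ringChar.charP F
  obtain ⟨i0⟩ : Nonempty (Fin d) := ⟨⟨0, by omega⟩⟩
  have h01 : (Sum.inl i0 : Fin d ⊕ Fin d) ≠ Sum.inr i0 := Sum.inl_ne_inr
  obtain ⟨z', hz'⟩ := scalar_of_rank_of_fix_sp e P r h
    (Matrix.transvection (Sum.inl i0 : Fin d ⊕ Fin d) (Sum.inr i0) (1 : F))
    (transvection_symp i0 1) 1
    (by rw [transvection_pow_char_gen r _ _ h01, one_smul]) 1 one_ne_zero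
    (by rw [one_smul]; exact lt_of_le_of_lt (rank_transvection_sub_one_le_gen _ _ 1) (by omega))
    (by rw [one_smul]; exact lt_of_le_of_lt (rank_transvection_sub_one_le_gen _ _ 1) (by omega))
  have h1 := congrFun (congrFun hz' (Sum.inl i0)) (Sum.inr i0)
  simp [Matrix.transvection] at h1

/-- For `r = 2` and `a ≥ 3`: an involution with a `2`-dimensional `-1`-eigenspace would be a
counterexample. -/
theorem a_le_two_sp {F : Type*} [Field F] {d a b : ℕ} (hd : 2 ≤ d) (h2 : (2 : F) ≠ 0)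
    (hb : 3 ≤ b) (e : (Fin d ⊕ Fin d) ≃ Fin a × Fin b) (P : GL (Fin d ⊕ Fin d) F)
    (h : ∀ x ∈ Cfsg.spGL d F,
      (∃ z : F, ((x ^ 2 : GL (Fin d ⊕ Fin d) F) : Matrix (Fin d ⊕ Fin d) (Fin d ⊕ Fin d) F) =
        z • (1 : Matrix (Fin d ⊕ Fin d) (Fin d ⊕ Fin d) F)) →
      (∀ z : F, (x : Matrix (Fin d ⊕ Fin d) (Fin d ⊕ Fin d) F) ≠
        z • (1 : Matrix (Fin d ⊕ Fin d) (Fin d ⊕ Fin d) F)) →
      ∃ g ∈ Cfsg.spGL d F, g⁻¹ * x * g ∈ Cfsg.Geo.tensorProductSubgroup a b e P) :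
    a ≤ 2 := by
  classical
  by_contra ha
  push Not at ha
  obtain ⟨i0, hi0⟩ : ∃ i : Fin d, i.val = 0 := ⟨⟨0, by omega⟩, rfl⟩
  obtain ⟨i1, hi1⟩ : ∃ i : Fin d, i.val = 1 := ⟨⟨1, by omega⟩, rfl⟩
  have h10 : i1 ≠ i0 := by
    intro h'
    rw [h'] at hi1
    omega
  obtain ⟨dd, hdd⟩ : ∃ dd : Fin d ⊕ Fin d → F,
      dd = fun i => if i = Sum.inl i0 ∨ i = Sum.inr i0 then (-1 : F) else 1 := ⟨_, rfl⟩
  have hsymp : Matrix.diagonal dd ∈ Matrix.symplecticGroup (Fin d) F := by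
    apply diagonal_symp
    intro i
    rw [hdd]
    by_cases hi : i = i0
    · simp [hi]
    · simp [hi]
  have hsq : (Matrix.diagonal dd) ^ 2 =
      (1 : F) • (1 : Matrix (Fin d ⊕ Fin d) (Fin d ⊕ Fin d) F) := by
    rw [Matrix.diagonal_pow, Matrix.smul_one_eq_diagonal]
    congr 1
    funext i
    rw [hdd]
    by_cases hi : i = Sum.inl i0 ∨ i = Sum.inr i0
    · simp [hi]
    · simp [hi]
  have hcount : Nat.card {i : Fin d ⊕ Fin d // dd i ≠ 1} ≤ 2 := by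
    rw [Nat.card_eq_fintype_card, Fintype.card_subtype]
    calc (Finset.univ.filter (fun i : Fin d ⊕ Fin d => dd i ≠ 1)).card
        ≤ ({Sum.inl i0, Sum.inr i0} : Finset (Fin d ⊕ Fin d)).card := by
          apply Finset.card_le_card
          intro i hi
          rw [Finset.mem_filter] at hi
          rw [Finset.mem_insert, Finset.mem_singleton]
          by_contra hni
          apply hi.2
          rw [hdd]
          simp [hni]
      _ ≤ 2 := Finset.card_le_two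
  have hrk : (Matrix.diagonal dd - (1 : F) • (1 : Matrix (Fin d ⊕ Fin d) (Fin d ⊕ Fin d) F)).rank
      ≤ 2 := rank_diag_sub_le_gen dd 1 2 hcount
  obtain ⟨z', hz'⟩ := scalar_of_rank_of_fix_sp e P 2 h (Matrix.diagonal dd) hsymp 1 hsq 1
    one_ne_zero (lt_of_le_of_lt hrk (by omega)) (lt_of_le_of_lt hrk (by omega))
  have h4 := congrFun (congrFun hz' (Sum.inl i0)) (Sum.inl i0)
  have h5 := congrFun (congrFun hz' (Sum.inl i1)) (Sum.inl i1)
  simp only [Matrix.diagonal_apply_eq, Matrix.smul_apply, Matrix.one_apply_eq, smul_eq_mul,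
    mul_one] at h4 h5
  rw [hdd] at h4 h5
  simp only [true_or, if_true] at h4
  simp only [Sum.inl.injEq, h10, reduceCtorEq, or_self, if_false] at h5
  apply h2
  have h6 : (1 : F) = -1 := h5.trans h4.symm
  linear_combination h6

theorem charpoly_smul_one_gen {F : Type*} [Field F] {ι : Type*} [Fintype ι] [DecidableEq ι]
    (z : F) : (z • (1 : Matrix ι ι F)).charpoly = (X - C z) ^ Fintype.card ι := by
  rw [Matrix.smul_one_eq_diagonal, Matrix.charpoly_diagonal, Finset.prod_const,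
    Finset.card_univ]

theorem nonscalar_of_charpoly_gen {F : Type*} [Field F] {ι : Type*} [Fintype ι]
    [DecidableEq ι] (hn : 2 ≤ Fintype.card ι)
    (x : Matrix ι ι F) (Φ : F[X]) (hΦ : Φ.Separable) (h1 : Φ.eval 1 ≠ 0)
    (hdeg : 1 ≤ Φ.natDegree)
    (hx : x.charpoly = Φ * (X - 1) ^ (Fintype.card ι - Φ.natDegree)) (z : F) :
    x ≠ z • (1 : Matrix ι ι F) := by
  intro hxz
  rw [hxz, charpoly_smul_one_gen] at hx
  have hsq : Squarefree Φ := hΦ.squarefree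
  have hdvd : Φ ∣ X - C z := (hsq.dvd_pow_iff_dvd (by omega)).1 ⟨_, hx⟩
  have hk : Φ.natDegree ≤ 1 := by
    have h2 := Polynomial.natDegree_le_of_dvd hdvd (X_sub_C_ne_zero z)
    rwa [natDegree_X_sub_C] at h2
  have hk1 : Φ.natDegree = 1 := le_antisymm hk hdeg
  rw [hk1] at hx
  have hz : z = 1 := by
    have h2 := congrArg (Polynomial.eval 1) hx
    simp only [eval_pow, eval_sub, eval_X, eval_C, eval_mul, eval_one, sub_self] at h2
    rw [zero_pow (by omega), mul_zero] at h2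
    have h3 := (pow_eq_zero_iff (by omega)).1 h2
    exact (sub_eq_zero.1 h3).symm
  subst hz
  have h2 : (X - 1 : F[X]) ^ Fintype.card ι = (X - 1) * (X - 1) ^ (Fintype.card ι - 1) := by
    rw [← pow_succ']
    congr 1
    omega
  rw [C_1, h2] at hx
  have hne : (X - 1 : F[X]) ^ (Fintype.card ι - 1) ≠ 0 := by
    apply pow_ne_zero
    rw [← C_1]
    exact X_sub_C_ne_zero 1
  have h3 := mul_right_cancel₀ hne hx
  rw [← h3] at h1
  simp at h1

/-- A matrix with `A ^ r` scalar and `A ^ (q - 1) = 1`, `r` coprime to `q - 1`, is scalar. -/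
theorem scalar_of_pow {F : Type*} [Field F] {m : ℕ} (A : Matrix (Fin m) (Fin m) F) (r k : ℕ)
    (hcop : Nat.Coprime r k) (s : F) (hA : A ^ r = s • (1 : Matrix (Fin m) (Fin m) F))
    (hk : A ^ k = 1) : ∃ t : F, A = t • (1 : Matrix (Fin m) (Fin m) F) := by
  by_cases hk1 : k ≤ 1
  · interval_cases k
    · rw [Nat.coprime_zero_right] at hcop
      subst hcop
      exact ⟨s, by rw [← hA, pow_one]⟩
    · exact ⟨1, by rw [one_smul, ← hk, pow_one]⟩
  · push Not at hk1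
    obtain ⟨u, -, hu⟩ := Nat.exists_mul_mod_eq_one_of_coprime hcop hk1
    have h1 : r * u = k * (r * u / k) + 1 := by
      have := Nat.div_add_mod (r * u) k
      omega
    refine ⟨s ^ u, ?_⟩
    calc A = A ^ (k * (r * u / k) + 1) := by rw [pow_succ, pow_mul, hk, one_pow, one_mul]
      _ = (A ^ r) ^ u := by rw [← h1, pow_mul]
      _ = s ^ u • 1 := by rw [hA, _root_.smul_pow, one_pow]

/-- The eigenvalue analysis of a Kronecker product similar to an element of order `r` with a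
multiplicity-free non-trivial spectrum. -/
theorem kron_analysis {F : Type*} [Field F] [Fintype F] {a b : ℕ} (ha : 2 ≤ a) (hb : 2 ≤ b)
    (r : ℕ) (hr : r.Prime) (hrF : (r : F) ≠ 0)
    (X' : Matrix (Fin a × Fin b) (Fin a × Fin b) F) (hX'r : X' ^ r = 1)
    (U U' : Matrix (Fin a × Fin b) (Fin a × Fin b) F) (A : Matrix (Fin a) (Fin a) F)
    (B : Matrix (Fin b) (Fin b) F) (hU : U * U' = 1) (hU' : U' * U = 1)
    (hAB : A ⊗ₖ B = U' * X' * U)
    (Φ : F[X]) (hsep : Φ.Separable) (hev : Φ.eval 1 ≠ 0) (hdeg1 : 1 ≤ Φ.natDegree) (m : ℕ)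
    (hcpX : X'.charpoly = Φ * (X - 1) ^ m) :
    m ≤ a ∧ m ≤ b ∧
      ((∀ j : ℕ, 0 < j → j ≤ a → ¬ r ∣ Fintype.card F ^ j - 1) → False) ∧
      ((∀ j : ℕ, 0 < j → j ≤ b → ¬ r ∣ Fintype.card F ^ j - 1) → False) := by
  classical
  have hABr : (A ⊗ₖ B) ^ r = 1 := by
    rw [hAB, conj_pow U U' X' hU hU', hX'r, Matrix.mul_one, hU']
  have hABr' := hABr
  rw [kron_pow] at hABr'
  obtain ⟨s, hs, hAs, hBs⟩ := kron_eq_one (by omega) (by omega) _ _ hABr'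
  have hcp : (A ⊗ₖ B).charpoly = Φ * (X - 1) ^ m := by
    rw [hAB, Matrix.charpoly_mul_comm, ← Matrix.mul_assoc, hU, Matrix.one_mul, hcpX]
  obtain ⟨φ, hφ⟩ : ∃ φ : F →+* AlgebraicClosure F, Function.Injective φ :=
    ⟨algebraMap F (AlgebraicClosure F), (algebraMap F (AlgebraicClosure F)).injective⟩
  have hrK : (r : AlgebraicClosure F) ≠ 0 := by
    intro h0
    apply hrF
    apply hφ
    rw [map_natCast, map_zero, h0]
  obtain ⟨θ₁, hθ₁, hθ₁s⟩ := exists_roots r hr.pos hrK (φ s)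
    (by rw [Ne, map_eq_zero]; exact hs)
  obtain ⟨θ₂, hθ₂, hθ₂s⟩ := exists_roots r hr.pos hrK (φ s⁻¹)
    (by rw [Ne, map_eq_zero]; exact inv_ne_zero hs)
  obtain ⟨P₁, P₁', lam, hP₁, hP₁', hAd, -⟩ := diag_of_pow r hr.pos (A.map φ) (φ s)
    (map_pow_smul φ A r s hAs) θ₁ hθ₁ hθ₁s
  obtain ⟨Q₁, Q₁', nu, hQ₁, hQ₁', hBd, -⟩ := diag_of_pow r hr.pos (B.map φ) (φ s⁻¹)
    (map_pow_smul φ B r s⁻¹ hBs) θ₂ hθ₂ hθ₂s
  have hK := kron_charpoly P₁ P₁' Q₁ Q₁' hP₁ hP₁' hQ₁ hQ₁' lam nu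
  rw [← hAd, ← hBd, map_kron, Matrix.charpoly_map, hcp] at hK
  have hK' : ∏ p : Fin a × Fin b, (X - C (lam p.1 * nu p.2)) = Φ.map φ * (X - 1) ^ m := by
    rw [← hK, Polynomial.map_mul, Polynomial.map_pow, Polynomial.map_sub, Polynomial.map_X,
      Polynomial.map_one]
  obtain ⟨hdist, hcard, hne⟩ := count_of_prod (fun p : Fin a × Fin b => lam p.1 * nu p.2)
    (Φ.map φ) m hsep.map
    (by rw [Polynomial.eval_one_map, Ne, map_eq_zero]; exact hev)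
    (by rw [Polynomial.natDegree_map]; exact hdeg1) hK'
  have hcomb := comb_count ha hb lam nu hdist hne
  rw [hcard] at hcomb
  have hcomb2 : m ≤ b := by
    have hdist' : ∀ p p' : Fin b × Fin a, p ≠ p' →
        nu p.1 * lam p.2 = nu p'.1 * lam p'.2 → nu p.1 * lam p.2 = 1 := by
      intro p p' hpp heq
      have h1 := hdist (p.2, p.1) (p'.2, p'.1)
        (by
          intro h'
          apply hpp
          have h2 := congrArg Prod.fst h'
          have h3 := congrArg Prod.snd h'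
          exact Prod.ext h3 h2)
        (by
          show lam p.2 * nu p.1 = lam p'.2 * nu p'.1
          rw [mul_comm, heq, mul_comm])
      rw [mul_comm]
      exact h1
    have hne' : ∃ p : Fin b × Fin a, nu p.1 * lam p.2 ≠ 1 := by
      obtain ⟨p, hp⟩ := hne
      exact ⟨(p.2, p.1), by rw [mul_comm]; exact hp⟩
    have h1 := comb_count hb ha nu lam hdist' hne'
    have h2 : Nat.card {p : Fin b × Fin a // nu p.1 * lam p.2 = 1} =
        Nat.card {p : Fin a × Fin b // lam p.1 * nu p.2 = 1} :=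
      Nat.card_congr ((Equiv.prodComm (Fin b) (Fin a)).subtypeEquiv
        (fun p => by
          show nu p.1 * lam p.2 = 1 ↔ lam p.2 * nu p.1 = 1
          rw [mul_comm]))
    rw [h2, hcard] at h1
    exact h1
  refine ⟨hcomb, hcomb2, ?_, ?_⟩
  · intro hmin
    have hA1 := pow_card_sub_one_eq_one r hr hrF hmin A s hs hAs
    have hq1 : ¬ r ∣ Fintype.card F - 1 := by
      have h3 := hmin 1 one_pos (by omega)
      rwa [pow_one] at h3
    have hcop : Nat.Coprime r (Fintype.card F - 1) := (Nat.Prime.coprime_iff_not_dvd hr).2 hq1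
    obtain ⟨t, ht⟩ := scalar_of_pow A r _ hcop s hAs hA1
    have hlam : ∀ i, lam i = φ t := by
      intro i
      have h1 : Matrix.diagonal lam = P₁' * (A.map φ) * P₁ := by
        rw [hAd]
        calc Matrix.diagonal lam = (P₁' * P₁) * Matrix.diagonal lam * (P₁' * P₁) := by
              rw [hP₁', Matrix.one_mul, Matrix.mul_one]
          _ = P₁' * (P₁ * Matrix.diagonal lam * P₁') * P₁ := by simp only [Matrix.mul_assoc]
      have h2 : A.map φ = φ t • (1 : Matrix (Fin a) (Fin a) (AlgebraicClosure F)) := by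
        rw [ht]
        ext i j
        by_cases hij : i = j
        · simp [Matrix.map_apply, hij]
        · simp [Matrix.map_apply, hij]
      rw [h2, Matrix.mul_smul, Matrix.mul_one, Matrix.smul_mul, hP₁'] at h1
      have h3 := congrFun (congrFun h1 i) i
      simpa using h3
    obtain ⟨⟨i, j⟩, hp⟩ := hne
    obtain ⟨i', hi'⟩ : ∃ i' : Fin a, i' ≠ i := by
      by_cases h0 : i.val = 0
      · exact ⟨⟨1, by omega⟩, fun h' => by rw [← h'] at h0; simp at h0⟩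
      · exact ⟨⟨0, by omega⟩, fun h' => by rw [← h'] at h0; simp at h0⟩
    apply hp
    exact hdist (i, j) (i', j) (fun h' => hi' (congrArg Prod.fst h').symm)
      (by
        show lam i * nu j = lam i' * nu j
        rw [hlam i, hlam i'])
  · intro hmin
    have hB1 := pow_card_sub_one_eq_one r hr hrF hmin B s⁻¹ (inv_ne_zero hs) hBs
    have hq1 : ¬ r ∣ Fintype.card F - 1 := by
      have h3 := hmin 1 one_pos (by omega)
      rwa [pow_one] at h3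
    have hcop : Nat.Coprime r (Fintype.card F - 1) := (Nat.Prime.coprime_iff_not_dvd hr).2 hq1
    obtain ⟨t, ht⟩ := scalar_of_pow B r _ hcop s⁻¹ hBs hB1
    have hnu : ∀ i, nu i = φ t := by
      intro i
      have h1 : Matrix.diagonal nu = Q₁' * (B.map φ) * Q₁ := by
        rw [hBd]
        calc Matrix.diagonal nu = (Q₁' * Q₁) * Matrix.diagonal nu * (Q₁' * Q₁) := by
              rw [hQ₁', Matrix.one_mul, Matrix.mul_one]
          _ = Q₁' * (Q₁ * Matrix.diagonal nu * Q₁') * Q₁ := by simp only [Matrix.mul_assoc]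
      have h2 : B.map φ = φ t • (1 : Matrix (Fin b) (Fin b) (AlgebraicClosure F)) := by
        rw [ht]
        ext i j
        by_cases hij : i = j
        · simp [Matrix.map_apply, hij]
        · simp [Matrix.map_apply, hij]
      rw [h2, Matrix.mul_smul, Matrix.mul_one, Matrix.smul_mul, hQ₁'] at h1
      have h3 := congrFun (congrFun h1 i) i
      simpa using h3
    obtain ⟨⟨i, j⟩, hp⟩ := hne
    obtain ⟨j', hj'⟩ : ∃ j' : Fin b, j' ≠ j := by
      by_cases h0 : j.val = 0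
      · exact ⟨⟨1, by omega⟩, fun h' => by rw [← h'] at h0; simp at h0⟩
      · exact ⟨⟨0, by omega⟩, fun h' => by rw [← h'] at h0; simp at h0⟩
    apply hp
    exact hdist (i, j) (i, j') (fun h' => hj' (congrArg Prod.snd h').symm)
      (by
        show lam i * nu j = lam i * nu j'
        rw [hnu j, hnu j'])

theorem sq_sub_one_fac (Q : ℕ) (hQ : 1 ≤ Q) : Q ^ 2 - 1 = (Q - 1) * (Q + 1) := by
  obtain ⟨t, rfl⟩ : ∃ t, Q = t + 1 := ⟨Q - 1, by omega⟩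
  have h1 : (t + 1) ^ 2 = t * (t + 1 + 1) + 1 := by ring
  rw [h1]
  simp

/-- Piece SPX: an element of odd prime order `r` of `Sp_{2d}(q)` whose non-trivial spectrum is
multiplicity-free. -/
theorem exists_sp_elt {F : Type*} [Field F] [Fintype F] (h2 : (2 : F) ≠ 0) (d : ℕ) (r : ℕ)
    (hr : r.Prime) (hr2 : r ≠ 2) (hrF : (r : F) ≠ 0) (j : ℕ) (hj0 : 0 < j) (hjd : j ≤ d)
    (hj : r ∣ Fintype.card F ^ (2 * j) - 1) :
    ∃ (x : Matrix (Fin d ⊕ Fin d) (Fin d ⊕ Fin d) F) (Φ : F[X]),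
      x ∈ Matrix.symplecticGroup (Fin d) F ∧ x ^ r = 1 ∧ Φ.Separable ∧ Φ.eval 1 ≠ 0 ∧
      1 ≤ Φ.natDegree ∧ Φ.natDegree ≤ 2 * d ∧
      x.charpoly = Φ * (X - 1) ^ (2 * d - Φ.natDegree) ∧
      ∀ j' : ℕ, 0 < j' → j' ≤ 2 * d → r ∣ Fintype.card F ^ j' - 1 →
        (Φ.natDegree ≤ 2 * j' ∧ (Even j' → Φ.natDegree ≤ j')) := by
  by_cases hex : ∃ e : ℕ, 0 < e ∧ e ≤ d ∧ r ∣ Fintype.card F ^ e + 1
  · obtain ⟨e, he, hed, hre⟩ := hex
    obtain ⟨x, Φ, h1, h2', h3, h4, h5, h6, h7, h8⟩ :=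
      exists_sp_elt_even h2 d r hr hr2 hrF e he hed hre
    exact ⟨x, Φ, h1, h2', h3, h4, h5, h6, h7, fun j' hj' _ hd' =>
      ⟨(h8 j' hj' hd').trans (by omega), fun _ => h8 j' hj' hd'⟩⟩
  · push Not at hex
    have hq1 : 1 ≤ Fintype.card F ^ j := Nat.one_le_pow _ _ Fintype.card_pos
    have hfac : Fintype.card F ^ (2 * j) - 1 =
        (Fintype.card F ^ j - 1) * (Fintype.card F ^ j + 1) := by
      rw [mul_comm 2 j, pow_mul]
      exact sq_sub_one_fac _ hq1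
    rw [hfac] at hj
    rcases (Nat.Prime.dvd_mul hr).1 hj with h | h
    · exact exists_sp_elt_odd h2 d r hr hr2 hrF (fun e he hed => hex e he hed) j hj0 hjd h
    · exact absurd h (hex j hj0 hjd)

/-- The prime `r` is not odd. -/
theorem no_odd_sp {F : Type*} [Field F] [Fintype F] (p : ℕ) [Fact p.Prime] [CharP F p]
    (h2 : (2 : F) ≠ 0) {d a b : ℕ} (hab : 2 * d = a * b) (ha : 2 ≤ a) (hb : 3 ≤ b)
    (e : (Fin d ⊕ Fin d) ≃ Fin a × Fin b) (P : GL (Fin d ⊕ Fin d) F) (r : ℕ) (hr : r.Prime)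
    (h : ∀ x ∈ Cfsg.spGL d F,
      (∃ z : F, ((x ^ r : GL (Fin d ⊕ Fin d) F) : Matrix (Fin d ⊕ Fin d) (Fin d ⊕ Fin d) F) =
        z • (1 : Matrix (Fin d ⊕ Fin d) (Fin d ⊕ Fin d) F)) →
      (∀ z : F, (x : Matrix (Fin d ⊕ Fin d) (Fin d ⊕ Fin d) F) ≠
        z • (1 : Matrix (Fin d ⊕ Fin d) (Fin d ⊕ Fin d) F)) →
      ∃ g ∈ Cfsg.spGL d F, g⁻¹ * x * g ∈ Cfsg.Geo.tensorProductSubgroup a b e P)
    (hrF : (r : F) ≠ 0) (hr2 : r ≠ 2) (hdvd : r ∣ Nat.card (Cfsg.spGL d F)) : False := by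
  classical
  have hd : 3 ≤ d := by nlinarith
  have hcard : r ∣ Fintype.card F ^ (d ^ 2) *
      ∏ i ∈ Finset.range d, (Fintype.card F ^ (2 * (i + 1)) - 1) := by
    rw [← Cfsg.Agent.Helper5.card_sp (F := F) (m := d)]
    exact dvd_trans hdvd (card_spGL_dvd d)
  have hrq : ¬ r ∣ Fintype.card F := by
    intro hdq
    obtain ⟨n, -, hn⟩ := FiniteField.card F p
    rw [hn] at hdq
    have h1 := (Nat.prime_dvd_prime_iff_eq hr (Fact.out : p.Prime)).1 (hr.dvd_of_dvd_pow hdq)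
    apply hrF
    rw [h1]
    exact CharP.cast_eq_zero F p
  obtain ⟨j, hj0, hjd, hj⟩ := exists_dvd_of_dvd_card_sp d r hr hrq hcard
  obtain ⟨x, Φ, hxs, hxr, hsep, hev, hdeg1, hdegn, hxc, hprop⟩ :=
    exists_sp_elt h2 d r hr hr2 hrF j hj0 hjd hj
  have hcardι : Fintype.card (Fin d ⊕ Fin d) = 2 * d := by
    rw [Fintype.card_sum, Fintype.card_fin]
    ring
  have hns : ∀ z : F, x ≠ z • (1 : Matrix (Fin d ⊕ Fin d) (Fin d ⊕ Fin d) F) :=
    nonscalar_of_charpoly_gen (by rw [hcardι]; omega) x Φ hsep hev hdeg1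
      (by rw [hcardι]; exact hxc)
  obtain ⟨U, U', A, B, hU, hU', hAB⟩ := core_sp e P r h x hxs 1 (by rw [hxr, one_smul]) hns
  have hX'r : (x.submatrix e.symm e.symm) ^ r = 1 := by
    rw [submatrix_pow, hxr, Matrix.submatrix_one_equiv]
  have hcpX : (x.submatrix e.symm e.symm).charpoly = Φ * (X - 1) ^ (2 * d - Φ.natDegree) := by
    rw [← hxc]
    exact Matrix.charpoly_reindex e x
  obtain ⟨hma, hmb, hA, hB⟩ := kron_analysis ha (by omega) r hr hrF _ hX'r U U' A B hU hU' hAB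
    Φ hsep hev hdeg1 _ hcpX
  have hkey : ∀ j' : ℕ, 0 < j' → j' ≤ a → j' ≤ b → ¬ r ∣ Fintype.card F ^ j' - 1 := by
    intro j' hj'0 hj'a hj'b hdv
    have hj'd : j' ≤ 2 * d := by
      rw [hab]
      nlinarith
    obtain ⟨hp1, hp2⟩ := hprop j' hj'0 hj'd hdv
    have h3a : a * b ≤ a * 3 := by omega
    have h3b : a * b ≤ 3 * b := by omega
    have hb3 : b ≤ 3 := Nat.le_of_mul_le_mul_left h3a (by omega)
    have ha3 : a ≤ 3 := Nat.le_of_mul_le_mul_right h3b (by omega)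
    have hb3' : b = 3 := by omega
    subst hb3'
    have ha2 : a = 2 := by omega
    subst ha2
    have hj2 : j' = 2 := by omega
    subst hj2
    have := hp2 (by decide)
    omega
  by_cases hle : a ≤ b
  · exact hA (fun j' h0 hja => hkey j' h0 hja (by omega))
  · exact hB (fun j' h0 hjb => hkey j' h0 (by omega) hjb)

/-- The "only if" direction of S5980. -/
theorem main_mp {F : Type*} [Field F] [Fintype F] (p : ℕ) [Fact p.Prime] [CharP F p]
    (h2 : (2 : F) ≠ 0) {d a b : ℕ} (hab : 2 * d = a * b) (ha : 2 ≤ a) (hb : 3 ≤ b)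
    (e : (Fin d ⊕ Fin d) ≃ Fin a × Fin b) (P : GL (Fin d ⊕ Fin d) F) (r : ℕ) (hr : r.Prime)
    (hΩ : r ∣ (Cfsg.Geo.tensorProductSubgroup a b e P).relIndex (Cfsg.spGL d F))
    (h : ∀ x ∈ Cfsg.spGL d F,
      (∃ z : F, ((x ^ r : GL (Fin d ⊕ Fin d) F) : Matrix (Fin d ⊕ Fin d) (Fin d ⊕ Fin d) F) =
        z • (1 : Matrix (Fin d ⊕ Fin d) (Fin d ⊕ Fin d) F)) →
      (∀ z : F, (x : Matrix (Fin d ⊕ Fin d) (Fin d ⊕ Fin d) F) ≠
        z • (1 : Matrix (Fin d ⊕ Fin d) (Fin d ⊕ Fin d) F)) →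
      ∃ g ∈ Cfsg.spGL d F, g⁻¹ * x * g ∈ Cfsg.Geo.tensorProductSubgroup a b e P) :
    r = 2 ∧ a = 2 := by
  have hd : 3 ≤ d := by nlinarith
  have hrF : (r : F) ≠ 0 := fun h0 => no_char_sp (by omega) ha (by omega) e P r hr h h0
  have hr2 : r = 2 := by
    by_contra hne
    exact no_odd_sp p h2 hab ha hb e P r hr h hrF hne
      (dvd_trans hΩ (Subgroup.relIndex_dvd_card _ _))
  subst hr2
  have h3 := a_le_two_sp (by omega) h2 hb e P h
  exact ⟨rfl, by omega⟩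

/-! ### Part F: the "if" direction -/

theorem sub3 {F : Type*} [Field F] {ι κ : Type*} [Fintype ι] [DecidableEq ι] [Fintype κ]
    [DecidableEq κ] (e : ι ≃ κ) (A B C : Matrix κ κ F) :
    (A * B * C).submatrix e e = A.submatrix e e * B.submatrix e e * C.submatrix e e := by
  rw [Matrix.submatrix_mul_equiv, Matrix.submatrix_mul_equiv]

theorem sub_back {F : Type*} [Field F] {ι κ : Type*} [Fintype ι] [DecidableEq ι] [Fintype κ]
    [DecidableEq κ] (e : ι ≃ κ) (M : Matrix ι ι F) :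
    (M.submatrix e.symm e.symm).submatrix e e = M := by
  ext i j
  simp

/-- Conjugating into the tensor product subgroup by a symplectic element. -/
theorem fix_of_conj_sp {F : Type*} [Field F] {d a b : ℕ} (e : (Fin d ⊕ Fin d) ≃ Fin a × Fin b)
    (P x : GL (Fin d ⊕ Fin d) F)
    (gt gt' : Matrix (Fin a × Fin b) (Fin a × Fin b) F) (hg : gt * gt' = 1) (hg' : gt' * gt = 1)
    (hgJ : gtᵀ * (Matrix.J (Fin d) F).submatrix e.symm e.symm * gt =
      (Matrix.J (Fin d) F).submatrix e.symm e.symm)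
    (A₀ : Matrix (Fin a) (Fin a) F) (B₀ : Matrix (Fin b) (Fin b) F) (hA : A₀.det ≠ 0)
    (hB : B₀.det ≠ 0)
    (hconj : gt' * (x : Matrix (Fin d ⊕ Fin d) (Fin d ⊕ Fin d) F).submatrix e.symm e.symm * gt =
      (P : Matrix (Fin d ⊕ Fin d) (Fin d ⊕ Fin d) F).submatrix e.symm e.symm * (A₀ ⊗ₖ B₀) *
        ((P⁻¹ : GL (Fin d ⊕ Fin d) F) :
          Matrix (Fin d ⊕ Fin d) (Fin d ⊕ Fin d) F).submatrix e.symm e.symm) :
    ∃ g ∈ Cfsg.spGL d F, g⁻¹ * x * g ∈ Cfsg.Geo.tensorProductSubgroup a b e P := by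
  have hG : gt.submatrix e e * gt'.submatrix e e = 1 := by
    rw [Matrix.submatrix_mul_equiv, hg, Matrix.submatrix_one_equiv]
  have hG' : gt'.submatrix e e * gt.submatrix e e = 1 := by
    rw [Matrix.submatrix_mul_equiv, hg', Matrix.submatrix_one_equiv]
  obtain ⟨g, hgv, hgi⟩ : ∃ g : GL (Fin d ⊕ Fin d) F,
      (g : Matrix (Fin d ⊕ Fin d) (Fin d ⊕ Fin d) F) = gt.submatrix e e ∧
      ((g⁻¹ : GL (Fin d ⊕ Fin d) F) : Matrix (Fin d ⊕ Fin d) (Fin d ⊕ Fin d) F) =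
        gt'.submatrix e e :=
    ⟨⟨_, _, hG, hG'⟩, rfl, rfl⟩
  refine ⟨g, ?_, ?_⟩
  · rw [mem_spGL_iff, hgv, SymplecticGroup.mem_iff']
    calc (gt.submatrix e e)ᵀ * Matrix.J (Fin d) F * gt.submatrix e e
        = gtᵀ.submatrix e e * ((Matrix.J (Fin d) F).submatrix e.symm e.symm).submatrix e e *
            gt.submatrix e e := by rw [sub_back, Matrix.transpose_submatrix]
      _ = (gtᵀ * (Matrix.J (Fin d) F).submatrix e.symm e.symm * gt).submatrix e e :=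
          (sub3 e _ _ _).symm
      _ = Matrix.J (Fin d) F := by rw [hgJ, sub_back]
  · rw [mem_tps_gen]
    refine ⟨Matrix.GeneralLinearGroup.mkOfDetNeZero A₀ hA,
      Matrix.GeneralLinearGroup.mkOfDetNeZero B₀ hB, ?_⟩
    rw [Units.val_mul, Units.val_mul, hgv, hgi]
    calc gt'.submatrix e e * (x : Matrix (Fin d ⊕ Fin d) (Fin d ⊕ Fin d) F) * gt.submatrix e e
        = gt'.submatrix e e *
            ((x : Matrix (Fin d ⊕ Fin d) (Fin d ⊕ Fin d) F).submatrix e.symm e.symm).submatrix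
              e e * gt.submatrix e e := by rw [sub_back]
      _ = (gt' * (x : Matrix (Fin d ⊕ Fin d) (Fin d ⊕ Fin d) F).submatrix e.symm e.symm *
            gt).submatrix e e := (sub3 e _ _ _).symm
      _ = ((P : Matrix (Fin d ⊕ Fin d) (Fin d ⊕ Fin d) F).submatrix e.symm e.symm *
            (A₀ ⊗ₖ B₀) * ((P⁻¹ : GL (Fin d ⊕ Fin d) F) :
              Matrix (Fin d ⊕ Fin d) (Fin d ⊕ Fin d) F).submatrix e.symm e.symm).submatrix
                e e := by rw [hconj]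
      _ = _ := by
          rw [sub3, sub_back, sub_back]
          rfl

theorem kron_one_transpose {F : Type*} [Field F] {b : ℕ} (S : Matrix (Fin b) (Fin b) F) :
    ((1 : Matrix (Fin 2) (Fin 2) F) ⊗ₖ S)ᵀ = (1 : Matrix (Fin 2) (Fin 2) F) ⊗ₖ Sᵀ := by
  ext ⟨i, j⟩ ⟨i', j'⟩
  simp [Matrix.kroneckerMap_apply, Matrix.one_apply, eq_comm]

/-- Finishing step at the level of matrices on `Fin 2 × Fin b`. -/
theorem kappa_fin {F : Type*} [Field F] {b : ℕ}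
    (Jt Pt Pt' Xt : Matrix (Fin 2 × Fin b) (Fin 2 × Fin b) F) (hP : Pt * Pt' = 1)
    (hP' : Pt' * Pt = 1) (S S' : Matrix (Fin b) (Fin b) F) (hS : S * S' = 1) (hS' : S' * S = 1)
    (E' : Matrix (Fin 2 × Fin b) (Fin 2 × Fin b) F)
    (hRE : (Pt * ((1 : Matrix (Fin 2) (Fin 2) F) ⊗ₖ S))ᵀ * Jt *
      (Pt * ((1 : Matrix (Fin 2) (Fin 2) F) ⊗ₖ S)) = E')
    (h h' : Matrix (Fin 2 × Fin b) (Fin 2 × Fin b) F) (hh : h * h' = 1) (hh' : h' * h = 1)
    (hE : hᵀ * E' * h = E') (A₀ : Matrix (Fin 2) (Fin 2) F) (D : Matrix (Fin b) (Fin b) F)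
    (hA : A₀.det ≠ 0) (hD : D.det ≠ 0)
    (hxh : (((1 : Matrix (Fin 2) (Fin 2) F) ⊗ₖ S') * Pt') * Xt *
      (Pt * ((1 : Matrix (Fin 2) (Fin 2) F) ⊗ₖ S)) * h = h * (A₀ ⊗ₖ D)) :
    ∃ (gt gt' : Matrix (Fin 2 × Fin b) (Fin 2 × Fin b) F) (A₁ : Matrix (Fin 2) (Fin 2) F)
      (B₁ : Matrix (Fin b) (Fin b) F),
      gt * gt' = 1 ∧ gt' * gt = 1 ∧ gtᵀ * Jt * gt = Jt ∧ A₁.det ≠ 0 ∧ B₁.det ≠ 0 ∧
        gt' * Xt * gt = Pt * (A₁ ⊗ₖ B₁) * Pt' := by
  obtain ⟨R, hRdef⟩ : ∃ R, R = Pt * ((1 : Matrix (Fin 2) (Fin 2) F) ⊗ₖ S) := ⟨_, rfl⟩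
  obtain ⟨R', hR'def⟩ : ∃ R', R' = ((1 : Matrix (Fin 2) (Fin 2) F) ⊗ₖ S') * Pt' := ⟨_, rfl⟩
  rw [← hRdef] at hRE hxh
  rw [← hR'def] at hxh
  have hW : ((1 : Matrix (Fin 2) (Fin 2) F) ⊗ₖ S) * ((1 : Matrix (Fin 2) (Fin 2) F) ⊗ₖ S') = 1 := by
    rw [← Matrix.mul_kronecker_mul, Matrix.one_mul, hS, Matrix.one_kronecker_one]
  have hW' : ((1 : Matrix (Fin 2) (Fin 2) F) ⊗ₖ S') * ((1 : Matrix (Fin 2) (Fin 2) F) ⊗ₖ S) = 1 := by
    rw [← Matrix.mul_kronecker_mul, Matrix.one_mul, hS', Matrix.one_kronecker_one]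
  have hR : R * R' = 1 := by
    rw [hRdef, hR'def]
    calc Pt * ((1 : Matrix (Fin 2) (Fin 2) F) ⊗ₖ S) * (((1 : Matrix (Fin 2) (Fin 2) F) ⊗ₖ S') * Pt')
        = Pt * (((1 : Matrix (Fin 2) (Fin 2) F) ⊗ₖ S) * ((1 : Matrix (Fin 2) (Fin 2) F) ⊗ₖ S')) *
            Pt' := by simp only [Matrix.mul_assoc]
      _ = 1 := by rw [hW, Matrix.mul_one, hP]
  have hR' : R' * R = 1 := by
    rw [hRdef, hR'def]
    calc ((1 : Matrix (Fin 2) (Fin 2) F) ⊗ₖ S') * Pt' * (Pt * ((1 : Matrix (Fin 2) (Fin 2) F) ⊗ₖ S))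
        = ((1 : Matrix (Fin 2) (Fin 2) F) ⊗ₖ S') * (Pt' * Pt) *
            ((1 : Matrix (Fin 2) (Fin 2) F) ⊗ₖ S) := by simp only [Matrix.mul_assoc]
      _ = 1 := by rw [hP', Matrix.mul_one, hW']
  have hRt : R'ᵀ * Rᵀ = 1 := by rw [← Matrix.transpose_mul, hR, Matrix.transpose_one]
  have hdS : S.det * S'.det = 1 := by rw [← Matrix.det_mul, hS, Matrix.det_one]
  refine ⟨R * h * R', R * h' * R', A₀, S * D * S', ?_, ?_, ?_, hA, ?_, ?_⟩
  · calc R * h * R' * (R * h' * R') = R * (h * ((R' * R) * h')) * R' := by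
          simp only [Matrix.mul_assoc]
      _ = 1 := by rw [hR', Matrix.one_mul, hh, Matrix.mul_one, hR]
  · calc R * h' * R' * (R * h * R') = R * (h' * ((R' * R) * h)) * R' := by
          simp only [Matrix.mul_assoc]
      _ = 1 := by rw [hR', Matrix.one_mul, hh', Matrix.mul_one, hR]
  · calc (R * h * R')ᵀ * Jt * (R * h * R') = R'ᵀ * (hᵀ * (Rᵀ * Jt * R) * h) * R' := by
          simp only [Matrix.transpose_mul, Matrix.mul_assoc]
      _ = R'ᵀ * (Rᵀ * Jt * R) * R' := by rw [hRE, hE]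
      _ = (R'ᵀ * Rᵀ) * Jt * (R * R') := by simp only [Matrix.mul_assoc]
      _ = Jt := by rw [hRt, hR, Matrix.one_mul, Matrix.mul_one]
  · rw [Matrix.det_mul, Matrix.det_mul]
    intro h0
    apply hD
    have h1 : D.det = D.det * (S.det * S'.det) := by rw [hdS, mul_one]
    rw [h1]
    linear_combination h0
  · calc R * h' * R' * Xt * (R * h * R') = R * (h' * (R' * Xt * R * h)) * R' := by
          simp only [Matrix.mul_assoc]
      _ = R * ((h' * h) * (A₀ ⊗ₖ D)) * R' := by rw [hxh, Matrix.mul_assoc h']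
      _ = Pt * (((1 : Matrix (Fin 2) (Fin 2) F) ⊗ₖ S) * (A₀ ⊗ₖ D) *
            ((1 : Matrix (Fin 2) (Fin 2) F) ⊗ₖ S')) * Pt' := by
          rw [hh', Matrix.one_mul, hRdef, hR'def]
          simp only [Matrix.mul_assoc]
      _ = Pt * (A₀ ⊗ₖ (S * D * S')) * Pt' := by
          rw [← Matrix.mul_kronecker_mul, ← Matrix.mul_kronecker_mul, Matrix.one_mul,
            Matrix.mul_one]

/-- The matrix-level statement behind the "if" direction. -/
theorem kappa_main {F : Type*} [Field F] [Fintype F] (h2 : (2 : F) ≠ 0) {b : ℕ}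
    (Jt Pt Pt' Xt : Matrix (Fin 2 × Fin b) (Fin 2 × Fin b) F) (hP : Pt * Pt' = 1)
    (hP' : Pt' * Pt = 1) (hX : Xtᵀ * Jt * Xt = Jt) (z : F) (hz : z = 1 ∨ z = -1)
    (hXX : Xt * Xt = z • (1 : Matrix (Fin 2 × Fin b) (Fin 2 × Fin b) F))
    (c α : F) (hc : c ≠ 0) (hα : α ≠ 0) (G₂ : Matrix (Fin b) (Fin b) F)
    (hPJ : Ptᵀ * Jt * Pt = c • ((α • (!![0, 1; -1, 0] : Matrix (Fin 2) (Fin 2) F)) ⊗ₖ G₂))
    (S S' : Matrix (Fin b) (Fin b) F) (γ : Fin b → F) (hS : S * S' = 1) (hS' : S' * S = 1)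
    (hγ : ∀ j, γ j ≠ 0) (hSG : Sᵀ * G₂ * S = Matrix.diagonal γ) :
    ∃ (gt gt' : Matrix (Fin 2 × Fin b) (Fin 2 × Fin b) F) (A₁ : Matrix (Fin 2) (Fin 2) F)
      (B₁ : Matrix (Fin b) (Fin b) F),
      gt * gt' = 1 ∧ gt' * gt = 1 ∧ gtᵀ * Jt * gt = Jt ∧ A₁.det ≠ 0 ∧ B₁.det ≠ 0 ∧
        gt' * Xt * gt = Pt * (A₁ ⊗ₖ B₁) * Pt' := by
  obtain ⟨κ, hκdef⟩ : ∃ κ : Fin b → F, κ = fun j => c * α * γ j := ⟨_, rfl⟩
  have hκ : ∀ j, κ j ≠ 0 := by
    intro j
    rw [hκdef]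
    exact mul_ne_zero (mul_ne_zero hc hα) (hγ j)
  obtain ⟨R, hRdef⟩ : ∃ R, R = Pt * ((1 : Matrix (Fin 2) (Fin 2) F) ⊗ₖ S) := ⟨_, rfl⟩
  obtain ⟨R', hR'def⟩ : ∃ R', R' = ((1 : Matrix (Fin 2) (Fin 2) F) ⊗ₖ S') * Pt' := ⟨_, rfl⟩
  have hW : ((1 : Matrix (Fin 2) (Fin 2) F) ⊗ₖ S) * ((1 : Matrix (Fin 2) (Fin 2) F) ⊗ₖ S') = 1 := by
    rw [← Matrix.mul_kronecker_mul, Matrix.one_mul, hS, Matrix.one_kronecker_one]
  have hW' : ((1 : Matrix (Fin 2) (Fin 2) F) ⊗ₖ S') * ((1 : Matrix (Fin 2) (Fin 2) F) ⊗ₖ S) = 1 := by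
    rw [← Matrix.mul_kronecker_mul, Matrix.one_mul, hS', Matrix.one_kronecker_one]
  have hR : R * R' = 1 := by
    rw [hRdef, hR'def]
    calc Pt * ((1 : Matrix (Fin 2) (Fin 2) F) ⊗ₖ S) * (((1 : Matrix (Fin 2) (Fin 2) F) ⊗ₖ S') * Pt')
        = Pt * (((1 : Matrix (Fin 2) (Fin 2) F) ⊗ₖ S) * ((1 : Matrix (Fin 2) (Fin 2) F) ⊗ₖ S')) *
            Pt' := by simp only [Matrix.mul_assoc]
      _ = 1 := by rw [hW, Matrix.mul_one, hP]
  have hR' : R' * R = 1 := by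
    rw [hRdef, hR'def]
    calc ((1 : Matrix (Fin 2) (Fin 2) F) ⊗ₖ S') * Pt' * (Pt * ((1 : Matrix (Fin 2) (Fin 2) F) ⊗ₖ S))
        = ((1 : Matrix (Fin 2) (Fin 2) F) ⊗ₖ S') * (Pt' * Pt) *
            ((1 : Matrix (Fin 2) (Fin 2) F) ⊗ₖ S) := by simp only [Matrix.mul_assoc]
      _ = 1 := by rw [hP', Matrix.mul_one, hW']
  have hRt : R'ᵀ * Rᵀ = 1 := by rw [← Matrix.transpose_mul, hR, Matrix.transpose_one]
  have hRE : Rᵀ * Jt * R =
      (!![0, 1; -1, 0] : Matrix (Fin 2) (Fin 2) F) ⊗ₖ Matrix.diagonal κ := by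
    rw [hRdef]
    calc (Pt * ((1 : Matrix (Fin 2) (Fin 2) F) ⊗ₖ S))ᵀ * Jt *
          (Pt * ((1 : Matrix (Fin 2) (Fin 2) F) ⊗ₖ S))
        = ((1 : Matrix (Fin 2) (Fin 2) F) ⊗ₖ S)ᵀ * (Ptᵀ * Jt * Pt) *
            ((1 : Matrix (Fin 2) (Fin 2) F) ⊗ₖ S) := by
          simp only [Matrix.transpose_mul, Matrix.mul_assoc]
      _ = c • (((1 : Matrix (Fin 2) (Fin 2) F) ⊗ₖ Sᵀ) *
            ((α • (!![0, 1; -1, 0] : Matrix (Fin 2) (Fin 2) F)) ⊗ₖ G₂) *
            ((1 : Matrix (Fin 2) (Fin 2) F) ⊗ₖ S)) := by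
          rw [hPJ, kron_one_transpose, Matrix.mul_smul, Matrix.smul_mul]
      _ = c • ((α • (!![0, 1; -1, 0] : Matrix (Fin 2) (Fin 2) F)) ⊗ₖ Matrix.diagonal γ) := by
          rw [← Matrix.mul_kronecker_mul, ← Matrix.mul_kronecker_mul, Matrix.one_mul,
            Matrix.mul_one, hSG]
      _ = (!![0, 1; -1, 0] : Matrix (Fin 2) (Fin 2) F) ⊗ₖ Matrix.diagonal κ := by
          rw [hκdef]
          ext ⟨i, j⟩ ⟨i', j'⟩
          by_cases hjj : j = j'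
          · subst hjj
            fin_cases i <;> fin_cases i' <;> simp [Matrix.kroneckerMap_apply] <;> ring
          · simp [Matrix.kroneckerMap_apply, Matrix.diagonal_apply_ne _ hjj]
  have hx'' : (R' * Xt * R)ᵀ * ((!![0, 1; -1, 0] : Matrix (Fin 2) (Fin 2) F) ⊗ₖ
      Matrix.diagonal κ) * (R' * Xt * R) =
      (!![0, 1; -1, 0] : Matrix (Fin 2) (Fin 2) F) ⊗ₖ Matrix.diagonal κ := by
    rw [← hRE]
    calc (R' * Xt * R)ᵀ * (Rᵀ * Jt * R) * (R' * Xt * R)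
        = Rᵀ * (Xtᵀ * ((R'ᵀ * Rᵀ) * (Jt * ((R * R') * (Xt * R))))) := by
          simp only [Matrix.transpose_mul, Matrix.mul_assoc]
      _ = Rᵀ * (Xtᵀ * Jt * Xt) * R := by
          rw [hRt, hR, Matrix.one_mul, Matrix.one_mul]
          simp only [Matrix.mul_assoc]
      _ = Rᵀ * Jt * R := by rw [hX]
  have hxx'' : (R' * Xt * R) * (R' * Xt * R) =
      z • (1 : Matrix (Fin 2 × Fin b) (Fin 2 × Fin b) F) := by
    calc (R' * Xt * R) * (R' * Xt * R) = R' * (Xt * ((R * R') * Xt)) * R := by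
          simp only [Matrix.mul_assoc]
      _ = z • 1 := by
          rw [hR, Matrix.one_mul, hXX, Matrix.mul_smul, Matrix.mul_one, Matrix.smul_mul, hR']
  rw [hRdef] at hRE
  rcases hz with rfl | rfl
  · obtain ⟨h, h', δ, hh, hh', hE, hδ, hxh⟩ := frame_invol h2 κ hκ (R' * Xt * R) hx''
      (by rw [hxx'', one_smul])
    refine kappa_fin Jt Pt Pt' Xt hP hP' S S' hS hS' _ hRE h h' hh hh' hE 1 (Matrix.diagonal δ)
      (by rw [Matrix.det_one]; exact one_ne_zero) ?_ (by rw [← hRdef, ← hR'def]; exact hxh)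
    rw [Matrix.det_diagonal, Finset.prod_ne_zero_iff]
    intro j _
    rcases hδ j with h' | h' <;> rw [h']
    · exact one_ne_zero
    · exact neg_ne_zero.2 one_ne_zero
  · obtain ⟨h, h', hh, hh', hE, hxh⟩ := frame_neg h2 κ hκ (R' * Xt * R) hx''
      (by rw [hxx'', neg_smul, one_smul])
    exact kappa_fin Jt Pt Pt' Xt hP hP' S S' hS hS' _ hRE h h' hh hh' hE !![0, -1; 1, 0] 1
      (by rw [Matrix.det_fin_two_of]; norm_num)
      (by rw [Matrix.det_one]; exact one_ne_zero) (by rw [← hRdef, ← hR'def]; exact hxh)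

/-- The "if" direction of S5980. -/
theorem main_mpr {F : Type*} [Field F] [Fintype F] (h2 : (2 : F) ≠ 0) {d b : ℕ} (hd : 1 ≤ d)
    (e : (Fin d ⊕ Fin d) ≃ Fin 2 × Fin b) (P : GL (Fin d ⊕ Fin d) F)
    (f₁ : (Fin 2 → F) → (Fin 2 → F) → F) (f₂ : (Fin b → F) → (Fin b → F) → F)
    (hf₁ : Cfsg.Geo.IsSymplecticForm f₁) (hf₂ : Cfsg.Geo.IsSymmetricForm f₂)
    (hS : Cfsg.Geo.IsTensorFormStructure id (Cfsg.sympForm d F) f₁ f₂ e P)
    (x : GL (Fin d ⊕ Fin d) F) (hx : x ∈ Cfsg.spGL d F) (z : F)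
    (hz : ((x ^ 2 : GL (Fin d ⊕ Fin d) F) : Matrix (Fin d ⊕ Fin d) (Fin d ⊕ Fin d) F) =
      z • (1 : Matrix (Fin d ⊕ Fin d) (Fin d ⊕ Fin d) F)) :
    ∃ g ∈ Cfsg.spGL d F, g⁻¹ * x * g ∈ Cfsg.Geo.tensorProductSubgroup 2 b e P := by
  obtain ⟨X, hXdef⟩ : ∃ X : Matrix (Fin d ⊕ Fin d) (Fin d ⊕ Fin d) F,
      X = (x : Matrix (Fin d ⊕ Fin d) (Fin d ⊕ Fin d) F) := ⟨_, rfl⟩
  have hXs : X ∈ Matrix.symplecticGroup (Fin d) F := by
    rw [hXdef]
    exact (mem_spGL_iff x).1 hx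
  have hXJ : Xᵀ * Matrix.J (Fin d) F * X = Matrix.J (Fin d) F := SymplecticGroup.mem_iff'.1 hXs
  have hXX : X * X = z • (1 : Matrix (Fin d ⊕ Fin d) (Fin d ⊕ Fin d) F) := by
    rw [← hz, Units.val_pow_eq_pow_val, pow_two, hXdef]
  have hz' : z = 1 ∨ z = -1 := by
    have h1 : (X * X)ᵀ * Matrix.J (Fin d) F * (X * X) = Matrix.J (Fin d) F := by
      calc (X * X)ᵀ * Matrix.J (Fin d) F * (X * X)
          = Xᵀ * (Xᵀ * Matrix.J (Fin d) F * X) * X := by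
            simp only [Matrix.transpose_mul, Matrix.mul_assoc]
        _ = Matrix.J (Fin d) F := by rw [hXJ, hXJ]
    rw [hXX, Matrix.transpose_smul, Matrix.transpose_one, Matrix.smul_mul, Matrix.one_mul,
      Matrix.mul_smul, Matrix.mul_one, smul_smul] at h1
    have h3 := congrFun (congrFun h1 (Sum.inl ⟨0, hd⟩)) (Sum.inr ⟨0, hd⟩)
    simp only [Matrix.J, Matrix.smul_apply, Matrix.fromBlocks_apply₁₂, Matrix.neg_apply,
      Matrix.one_apply_eq, smul_eq_mul] at h3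
    have h4 : (z - 1) * (z + 1) = 0 := by linear_combination -h3
    rcases mul_eq_zero.1 h4 with h5 | h5
    · left
      linear_combination h5
    · right
      linear_combination h5
  obtain ⟨c, hc, hcE⟩ := tensor_structure_matrix e P f₁ f₂ hS
  obtain ⟨α, hα, hG1⟩ := gram_symp_two f₁ hf₁
  obtain ⟨S, S', γ, hSS, hSS', hγ, hSG⟩ := gram_symm_diag h2 f₂ hf₂
  have hP : (P : Matrix (Fin d ⊕ Fin d) (Fin d ⊕ Fin d) F).submatrix e.symm e.symm *
      ((P⁻¹ : GL (Fin d ⊕ Fin d) F) :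
        Matrix (Fin d ⊕ Fin d) (Fin d ⊕ Fin d) F).submatrix e.symm e.symm = 1 := by
    rw [Matrix.submatrix_mul_equiv, ← Units.val_mul, mul_inv_cancel, Units.val_one,
      Matrix.submatrix_one_equiv]
  have hP' : ((P⁻¹ : GL (Fin d ⊕ Fin d) F) :
        Matrix (Fin d ⊕ Fin d) (Fin d ⊕ Fin d) F).submatrix e.symm e.symm *
      (P : Matrix (Fin d ⊕ Fin d) (Fin d ⊕ Fin d) F).submatrix e.symm e.symm = 1 := by
    rw [Matrix.submatrix_mul_equiv, ← Units.val_mul, inv_mul_cancel, Units.val_one,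
      Matrix.submatrix_one_equiv]
  have hXt : (X.submatrix e.symm e.symm)ᵀ * (Matrix.J (Fin d) F).submatrix e.symm e.symm *
      X.submatrix e.symm e.symm = (Matrix.J (Fin d) F).submatrix e.symm e.symm := by
    rw [Matrix.transpose_submatrix, Matrix.submatrix_mul_equiv, Matrix.submatrix_mul_equiv, hXJ]
  have hXXt : X.submatrix e.symm e.symm * X.submatrix e.symm e.symm =
      z • (1 : Matrix (Fin 2 × Fin b) (Fin 2 × Fin b) F) := by
    rw [Matrix.submatrix_mul_equiv, hXX]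
    ext i j
    simp [Matrix.one_apply, e.symm.injective.eq_iff]
  have hPJ : ((P : Matrix (Fin d ⊕ Fin d) (Fin d ⊕ Fin d) F).submatrix e.symm e.symm)ᵀ *
      (Matrix.J (Fin d) F).submatrix e.symm e.symm *
      (P : Matrix (Fin d ⊕ Fin d) (Fin d ⊕ Fin d) F).submatrix e.symm e.symm =
      c • ((α • (!![0, 1; -1, 0] : Matrix (Fin 2) (Fin 2) F)) ⊗ₖ Cfsg.Geo.gramMatrix f₂) := by
    rw [Matrix.transpose_submatrix, Matrix.submatrix_mul_equiv, Matrix.submatrix_mul_equiv, hcE,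
      hG1]
  obtain ⟨gt, gt', A₁, B₁, hg, hg', hgJ, hA, hB, hconj⟩ := kappa_main h2
    ((Matrix.J (Fin d) F).submatrix e.symm e.symm) _ _ (X.submatrix e.symm e.symm) hP hP' hXt z
    hz' hXXt c α hc hα (Cfsg.Geo.gramMatrix f₂) hPJ S S' γ hSS hSS' hγ hSG
  rw [hXdef] at hconj
  exact fix_of_conj_sp e P x gt gt' hg hg' hgJ A₁ B₁ hA hB hconj

/-- The statement of S5980. -/
theorem main {F : Type*} [Field F] [Fintype F] {p : ℕ} [Fact p.Prime] [CharP F p] {q : ℕ}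
    (hq : Fintype.card F = q) (hodd : Odd q) (d : ℕ) (a b : ℕ)
    (hab : 2 * d = a * b) (ha2 : 2 ≤ a) (hb : 3 ≤ b)
    (e : (Fin d ⊕ Fin d) ≃ Fin a × Fin b) (P : GL (Fin d ⊕ Fin d) F)
    (f₁ : (Fin a → F) → (Fin a → F) → F) (f₂ : (Fin b → F) → (Fin b → F) → F)
    (hf₁ : Cfsg.Geo.IsSymplecticForm f₁) (hf₂ : Cfsg.Geo.IsSymmetricForm f₂)
    (hS : Cfsg.Geo.IsTensorFormStructure id (Cfsg.sympForm d F) f₁ f₂ e P)
    (r : ℕ) (hr : r.Prime)
    (hΩ : r ∣ (Cfsg.Geo.tensorProductSubgroup a b e P).relIndex (Cfsg.spGL d F)) :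
    (∀ x ∈ Cfsg.spGL d F,
      (∃ z : F, ((x ^ r : GL (Fin d ⊕ Fin d) F) : Matrix (Fin d ⊕ Fin d) (Fin d ⊕ Fin d) F) =
        z • (1 : Matrix (Fin d ⊕ Fin d) (Fin d ⊕ Fin d) F)) →
      (∀ z : F, (x : Matrix (Fin d ⊕ Fin d) (Fin d ⊕ Fin d) F) ≠
        z • (1 : Matrix (Fin d ⊕ Fin d) (Fin d ⊕ Fin d) F)) →
      ∃ g ∈ Cfsg.spGL d F, g⁻¹ * x * g ∈ Cfsg.Geo.tensorProductSubgroup a b e P) ↔
      (r = 2 ∧ a = 2) := by
  subst hq
  have h2 : (2 : F) ≠ 0 := by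
    intro h0
    have hc : ringChar F = 2 :=
      CharP.ringChar_of_prime_eq_zero Nat.prime_two (by exact_mod_cast h0)
    have h3 := FiniteField.even_card_of_char_two hc
    rcases hodd with ⟨k, hk⟩
    omega
  constructor
  · intro hfix
    exact main_mp p h2 hab ha2 hb e P r hr hΩ hfix
  · rintro ⟨rfl, rfl⟩ x hx ⟨z, hz⟩ _
    exact main_mpr h2 (by omega) e P f₁ f₂ hf₁ hf₂ hS x hx z hz


end Cfsg.Agent.Helper98.TFAsm
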