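import Mathlib
import Cfsg.Prelude.Def_GeometricClasses
import Cfsg.Agent.Helper98.SU3

/-!
helper98: structure data of a quadratic field subalgebra `K` of the `2m × 2m` matrices that is
closed under adjoints for the standard alternating form but not self-adjoint (unitary type `C₃`
in `Sp_{2m}(q)`, `q` odd; the set-up of S5665 / S5976), extracted from the proof of
`Helper98.su_unitary_max` and stated for every `m ≥ 1`.
-/

set_option autoImplicit false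
set_option linter.unusedSectionVars false
set_option linter.unusedVariables false
set_option linter.unusedSimpArgs false

universe u

namespace Cfsg.Agent.Helper98.TGData

open Matrix Cfsg Cfsg.Geo Cfsg.Agent.Helper45 Cfsg.Agent.Helper94 Cfsg.Agent.Helper98

variable {F : Type u} [Field F] [Fintype F] {m : ℕ}

/-- `K = F + F W` with `W * W = -ν`, `X² + ν` irreducible, `W` skew-adjoint for the symplectic
form, and the normaliser of `K` consists of the `g` with `g W = (a + b W) g`. -/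
theorem su_extract (hm : 1 ≤ m) (hodd : Odd (Fintype.card F))
    (K : Subalgebra F (Matrix (Fin m ⊕ Fin m) (Fin m ⊕ Fin m) F)) (hK : IsFieldSubalgebra 2 K)
    (hac : IsAdjointClosedFor (sympForm m F) K) (hnsa : ¬IsSelfAdjointFor (sympForm m F) K) :
    ∃ (W : Matrix (Fin m ⊕ Fin m) (Fin m ⊕ Fin m) F) (ν : F), W ∈ K ∧
      W * W = -(ν • (1 : Matrix (Fin m ⊕ Fin m) (Fin m ⊕ Fin m) F)) ∧
      (∀ a b : F, a * a + ν * b * b = 0 → a = 0 ∧ b = 0) ∧
      (∀ u v, sympForm m F (W *ᵥ u) v = -sympForm m F u (W *ᵥ v)) ∧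
      (∀ k ∈ K, ∃ a b : F, k = a • (1 : Matrix (Fin m ⊕ Fin m) (Fin m ⊕ Fin m) F) + b • W) ∧
      (∀ g : GL (Fin m ⊕ Fin m) F, g ∈ subalgebraNormalizer K ↔ ∃ a b : F,
        (g : Matrix (Fin m ⊕ Fin m) (Fin m ⊕ Fin m) F) * W =
          a • (g : Matrix (Fin m ⊕ Fin m) (Fin m ⊕ Fin m) F) +
            b • (W * (g : Matrix (Fin m ⊕ Fin m) (Fin m ⊕ Fin m) F))) := by
  have h2 := su_two_ne hodd
  have hne : Nonempty (Fin m ⊕ Fin m) := ⟨Sum.inl ⟨0, by omega⟩⟩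
  obtain ⟨ω₀, hω₀K, hω₀, hKspan₀⟩ := oc_K_basis K hK.finrank_eq
  obtain ⟨ω₀', hω₀'K, hadj₀⟩ := hac ω₀ hω₀K
  have hadj₀' : ∀ u v, sympForm m F (ω₀' *ᵥ u) v = sympForm m F u (ω₀ *ᵥ v) := by
    intro u v
    rw [sf_swap (ω₀' *ᵥ u) v, ← hadj₀, sf_swap (ω₀ *ᵥ v) u, neg_neg]
  obtain ⟨ω₁, hω₁def⟩ : ∃ ω₁ : Matrix (Fin m ⊕ Fin m) (Fin m ⊕ Fin m) F, ω₁ = ω₀ - ω₀' := ⟨_, rfl⟩
  have hω₁K : ω₁ ∈ K := by
    rw [hω₁def]
    exact K.sub_mem hω₀K hω₀'K
  have hskew : ∀ u v, sympForm m F (ω₁ *ᵥ u) v = -sympForm m F u (ω₁ *ᵥ v) := by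
    intro u v
    rw [hω₁def, Matrix.sub_mulVec, Matrix.sub_mulVec, sf_sub_left, sf_sub_right, hadj₀, hadj₀']
    ring
  obtain ⟨u₀, v₀, huv₀⟩ : ∃ u₀ v₀ : (Fin m ⊕ Fin m → F), sympForm m F u₀ v₀ ≠ 0 := by
    have h3 : (Pi.single (Sum.inl ⟨0, by omega⟩) 1 : (Fin m ⊕ Fin m → F)) ≠ 0 := by
      intro h
      have h4 := congrFun h (Sum.inl ⟨0, by omega⟩)
      simp at h4
    obtain ⟨y, hy⟩ := sf_exists_ne _ h3
    exact ⟨_, y, hy⟩
  have hu₀ : u₀ ≠ 0 := by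
    rintro rfl
    apply huv₀
    have h3 := sf_smul_left (0 : F) (0 : (Fin m ⊕ Fin m → F)) v₀
    rw [zero_smul, zero_mul] at h3
    exact h3
  have hω₁ : ∀ a : F, ω₁ ≠ a • (1 : Matrix (Fin m ⊕ Fin m) (Fin m ⊕ Fin m) F) := by
    intro a e
    have h3 : a = 0 := by
      have h4 := hskew u₀ v₀
      rw [e, Matrix.smul_mulVec, Matrix.smul_mulVec, Matrix.one_mulVec, Matrix.one_mulVec,
        sf_smul_left, sf_smul_right] at h4
      have h5 : 2 * (a * sympForm m F u₀ v₀) = 0 := by linear_combination h4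
      rcases mul_eq_zero.mp (su_two h2 h5) with h6 | h6
      · exact h6
      · exact absurd h6 huv₀
    rw [h3, zero_smul] at e
    apply hnsa
    intro k hk u v
    obtain ⟨c, d, rfl⟩ := hKspan₀ k hk
    have h7 : ω₀' = ω₀ := by
      rw [hω₁def] at e
      exact (sub_eq_zero.mp e).symm
    rw [h7] at hadj₀
    rw [Matrix.add_mulVec, Matrix.add_mulVec, Matrix.smul_mulVec, Matrix.smul_mulVec,
      Matrix.smul_mulVec, Matrix.smul_mulVec, Matrix.one_mulVec, Matrix.one_mulVec]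
    simp only [sf_add_left, sf_add_right, sf_smul_left, sf_smul_right, sf_sub_left, sf_sub_right, sf_neg_left, sf_neg_right, map_add, map_sub, map_smul, map_neg, smul_eq_mul]
    rw [hadj₀]
  have hKspan := oc_K_span K hK.finrank_eq ω₁ hω₁K hω₁
  obtain ⟨a, b, hab⟩ := hKspan (ω₁ * ω₁) (K.mul_mem hω₁K hω₁K)
  have hb : b = 0 := by
    by_contra hb
    have h3 : ∀ u v, sympForm m F (ω₁ *ᵥ u) v = 0 := by
      intro u v
      have h4 : sympForm m F ((ω₁ * ω₁) *ᵥ u) v = sympForm m F u ((ω₁ * ω₁) *ᵥ v) := by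
        rw [← Matrix.mulVec_mulVec, ← Matrix.mulVec_mulVec, hskew (ω₁ *ᵥ u) v,
          hskew u (ω₁ *ᵥ v), neg_neg]
      rw [hab, Matrix.add_mulVec, Matrix.add_mulVec, Matrix.smul_mulVec, Matrix.smul_mulVec,
        Matrix.smul_mulVec, Matrix.smul_mulVec, Matrix.one_mulVec, Matrix.one_mulVec] at h4
      simp only [sf_add_left, sf_add_right, sf_smul_left, sf_smul_right, sf_sub_left, sf_sub_right, sf_neg_left, sf_neg_right, map_add, map_sub, map_smul, map_neg, smul_eq_mul] at h4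
      have h5 : 2 * (b * sympForm m F (ω₁ *ᵥ u) v) = 0 := by linear_combination h4 + b * hskew u v
      exact (mul_eq_zero.mp (su_two h2 h5)).resolve_left hb
    apply hω₁ 0
    apply matrix_ext_mulVec
    intro x
    rw [zero_smul, Matrix.zero_mulVec]
    exact Helper13.sympForm_sep _ (h3 x)
  obtain ⟨ν, hν⟩ : ∃ ν : F, ν = -a := ⟨_, rfl⟩
  have hsqM : ω₁ * ω₁ = -(ν • (1 : Matrix (Fin m ⊕ Fin m) (Fin m ⊕ Fin m) F)) := by
    rw [hab, hb, zero_smul, add_zero, hν, neg_smul, neg_neg]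
  have hsq : ∀ x, ω₁ *ᵥ (ω₁ *ᵥ x) = -(ν • x) := by
    intro x
    rw [Matrix.mulVec_mulVec, hsqM, Matrix.neg_mulVec, Matrix.smul_mulVec, Matrix.one_mulVec]
  refine ⟨ω₁, ν, hω₁K, hsqM, ?_, hskew, hKspan, ?_⟩
  · intro α β hN
    have hxK : α • (1 : Matrix (Fin m ⊕ Fin m) (Fin m ⊕ Fin m) F) + β • ω₁ ∈ K :=
      K.add_mem (K.smul_mem K.one_mem α) (K.smul_mem hω₁K β)
    have hyK : α • (1 : Matrix (Fin m ⊕ Fin m) (Fin m ⊕ Fin m) F) + (-β) • ω₁ ∈ K :=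
      K.add_mem (K.smul_mem K.one_mem α) (K.smul_mem hω₁K _)
    have hxy : (α • (1 : Matrix (Fin m ⊕ Fin m) (Fin m ⊕ Fin m) F) + β • ω₁) *ᵥ ((α • (1 : Matrix (Fin m ⊕ Fin m) (Fin m ⊕ Fin m) F) + (-β) • ω₁) *ᵥ u₀) = 0 := by
      have e : ∀ (p q : F) (w : (Fin m ⊕ Fin m → F)), (p • (1 : Matrix (Fin m ⊕ Fin m) (Fin m ⊕ Fin m) F) + q • ω₁) *ᵥ w = p • w + q • (ω₁ *ᵥ w) := by
        intro p q w
        rw [Matrix.add_mulVec, Matrix.smul_mulVec, Matrix.smul_mulVec, Matrix.one_mulVec]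
      rw [e, e, Matrix.mulVec_add, Matrix.mulVec_smul, Matrix.mulVec_smul, hsq]
      rw [← zero_smul F u₀, ← hN]
      module
    by_cases hx : α • (1 : Matrix (Fin m ⊕ Fin m) (Fin m ⊕ Fin m) F) + β • ω₁ = 0
    · exact oc_lin_indep ω₁ hω₁ α β hx
    · have h1 := IsFS.mulVec_eq_zero (IsFS.of hK) hxK hx hxy
      by_cases hy : α • (1 : Matrix (Fin m ⊕ Fin m) (Fin m ⊕ Fin m) F) + (-β) • ω₁ = 0
      · have h3 := oc_lin_indep ω₁ hω₁ _ _ hy
        exact ⟨h3.1, neg_eq_zero.mp h3.2⟩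
      · exact absurd (IsFS.mulVec_eq_zero (IsFS.of hK) hyK hy h1) hu₀
  · intro g
    constructor
    · intro hg
      obtain ⟨a, b, h⟩ := oc_of_norm K ω₁ hω₁K hKspan g hg
      refine ⟨a, b, ?_⟩
      apply matrix_ext_mulVec
      intro x
      rw [← Matrix.mulVec_mulVec, h x, Matrix.add_mulVec, Matrix.smul_mulVec, Matrix.smul_mulVec,
        ← Matrix.mulVec_mulVec]
    · rintro ⟨a, b, h⟩
      refine oc_norm_of K ω₁ hω₁K hKspan g ⟨a, b, fun x => ?_⟩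
      rw [Matrix.mulVec_mulVec, h, Matrix.add_mulVec, Matrix.smul_mulVec, Matrix.smul_mulVec,
        ← Matrix.mulVec_mulVec]

end Cfsg.Agent.Helper98.TGData
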