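import Mathlib
import Cfsg.Prelude.Def_GeometricClasses
import Cfsg.Prelude.Def_Classical

set_option autoImplicit false
open Matrix Polynomial

namespace Cfsg.Agent.Helper98.THSIMONE

variable {F : Type*} [Field F] [Fintype F]

/-- SIMONE -/
theorem sim_iso_of_pow (h2 : (2 : F) ≠ 0) {n : ℕ} (hn : 0 < n) (Q : (Fin n → F) → F)
    (hQ : Cfsg.Geo.IsNondegenerateQuadraticForm Q) (r : ℕ) (hr : r.Prime)
    (hrq : ¬ r ∣ Fintype.card F - 1) (y : GL (Fin n) F)
    (hy : y ∈ Cfsg.Geo.quadSimilarityGroup Q) (hyr : y ^ r = 1) :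
    ∀ v, Q ((y : Matrix (Fin n) (Fin n) F) *ᵥ v) = Q v := by
  classical
  obtain ⟨c, hc⟩ := hy
  have hpow : ∀ (k : ℕ) (v : Fin n → F),
      Q (((y ^ k : GL (Fin n) F) : Matrix (Fin n) (Fin n) F) *ᵥ v) = (c : F) ^ k * Q v := by
    intro k
    induction k with
    | zero => intro v; simp
    | succ k ih =>
      intro v
      rw [pow_succ, Units.val_mul, ← Matrix.mulVec_mulVec, ih, hc, pow_succ]
      ring
  have hex : ∃ v, Q v ≠ 0 := by
    by_contra hno
    push_neg at hno
    have hv0 : (Pi.single (⟨0, hn⟩ : Fin n) (1 : F) : Fin n → F) ≠ 0 := by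
      intro h
      have := congrFun h ⟨0, hn⟩
      simp at this
    obtain ⟨⟨x, hx⟩, -⟩ := hQ.nondegenerate _ hv0
    apply hx
    simp [QuadraticMap.polar, hno]
  obtain ⟨v, hv⟩ := hex
  have h1 := hpow r v
  rw [hyr, Units.val_one, Matrix.one_mulVec] at h1
  have hcr : (c : F) ^ r = 1 := by
    have h3 : ((c : F) ^ r - 1) * Q v = 0 := by rw [sub_mul, one_mul, ← h1, sub_self]
    rcases mul_eq_zero.1 h3 with h | h
    · exact sub_eq_zero.1 h
    · exact absurd h hv
  have hcu : c ^ r = 1 := by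
    apply Units.ext
    rw [Units.val_pow_eq_pow_val, hcr, Units.val_one]
  have hc1 : c = 1 := by
    have hd1 : orderOf c ∣ r := orderOf_dvd_of_pow_eq_one hcu
    have hd2 : orderOf c ∣ Fintype.card F - 1 := by
      have := orderOf_dvd_card (x := c)
      rwa [Fintype.card_units] at this
    rcases (Nat.dvd_prime hr).1 hd1 with h | h
    · exact orderOf_eq_one_iff.1 h
    · rw [h] at hd2
      exact absurd hd2 hrq
  intro w
  rw [hc w, hc1, Units.val_one, one_mul]

end Cfsg.Agent.Helper98.THSIMONE
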