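import Mathlib
import Cfsg.Prelude.Def_GeometricClasses
import Cfsg.Prelude.Def_Classical
import Cfsg.Agent.Helper97.THCLASSO
import Cfsg.Agent.Helper97.THCLASSE
import Cfsg.Agent.Helper5.THCARDT
import Cfsg.Agent.Helper5.THDIVO
import Cfsg.Agent.Helper5.THCARDSL
import Cfsg.Agent.Helper72.THARO
import Cfsg.Agent.Helper72.THAREP
import Cfsg.Agent.Helper72.THAREM
import Cfsg.Agent.Helper5.THFINP
import Cfsg.Agent.Helper5.THFINM
import Cfsg.Agent.Helper98.THSIMONE
import Cfsg.Agent.Helper5.OrthOdd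
import Cfsg.Agent.Helper5.OrthForms
import Cfsg.Agent.Helper5.OrthMinus
import Cfsg.Agent.Helper69.SngB2
import Cfsg.Agent.Helper43.SingCount

set_option autoImplicit false
open Matrix

namespace Cfsg.Agent.Helper98.THEVEN

open Cfsg.Agent.Helper97.THCLASSO Cfsg.Agent.Helper97.THCLASSE Cfsg.Agent.Helper5.THCARDT
  Cfsg.Agent.Helper5.THDIVO Cfsg.Agent.Helper5.THCARDSL Cfsg.Agent.Helper72.THARO
  Cfsg.Agent.Helper72.THAREP Cfsg.Agent.Helper72.THAREM Cfsg.Agent.Helper5.THFINP
  Cfsg.Agent.Helper5.THFINM Cfsg.Agent.Helper98.THSIMONE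

variable {F : Type*} [Field F] [Fintype F]

theorem even_two_ne (hF : Odd (Fintype.card F)) : (2 : F) ≠ 0 := by
  intro h2
  have : CharP F 2 := CharTwo.of_one_ne_zero_of_two_eq_zero one_ne_zero h2
  have hc : ringChar F = 2 := ringChar.eq F 2
  have := FiniteField.even_card_of_char_two hc
  rcases hF with ⟨k, hk⟩
  omega

/-- the fixed-point-free element is not conjugate to a similarity: core -/
theorem even_fpf_core (h2 : (2 : F) ≠ 0) {n : ℕ} (hn : 0 < n) (Q : (Fin n → F) → F)
    (hQ : Cfsg.Geo.IsNondegenerateQuadraticForm Q) (r : ℕ) [Fact r.Prime]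
    (hrq : ¬ r ∣ Fintype.card F - 1)
    (x : Matrix.SpecialLinearGroup (Fin n) F)
    (hxr : ((x ^ r : Matrix.SpecialLinearGroup (Fin n) F) : Matrix (Fin n) (Fin n) F) = 1)
    (hxfix : Module.finrank F ↥(LinearMap.ker (Matrix.toLin' (x : Matrix (Fin n) (Fin n) F) - 1)) = 0)
    (g : GL (Fin n) F)
    (hg : g⁻¹ * Matrix.SpecialLinearGroup.toGL x * g ∈ Cfsg.Geo.quadSimilarityGroup Q) :
    Nat.card {v : Fin n → F // Q v = 0} ≡ 1 [MOD r] := by
  have hr := (Fact.out : r.Prime)
  set X : GL (Fin n) F := Matrix.SpecialLinearGroup.toGL x with hX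
  have hXr : X ^ r = 1 := by
    apply Units.ext
    rw [Units.val_pow_eq_pow_val, Units.val_one]
    have : (X : Matrix (Fin n) (Fin n) F) = (x : Matrix (Fin n) (Fin n) F) := rfl
    rw [this, ← hxr]
    rfl
  set y : GL (Fin n) F := g⁻¹ * X * g with hy
  have hyr : y ^ r = 1 := by
    have hk : ∀ k : ℕ, (g⁻¹ * X * g) ^ k = g⁻¹ * X ^ k * g := by
      intro k
      induction k with
      | zero => simp
      | succ k ih => rw [pow_succ, ih, pow_succ]; group
    rw [hy, hk, hXr, mul_one, inv_mul_cancel]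
  have hiso := sim_iso_of_pow h2 hn Q hQ r hr hrq y hg hyr
  have hQ0 : Q 0 = 0 := by
    have := hQ.smul 0 0
    simpa using this
  have hfix : ∀ v, (y : Matrix (Fin n) (Fin n) F) *ᵥ v = v → v = 0 := by
    intro v hv
    have hker : LinearMap.ker (Matrix.toLin' (x : Matrix (Fin n) (Fin n) F) - 1) = ⊥ :=
      Submodule.finrank_eq_zero.1 hxfix
    have h1 : (g : Matrix (Fin n) (Fin n) F) *ᵥ v ∈
        LinearMap.ker (Matrix.toLin' (x : Matrix (Fin n) (Fin n) F) - 1) := by
      rw [LinearMap.mem_ker, LinearMap.sub_apply, Matrix.toLin'_apply, Module.End.one_apply,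
        sub_eq_zero]
      have h3 : (g : Matrix (Fin n) (Fin n) F) *ᵥ ((y : Matrix (Fin n) (Fin n) F) *ᵥ v) =
          (x : Matrix (Fin n) (Fin n) F) *ᵥ ((g : Matrix (Fin n) (Fin n) F) *ᵥ v) := by
        rw [Matrix.mulVec_mulVec, Matrix.mulVec_mulVec]
        congr 1
        rw [hy, Units.val_mul, Units.val_mul, ← Matrix.mul_assoc, ← Matrix.mul_assoc,
          ← Units.val_mul, mul_inv_cancel]
        simp [hX]
      rw [hv] at h3
      exact h3.symm
    rw [hker, Submodule.mem_bot] at h1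
    have h4 : ((g⁻¹ : GL (Fin n) F) : Matrix (Fin n) (Fin n) F) *ᵥ
        ((g : Matrix (Fin n) (Fin n) F) *ᵥ v) = v := by
      rw [Matrix.mulVec_mulVec, ← Units.val_mul, inv_mul_cancel, Units.val_one, Matrix.one_mulVec]
    rw [h1, Matrix.mulVec_zero] at h4
    exact h4.symm
  have hMr : (y : Matrix (Fin n) (Fin n) F) ^ r = 1 := by
    rw [← Units.val_pow_eq_pow_val, hyr]
    rfl
  exact Cfsg.Agent.Helper43.SingCount.card_sing_modEq Q hQ0 _ hiso r hMr hfix

/-- EVEN -/
theorem bad_even (hodd : Odd (Fintype.card F)) (p : ℕ) [Fact p.Prime] [CharP F p] {n : ℕ} (hn : 3 ≤ n)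
    (Q : (Fin n → F) → F) (hQ : Cfsg.Geo.IsNondegenerateQuadraticForm Q) (r : ℕ) [Fact r.Prime]
    (hrp : r ≠ p) (hr2 : r ≠ 2) (heven : Even (orderOf ((Fintype.card F : ℕ) : ZMod r)))
    (hΩ : r ∣ (Cfsg.Geo.quadSimilarityGroup Q).relIndex (Cfsg.Geo.specialLinear (Fin n) F)) :
    ∃ x : GL (Fin n) F, x ∈ Cfsg.Geo.specialLinear (Fin n) F ∧ x ^ r = 1 ∧
      (∀ z : F, (x : Matrix (Fin n) (Fin n) F) ≠ z • (1 : Matrix (Fin n) (Fin n) F)) ∧
      ∀ g : GL (Fin n) F, g⁻¹ * x * g ∉ Cfsg.Geo.quadSimilarityGroup Q := by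
  classical
  have hr := (Fact.out : r.Prime)
  have hp := (Fact.out : p.Prime)
  have h2 : (2 : F) ≠ 0 := even_two_ne hodd
  have hq2 : 2 ≤ Fintype.card F := Fintype.one_lt_card
  have hrcard : ¬ r ∣ Fintype.card F := by
    intro hd
    obtain ⟨k, hk⟩ := FiniteField.card F p
    obtain ⟨hpp, hk⟩ := hk
    rw [hk] at hd
    have := hr.dvd_of_dvd_pow hd
    exact absurd ((Nat.prime_dvd_prime_iff_eq hr hp).1 this) hrp
  have hne : (((Fintype.card F : ℕ)) : ZMod r) ≠ 0 := by
    intro h0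
    exact hrcard ((ZMod.natCast_eq_zero_iff _ _).1 h0)
  have hi0 : 0 < orderOf (((Fintype.card F : ℕ)) : ZMod r) := by
    apply orderOf_pos_iff.2
    rw [isOfFinOrder_iff_pow_eq_one]
    exact ⟨r - 1, by have := hr.two_le; omega, ZMod.pow_card_sub_one_eq_one hne⟩
  have hi2 : 2 ≤ orderOf (((Fintype.card F : ℕ)) : ZMod r) := by
    obtain ⟨k, hk⟩ := heven
    omega
  have hpowdvd : ∀ j : ℕ, r ∣ Fintype.card F ^ j - 1 →
      orderOf (((Fintype.card F : ℕ)) : ZMod r) ∣ j := by
    intro j hj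
    apply orderOf_dvd_of_pow_eq_one
    have h1 : 1 ≤ Fintype.card F ^ j := Nat.one_le_pow _ _ (by omega)
    have h3 : ((Fintype.card F ^ j - 1 : ℕ) : ZMod r) = 0 := (ZMod.natCast_eq_zero_iff _ _).2 hj
    rw [Nat.cast_sub h1, Nat.cast_pow, Nat.cast_one, sub_eq_zero] at h3
    exact h3
  have hrq : ¬ r ∣ Fintype.card F - 1 := by
    intro hd
    have := hpowdvd 1 (by simpa using hd)
    have := Nat.le_of_dvd one_pos this
    omega
  have hoddj : ∀ j, Odd j → ¬ r ∣ Fintype.card F ^ j - 1 := by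
    intro j hj hd
    have h1 := hpowdvd j hd
    exact (Nat.not_even_iff_odd.2 hj) (even_iff_two_dvd.2 ((even_iff_two_dvd.1 heven).trans h1))
  have hdiv := dvd_of_relIndex h2 Q hQ r hΩ
  have hS := card_sl (F := F) n (by omega)
  rcases Nat.even_or_odd' n with ⟨m, rfl | rfl⟩
  · -- n = 2m
    have hm : 1 ≤ m := by omega
    rcases class_even h2 m hm Q hQ with ⟨P, e, hPQ⟩ | ⟨P, e, a, b, hab, hPQ⟩
    · have hPQ1 : ∀ v : Fin m ⊕ Fin m → F,
          Q ((P : Matrix (Fin (2 * m)) (Fin (2 * m)) F) *ᵥ (v ∘ e)) = 1 * Cfsg.quadFormPlus m F v := by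
        intro v
        rw [one_mul]
        exact hPQ v
      obtain ⟨hc1, hc2⟩ := card_transfer Q (Cfsg.quadFormPlus m F) P e 1 one_ne_zero hPQ1
      rw [hc1, Cfsg.Agent.Helper5.card_GO_plus m hm] at hdiv
      rcases arith_even_plus (Fintype.card F) m r hq2 hm hr _ hS hdiv with h | ⟨j, hj, hd⟩ | hd
      · exact absurd h hrcard
      · exact absurd hd (hoddj j hj)
      · have hrdvd : r ∣ Fintype.card F ^ (2 * m) - 1 := by
          have h1 : Fintype.card F ^ (2 * m) - 1 =
              (Fintype.card F ^ m - 1) * (Fintype.card F ^ m + 1) := by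
            have h1 : 1 ≤ Fintype.card F ^ m := Nat.one_le_pow _ _ (by omega)
            rw [pow_mul']
            zify [h1, Nat.one_le_pow 2 (Fintype.card F ^ m) (by omega)]
            ring
          rw [h1]
          exact Dvd.dvd.mul_left hd _
        obtain ⟨x, hxr, hxns, hxfix⟩ := Cfsg.Agent.Helper69.bgl_exists_fpf_gen (F := F) p (2 * m) r hi2
          (2 * m) 0 (by omega) (by omega) hrdvd
        refine ⟨Matrix.SpecialLinearGroup.toGL x, ?_, ?_, hxns, ?_⟩
        · show Matrix.GeneralLinearGroup.det (Matrix.SpecialLinearGroup.toGL x) = 1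
          apply Units.ext
          simp
        · apply Units.ext
          rw [Units.val_pow_eq_pow_val, Units.val_one]
          have : ((Matrix.SpecialLinearGroup.toGL x : GL (Fin (2 * m)) F) :
              Matrix (Fin (2 * m)) (Fin (2 * m)) F) = (x : Matrix (Fin (2 * m)) (Fin (2 * m)) F) := rfl
          rw [this, ← hxr]
          rfl
        · intro g hg
          have hmod := even_fpf_core h2 (by omega) Q hQ r hrq x hxr hxfix g hg
          rw [hc2] at hmod
          exact fin_plus m r hm hr hr2 hrq hd hmod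
    · have hPQ1 : ∀ v : (Fin (m - 1) ⊕ Fin (m - 1)) ⊕ Fin 2 → F,
          Q ((P : Matrix (Fin (2 * m)) (Fin (2 * m)) F) *ᵥ (v ∘ e)) =
            1 * Cfsg.quadFormMinus (m - 1) F a b v := by
        intro v
        rw [one_mul]
        exact hPQ v
      obtain ⟨hc1, hc2⟩ := card_transfer Q (Cfsg.quadFormMinus (m - 1) F a b) P e 1 one_ne_zero hPQ1
      rw [hc1, Cfsg.Agent.Helper5.card_GO_minus a b hab m hm] at hdiv
      rcases arith_even_minus (Fintype.card F) m r hq2 hm hr _ hS hdiv with h | ⟨j, hj, hd⟩ | hd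
      · exact absurd h hrcard
      · exact absurd hd (hoddj j hj)
      · have hrdvd : r ∣ Fintype.card F ^ (2 * m) - 1 := by
          have h1 : Fintype.card F ^ (2 * m) - 1 =
              (Fintype.card F ^ m - 1) * (Fintype.card F ^ m + 1) := by
            have h1 : 1 ≤ Fintype.card F ^ m := Nat.one_le_pow _ _ (by omega)
            rw [pow_mul']
            zify [h1, Nat.one_le_pow 2 (Fintype.card F ^ m) (by omega)]
            ring
          rw [h1]
          exact Dvd.dvd.mul_right hd _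
        obtain ⟨x, hxr, hxns, hxfix⟩ := Cfsg.Agent.Helper69.bgl_exists_fpf_gen (F := F) p (2 * m) r hi2
          (2 * m) 0 (by omega) (by omega) hrdvd
        refine ⟨Matrix.SpecialLinearGroup.toGL x, ?_, ?_, hxns, ?_⟩
        · show Matrix.GeneralLinearGroup.det (Matrix.SpecialLinearGroup.toGL x) = 1
          apply Units.ext
          simp
        · apply Units.ext
          rw [Units.val_pow_eq_pow_val, Units.val_one]
          have : ((Matrix.SpecialLinearGroup.toGL x : GL (Fin (2 * m)) F) :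
              Matrix (Fin (2 * m)) (Fin (2 * m)) F) = (x : Matrix (Fin (2 * m)) (Fin (2 * m)) F) := rfl
          rw [this, ← hxr]
          rfl
        · intro g hg
          have hmod := even_fpf_core h2 (by omega) Q hQ r hrq x hxr hxfix g hg
          rw [hc2] at hmod
          exact fin_minus m r hm hr hr2 hrq a b hab hd hmod
  · -- n = 2m+1
    exfalso
    obtain ⟨P, c, e, hc, hPQ⟩ := class_odd h2 m Q hQ
    obtain ⟨hc1, -⟩ := card_transfer Q (Cfsg.quadFormOdd m F) P e c hc hPQ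
    rw [hc1, Cfsg.Agent.Helper5.card_GO_odd hodd m] at hdiv
    rcases arith_odd (Fintype.card F) m r hq2 hr _ hS hdiv with h | ⟨j, hj, hd⟩
    · exact hrcard h
    · exact hoddj j hj hd

end Cfsg.Agent.Helper98.THEVEN
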