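import Mathlib
import Cfsg.Prelude.Def_GeometricClasses
import Cfsg.Prelude.Def_Classical
import Cfsg.Agent.Helper45.POmegaAut
import Cfsg.Agent.Helper65.O12T34Core

set_option autoImplicit false
open Matrix Polynomial

namespace Cfsg.Agent.Helper98.THGRAM

variable {F : Type*} [Field F] [Fintype F]

/-- GRAM -/
theorem gram_bridge (h2 : (2 : F) ≠ 0) {n : ℕ} (Q : (Fin n → F) → F)
    (hQ : Cfsg.Geo.IsNondegenerateQuadraticForm Q) :
    ∃ G : Matrix (Fin n) (Fin n) F, Gᵀ = G ∧ G.det ≠ 0 ∧ (∀ v, 2 * Q v = v ⬝ᵥ (G *ᵥ v)) ∧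
      ∀ g : GL (Fin n) F, g ∈ Cfsg.Geo.quadSimilarityGroup Q ↔
        ∃ c : F, c ≠ 0 ∧ (g : Matrix (Fin n) (Fin n) F)ᵀ * G * (g : Matrix (Fin n) (Fin n) F) = c • G := by
  classical
  set G : Matrix (Fin n) (Fin n) F := Cfsg.Geo.gramMatrix (QuadraticMap.polar Q) with hGdef
  have hbil := hQ.polar_bilinear
  have hGs : Gᵀ = G := by
    ext i j
    simp only [Matrix.transpose_apply, hGdef, Cfsg.Geo.gramMatrix]
    exact QuadraticMap.polar_comm _ _ _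
  have hJ : ∀ v, 2 * Q v = v ⬝ᵥ (G *ᵥ v) := by
    intro v
    rw [← Cfsg.Agent.Helper65.t34_bil_eq hbil v v]
    have h1 : Q (v + v) = 4 * Q v := by
      have := hQ.smul 2 v
      rw [two_smul] at this
      rw [this]
      norm_num
    simp only [QuadraticMap.polar]
    rw [h1]
    ring
  have hdet : G.det ≠ 0 := by
    intro h0
    obtain ⟨v, hv, hGv⟩ := Matrix.exists_mulVec_eq_zero_iff.2 h0
    obtain ⟨⟨x, hx⟩, -⟩ := hQ.nondegenerate v hv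
    apply hx
    rw [Cfsg.Agent.Helper65.t34_bil_eq hbil x v, hGv, dotProduct_zero]
  refine ⟨G, hGs, hdet, hJ, fun g => ⟨?_, ?_⟩⟩
  · rintro ⟨c, hc⟩
    exact ⟨(c : F), c.ne_zero, Cfsg.Agent.Helper45.gram_of_sim Q G h2 hJ hGs _ _ hc⟩
  · rintro ⟨c, hc, hg⟩
    exact ⟨Units.mk0 c hc, fun v => Cfsg.Agent.Helper45.sim_of_gram Q G h2 hJ _ c hg v⟩

end Cfsg.Agent.Helper98.THGRAM
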