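import Mathlib
import Cfsg.Prelude.Def_GeometricClasses
import Cfsg.Prelude.Def_Classical
import Cfsg.Agent.Helper47.SFRCENT

set_option autoImplicit false
open Matrix Polynomial

namespace Cfsg.Agent.Helper98.THTRANSFER

variable {F : Type*} [Field F] [Fintype F]

/-- TRANSFER -/
theorem sl_conj_of_gl_conj {n : ℕ} (hn : 0 < n) (r : ℕ) (hr : 0 < r) (hrF : (r : F) ≠ 0)
    (x : GL (Fin n) F) (z : F)
    (hx : ((x ^ r : GL (Fin n) F) : Matrix (Fin n) (Fin n) F) = z • (1 : Matrix (Fin n) (Fin n) F))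
    (H : Subgroup (GL (Fin n) F)) (h : GL (Fin n) F) (hh : h⁻¹ * x * h ∈ H) :
    ∃ g ∈ Cfsg.Geo.specialLinear (Fin n) F, g⁻¹ * x * g ∈ H := by
  classical
  haveI : Nonempty (Fin n) := ⟨⟨0, hn⟩⟩
  have hz : z ≠ 0 := by
    rintro rfl
    rw [zero_smul] at hx
    have hu : IsUnit ((x ^ r : GL (Fin n) F) : Matrix (Fin n) (Fin n) F) := Units.isUnit _
    rw [hx] at hu
    exact not_isUnit_zero hu
  set T : (Fin n → F) →ₗ[F] (Fin n → F) := Matrix.toLin' (x : Matrix (Fin n) (Fin n) F) with hT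
  have hTr : T ^ r = z • (1 : Module.End F (Fin n → F)) := by
    have h1 : Matrix.toLinAlgEquiv' ((x : Matrix (Fin n) (Fin n) F) ^ r) =
        (Matrix.toLinAlgEquiv' (x : Matrix (Fin n) (Fin n) F)) ^ r := map_pow _ _ _
    have h2 : (x : Matrix (Fin n) (Fin n) F) ^ r = z • (1 : Matrix (Fin n) (Fin n) F) := by
      rw [← Units.val_pow_eq_pow_val, hx]
    rw [h2] at h1
    have h3 : Matrix.toLinAlgEquiv' (z • (1 : Matrix (Fin n) (Fin n) F)) =
        z • (1 : Module.End F (Fin n → F)) := by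
      rw [map_smul, map_one]
    rw [h3] at h1
    exact h1.symm
  have hV : 0 < Module.finrank F (Fin n → F) := by
    rw [Module.finrank_fin_fun]
    exact hn
  have hdh : (h : Matrix (Fin n) (Fin n) F).det ≠ 0 := by
    have := (Matrix.isUnit_iff_isUnit_det _).1 (Units.isUnit h)
    exact this.ne_zero
  obtain ⟨C, hCT, hCdet⟩ := Cfsg.Agent.Helper47.cent_det hV T r hr hrF z hz hTr
    ((h : Matrix (Fin n) (Fin n) F).det)⁻¹ (inv_ne_zero hdh)
  set Cm : Matrix (Fin n) (Fin n) F := LinearMap.toMatrix' C with hCm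
  have hCmdet : Cm.det = ((h : Matrix (Fin n) (Fin n) F).det)⁻¹ := by
    rw [hCm, LinearMap.det_toMatrix', hCdet]
  have hCmx : Cm * (x : Matrix (Fin n) (Fin n) F) = (x : Matrix (Fin n) (Fin n) F) * Cm := by
    have h1 : LinearMap.toMatrix' (C ∘ₗ T) = LinearMap.toMatrix' (T ∘ₗ C) := by rw [hCT]
    rw [LinearMap.toMatrix'_comp, LinearMap.toMatrix'_comp, hT, LinearMap.toMatrix'_toLin'] at h1
    exact h1
  have hCmu : IsUnit Cm.det := by
    rw [hCmdet]
    exact (inv_ne_zero hdh).isUnit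
  set c : GL (Fin n) F := Matrix.GeneralLinearGroup.mk'' Cm hCmu with hc
  have hcval : (c : Matrix (Fin n) (Fin n) F) = Cm := rfl
  have hcx : c * x = x * c := by
    apply Units.ext
    rw [Units.val_mul, Units.val_mul, hcval, hCmx]
  refine ⟨c * h, ?_, ?_⟩
  · show Matrix.GeneralLinearGroup.det (c * h) = 1
    apply Units.ext
    rw [map_mul, Units.val_mul, Units.val_one]
    show (c : Matrix (Fin n) (Fin n) F).det * (h : Matrix (Fin n) (Fin n) F).det = 1
    rw [hcval, hCmdet, inv_mul_cancel₀ hdh]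
  · have : (c * h)⁻¹ * x * (c * h) = h⁻¹ * x * h := by
      have h1 : c⁻¹ * x * c = x := by rw [mul_assoc, ← hcx, ← mul_assoc, inv_mul_cancel, one_mul]
      calc (c * h)⁻¹ * x * (c * h) = h⁻¹ * (c⁻¹ * x * c) * h := by group
        _ = h⁻¹ * x * h := by rw [h1]
    rw [this]
    exact hh

end Cfsg.Agent.Helper98.THTRANSFER
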