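import Mathlib
import Cfsg.Prelude.Def_GeometricClasses
import Cfsg.Prelude.Def_Classical
import Cfsg.Agent.Helper98.THGRAM
import Cfsg.Agent.Helper80.THSYMM
import Cfsg.Agent.Helper60.THISOCH
import Cfsg.Agent.Helper97.THDBA
import Cfsg.Agent.Helper97.THDBB
import Cfsg.Agent.Helper97.THDBC
import Cfsg.Agent.Helper80.THMUEX
import Cfsg.Agent.Helper80.THOMEGA
import Cfsg.Agent.Helper60.THTVBAD
import Cfsg.Agent.Helper42.THODDBAD
import Cfsg.Agent.Helper98.THEVEN
import Cfsg.Agent.Helper98.THTRANSFER
import Cfsg.Agent.Helper42.THG2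
import Cfsg.Agent.Helper66.THGEXC3
import Cfsg.Agent.Helper66.THGEXC5
import Cfsg.Agent.Helper41.IMGLORD

set_option autoImplicit false
open Matrix

namespace Cfsg.Agent.Helper98.THAsm

open Cfsg.Agent.Helper98.THGRAM Cfsg.Agent.Helper80.THSYMM Cfsg.Agent.Helper60.THISOCH
  Cfsg.Agent.Helper97.THDBA Cfsg.Agent.Helper97.THDBB Cfsg.Agent.Helper97.THDBC
  Cfsg.Agent.Helper80.THMUEX Cfsg.Agent.Helper80.THOMEGA Cfsg.Agent.Helper60.THTVBAD
  Cfsg.Agent.Helper42.THODDBAD Cfsg.Agent.Helper98.THEVEN Cfsg.Agent.Helper98.THTRANSFER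
  Cfsg.Agent.Helper42.THG2 Cfsg.Agent.Helper66.THGEXC3 Cfsg.Agent.Helper66.THGEXC5

theorem th_two_ne {F : Type*} [Field F] [Fintype F] (hF : Odd (Fintype.card F)) : (2 : F) ≠ 0 := by
  intro h2
  have : CharP F 2 := CharTwo.of_one_ne_zero_of_two_eq_zero one_ne_zero h2
  have hc : ringChar F = 2 := ringChar.eq F 2
  have := FiniteField.even_card_of_char_two hc
  rcases hF with ⟨k, hk⟩
  omega

theorem th_main {F : Type*} [Field F] [Fintype F] {p : ℕ} [Fact p.Prime] [CharP F p] {q : ℕ}
    (hq : Fintype.card F = q)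
    (hodd : Odd q) (n : ℕ) (hn : 3 ≤ n) (Q : (Fin n → F) → F)
    (hQ : Cfsg.Geo.IsNondegenerateQuadraticForm Q)
    (r : ℕ) [Fact r.Prime] (hgap : ¬ (n = 6 ∧ r = 3))
    (hΩ : r ∣ (Cfsg.Geo.quadSimilarityGroup Q).relIndex (Cfsg.Geo.specialLinear (Fin n) F)) :
    (∀ x ∈ Cfsg.Geo.specialLinear (Fin n) F,
      (∃ z : F, ((x ^ r : GL (Fin n) F) : Matrix (Fin n) (Fin n) F) =
        z • (1 : Matrix (Fin n) (Fin n) F)) →
      (∀ z : F, (x : Matrix (Fin n) (Fin n) F) ≠ z • (1 : Matrix (Fin n) (Fin n) F)) →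
      ∃ g ∈ Cfsg.Geo.specialLinear (Fin n) F, g⁻¹ * x * g ∈ Cfsg.Geo.quadSimilarityGroup Q) ↔
    (r = 2 ∨ ((r = 3 ∨ r = 5) ∧ n = r ∧ padicValNat r (q - 1) = 1)) := by
  classical
  subst hq
  have hr := (Fact.out : r.Prime)
  have hp := (Fact.out : p.Prime)
  have h2 : (2 : F) ≠ 0 := th_two_ne hodd
  have hcard1 : 1 < Fintype.card F := Fintype.one_lt_card
  obtain ⟨G, hGs, hG, -, hGsim⟩ := gram_bridge h2 Q hQ
  have hHrank : ∀ y ∈ Cfsg.Geo.quadSimilarityGroup Q, ∃ c : F, c ≠ 0 ∧ ∀ l : F, l ≠ 0 →
      ((y : Matrix (Fin n) (Fin n) F) - l • (1 : Matrix (Fin n) (Fin n) F)).rank =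
        ((y : Matrix (Fin n) (Fin n) F) - (c / l) • (1 : Matrix (Fin n) (Fin n) F)).rank := by
    intro y hy
    obtain ⟨c, hc, hyc⟩ := (hGsim y).1 hy
    exact ⟨c, hc, fun l hl => sim_rank_symm G hG _ c hc hyc l hl⟩
  constructor
  · intro hall
    by_contra hne
    rw [not_or] at hne
    obtain ⟨hr2, hexc⟩ := hne
    have hbad : ∀ x : GL (Fin n) F, x ∈ Cfsg.Geo.specialLinear (Fin n) F →
        (∃ z : F, ((x ^ r : GL (Fin n) F) : Matrix (Fin n) (Fin n) F) =
          z • (1 : Matrix (Fin n) (Fin n) F)) →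
        (∀ z : F, (x : Matrix (Fin n) (Fin n) F) ≠ z • (1 : Matrix (Fin n) (Fin n) F)) →
        (∀ g : GL (Fin n) F, g⁻¹ * x * g ∉ Cfsg.Geo.quadSimilarityGroup Q) → False := by
      intro x hx hz hns hb
      obtain ⟨g, _, hg⟩ := hall x hx hz hns
      exact hb g hg
    have hone : ∀ x : GL (Fin n) F, x ^ r = 1 →
        ∃ z : F, ((x ^ r : GL (Fin n) F) : Matrix (Fin n) (Fin n) F) =
          z • (1 : Matrix (Fin n) (Fin n) F) := by
      intro x hx
      exact ⟨1, by rw [hx, one_smul]; rfl⟩
    by_cases hrq : r ∣ Fintype.card F - 1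
    · obtain ⟨ω, hω1, hωr⟩ := exists_omega r hr hrq
      by_cases hv : padicValNat r n < padicValNat r (Fintype.card F - 1)
      · obtain ⟨μ, hμ, hμn⟩ := exists_mu (F := F) (n := n) (by omega) r hr hv
        obtain ⟨x, hx, hz, hns, hb⟩ := bad_diag_b h2 hn r hr hr2 μ hμ hμn _ hHrank
        exact hbad x hx hz hns hb
      · rw [not_lt] at hv
        have hv1 : 1 ≤ padicValNat r (Fintype.card F - 1) :=
          one_le_padicValNat_of_dvd (by omega) hrq
        have hrn : r ∣ n := dvd_of_one_le_padicValNat (le_trans hv1 hv)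
        have hr3 : 3 ≤ r := by
          have := hr.two_le
          omega
        by_cases h3 : r = 3
        · subst h3
          by_cases hn3 : n = 3
          · subst hn3
            apply hexc
            refine ⟨Or.inl rfl, rfl, ?_⟩
            have h33 : padicValNat 3 3 = 1 := padicValNat_self
            omega
          · have hn6 : n ≠ 6 := fun h => hgap ⟨h, rfl⟩
            obtain ⟨x, hx, hx3, hns, hb⟩ := bad_diag_c (n := n) (by omega) hn6 ω hω1 hωr _ hHrank
            exact hbad x hx (hone x hx3) hns hb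
        · by_cases h5 : r = 5
          · subst h5
            by_cases hn5 : n = 5
            · subst hn5
              apply hexc
              refine ⟨Or.inr rfl, rfl, ?_⟩
              have h55 : padicValNat 5 5 = 1 := padicValNat_self
              omega
            · obtain ⟨x, hx, hx5, hns, hb⟩ :=
                bad_diag_a hn 5 hr (le_refl 5) (fun h => hn5 h.1) ω hω1 hωr _ hHrank
              exact hbad x hx (hone x hx5) hns hb
          · have hr7 : 5 ≤ r := by
              rcases Nat.lt_or_ge r 5 with h | h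
              · exfalso
                interval_cases r
                · exact h3 rfl
                · exact absurd hr (by decide)
              · exact h
            obtain ⟨x, hx, hxr, hns, hb⟩ :=
              bad_diag_a hn r hr hr7 (fun h => h5 h.2) ω hω1 hωr _ hHrank
            exact hbad x hx (hone x hxr) hns hb
    · by_cases hrp : r = p
      · subst hrp
        obtain ⟨x, hx, hxp, hns, hb⟩ := tv_bad h2 r (n := n) (by omega) G hGs hG
        refine hbad x hx (hone x hxp) hns (fun g hg => ?_)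
        obtain ⟨c, hc, hgc⟩ := (hGsim _).1 hg
        exact hb g c hc hgc
      · have hrF : (r : F) ≠ 0 := by
          intro h0
          have hdvd : p ∣ r := (CharP.cast_eq_zero_iff F p r).1 h0
          exact hrp ((Nat.prime_dvd_prime_iff_eq hp hr).1 hdvd).symm
        have hrcard : ¬ r ∣ Fintype.card F := by
          intro hd
          apply hrF
          have : ((Fintype.card F : ℕ) : F) = 0 := Nat.cast_card_eq_zero F
          obtain ⟨k, hk⟩ := FiniteField.card F p
          obtain ⟨hpp, hk⟩ := hk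
          rw [hk] at hd
          have := hr.dvd_of_dvd_pow hd
          exact absurd ((Nat.prime_dvd_prime_iff_eq hr hp).1 this) hrp
        have hunit : IsUnit (((Fintype.card F : ℕ)) : ZMod r) := by
          rw [ZMod.isUnit_iff_coprime]
          exact (Nat.Coprime.symm ((Nat.Prime.coprime_iff_not_dvd hr).2 hrcard))
        have hi0 : 0 < orderOf (((Fintype.card F : ℕ)) : ZMod r) := by
          have hne : (((Fintype.card F : ℕ)) : ZMod r) ≠ 0 := by
            intro h0
            exact hrcard ((ZMod.natCast_eq_zero_iff _ _).1 h0)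
          apply orderOf_pos_iff.2
          rw [isOfFinOrder_iff_pow_eq_one]
          exact ⟨r - 1, by have := hr.two_le; omega, ZMod.pow_card_sub_one_eq_one hne⟩
        have hi1 : orderOf (((Fintype.card F : ℕ)) : ZMod r) ≠ 1 := by
          intro h1
          rw [orderOf_eq_one_iff] at h1
          apply hrq
          have h3 : ((Fintype.card F - 1 : ℕ) : ZMod r) = 0 := by
            rw [Nat.cast_sub (by omega), h1]
            simp
          exact (ZMod.natCast_eq_zero_iff _ _).1 h3
        rcases Nat.even_or_odd (orderOf (((Fintype.card F : ℕ)) : ZMod r)) with he | ho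
        · obtain ⟨x, hx, hxr, hns, hb⟩ := bad_even hodd p hn Q hQ r hrp hr2 he hΩ
          exact hbad x hx (hone x hxr) hns hb
        · have hle : orderOf (((Fintype.card F : ℕ)) : ZMod r) ≤ n := by
            apply Cfsg.Agent.Helper41.order_le_of_gl r hrF
            have h1 : (Cfsg.Geo.quadSimilarityGroup Q).relIndex (Cfsg.Geo.specialLinear (Fin n) F) ∣
                Nat.card (Cfsg.Geo.specialLinear (Fin n) F) := Subgroup.relIndex_dvd_card _ _
            exact (hΩ.trans h1).trans (Subgroup.card_subgroup_dvd_card _)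
          obtain ⟨x, hx, hxr, hns, hb⟩ := bad_odd h2 r hr hrF hr2 ho (by omega) hle
            (Cfsg.Geo.quadSimilarityGroup Q) (by
              intro y hy hyr
              obtain ⟨c, hc, hyc⟩ := (hGsim y).1 hy
              refine sim_charpoly_inv (by omega) G hG r hr hrq _ _ ?_ ?_ c hc hyc
              · rw [← Units.val_mul, mul_inv_cancel]; rfl
              · rw [← Units.val_pow_eq_pow_val, hyr]; rfl)
          exact hbad x hx (hone x hxr) hns hb
  · rintro (rfl | ⟨hr35, hnr, hv⟩)
    · intro x hx ⟨z, hz⟩ hns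
      obtain ⟨h, c, hc, hh⟩ := good_two h2 G hGs hG x z hz
      have hmem : h⁻¹ * x * h ∈ Cfsg.Geo.quadSimilarityGroup Q := (hGsim _).2 ⟨c, hc, hh⟩
      exact sl_conj_of_gl_conj (by omega) 2 (by norm_num) (by exact_mod_cast h2) x z hz _ h hmem
    · intro x hx ⟨z, hz⟩ hns
      subst hnr
      have hrq : n ∣ Fintype.card F - 1 := dvd_of_one_le_padicValNat (by omega)
      have hrF : (n : F) ≠ 0 := by
        intro h0
        have hdvd : p ∣ n := (CharP.cast_eq_zero_iff F p n).1 h0
        have hpn : p = n := (Nat.prime_dvd_prime_iff_eq hp hr).1 hdvd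
        obtain ⟨k, hk⟩ := FiniteField.card F p
        obtain ⟨hpp, hk⟩ := hk
        have hpd : p ∣ Fintype.card F := by
          rw [hk]
          exact dvd_pow_self p k.ne_zero
        have hp1 : p ∣ Fintype.card F - 1 := hpn ▸ hrq
        have : p ∣ 1 := by
          have h3 : p ∣ Fintype.card F - (Fintype.card F - 1) := Nat.dvd_sub hpd hp1
          have h4 : Fintype.card F - (Fintype.card F - 1) = 1 := by omega
          rwa [h4] at h3
        exact hp.one_lt.ne' (Nat.dvd_one.1 this)
      rcases hr35 with h3 | h5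
      · subst h3
        obtain ⟨h, hh⟩ := good_exc_three h2 hv Q hQ x hx z hz
        exact sl_conj_of_gl_conj (by norm_num) 3 (by norm_num) hrF x z hz _ h hh
      · subst h5
        obtain ⟨h, hh⟩ := good_exc_five h2 hv Q hQ x hx z hz
        exact sl_conj_of_gl_conj (by norm_num) 5 (by norm_num) hrF x z hz _ h hh

end Cfsg.Agent.Helper98.THAsm
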