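import Mathlib
import Cfsg.Agent.Helper43.OTDefs
import Cfsg.Agent.Helper93.TSOGSING

set_option autoImplicit false

/-!
# Sub-CALL TSEG piece TS (helper98, double): wrapper of `Cfsg.Agent.Helper93.TSOG.og_sing`
-/

namespace Cfsg.Agent.Helper98.TSEG

open Module Polynomial Cfsg Cfsg.Geo Cfsg.Agent.Helper90.HT Cfsg.Agent.Helper43.OT

section lin

variable {F : Type*} [Field F] {V : Type*} [AddCommGroup V] [Module F V] [FiniteDimensional F V]

/-- TS: an invariant subspace without fixed vectors which is totally isotropic for the polar form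
is totally singular. -/
theorem eg_ts_of_ti (Q : QuadraticForm F V) (T : Module.End F V) (hT : ∀ v, Q (T v) = Q v)
    (W : Submodule F V) (hW : W.map T ≤ W) (hTI : HTI (ph Q) W)
    (hWk : W ⊓ LinearMap.ker (T - 1) = ⊥) : ∀ w ∈ W, Q w = 0 :=
  Cfsg.Agent.Helper93.TSOG.og_sing Q T hT W hTI hW hWk

end lin

end Cfsg.Agent.Helper98.TSEG
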