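import Mathlib
import Cfsg.Prelude.Def_GeometricClasses
import Cfsg.Prelude.Def_Classical
import Cfsg.Agent.Helper43.OTDefs
import Cfsg.Agent.Helper33.OType
import Cfsg.Agent.Helper50.OTINV
import Cfsg.Agent.Helper35.TSOGEXT
import Cfsg.Agent.Helper98.OPar

set_option autoImplicit false

/-!
# Sub-CALL TSEG piece WITT (helper98, double): via `Cfsg.Agent.Helper35.TSOG.og_ext` on the
restricted form.
-/

namespace Cfsg.Agent.Helper98.TSEG

open Module Polynomial Cfsg Cfsg.Geo Cfsg.Agent.Helper90.HT Cfsg.Agent.Helper43.OT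

section quad

variable {ι : Type} [Fintype ι] [DecidableEq ι] {F : Type*} [Field F] [Fintype F]

/-- WITT: totally singular subspaces of a nondegenerate subspace `C` of dimension `2c`: of every
dimension `≤ c` if `C` is of plus type, of every dimension `≤ c - 1` in any case. -/
theorem eg_witt (Q : (ι → F) → F) (hQ : IsNondegenerateQuadraticForm Q) (C : Submodule F (ι → F))
    (hC : IsNondegenerateOn (QuadraticMap.polar Q) C) (c : ℕ) (hc : finrank F C = 2 * c) :
    (IsPlusTypeOn Q C → ∀ w, w ≤ c →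
      ∃ W : Submodule F (ι → F), W ≤ C ∧ finrank F W = w ∧ ∀ x ∈ W, Q x = 0) ∧
    (∀ w, w + 1 ≤ c →
      ∃ W : Submodule F (ι → F), W ≤ C ∧ finrank F W = w ∧ ∀ x ∈ W, Q x = 0) := by
  constructor
  · rintro ⟨U, hUC, hU, hUd⟩ w hw
    obtain ⟨W, hWU, hWd⟩ := Cfsg.Agent.Helper50.OT5972.inv_exists_sub U w (by omega)
    exact ⟨W, hWU.trans hUC, hWd, fun x hx => hU x (hWU hx)⟩
  · intro w hw
    have hnd : ∀ v : C, (∀ u : C, ph (Cfsg.Agent.Helper33.OType.restr Q hQ C) v u = 0) → v = 0 :=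
      fun v hv => Cfsg.Agent.Helper33.OType.polarNondeg_restr Q hQ C hC v hv
    obtain ⟨M, -, hM, hMd⟩ := Cfsg.Agent.Helper35.TSOG.og_ext
      (Cfsg.Agent.Helper33.OType.restr Q hQ C) hnd c hc ⊥ (fun v hv => by
        rw [(Submodule.mem_bot F).mp hv, map_zero]) (by rw [finrank_bot]; omega)
    obtain ⟨W, hWM, hWd⟩ := Cfsg.Agent.Helper50.OT5972.inv_exists_sub (M.map C.subtype) w (by
      rw [Submodule.finrank_map_subtype_eq]
      omega)
    refine ⟨W, hWM.trans (Submodule.map_subtype_le C M), hWd, fun x hx => ?_⟩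
    obtain ⟨y, hy, rfl⟩ := hWM hx
    exact hM y hy

end quad

end Cfsg.Agent.Helper98.TSEG
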