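import Mathlib
import Cfsg.Agent.Helper43.OTDefs
import Cfsg.Agent.Helper43.TwoFam
import Cfsg.Agent.Helper35.TSOGEXT

set_option autoImplicit false

/-!
# Sub-CALL TSOG piece EXTP (helper98, double)
-/

namespace Cfsg.Agent.Helper98.TSOG

open Module Polynomial Cfsg.Agent.Helper90.HT Cfsg.Agent.Helper43.OT

variable {F : Type*} [Field F] {V : Type*} [AddCommGroup V] [Module F V] [FiniteDimensional F V]

/-- EXTP: plus type (a totally singular `E` of dimension `d` exists): every totally singular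
subspace lies in one of dimension `d`. -/
theorem og_ext_plus [Fintype F] (Q : QuadraticForm F V)
    (hnd : ∀ v, (∀ w, ph Q v w = 0) → v = 0) (d : ℕ) (hdim : finrank F V = 2 * d)
    (E : Submodule F V) (hE : ∀ w ∈ E, Q w = 0) (hEd : finrank F E = d) (W₀ : Submodule F V)
    (hW₀ : ∀ w ∈ W₀, Q w = 0) :
    ∃ M : Submodule F V, W₀ ≤ M ∧ (∀ w ∈ M, Q w = 0) ∧ finrank F M = d := by
  have hS : Cfsg.Agent.Helper43.TwoFam.QSpace (⇑Q) (QuadraticMap.polarBilin Q) d := by
    refine ⟨?_, ?_, ?_, hdim⟩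
    · intro x y
      rw [QuadraticMap.polarBilin_apply_apply]
      unfold QuadraticMap.polar
      ring
    · intro c x
      rw [QuadraticMap.map_smul, smul_eq_mul]
    · refine ⟨fun v hv => hnd v (fun w => hv w), fun v hv => hnd v (fun w => ?_)⟩
      rw [ph, QuadraticMap.polar_comm]
      exact hv w
  have hle : finrank F W₀ ≤ d := hS.finrank_ts_le hW₀
  by_cases hWd : finrank F W₀ = d
  · exact ⟨W₀, le_rfl, hW₀, hWd⟩
  · obtain ⟨M₁, hWM₁, hM₁, hM₁d⟩ := Cfsg.Agent.Helper35.TSOG.og_ext Q hnd d hdim W₀ hW₀ (by omega)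
    obtain ⟨M, hM, hM₁M⟩ := hS.exists_mts_of_le (E := E) (H := M₁) ⟨hEd, hE⟩ hM₁ hM₁d
    exact ⟨M, hWM₁.trans hM₁M, hM.2, hM.1⟩

end Cfsg.Agent.Helper98.TSOG
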