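import Mathlib
import Cfsg.Agent.Helper43.OTDefs
import Cfsg.Agent.Helper94.TIODD
import Cfsg.Agent.Helper49.OTODD

set_option autoImplicit false

/-!
# Sub-CALL TSOG piece ODDTI (helper98)
-/

namespace Cfsg.Agent.Helper98.TSOG

open Module Polynomial Cfsg.Agent.Helper90.HT Cfsg.Agent.Helper43.OT

variable {F : Type*} [Field F] {V : Type*} [AddCommGroup V] [Module F V] [FiniteDimensional F V]

/-- ODDTI: an invariant subspace without fixed vectors contains a nonzero invariant subspace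
totally isotropic for the polar form (all characteristics). -/
theorem og_odd_ti [Fintype F] (Q : QuadraticForm F V) (T : Module.End F V)
    (hT : ∀ v, Q (T v) = Q v) (r : ℕ) [Fact r.Prime] (hr2 : 2 < r) (hrF : (r : F) ≠ 0)
    (hTr : T ^ r = 1) (hodd : Odd (orderOf ((Fintype.card F : ℕ) : ZMod r)))
    (U : Submodule F V) (hU : U.map T ≤ U) (hU0 : U ≠ ⊥)
    (hUk : U ⊓ LinearMap.ker (T - 1) = ⊥) :
    ∃ W' : Submodule F V, W' ≤ U ∧ HTI (ph Q) W' ∧ W'.map T ≤ W' ∧ W' ≠ ⊥ := by
  by_cases h2 : (2 : F) = 0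
  · have halt : ∀ v, QuadraticMap.polarBilin Q v v = 0 := by
      intro v
      rw [QuadraticMap.polarBilin_apply_apply, QuadraticMap.polar_self, two_smul, ← two_mul, h2,
        zero_mul]
    have hpres : Cfsg.Agent.Helper42.SpGroup.Preserves (QuadraticMap.polarBilin Q) T := by
      intro u v
      exact hpres_ph Q T hT u v
    obtain ⟨W', h1, h3, h4, h5⟩ := Cfsg.Agent.Helper94.TI5955.ti_odd (QuadraticMap.polarBilin Q)
      halt T hpres r hrF hTr hodd U hU hU0 hUk
    exact ⟨W', h1, fun u hu v hv => h3 u hu v hv, h4, h5⟩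
  · exact Cfsg.Agent.Helper49.OT5972.ot_odd (ph Q) (isHerm_ph Q) h2 T (hpres_ph Q T hT) r hr2 hrF
      hTr hodd U hU hU0 hUk

end Cfsg.Agent.Helper98.TSOG
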