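import Mathlib
import Cfsg.Prelude.Def_GeometricClasses
import Cfsg.Prelude.Def_LieClassical
import Cfsg.Agent.Helper98.USub3
import Cfsg.Agent.Helper98.SU3

/-!
The orthogonal subfield group `O_n(q)` (normaliser of a Baer subgeometry on which the Hermitian
form is a symmetric bilinear form) in `SU_n(q)`, `q` odd.  Part 1: the rational structure, the
induced quadratic form over the subfield, and a criterion for membership in the subfield group.
-/

set_option autoImplicit false
set_option linter.unusedSectionVars false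
set_option linter.unusedVariables false
set_option linter.unusedSimpArgs false

namespace Cfsg.Agent.Helper98

open Matrix Cfsg.Agent.Helper93 Cfsg.Geo
open scoped Pointwise

section UO1

variable {F : Type*} [Field F] [Fintype F] {n q : ℕ}

/-- The data of an orthogonal-type rational structure for the Hermitian form, `q` odd. -/
structure UOData (n q : ℕ) (F₀ : Subfield F) (P : GL (Fin n) F) : Prop where
  hF : Fintype.card F = q ^ 2
  hcard : Fintype.card F = Nat.card F₀ ^ 2
  hodd : Odd q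
  hP : IsFormRationalStructure (Cfsg.hermForm n F q) F₀ 1 P

variable {F₀ : Subfield F} {P : GL (Fin n) F}

theorem UOData.card_eq (D : UOData n q F₀ P) : Nat.card F₀ = q := by
  have h := D.hF.symm.trans D.hcard
  exact (Nat.pow_left_injective (by norm_num : 2 ≠ 0) h).symm

theorem UOData.pow_mem (D : UOData n q F₀ P) (s : F₀) : (s : F) ^ q = s := by
  have : Fintype F₀ := Fintype.ofFinite F₀
  have h1 : s ^ Fintype.card F₀ = s := FiniteField.pow_card s
  rw [← Nat.card_eq_fintype_card, D.card_eq] at h1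
  have h2 := congrArg (Subtype.val) h1
  simpa using h2

theorem UOData.mem_of_pow (D : UOData n q F₀ P) (x : F) (hx : x ^ q = x) : x ∈ F₀ := by
  classical
  have : Fintype F₀ := Fintype.ofFinite F₀
  have hq : 1 < q := us_two_le D.hF
  let S : Finset F := Finset.univ.filter (fun y => y ^ q = y)
  let T : Finset F := Finset.univ.image (Subtype.val : F₀ → F)
  have hTS : T ⊆ S := by
    intro y hy
    obtain ⟨s, _, rfl⟩ := Finset.mem_image.mp hy
    exact Finset.mem_filter.mpr ⟨Finset.mem_univ _, D.pow_mem s⟩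
  have hT : T.card = q := by
    rw [Finset.card_image_of_injective _ Subtype.val_injective, Finset.card_univ,
      ← Nat.card_eq_fintype_card, D.card_eq]
  have hS : S.card ≤ q := by
    have h1 : S ⊆ (Polynomial.X ^ q - Polynomial.X : Polynomial F).roots.toFinset := by
      intro y hy
      rw [Multiset.mem_toFinset, Polynomial.mem_roots (FiniteField.X_pow_card_sub_X_ne_zero F hq)]
      simp [Polynomial.IsRoot, (Finset.mem_filter.mp hy).2]
    calc S.card ≤ _ := Finset.card_le_card h1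
      _ ≤ (Polynomial.X ^ q - Polynomial.X : Polynomial F).roots.card :=
        Multiset.toFinset_card_le _
      _ ≤ (Polynomial.X ^ q - Polynomial.X : Polynomial F).natDegree := Polynomial.card_roots' _
      _ = q := FiniteField.X_pow_card_sub_X_natDegree_eq F hq
  have hEq : T = S := Finset.eq_of_subset_of_card_le hTS (by rw [hT]; exact hS)
  have hxS : x ∈ S := Finset.mem_filter.mpr ⟨Finset.mem_univ _, hx⟩
  rw [← hEq] at hxS
  obtain ⟨s, _, rfl⟩ := Finset.mem_image.mp hxS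
  exact s.2

theorem UOData.exists_not_mem (D : UOData n q F₀ P) : ∃ ω : F, ω ∉ F₀ := by
  by_contra hcon
  push Not at hcon
  have h1 : Nat.card F₀ = Nat.card F := Nat.card_congr (Equiv.subtypeUnivEquiv hcon)
  rw [D.card_eq, Nat.card_eq_fintype_card, D.hF] at h1
  have hq := us_two_le D.hF
  nlinarith

theorem UOData.pow_ne (D : UOData n q F₀ P) {ω : F} (hω : ω ∉ F₀) : ω ^ q - ω ≠ 0 := by
  intro h
  exact hω (D.mem_of_pow ω (sub_eq_zero.mp h))

theorem UOData.decomp_inj (D : UOData n q F₀ P) {ω : F} (hω : ω ∉ F₀) (s t s' t' : F₀)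
    (h : (s : F) + ω * t = s' + ω * t') : s = s' ∧ t = t' := by
  have _ := D
  by_cases ht : t = t'
  · subst ht
    refine ⟨?_, rfl⟩
    have : (s : F) = s' := add_right_cancel h
    exact Subtype.ext this
  · exfalso
    apply hω
    have h1 : ((t : F) - t') ≠ 0 := by
      intro h0
      exact ht (Subtype.ext (sub_eq_zero.mp h0))
    have h2 : ω = ((s' : F) - s) / ((t : F) - t') := by
      rw [eq_div_iff h1]
      linear_combination h
    rw [h2]
    exact F₀.div_mem (F₀.sub_mem s'.2 s.2) (F₀.sub_mem t.2 t'.2)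

theorem UOData.decomp (D : UOData n q F₀ P) {ω : F} (hω : ω ∉ F₀) (c : F) :
    ∃ s t : F₀, c = s + ω * t := by
  have hinj : Function.Injective (fun p : F₀ × F₀ => (p.1 : F) + ω * p.2) := by
    rintro ⟨s, t⟩ ⟨s', t'⟩ h
    obtain ⟨h1, h2⟩ := D.decomp_inj hω s t s' t' h
    rw [h1, h2]
  have hbij := hinj.bijective_of_nat_card_le (by
    rw [Nat.card_prod, D.card_eq, Nat.card_eq_fintype_card, D.hF, pow_two])
  obtain ⟨⟨s, t⟩, h⟩ := hbij.2 c
  exact ⟨s, t, h.symm⟩

theorem UOData.vdecomp (D : UOData n q F₀ P) {ω : F} (hω : ω ∉ F₀) (x : Fin n → F) :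
    ∃ a b : Fin n → F₀, x = us_E P a + ω • us_E P b := by
  choose s t hst using fun i =>
    D.decomp hω ((((P⁻¹ : GL (Fin n) F) : Matrix (Fin n) (Fin n) F) *ᵥ x) i)
  refine ⟨s, t, ?_⟩
  unfold us_E
  rw [← mulVec_smul, ← mulVec_add]
  have h1 : us_c s + ω • us_c t = ((P⁻¹ : GL (Fin n) F) : Matrix (Fin n) (Fin n) F) *ᵥ x := by
    funext i
    rw [hst i]
    simp [us_c]
  rw [h1, mulVec_mulVec, ← Units.val_mul, mul_inv_cancel, Units.val_one, one_mulVec]

theorem UOData.vdecomp_inj (D : UOData n q F₀ P) {ω : F} (hω : ω ∉ F₀) (a b a' b' : Fin n → F₀)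
    (h : us_E P a + ω • us_E P b = us_E P a' + ω • us_E P b') : a = a' ∧ b = b' := by
  have h1 := congrArg (fun x => ((P⁻¹ : GL (Fin n) F) : Matrix (Fin n) (Fin n) F) *ᵥ x) h
  simp only [mulVec_add, mulVec_smul, us_Pinv_E] at h1
  have h2 : ∀ i, a i = a' i ∧ b i = b' i := by
    intro i
    have := congrFun h1 i
    simp only [Pi.add_apply, Pi.smul_apply, smul_eq_mul, us_c] at this
    exact D.decomp_inj hω _ _ _ _ this
  exact ⟨funext fun i => (h2 i).1, funext fun i => (h2 i).2⟩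

theorem UOData.two_ne (D : UOData n q F₀ P) : (2 : F) ≠ 0 :=
  su_two_ne (by rw [D.hF]; exact D.hodd.pow)

theorem UOData.two_ne' (D : UOData n q F₀ P) : (2 : F₀) ≠ 0 := by
  intro h
  apply D.two_ne
  have h3 : ((1 : F₀) : F) + ((1 : F₀) : F) = ((0 : F₀) : F) := by
    rw [← Subfield.coe_add, one_add_one_eq_two, h]
  simpa [one_add_one_eq_two] using h3

theorem UOData.exists_zeta (D : UOData n q F₀ P) : ∃ ζ : F, ζ ≠ 0 ∧ ζ ^ q = -ζ := by
  obtain ⟨ω, hω⟩ := D.exists_not_mem
  obtain ⟨φ, hφ⟩ := us_frob D.hF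
  refine ⟨ω ^ q - ω, D.pow_ne hω, ?_⟩
  rw [← hφ, map_sub, hφ, hφ, us_pow_pow D.hF]
  ring

theorem UOData.zeta_notMem (D : UOData n q F₀ P) {ζ : F} (hζ0 : ζ ≠ 0) (hζ : ζ ^ q = -ζ) :
    ζ ∉ F₀ := by
  intro h
  have h1 := D.pow_mem ⟨ζ, h⟩
  have h2 : 2 * ζ = 0 := by
    have h3 : ζ ^ q = ζ := h1
    linear_combination hζ - h3
  rcases mul_eq_zero.mp h2 with h3 | h3
  · exact D.two_ne h3
  · exact hζ0 h3

theorem UOData.zeta_sq_mem (D : UOData n q F₀ P) {ζ : F} (hζ : ζ ^ q = -ζ) : ζ * ζ ∈ F₀ := by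
  apply D.mem_of_pow
  rw [mul_pow, hζ]
  ring

/-- `x + ζ t` with `x, t ∈ F₀`, `t ≠ 0`, is not in `F₀`. -/
theorem UOData.notMem_of (D : UOData n q F₀ P) {ζ : F} (hζ0 : ζ ≠ 0) (hζ : ζ ^ q = -ζ)
    (x t : F₀) (ht : t ≠ 0) : (x : F) + ζ * t ∉ F₀ := by
  intro h
  apply D.zeta_notMem hζ0 hζ
  have h1 : ζ * (t : F) ∈ F₀ := by
    have h2 := F₀.sub_mem h x.2
    rwa [add_sub_cancel_left] at h2
  have ht' : (t : F) ≠ 0 := fun h0 => ht (Subtype.ext h0)
  have h3 := F₀.mul_mem h1 (F₀.inv_mem t.2)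
  rwa [mul_assoc, mul_inv_cancel₀ ht', mul_one] at h3

/-! ### The Hermitian form: further linearity lemmas -/

theorem uo_h_zero_left (v : (Fin n → F)) : Cfsg.hermForm n F q 0 v = 0 := by
  have h := us_h_smul_left (q := q) (0 : F) (0 : (Fin n → F)) v
  rwa [zero_smul, zero_mul] at h

theorem uo_h_neg_left (u v : (Fin n → F)) : Cfsg.hermForm n F q (-u) v = -Cfsg.hermForm n F q u v := by
  have h := us_h_smul_left (q := q) (-1 : F) u v
  rwa [neg_one_smul, neg_one_mul] at h

theorem uo_h_sub_left (u u' v : (Fin n → F)) : Cfsg.hermForm n F q (u - u') v = Cfsg.hermForm n F q u v - Cfsg.hermForm n F q u' v := by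
  rw [sub_eq_add_neg, us_h_add_left, uo_h_neg_left, sub_eq_add_neg]

theorem uo_h_zero_right (hF : Fintype.card F = q ^ 2) (u : (Fin n → F)) : Cfsg.hermForm n F q u 0 = 0 := by
  have h := us_h_add_right hF u 0 0
  rw [add_zero] at h
  exact left_eq_add.mp h

theorem uo_h_neg_right (hF : Fintype.card F = q ^ 2) (u v : (Fin n → F)) : Cfsg.hermForm n F q u (-v) = -Cfsg.hermForm n F q u v := by
  have h := us_h_add_right hF u v (-v)
  rw [add_neg_cancel, uo_h_zero_right hF] at h
  exact eq_neg_of_add_eq_zero_right h.symm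

theorem uo_h_sub_right (hF : Fintype.card F = q ^ 2) (u v v' : (Fin n → F)) :
    Cfsg.hermForm n F q u (v - v') = Cfsg.hermForm n F q u v - Cfsg.hermForm n F q u v' := by
  rw [sub_eq_add_neg, us_h_add_right hF, uo_h_neg_right hF, sub_eq_add_neg]

theorem uo_E_neg (a : (Fin n → F₀)) : us_E P (-a) = -us_E P a := by
  have h := us_E_smul (P := P) (-1 : F₀) a
  rw [neg_one_smul] at h
  rw [h]
  simp

theorem uo_E_sub (a b : (Fin n → F₀)) : us_E P (a - b) = us_E P a - us_E P b := by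
  rw [sub_eq_add_neg, us_E_add, uo_E_neg, sub_eq_add_neg]

/-! ### The Hermitian form on rational vectors -/

theorem uo_h_mem (D : UOData n q F₀ P) (a b : (Fin n → F₀)) : Cfsg.hermForm n F q (us_E P a) (us_E P b) ∈ F₀ := by
  have h := D.hP (us_c a) (us_c b) (fun i => (a i).2) (fun i => (b i).2)
  rwa [one_mul] at h

theorem uo_h_real (D : UOData n q F₀ P) (a b : (Fin n → F₀)) :
    (Cfsg.hermForm n F q (us_E P a) (us_E P b)) ^ q = Cfsg.hermForm n F q (us_E P a) (us_E P b) :=
  D.pow_mem ⟨_, uo_h_mem D a b⟩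

theorem uo_h_symm (D : UOData n q F₀ P) (a b : (Fin n → F₀)) : Cfsg.hermForm n F q (us_E P b) (us_E P a) = Cfsg.hermForm n F q (us_E P a) (us_E P b) := by
  rw [us_h_swap D.hF (us_E P a) (us_E P b), uo_h_real D]

/-- The symmetric bilinear form over `F₀` induced on the rational structure. -/
def uo_B (D : UOData n q F₀ P) : (Fin n → F₀) →ₗ[F₀] (Fin n → F₀) →ₗ[F₀] F₀ :=
  LinearMap.mk₂ F₀ (fun a b => ⟨Cfsg.hermForm n F q (us_E P a) (us_E P b), uo_h_mem D a b⟩)
    (fun a a' b => by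
      apply Subtype.ext
      show Cfsg.hermForm n F q (us_E P (a + a')) (us_E P b) = Cfsg.hermForm n F q (us_E P a) (us_E P b) + Cfsg.hermForm n F q (us_E P a') (us_E P b)
      rw [us_E_add, us_h_add_left])
    (fun c a b => by
      apply Subtype.ext
      show Cfsg.hermForm n F q (us_E P (c • a)) (us_E P b) = (c : F) * Cfsg.hermForm n F q (us_E P a) (us_E P b)
      rw [us_E_smul, us_h_smul_left])
    (fun a b b' => by
      apply Subtype.ext
      show Cfsg.hermForm n F q (us_E P a) (us_E P (b + b')) = Cfsg.hermForm n F q (us_E P a) (us_E P b) + Cfsg.hermForm n F q (us_E P a) (us_E P b')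
      rw [us_E_add, us_h_add_right D.hF])
    (fun c a b => by
      apply Subtype.ext
      show Cfsg.hermForm n F q (us_E P a) (us_E P (c • b)) = (c : F) * Cfsg.hermForm n F q (us_E P a) (us_E P b)
      rw [us_E_smul, us_h_smul_right, D.pow_mem])

theorem uo_B_val (D : UOData n q F₀ P) (a b : (Fin n → F₀)) :
    ((uo_B D a b : F₀) : F) = Cfsg.hermForm n F q (us_E P a) (us_E P b) := rfl

theorem uo_B_symm (D : UOData n q F₀ P) (a b : (Fin n → F₀)) : uo_B D b a = uo_B D a b := by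
  apply Subtype.ext
  rw [uo_B_val, uo_B_val, uo_h_symm D]

/-- The quadratic form `a ↦ h(E a, E a) / 2` over `F₀`. -/
noncomputable def uo_Q (D : UOData n q F₀ P) : QuadraticForm F₀ (Fin n → F₀) :=
  LinearMap.BilinMap.toQuadraticMap ((2 : F₀)⁻¹ • uo_B D)

theorem uo_Q_apply (D : UOData n q F₀ P) (a : (Fin n → F₀)) : uo_Q D a = (2 : F₀)⁻¹ * uo_B D a a := by
  unfold uo_Q
  rw [LinearMap.BilinMap.toQuadraticMap_apply, LinearMap.smul_apply, LinearMap.smul_apply,
    smul_eq_mul]

theorem uo_polar (D : UOData n q F₀ P) (a b : (Fin n → F₀)) : QuadraticMap.polar ⇑(uo_Q D) a b = uo_B D a b := by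
  unfold QuadraticMap.polar
  rw [uo_Q_apply, uo_Q_apply, uo_Q_apply]
  simp only [map_add, LinearMap.add_apply]
  rw [uo_B_symm D a b]
  have h2 := D.two_ne'
  field_simp
  ring

theorem uo_polar_val (D : UOData n q F₀ P) (a b : (Fin n → F₀)) :
    ((QuadraticMap.polar ⇑(uo_Q D) a b : F₀) : F) = Cfsg.hermForm n F q (us_E P a) (us_E P b) := by
  rw [uo_polar, uo_B_val]

theorem uo_polar_eq_zero (D : UOData n q F₀ P) (a b : (Fin n → F₀)) :
    QuadraticMap.polar ⇑(uo_Q D) a b = 0 ↔ Cfsg.hermForm n F q (us_E P a) (us_E P b) = 0 := by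
  rw [← uo_polar_val D]
  constructor
  · intro h
    rw [h]
    rfl
  · intro h
    exact Subtype.ext h

theorem uo_Q_val (D : UOData n q F₀ P) (a : (Fin n → F₀)) :
    2 * ((uo_Q D a : F₀) : F) = Cfsg.hermForm n F q (us_E P a) (us_E P a) := by
  rw [uo_Q_apply, Subfield.coe_mul, uo_B_val, Subfield.coe_inv]
  have h2 := D.two_ne
  have e : ((2 : F₀) : F) = 2 := rfl
  rw [e]
  field_simp

theorem uo_Q_eq_zero (D : UOData n q F₀ P) (a : (Fin n → F₀)) :
    uo_Q D a = 0 ↔ Cfsg.hermForm n F q (us_E P a) (us_E P a) = 0 := by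
  rw [← uo_Q_val D]
  constructor
  · intro h
    rw [h]
    simp
  · intro h
    rcases mul_eq_zero.mp h with h1 | h1
    · exact absurd h1 D.two_ne
    · exact Subtype.ext h1

theorem uo_Q_nondeg (D : UOData n q F₀ P) :
    (QuadraticMap.polarBilin (uo_Q D)).Nondegenerate := by
  obtain ⟨ζ, hζ0, hζ⟩ := D.exists_zeta
  have hζn := D.zeta_notMem hζ0 hζ
  have hq : q ≠ 0 := by
    have := us_two_le D.hF
    omega
  have key : ∀ a : (Fin n → F₀), (∀ b, QuadraticMap.polar ⇑(uo_Q D) a b = 0) → a = 0 := by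
    intro a ha
    apply us_E_inj (P := P)
    rw [us_E_zero]
    apply us_h_nd (q := q) hq
    intro x
    obtain ⟨b₁, b₂, rfl⟩ := D.vdecomp hζn x
    rw [us_h_add_left, us_h_smul_left, uo_h_symm D a b₁, uo_h_symm D a b₂,
      (uo_polar_eq_zero D a b₁).mp (ha b₁), (uo_polar_eq_zero D a b₂).mp (ha b₂)]
    ring
  constructor
  · intro x hx
    exact key x hx
  · intro y hy
    apply key
    intro x
    rw [QuadraticMap.polar_comm]
    exact hy x

/-! ### A criterion for membership in the subfield group -/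

theorem uo_mem_subfield (j0 : Fin n) (g : GL (Fin n) F) (l₀ : F)
    (hg : ∀ a : (Fin n → F₀), ∃ b : (Fin n → F₀), (g : Matrix (Fin n) (Fin n) F) *ᵥ us_E P a = l₀ • us_E P b) :
    g ∈ subfieldSubgroup F₀ P := by
  obtain ⟨N, hN⟩ : ∃ N : GL (Fin n) F, N = P⁻¹ * g * P := ⟨_, rfl⟩
  have hNa : ∀ a : (Fin n → F₀), ∃ b : (Fin n → F₀), (N : Matrix (Fin n) (Fin n) F) *ᵥ us_c a = l₀ • us_c b := by
    intro a
    obtain ⟨b, h⟩ := hg a
    refine ⟨b, ?_⟩
    rw [hN, Units.val_mul, Units.val_mul, ← mulVec_mulVec, ← mulVec_mulVec]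
    have h1 : (P : Matrix (Fin n) (Fin n) F) *ᵥ us_c a = us_E P a := rfl
    rw [h1, h, mulVec_smul, us_Pinv_E]
  have hNinj : ∀ x : (Fin n → F), (N : Matrix (Fin n) (Fin n) F) *ᵥ x = 0 → x = 0 := by
    intro x hx
    have h1 := congrArg (fun y => ((N⁻¹ : GL (Fin n) F) : Matrix (Fin n) (Fin n) F) *ᵥ y) hx
    simpa [mulVec_mulVec, ← Units.val_mul] using h1
  choose b hb using fun j => hNa (Pi.single j 1)
  have hl0 : l₀ ≠ 0 := by
    intro h0
    have h1 := hb j0
    rw [h0, zero_smul] at h1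
    have h2 := hNinj _ h1
    rw [us_c_single] at h2
    have h3 := congrFun h2 j0
    simp at h3
  obtain ⟨N₀, hN₀⟩ : ∃ N₀ : Matrix (Fin n) (Fin n) F₀, N₀ = Matrix.of (fun i j => b j i) :=
    ⟨_, rfl⟩
  have hNval : (N : Matrix (Fin n) (Fin n) F) = l₀ • N₀.map (F₀.subtype) := by
    ext i j
    have h1 := congrFun (hb j) i
    rw [us_c_single, mulVec_single_one] at h1
    rw [Matrix.smul_apply, Matrix.map_apply, hN₀, Matrix.of_apply, smul_eq_mul]
    rw [show (N : Matrix (Fin n) (Fin n) F) i j = (l₀ • us_c (b j)) i from h1]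
    simp [us_c]
  have hdet : N₀.det ≠ 0 := by
    intro h0
    have h1 : (N : Matrix (Fin n) (Fin n) F).det = 0 := by
      rw [hNval, det_smul, ← RingHom.mapMatrix_apply, ← RingHom.map_det, h0, map_zero, mul_zero]
    have h2 : (N : Matrix (Fin n) (Fin n) F).det ≠ 0 := by
      rw [← Matrix.GeneralLinearGroup.val_det_apply]
      exact Units.ne_zero _
    exact h2 h1
  have hmem : N ∈ (Matrix.GeneralLinearGroup.map (F₀.subtype : F₀ →+* F)).range ⊔
      scalars (Fin n) F := by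
    have h1 : N = Matrix.GeneralLinearGroup.map (F₀.subtype : F₀ →+* F)
        (Matrix.GeneralLinearGroup.mkOfDetNeZero N₀ hdet) *
        ((Matrix.GeneralLinearGroup.map (F₀.subtype : F₀ →+* F)
        (Matrix.GeneralLinearGroup.mkOfDetNeZero N₀ hdet))⁻¹ * N) := by
      rw [mul_inv_cancel_left]
    rw [h1]
    refine Subgroup.mul_mem_sup ⟨_, rfl⟩ ?_
    rw [mem_scalars_iff]
    refine ⟨Units.mk0 l₀ hl0, ?_⟩
    have h2 : ((Matrix.GeneralLinearGroup.map (F₀.subtype : F₀ →+* F)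
        (Matrix.GeneralLinearGroup.mkOfDetNeZero N₀ hdet) : GL (Fin n) F) : Matrix (Fin n) (Fin n) F) = N₀.map (F₀.subtype) := rfl
    rw [Units.val_mul, hNval, Matrix.mul_smul, ← h2, ← Units.val_mul, inv_mul_cancel, Units.val_one]
    rfl
  unfold subfieldSubgroup
  refine Subgroup.mem_map.mpr ⟨N, hmem, ?_⟩
  simp only [MulEquiv.coe_toMonoidHom, MulAut.conj_apply]
  rw [hN]
  group

end UO1

end Cfsg.Agent.Helper98
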