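import Mathlib
import Cfsg.Prelude.Def_GeometricClasses
import Cfsg.Prelude.Def_LieClassical
import Cfsg.Agent.Helper98.UO1

/-!
The orthogonal subfield group in `SU_n(q)`, part 2: unitary Siegel elements (the unipotent
radical of the stabiliser of an isotropic point), unitary reflections, and their rational
versions inside the subfield group.
-/

set_option autoImplicit false
set_option linter.unusedSectionVars false
set_option linter.unusedVariables false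
set_option linter.unusedSimpArgs false

namespace Cfsg.Agent.Helper98

open Matrix Cfsg.Agent.Helper93 Cfsg.Geo
open scoped Pointwise

section UO2

variable {F : Type*} [Field F] [Fintype F] {n q : ℕ}

theorem uo_pow_sub (hF : Fintype.card F = q ^ 2) (a b : F) : (a - b) ^ q = a ^ q - b ^ q := by
  obtain ⟨φ, hφ⟩ := us_frob hF
  rw [← hφ, ← hφ, ← hφ, map_sub]

theorem uo_two_pow (hF : Fintype.card F = q ^ 2) : (2 : F) ^ q = 2 := by
  rw [← one_add_one_eq_two, us_pow_add hF, one_pow]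

theorem uo_h_self_pow (hF : Fintype.card F = q ^ 2) (v : (Fin n → F)) : (Cfsg.hermForm n F q v v) ^ q = Cfsg.hermForm n F q v v :=
  (us_h_swap hF v v).symm

/-! ### Unitary Siegel elements -/

/-- The unitary Siegel element `x ↦ x + h(x, w) u + (c h(x, w) − h(x, u)) w`, for isotropic `w`
and `u ⊥ w`. -/
def uo_S (n q : ℕ) (w u : (Fin n → F)) (c : F) (hw : Cfsg.hermForm n F q w w = 0) (hu : Cfsg.hermForm n F q u w = 0) (hu' : Cfsg.hermForm n F q w u = 0) :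
    GL (Fin n) F :=
  tv u (fun j => (w j) ^ q) (by rw [us_h_dot]; exact hu) *
    tv w (c • (fun j => (w j) ^ q) - (fun j => (u j) ^ q)) (by
      rw [sub_dotProduct, smul_dotProduct, us_h_dot, us_h_dot, hw, hu', smul_zero, sub_zero])

theorem uo_S_mulVec (w u : (Fin n → F)) (c : F) (hw : Cfsg.hermForm n F q w w = 0) (hu : Cfsg.hermForm n F q u w = 0) (hu' : Cfsg.hermForm n F q w u = 0)
    (x : (Fin n → F)) :
    ((uo_S n q w u c hw hu hu' : GL (Fin n) F) : Matrix (Fin n) (Fin n) F) *ᵥ x =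
      x + Cfsg.hermForm n F q x w • u + (c * Cfsg.hermForm n F q x w - Cfsg.hermForm n F q x u) • w := by
  unfold uo_S
  rw [Units.val_mul, ← mulVec_mulVec, tv_mulVec, tv_mulVec, sub_dotProduct, smul_dotProduct,
    us_h_dot, us_h_dot, us_h_dot, us_h_add_left, us_h_smul_left, hw, smul_eq_mul, mul_zero,
    add_zero]
  abel

theorem uo_S_mem (hF : Fintype.card F = q ^ 2) (w u : (Fin n → F)) (c : F) (hw : Cfsg.hermForm n F q w w = 0)
    (hu : Cfsg.hermForm n F q u w = 0) (hu' : Cfsg.hermForm n F q w u = 0) (hc : c + c ^ q + Cfsg.hermForm n F q u u = 0) :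
    uo_S n q w u c hw hu hu' ∈ Cfsg.GU n F q ⊓ specialLinear (Fin n) F := by
  refine ⟨(us_mem_GU_iff _).mpr (fun x y => ?_),
    Subgroup.mul_mem _ (tv_mem_SL _ _ _) (tv_mem_SL _ _ _)⟩
  rw [uo_S_mulVec, uo_S_mulVec]
  simp only [us_h_add_left, us_h_smul_left, us_h_add_right hF, us_h_smul_right, hw, hu, hu',
    uo_pow_sub hF, mul_pow]
  rw [us_h_swap hF y u, us_h_swap hF y w]
  linear_combination (Cfsg.hermForm n F q x w * (Cfsg.hermForm n F q y w) ^ q) * hc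

theorem uo_S_conj (g : GL (Fin n) F) (hg : g ∈ Cfsg.GU n F q) (w u : (Fin n → F)) (c : F) (hw : Cfsg.hermForm n F q w w = 0)
    (hu : Cfsg.hermForm n F q u w = 0) (hu' : Cfsg.hermForm n F q w u = 0)
    (hw2 : Cfsg.hermForm n F q ((g : Matrix (Fin n) (Fin n) F) *ᵥ w) ((g : Matrix (Fin n) (Fin n) F) *ᵥ w) = 0)
    (hu2 : Cfsg.hermForm n F q ((g : Matrix (Fin n) (Fin n) F) *ᵥ u) ((g : Matrix (Fin n) (Fin n) F) *ᵥ w) = 0)
    (hu2' : Cfsg.hermForm n F q ((g : Matrix (Fin n) (Fin n) F) *ᵥ w) ((g : Matrix (Fin n) (Fin n) F) *ᵥ u) = 0) :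
    g * uo_S n q w u c hw hu hu' * g⁻¹ =
      uo_S n q ((g : Matrix (Fin n) (Fin n) F) *ᵥ w) ((g : Matrix (Fin n) (Fin n) F) *ᵥ u) c hw2 hu2 hu2' := by
  apply gl_ext'
  intro x
  have e : ∀ z : (Fin n → F), Cfsg.hermForm n F q (((g⁻¹ : GL (Fin n) F) : Matrix (Fin n) (Fin n) F) *ᵥ x) z = Cfsg.hermForm n F q x ((g : Matrix (Fin n) (Fin n) F) *ᵥ z) := by
    intro z
    rw [← (us_mem_GU_iff g).mp hg, gl_mul_inv_mulVec]
  rw [Units.val_mul, Units.val_mul, ← mulVec_mulVec, ← mulVec_mulVec, uo_S_mulVec, uo_S_mulVec,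
    mulVec_add, mulVec_add, mulVec_smul, mulVec_smul, gl_mul_inv_mulVec, e, e]

theorem uo_S_congr (w w' u u' : (Fin n → F)) (c c' : F) (h1 : w = w') (h2 : u = u') (h3 : c = c')
    (hw : Cfsg.hermForm n F q w w = 0) (hu : Cfsg.hermForm n F q u w = 0) (hu' : Cfsg.hermForm n F q w u = 0) (hw2 : Cfsg.hermForm n F q w' w' = 0)
    (hu2 : Cfsg.hermForm n F q u' w' = 0) (hu2' : Cfsg.hermForm n F q w' u' = 0) :
    uo_S n q w u c hw hu hu' = uo_S n q w' u' c' hw2 hu2 hu2' := by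
  subst h1
  subst h2
  subst h3
  rfl

/-- The commutator of two Siegel elements with the same centre is a unitary transvection. -/
theorem uo_S_comm (w u₁ u₂ : (Fin n → F)) (c₁ c₂ : F) (hw : Cfsg.hermForm n F q w w = 0)
    (h1 : Cfsg.hermForm n F q u₁ w = 0) (h1' : Cfsg.hermForm n F q w u₁ = 0) (h2 : Cfsg.hermForm n F q u₂ w = 0) (h2' : Cfsg.hermForm n F q w u₂ = 0) :
    uo_S n q w u₁ c₁ hw h1 h1' * uo_S n q w u₂ c₂ hw h2 h2' =
      us_ut n q w (Cfsg.hermForm n F q u₁ u₂ - Cfsg.hermForm n F q u₂ u₁) hw *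
        (uo_S n q w u₂ c₂ hw h2 h2' * uo_S n q w u₁ c₁ hw h1 h1') := by
  apply gl_ext'
  intro x
  simp only [Units.val_mul, ← mulVec_mulVec, uo_S_mulVec, us_ut_mulVec]
  simp only [us_h_add_left, us_h_smul_left, hw, h1, h2, h1', h2']
  module

/-! ### Unitary reflections -/

theorem uo_rf_aux (v : (Fin n → F)) (hv : Cfsg.hermForm n F q v v ≠ 0) :
    (1 + vecMulVec v ((-(2 / Cfsg.hermForm n F q v v)) • fun j => (v j) ^ q)) *
      (1 + vecMulVec v ((-(2 / Cfsg.hermForm n F q v v)) • fun j => (v j) ^ q)) = (1 : Matrix (Fin n) (Fin n) F) := by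
  have hd : ((-(2 / Cfsg.hermForm n F q v v)) • fun j => (v j) ^ q) ⬝ᵥ v = -2 := by
    rw [smul_dotProduct, us_h_dot, smul_eq_mul]
    field_simp
  have h0 : vecMulVec v ((-(2 / Cfsg.hermForm n F q v v)) • fun j => (v j) ^ q) *
      vecMulVec v ((-(2 / Cfsg.hermForm n F q v v)) • fun j => (v j) ^ q) =
      (-2 : F) • vecMulVec v ((-(2 / Cfsg.hermForm n F q v v)) • fun j => (v j) ^ q) := by
    rw [vecMulVec_mul_vecMulVec, hd, vecMulVec_smul]
  rw [add_mul, mul_add, mul_add, one_mul, mul_one, one_mul, h0]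
  module

/-- The unitary reflection `x ↦ x − (2 h(x, v) / h(v, v)) v`. -/
def uo_rf (n q : ℕ) (v : (Fin n → F)) (hv : Cfsg.hermForm n F q v v ≠ 0) : GL (Fin n) F where
  val := 1 + vecMulVec v ((-(2 / Cfsg.hermForm n F q v v)) • fun j => (v j) ^ q)
  inv := 1 + vecMulVec v ((-(2 / Cfsg.hermForm n F q v v)) • fun j => (v j) ^ q)
  val_inv := uo_rf_aux v hv
  inv_val := uo_rf_aux v hv

theorem uo_rf_val (v : (Fin n → F)) (hv : Cfsg.hermForm n F q v v ≠ 0) :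
    ((uo_rf n q v hv : GL (Fin n) F) : Matrix (Fin n) (Fin n) F) = 1 + vecMulVec v ((-(2 / Cfsg.hermForm n F q v v)) • fun j => (v j) ^ q) := rfl

theorem uo_rf_mulVec (v : (Fin n → F)) (hv : Cfsg.hermForm n F q v v ≠ 0) (x : (Fin n → F)) :
    ((uo_rf n q v hv : GL (Fin n) F) : Matrix (Fin n) (Fin n) F) *ᵥ x = x - (2 * Cfsg.hermForm n F q x v / Cfsg.hermForm n F q v v) • v := by
  rw [uo_rf_val, add_mulVec, one_mulVec, vecMulVec_mulVec, sub_eq_add_neg]
  congr 1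
  have e : ((-(2 / Cfsg.hermForm n F q v v)) • fun j => (v j) ^ q) ⬝ᵥ x = -(2 * Cfsg.hermForm n F q x v / Cfsg.hermForm n F q v v) := by
    rw [smul_dotProduct, us_h_dot, smul_eq_mul]
    ring
  ext i
  simp only [op_smul_eq_smul, Pi.smul_apply, Pi.neg_apply, smul_eq_mul]
  rw [e]
  ring

theorem uo_rf_det (v : (Fin n → F)) (hv : Cfsg.hermForm n F q v v ≠ 0) : ((uo_rf n q v hv : GL (Fin n) F) : Matrix (Fin n) (Fin n) F).det = -1 := by
  rw [uo_rf_val, vecMulVec_eq Unit, det_one_add_replicateCol_mul_replicateRow, smul_dotProduct,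
    us_h_dot, smul_eq_mul]
  field_simp
  ring

theorem uo_rf_mem_GU (hF : Fintype.card F = q ^ 2) (v : (Fin n → F)) (hv : Cfsg.hermForm n F q v v ≠ 0) :
    uo_rf n q v hv ∈ Cfsg.GU n F q := by
  rw [us_mem_GU_iff]
  intro x y
  rw [uo_rf_mulVec, uo_rf_mulVec]
  simp only [uo_h_sub_left, uo_h_sub_right hF, us_h_smul_left, us_h_smul_right, div_pow, mul_pow,
    uo_two_pow hF, uo_h_self_pow hF]
  rw [us_h_swap hF y v]
  field_simp
  ring

theorem uo_rf_conj (g : GL (Fin n) F) (hg : g ∈ Cfsg.GU n F q) (v : (Fin n → F)) (hv : Cfsg.hermForm n F q v v ≠ 0)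
    (hv2 : Cfsg.hermForm n F q ((g : Matrix (Fin n) (Fin n) F) *ᵥ v) ((g : Matrix (Fin n) (Fin n) F) *ᵥ v) ≠ 0) :
    g * uo_rf n q v hv * g⁻¹ = uo_rf n q ((g : Matrix (Fin n) (Fin n) F) *ᵥ v) hv2 := by
  apply gl_ext'
  intro x
  have e : ∀ z : (Fin n → F), Cfsg.hermForm n F q (((g⁻¹ : GL (Fin n) F) : Matrix (Fin n) (Fin n) F) *ᵥ x) z = Cfsg.hermForm n F q x ((g : Matrix (Fin n) (Fin n) F) *ᵥ z) := by
    intro z
    rw [← (us_mem_GU_iff g).mp hg, gl_mul_inv_mulVec]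
  rw [Units.val_mul, Units.val_mul, ← mulVec_mulVec, ← mulVec_mulVec, uo_rf_mulVec, uo_rf_mulVec,
    mulVec_sub, mulVec_smul, gl_mul_inv_mulVec, e, (us_mem_GU_iff g).mp hg]

theorem uo_rf2_mem (hF : Fintype.card F = q ^ 2) (a b : (Fin n → F)) (ha : Cfsg.hermForm n F q a a ≠ 0)
    (hb : Cfsg.hermForm n F q b b ≠ 0) :
    uo_rf n q a ha * uo_rf n q b hb ∈ Cfsg.GU n F q ⊓ specialLinear (Fin n) F := by
  refine ⟨Subgroup.mul_mem _ (uo_rf_mem_GU hF a ha) (uo_rf_mem_GU hF b hb), ?_⟩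
  change _ ∈ (Matrix.GeneralLinearGroup.det : GL (Fin n) F →* Fˣ).ker
  rw [MonoidHom.mem_ker]
  apply Units.ext
  rw [Matrix.GeneralLinearGroup.val_det_apply, Units.val_mul, det_mul, uo_rf_det, uo_rf_det]
  simp

/-! ### Rational elements -/

variable {F₀ : Subfield F} {P : GL (Fin n) F}

theorem uo_S_rat (D : UOData n q F₀ P) (j0 : Fin n) (w u : (Fin n → F₀)) (c₀ : F₀)
    (hw : Cfsg.hermForm n F q (us_E P w) (us_E P w) = 0) (hu : Cfsg.hermForm n F q (us_E P u) (us_E P w) = 0) (hu' : Cfsg.hermForm n F q (us_E P w) (us_E P u) = 0)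
    (hc : (c₀ : F) + c₀ + Cfsg.hermForm n F q (us_E P u) (us_E P u) = 0) :
    uo_S n q (us_E P w) (us_E P u) (c₀ : F) hw hu hu' ∈ subfieldSubgroup F₀ P ⊓ (Cfsg.GU n F q ⊓ specialLinear (Fin n) F) := by
  refine ⟨uo_mem_subfield j0 _ 1 (fun a =>
    ⟨a + uo_B D a w • u + (c₀ * uo_B D a w - uo_B D a u) • w, ?_⟩),
    uo_S_mem D.hF _ _ _ hw hu hu' (by rw [D.pow_mem]; exact hc)⟩
  rw [one_smul, uo_S_mulVec, us_E_add, us_E_add, us_E_smul, us_E_smul, Subfield.coe_sub,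
    Subfield.coe_mul, uo_B_val, uo_B_val]

theorem uo_rf_rat (D : UOData n q F₀ P) (a : (Fin n → F₀)) (ha : Cfsg.hermForm n F q (us_E P a) (us_E P a) ≠ 0) (x : (Fin n → F₀)) :
    ((uo_rf n q (us_E P a) ha : GL (Fin n) F) : Matrix (Fin n) (Fin n) F) *ᵥ us_E P x =
      us_E P (x - (2 * uo_B D x a / uo_B D a a) • a) := by
  rw [uo_rf_mulVec, uo_E_sub, us_E_smul, Subfield.coe_div, Subfield.coe_mul, uo_B_val, uo_B_val]
  rfl

theorem uo_rf2_rat (D : UOData n q F₀ P) (j0 : Fin n) (a b : (Fin n → F₀))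
    (ha : Cfsg.hermForm n F q (us_E P a) (us_E P a) ≠ 0) (hb : Cfsg.hermForm n F q (us_E P b) (us_E P b) ≠ 0) :
    uo_rf n q (us_E P a) ha * uo_rf n q (us_E P b) hb ∈ subfieldSubgroup F₀ P ⊓ (Cfsg.GU n F q ⊓ specialLinear (Fin n) F) := by
  refine ⟨uo_mem_subfield j0 _ 1 (fun x =>
    ⟨(x - (2 * uo_B D x b / uo_B D b b) • b) -
      (2 * uo_B D (x - (2 * uo_B D x b / uo_B D b b) • b) a / uo_B D a a) • a, ?_⟩),
    uo_rf2_mem D.hF _ _ ha hb⟩
  rw [one_smul, Units.val_mul, ← mulVec_mulVec, uo_rf_rat D b hb, uo_rf_rat D a ha]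

end UO2

end Cfsg.Agent.Helper98
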