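import Mathlib
import Cfsg.Prelude.Def_GeometricClasses
import Cfsg.Prelude.Def_LieClassical
import Cfsg.Agent.Helper98.UO2

/-!
The orthogonal subfield group in `SU_n(q)`, part 3: quadratic-form geometry over the subfield,
the line-closure lemma for transvection centres, the commutator lemma producing a full root
group, and the transitivity of the rational Siegel elements on rational isotropic points.
-/

set_option autoImplicit false
set_option linter.unusedSectionVars false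
set_option linter.unusedVariables false
set_option linter.unusedSimpArgs false

universe u

namespace Cfsg.Agent.Helper98

open Matrix Cfsg.Agent.Helper93 Cfsg.Geo Cfsg.Agent.Helper45
open scoped Pointwise

section UO3Q

variable {ι : Type} [Fintype ι] [DecidableEq ι] {K : Type u} [Field K] [Fintype K]
  (Q : QuadraticForm K (ι → K))

theorem uo_exists_sing_one (hQ : (QuadraticMap.polarBilin Q).Nondegenerate)
    (hn : 3 ≤ Fintype.card ι) (v : ι → K) (hv : v ≠ 0) :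
    ∃ s, Q s = 0 ∧ QuadraticMap.polar ⇑Q v s ≠ 0 := by
  have h0 : Module.finrank K ↥(⊤ : Submodule K (ι → K)) = Fintype.card ι := by
    rw [finrank_top, Module.finrank_fintype_fun_eq_card]
  obtain ⟨z, -, hz0, hzQ⟩ := exists_sing_in Q ⊤ (by omega)
  obtain ⟨c, hc⟩ : ∃ c, QuadraticMap.polar ⇑Q z c ≠ 0 := by
    by_contra h
    push Not at h
    exact hz0 (hQ.1 z h)
  obtain ⟨a, ha⟩ : ∃ a, QuadraticMap.polar ⇑Q v a ≠ 0 := by
    by_contra h
    push Not at h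
    exact hv (hQ.1 v h)
  obtain ⟨s, -, hsQ, hvs⟩ := oc_exists_sing_pair Q ⊤ v a Submodule.mem_top ha z c
    Submodule.mem_top Submodule.mem_top hzQ hc
  exact ⟨s, hsQ, hvs⟩

/-- A singular vector non-orthogonal to two given non-zero vectors. -/
theorem uo_exists_sing_two (hQ : (QuadraticMap.polarBilin Q).Nondegenerate)
    (hn : 13 ≤ Fintype.card ι) (x y : ι → K) (hx : x ≠ 0) (hy : y ≠ 0) :
    ∃ s, Q s = 0 ∧ QuadraticMap.polar ⇑Q x s ≠ 0 ∧ QuadraticMap.polar ⇑Q y s ≠ 0 := by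
  obtain ⟨s₁, hs₁Q, hxs₁⟩ := uo_exists_sing_one Q hQ (by omega) x hx
  obtain ⟨s₂, hs₂Q, hys₂⟩ := uo_exists_sing_one Q hQ (by omega) y hy
  by_cases h1 : QuadraticMap.polar ⇑Q y s₁ = 0
  swap
  · exact ⟨s₁, hs₁Q, hxs₁, h1⟩
  by_cases h2 : QuadraticMap.polar ⇑Q x s₂ = 0
  swap
  · exact ⟨s₂, hs₂Q, h2, hys₂⟩
  by_cases h3 : QuadraticMap.polar ⇑Q s₁ s₂ = 0
  · refine ⟨s₁ + s₂, ?_, ?_, ?_⟩
    · rw [Helper13.Q_add', hs₁Q, hs₂Q, h3]
      ring
    · rw [QuadraticMap.polar_add_right, h2, add_zero]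
      exact hxs₁
    · rw [QuadraticMap.polar_add_right, h1, zero_add]
      exact hys₂
  · obtain ⟨e, heQ, he1, he2, he3, he4, -, -⟩ := oc_exists_nonsing6 Q hQ hn s₁ s₂ x y y y
    have hc : -Q e / QuadraticMap.polar ⇑Q s₁ s₂ ≠ 0 := div_ne_zero (neg_ne_zero.mpr heQ) h3
    refine ⟨s₁ + (-Q e / QuadraticMap.polar ⇑Q s₁ s₂) • s₂ + e, ?_, ?_, ?_⟩
    · rw [Helper13.Q_add', Helper13.Q_add', QuadraticMap.map_smul, hs₁Q, hs₂Q,
        QuadraticMap.polar_add_left, QuadraticMap.polar_smul_left, QuadraticMap.polar_smul_right,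
        he1, he2]
      simp only [smul_eq_mul]
      field_simp
      ring
    · rw [QuadraticMap.polar_add_right, QuadraticMap.polar_add_right,
        QuadraticMap.polar_smul_right, h2, he3, smul_zero, add_zero, add_zero]
      exact hxs₁
    · rw [QuadraticMap.polar_add_right, QuadraticMap.polar_add_right,
        QuadraticMap.polar_smul_right, h1, he4, zero_add, add_zero, smul_eq_mul]
      exact mul_ne_zero hc hys₂

/-- `(w^⊥)^⊥ = ⟨w⟩`. -/
theorem uo_double_perp (hQ : (QuadraticMap.polarBilin Q).Nondegenerate) (w r : ι → K)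
    (h : ∀ u, QuadraticMap.polar ⇑Q w u = 0 → QuadraticMap.polar ⇑Q u r = 0) : ∃ c : K, r = c • w := by
  by_contra hcon
  have hr : r ∉ Submodule.span K {w} := by
    intro hr
    obtain ⟨c, hc⟩ := Submodule.mem_span_singleton.mp hr
    exact hcon ⟨c, hc.symm⟩
  obtain ⟨u, hu1, hu2⟩ := exists_perp_of_notMem Q hQ _ r hr
  exact hu2 (h u (hu1 w (Submodule.mem_span_singleton_self w)))

/-- A singular vector orthogonal to `r₂` and not to `r₁`. -/
theorem uo_exists_sing_perp (hQ : (QuadraticMap.polarBilin Q).Nondegenerate) (r₁ r₂ z : ι → K)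
    (hr : ∀ c : K, r₁ ≠ c • r₂) (hzQ : Q z = 0) (hz : QuadraticMap.polar ⇑Q r₂ z = 0)
    (hz' : ∀ c : K, z ≠ c • r₂) :
    ∃ w, Q w = 0 ∧ QuadraticMap.polar ⇑Q r₂ w = 0 ∧ QuadraticMap.polar ⇑Q r₁ w ≠ 0 := by
  have h1 : r₁ ∉ Submodule.span K {r₂} := by
    intro h
    obtain ⟨c, hc⟩ := Submodule.mem_span_singleton.mp h
    exact hr c hc.symm
  have h2 : z ∉ Submodule.span K {r₂} := by
    intro h
    obtain ⟨c, hc⟩ := Submodule.mem_span_singleton.mp h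
    exact hz' c hc.symm
  obtain ⟨a, ha1, ha2⟩ := exists_perp_of_notMem Q hQ _ r₁ h1
  obtain ⟨c, hc1, hc2⟩ := exists_perp_of_notMem Q hQ _ z h2
  have haW : a ∈ perpSub Q r₂ :=
    (mem_perpSub Q _ _).mpr (ha1 r₂ (Submodule.mem_span_singleton_self r₂))
  have hcW : c ∈ perpSub Q r₂ :=
    (mem_perpSub Q _ _).mpr (hc1 r₂ (Submodule.mem_span_singleton_self r₂))
  have hzW : z ∈ perpSub Q r₂ := (mem_perpSub Q _ _).mpr hz
  obtain ⟨s, hsW, hsQ, hs⟩ := oc_exists_sing_pair Q (perpSub Q r₂) r₁ a haW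
    (by rwa [QuadraticMap.polar_comm]) z c hzW hcW hzQ (by rwa [QuadraticMap.polar_comm])
  exact ⟨s, hsQ, (mem_perpSub Q _ _).mp hsW, hs⟩

end UO3Q

section UO3R

variable {F : Type*} [Field F] [Fintype F] {n q : ℕ} {F₀ : Subfield F} {P : GL (Fin n) F}

theorem uo_h_of_B (D : UOData n q F₀ P) {a b : (Fin n → F₀)} (h : uo_B D a b = 0) :
    Cfsg.hermForm n F q (us_E P a) (us_E P b) = 0 := by
  rw [← uo_B_val D, h]
  rfl

theorem uo_B_of_h (D : UOData n q F₀ P) {a b : (Fin n → F₀)} (h : Cfsg.hermForm n F q (us_E P a) (us_E P b) = 0) :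
    uo_B D a b = 0 :=
  Subtype.ext h

theorem uo_h_ne_of_B (D : UOData n q F₀ P) {a b : (Fin n → F₀)} (h : uo_B D a b ≠ 0) :
    Cfsg.hermForm n F q (us_E P a) (us_E P b) ≠ 0 := fun h0 => h (uo_B_of_h D h0)

theorem uo_B_ne_of_h (D : UOData n q F₀ P) {a b : (Fin n → F₀)} (h : Cfsg.hermForm n F q (us_E P a) (us_E P b) ≠ 0) :
    uo_B D a b ≠ 0 := fun h0 => h (uo_h_of_B D h0)

theorem uo_Q_eq_zero' (D : UOData n q F₀ P) (a : (Fin n → F₀)) : uo_Q D a = 0 ↔ uo_B D a a = 0 := by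
  rw [uo_Q_apply]
  constructor
  · intro h
    rcases mul_eq_zero.mp h with h1 | h1
    · exact absurd (inv_eq_zero.mp h1) D.two_ne'
    · exact h1
  · intro h
    rw [h, mul_zero]

theorem uo_rat_sing_two (D : UOData n q F₀ P) (hn : 13 ≤ n) (x y : (Fin n → F₀)) (hx : x ≠ 0)
    (hy : y ≠ 0) : ∃ s : (Fin n → F₀), uo_B D s s = 0 ∧ uo_B D x s ≠ 0 ∧ uo_B D y s ≠ 0 := by
  have : Fintype ↥F₀ := Fintype.ofFinite _
  obtain ⟨s, hs, h1, h2⟩ := uo_exists_sing_two (uo_Q D) (uo_Q_nondeg D)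
    (by rw [Fintype.card_fin]; exact hn) x y hx hy
  rw [uo_polar] at h1 h2
  exact ⟨s, (uo_Q_eq_zero' D s).mp hs, h1, h2⟩

theorem uo_rat_double_perp (D : UOData n q F₀ P) (w r : (Fin n → F₀))
    (h : ∀ u, uo_B D w u = 0 → uo_B D u r = 0) : ∃ c : F₀, r = c • w := by
  have : Fintype ↥F₀ := Fintype.ofFinite _
  apply uo_double_perp (uo_Q D) (uo_Q_nondeg D) w r
  intro u hu
  rw [uo_polar] at hu ⊢
  exact h u hu

theorem uo_rat_perp_of_notMem (D : UOData n q F₀ P) (w r : (Fin n → F₀)) (h : ∀ c : F₀, r ≠ c • w) :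
    ∃ u, uo_B D w u = 0 ∧ uo_B D u r ≠ 0 := by
  have hr : r ∉ Submodule.span F₀ {w} := by
    intro hr
    obtain ⟨c, hc⟩ := Submodule.mem_span_singleton.mp hr
    exact h c hc.symm
  obtain ⟨u, hu1, hu2⟩ := exists_perp_of_notMem (uo_Q D) (uo_Q_nondeg D) _ r hr
  have h1 := hu1 w (Submodule.mem_span_singleton_self w)
  rw [uo_polar] at h1 hu2
  exact ⟨u, h1, hu2⟩

theorem uo_finrank_top (F₀ : Subfield F) (n : ℕ) :
    Module.finrank F₀ ↥(⊤ : Submodule F₀ (Fin n → F₀)) = n := by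
  rw [finrank_top, Module.finrank_fintype_fun_eq_card, Fintype.card_fin]

theorem uo_rat_sing_perp (D : UOData n q F₀ P) (hn : 13 ≤ n) (r₁ r₂ : (Fin n → F₀))
    (hr : ∀ c : F₀, r₁ ≠ c • r₂) :
    ∃ w, uo_B D w w = 0 ∧ uo_B D r₂ w = 0 ∧ uo_B D r₁ w ≠ 0 := by
  classical
  have : Fintype ↥F₀ := Fintype.ofFinite _
  have h0 := uo_finrank_top F₀ n
  have h1 := finrank_inf_perpSub_ge (uo_Q D) ⊤ r₂
  have h2 : Module.finrank F₀ ↥(Submodule.span F₀ ({r₂} : Set (Fin n → F₀))) ≤ 1 := by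
    have := finrank_span_finset_le_card (R := F₀) ({r₂} : Finset (Fin n → F₀))
    rw [Finset.coe_singleton, Finset.card_singleton] at this
    exact this
  obtain ⟨z, hzR, hzS, hzQ⟩ := oc_exists_sing_notMem (uo_Q D) (⊤ ⊓ perpSub (uo_Q D) r₂)
    (Submodule.span F₀ {r₂}) (by omega)
  have hz' : ∀ c : F₀, z ≠ c • r₂ := fun c hc =>
    hzS (Submodule.mem_span_singleton.mpr ⟨c, hc.symm⟩)
  obtain ⟨w, hw1, hw2, hw3⟩ := uo_exists_sing_perp (uo_Q D) (uo_Q_nondeg D) r₁ r₂ z hr hzQ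
    ((mem_perpSub _ _ _).mp hzR.2) hz'
  rw [uo_polar] at hw2 hw3
  exact ⟨w, (uo_Q_eq_zero' D w).mp hw1, hw2, hw3⟩

theorem uo_rat_nonsing4 (D : UOData n q F₀ P) (hn : 13 ≤ n) (p₁ p₂ p₃ p₄ : (Fin n → F₀)) :
    ∃ b, uo_B D b b ≠ 0 ∧ uo_B D p₁ b = 0 ∧ uo_B D p₂ b = 0 ∧ uo_B D p₃ b = 0 ∧
      uo_B D p₄ b = 0 := by
  have : Fintype ↥F₀ := Fintype.ofFinite _
  obtain ⟨b, hb, h1, h2, h3, h4, -, -⟩ := oc_exists_nonsing6 (uo_Q D) (uo_Q_nondeg D)
    (by rw [Fintype.card_fin]; exact hn) p₁ p₂ p₃ p₄ p₄ p₄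
  rw [uo_polar] at h1 h2 h3 h4
  exact ⟨b, fun h => hb ((uo_Q_eq_zero' D b).mpr h), h1, h2, h3, h4⟩

theorem uo_rat_sing_notMem2 (D : UOData n q F₀ P) (hn : 13 ≤ n) (r₁ r₂ : (Fin n → F₀)) :
    ∃ w, uo_B D w w = 0 ∧ uo_B D r₁ w = 0 ∧ uo_B D r₂ w = 0 ∧
      ∀ s t : F₀, w ≠ s • r₁ + t • r₂ := by
  classical
  have : Fintype ↥F₀ := Fintype.ofFinite _
  have h0 := uo_finrank_top F₀ n
  have h1 := finrank_inf_perpSub_ge (uo_Q D) ⊤ r₁
  have h2 := finrank_inf_perpSub_ge (uo_Q D) (⊤ ⊓ perpSub (uo_Q D) r₁) r₂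
  have h3 : Module.finrank F₀ ↥(Submodule.span F₀ ({r₁, r₂} : Set (Fin n → F₀))) ≤ 2 := by
    have := finrank_span_finset_le_card (R := F₀) ({r₁, r₂} : Finset (Fin n → F₀))
    rw [Finset.coe_pair] at this
    exact this.trans Finset.card_le_two
  obtain ⟨z, hzR, hzS, hzQ⟩ := oc_exists_sing_notMem (uo_Q D)
    (⊤ ⊓ perpSub (uo_Q D) r₁ ⊓ perpSub (uo_Q D) r₂) (Submodule.span F₀ ({r₁, r₂} : Set (Fin n → F₀)))
    (by omega)
  refine ⟨z, (uo_Q_eq_zero' D z).mp hzQ, ?_, ?_, ?_⟩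
  · have := (mem_perpSub _ _ _).mp hzR.1.2
    rwa [uo_polar] at this
  · have := (mem_perpSub _ _ _).mp hzR.2
    rwa [uo_polar] at this
  · intro s t hst
    apply hzS
    rw [hst]
    exact Submodule.add_mem _ (Submodule.smul_mem _ _ (Submodule.subset_span (by simp)))
      (Submodule.smul_mem _ _ (Submodule.subset_span (by simp)))

theorem uo_rat_exists_sing (D : UOData n q F₀ P) (hn : 13 ≤ n) :
    ∃ w : (Fin n → F₀), w ≠ 0 ∧ uo_B D w w = 0 := by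
  have : Fintype ↥F₀ := Fintype.ofFinite _
  have h0 := uo_finrank_top F₀ n
  obtain ⟨z, -, hz0, hzQ⟩ := exists_sing_in (uo_Q D) ⊤ (by omega)
  exact ⟨z, hz0, (uo_Q_eq_zero' D z).mp hzQ⟩

theorem uo_rat_nd (D : UOData n q F₀ P) (w : (Fin n → F₀)) (hw : w ≠ 0) : ∃ a, uo_B D a w ≠ 0 := by
  by_contra h
  push Not at h
  apply hw
  apply (uo_Q_nondeg D).1 w
  intro a
  show QuadraticMap.polar ⇑(uo_Q D) w a = 0
  rw [uo_polar, uo_B_symm]
  exact h a

theorem uo_rat_exists_nonsing (D : UOData n q F₀ P) (hn : 13 ≤ n) :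
    ∃ a : (Fin n → F₀), uo_B D a a ≠ 0 := by
  obtain ⟨b, hb, -⟩ := uo_rat_nonsing4 D hn 0 0 0 0
  exact ⟨b, hb⟩

/-! ### Line closure for transvection centres -/

theorem uo_LC (hF : Fintype.card F = q ^ 2) (M : Subgroup (GL (Fin n) F)) (hMU : M ≤ Cfsg.GU n F q)
    (w w' : (Fin n → F)) (hw : w ∈ us_C n q M) (hw' : w' ∈ us_C n q M) (hη : Cfsg.hermForm n F q w' w ≠ 0) (α α' : F)
    (hx : Cfsg.hermForm n F q (α • w + α' • w') (α • w + α' • w') = 0) : α • w + α' • w' ∈ us_C n q M := by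
  by_cases hα' : α' = 0
  · rw [hα', zero_smul, add_zero]
    exact us_C_smul hF M w hw α
  obtain ⟨hw0, hwM⟩ := hw
  have hw0' : Cfsg.hermForm n F q w' w' = 0 := hw'.1
  have hsw : Cfsg.hermForm n F q w w' = (Cfsg.hermForm n F q w' w) ^ q := us_h_swap hF w' w
  have hx' : α * α' ^ q * (Cfsg.hermForm n F q w' w) ^ q + α' * α ^ q * Cfsg.hermForm n F q w' w = 0 := by
    simp only [us_h_add_left, us_h_smul_left, us_h_add_right hF, us_h_smul_right, hw0, hw0',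
      hsw] at hx
    linear_combination hx
  have hc : (α / (α' * Cfsg.hermForm n F q w' w)) ^ q = -(α / (α' * Cfsg.hermForm n F q w' w)) := by
    rw [div_pow, mul_pow]
    have h1 : α' ^ q ≠ 0 := pow_ne_zero _ hα'
    have h2 : (Cfsg.hermForm n F q w' w) ^ q ≠ 0 := pow_ne_zero _ hη
    field_simp
    linear_combination hx'
  have h1 := us_C_mul M hMU _ (hwM _ hc) w' hw'
  rw [us_ut_mulVec] at h1
  have h2 := us_C_smul hF M _ h1 α'
  have e : α' • (w' + (α / (α' * Cfsg.hermForm n F q w' w) * Cfsg.hermForm n F q w' w) • w) = α • w + α' • w' := by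
    rw [smul_add, smul_smul, add_comm]
    congr 2
    field_simp
  rw [e] at h2
  exact h2

/-! ### The commutator lemma -/

theorem uo_centre_of_comm (D : UOData n q F₀ P) (j0 : Fin n) (M : Subgroup (GL (Fin n) F))
    (hHM : subfieldSubgroup F₀ P ⊓ (Cfsg.GU n F q ⊓ specialLinear (Fin n) F) ≤ M) (hMG : M ≤ Cfsg.GU n F q ⊓ specialLinear (Fin n) F)
    (w u u₁ : (Fin n → F₀)) (hw : Cfsg.hermForm n F q (us_E P w) (us_E P w) = 0) (hu : Cfsg.hermForm n F q (us_E P u) (us_E P w) = 0)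
    (hu₁ : Cfsg.hermForm n F q (us_E P u₁) (us_E P w) = 0) (g : GL (Fin n) F) (hg : g ∈ M)
    (hgw : (g : Matrix (Fin n) (Fin n) F) *ᵥ us_E P w = us_E P w)
    (hne : (Cfsg.hermForm n F q (us_E P u₁) ((g : Matrix (Fin n) (Fin n) F) *ᵥ us_E P u)) ^ q ≠ Cfsg.hermForm n F q (us_E P u₁) ((g : Matrix (Fin n) (Fin n) F) *ᵥ us_E P u)) :
    us_E P w ∈ us_C n q M := by
  have hq : q ≠ 0 := by
    have := us_two_le D.hF
    omega
  have hgU : g ∈ Cfsg.GU n F q := (hMG hg).1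
  have hu' : Cfsg.hermForm n F q (us_E P w) (us_E P u) = 0 := by
    rw [uo_h_symm D u w]
    exact hu
  have hv : Cfsg.hermForm n F q ((g : Matrix (Fin n) (Fin n) F) *ᵥ us_E P u) (us_E P w) = 0 := by
    have h1 := (us_mem_GU_iff g).mp hgU (us_E P u) (us_E P w)
    rw [hgw] at h1
    rw [h1]
    exact hu
  have hv' : Cfsg.hermForm n F q (us_E P w) ((g : Matrix (Fin n) (Fin n) F) *ᵥ us_E P u) = 0 := by
    rw [us_h_swap D.hF ((g : Matrix (Fin n) (Fin n) F) *ᵥ us_E P u) (us_E P w), hv, zero_pow hq]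
  have hcu : (((-uo_Q D u : F₀)) : F) + ((-uo_Q D u : F₀) : F) + Cfsg.hermForm n F q (us_E P u) (us_E P u) = 0 := by
    rw [← uo_Q_val D u]
    push_cast
    ring
  have hSu := hHM (uo_S_rat D j0 w u (-uo_Q D u) hw hu hu' hcu)
  have hS2 : uo_S n q (us_E P w) ((g : Matrix (Fin n) (Fin n) F) *ᵥ us_E P u) ((-uo_Q D u : F₀) : F) hw hv hv' ∈ M := by
    have h1 := M.mul_mem (M.mul_mem hg hSu) (M.inv_mem hg)
    have hw2 : Cfsg.hermForm n F q ((g : Matrix (Fin n) (Fin n) F) *ᵥ us_E P w) ((g : Matrix (Fin n) (Fin n) F) *ᵥ us_E P w) = 0 := by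
      rw [hgw]
      exact hw
    have hu2 : Cfsg.hermForm n F q ((g : Matrix (Fin n) (Fin n) F) *ᵥ us_E P u) ((g : Matrix (Fin n) (Fin n) F) *ᵥ us_E P w) = 0 := by
      rw [hgw]
      exact hv
    have hu2' : Cfsg.hermForm n F q ((g : Matrix (Fin n) (Fin n) F) *ᵥ us_E P w) ((g : Matrix (Fin n) (Fin n) F) *ᵥ us_E P u) = 0 := by
      rw [hgw]
      exact hv'
    rw [uo_S_conj g hgU _ _ _ hw hu hu' hw2 hu2 hu2'] at h1
    rw [uo_S_congr _ (us_E P w) _ _ _ _ hgw rfl rfl hw2 hu2 hu2' hw hv hv'] at h1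
    exact h1
  refine ⟨hw, fun c hc => ?_⟩
  obtain ⟨lam, hlam⟩ : ∃ lam : F, lam = Cfsg.hermForm n F q (us_E P u₁) ((g : Matrix (Fin n) (Fin n) F) *ᵥ us_E P u) := ⟨_, rfl⟩
  rw [← hlam] at hne
  have hd : lam - lam ^ q ≠ 0 := fun h => hne (sub_eq_zero.mp h).symm
  have hs : c / (lam - lam ^ q) ∈ F₀ := by
    apply D.mem_of_pow
    rw [div_pow, hc, uo_pow_sub D.hF, us_pow_pow D.hF]
    have hd' : lam ^ q - lam ≠ 0 := fun h => hne (sub_eq_zero.mp h)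
    field_simp
    ring
  obtain ⟨s, hs'⟩ : ∃ s : F₀, (s : F) = c / (lam - lam ^ q) := ⟨⟨_, hs⟩, rfl⟩
  have hsu : Cfsg.hermForm n F q (us_E P (s • u₁)) (us_E P w) = 0 := by
    rw [us_E_smul, us_h_smul_left, hu₁, mul_zero]
  have hsu' : Cfsg.hermForm n F q (us_E P w) (us_E P (s • u₁)) = 0 := by
    rw [uo_h_symm D (s • u₁) w]
    exact hsu
  have hcs : ((-uo_Q D (s • u₁) : F₀) : F) + ((-uo_Q D (s • u₁) : F₀) : F) +
      Cfsg.hermForm n F q (us_E P (s • u₁)) (us_E P (s • u₁)) = 0 := by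
    rw [← uo_Q_val D (s • u₁)]
    push_cast
    ring
  have hS1 := hHM (uo_S_rat D j0 w (s • u₁) (-uo_Q D (s • u₁)) hw hsu hsu' hcs)
  have hcomm := uo_S_comm (n := n) (q := q) (us_E P w) (us_E P (s • u₁)) ((g : Matrix (Fin n) (Fin n) F) *ᵥ us_E P u)
    ((-uo_Q D (s • u₁) : F₀) : F) ((-uo_Q D u : F₀) : F) hw hsu hsu' hv hv'
  have h3 := eq_mul_inv_of_mul_eq hcomm.symm
  have h4 : us_ut n q (us_E P w) (Cfsg.hermForm n F q (us_E P (s • u₁)) ((g : Matrix (Fin n) (Fin n) F) *ᵥ us_E P u) -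
      Cfsg.hermForm n F q ((g : Matrix (Fin n) (Fin n) F) *ᵥ us_E P u) (us_E P (s • u₁))) hw ∈ M := by
    rw [h3]
    exact M.mul_mem (M.mul_mem hS1 hS2) (M.inv_mem (M.mul_mem hS2 hS1))
  have h5 : Cfsg.hermForm n F q (us_E P (s • u₁)) ((g : Matrix (Fin n) (Fin n) F) *ᵥ us_E P u) - Cfsg.hermForm n F q ((g : Matrix (Fin n) (Fin n) F) *ᵥ us_E P u) (us_E P (s • u₁)) = c := by
    rw [us_E_smul, us_h_smul_left, us_h_smul_right, D.pow_mem,
      us_h_swap D.hF (us_E P u₁) ((g : Matrix (Fin n) (Fin n) F) *ᵥ us_E P u), ← hlam, hs']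
    field_simp
  rw [h5] at h4
  exact h4

/-! ### Transitivity on rational isotropic vectors -/

theorem uo_S_rat_mulVec (D : UOData n q F₀ P) (w u : (Fin n → F₀)) (c₀ : F₀)
    (hw : Cfsg.hermForm n F q (us_E P w) (us_E P w) = 0) (hu : Cfsg.hermForm n F q (us_E P u) (us_E P w) = 0) (hu' : Cfsg.hermForm n F q (us_E P w) (us_E P u) = 0)
    (a : (Fin n → F₀)) :
    ((uo_S n q (us_E P w) (us_E P u) (c₀ : F) hw hu hu' : GL (Fin n) F) : Matrix (Fin n) (Fin n) F) *ᵥ us_E P a =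
      us_E P (a + uo_B D a w • u + (c₀ * uo_B D a w - uo_B D a u) • w) := by
  rw [uo_S_mulVec, us_E_add, us_E_add, us_E_smul, us_E_smul, Subfield.coe_sub,
    Subfield.coe_mul, uo_B_val, uo_B_val]

theorem uo_zero_mem_C (M : Subgroup (GL (Fin n) F)) : (0 : (Fin n → F)) ∈ us_C n q M := by
  have h0 : Cfsg.hermForm n F q (0 : (Fin n → F)) 0 = 0 := uo_h_zero_left 0
  refine ⟨h0, fun c hc => ?_⟩
  have : us_ut n q (0 : (Fin n → F)) c h0 = 1 := by
    apply gl_ext'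
    intro x
    rw [us_ut_mulVec, smul_zero, add_zero, Units.val_one, one_mulVec]
  rw [this]
  exact M.one_mem

theorem uo_stepII (D : UOData n q F₀ P) (j0 : Fin n) (hn : 13 ≤ n) (M : Subgroup (GL (Fin n) F))
    (hHM : subfieldSubgroup F₀ P ⊓ (Cfsg.GU n F q ⊓ specialLinear (Fin n) F) ≤ M) (hMG : M ≤ Cfsg.GU n F q ⊓ specialLinear (Fin n) F)
    (w₀ : (Fin n → F₀)) (hw₀ : w₀ ≠ 0) (hw₀C : us_E P w₀ ∈ us_C n q M) (z : (Fin n → F₀)) (hz : uo_B D z z = 0) :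
    us_E P z ∈ us_C n q M := by
  have hMU : M ≤ Cfsg.GU n F q := hMG.trans inf_le_left
  by_cases hz0 : z = 0
  · rw [hz0, us_E_zero]
    exact uo_zero_mem_C M
  have hw₀Q : uo_B D w₀ w₀ = 0 := uo_B_of_h D hw₀C.1
  obtain ⟨w₁, hw₁, h01, hz1⟩ := uo_rat_sing_two D hn w₀ z hw₀ hz0
  obtain ⟨β, hβ⟩ : ∃ β : F₀, β = uo_B D w₀ w₁ := ⟨_, rfl⟩
  obtain ⟨κ, hκ⟩ : ∃ κ : F₀, κ = uo_B D z w₁ := ⟨_, rfl⟩
  rw [← hβ] at h01
  rw [← hκ] at hz1
  obtain ⟨z', hz'⟩ : ∃ z' : (Fin n → F₀), z' = (β / κ) • z := ⟨_, rfl⟩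
  obtain ⟨u, hu_def⟩ : ∃ u : (Fin n → F₀), u = β⁻¹ • (z' - w₀) := ⟨_, rfl⟩
  have hz'1 : uo_B D z' w₁ = β := by
    rw [hz', map_smul, LinearMap.smul_apply, smul_eq_mul, ← hκ]
    field_simp
  have hz'z' : uo_B D z' z' = 0 := by
    rw [hz']
    simp only [map_add, map_sub, map_smul, map_neg, map_zero, LinearMap.add_apply, LinearMap.sub_apply, LinearMap.smul_apply, LinearMap.neg_apply, LinearMap.zero_apply, smul_eq_mul, hz, mul_zero]
  have hu1 : uo_B D u w₁ = 0 := by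
    rw [hu_def]
    simp only [map_add, map_sub, map_smul, map_neg, map_zero, LinearMap.add_apply, LinearMap.sub_apply, LinearMap.smul_apply, LinearMap.neg_apply, LinearMap.zero_apply, smul_eq_mul]
    rw [hz'1, ← hβ, sub_self, mul_zero]
  have hu1' : uo_B D w₁ u = 0 := by
    rw [uo_B_symm D u w₁]
    exact hu1
  obtain ⟨c₀, hc₀⟩ : ∃ c₀ : F₀, c₀ = β⁻¹ * β⁻¹ * uo_B D z' w₀ := ⟨_, rfl⟩
  have huu : uo_B D u u = -(2 * c₀) := by
    rw [hu_def, hc₀]
    simp only [map_add, map_sub, map_smul, map_neg, map_zero, LinearMap.add_apply, LinearMap.sub_apply, LinearMap.smul_apply, LinearMap.neg_apply, LinearMap.zero_apply, smul_eq_mul]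
    rw [hz'z', hw₀Q, uo_B_symm D z' w₀]
    ring
  have hc : (c₀ : F) + c₀ + Cfsg.hermForm n F q (us_E P u) (us_E P u) = 0 := by
    rw [← uo_B_val D, huu]
    have e2 : ((2 : F₀) : F) = 2 := rfl
    simp only [Subfield.coe_neg, Subfield.coe_mul, e2]
    ring
  have hS := hHM (uo_S_rat D j0 w₁ u c₀ (uo_h_of_B D hw₁) (uo_h_of_B D hu1) (uo_h_of_B D hu1') hc)
  have h1 := us_C_mul M hMU _ hS _ hw₀C
  rw [uo_S_rat_mulVec D] at h1
  have e : w₀ + uo_B D w₀ w₁ • u + (c₀ * uo_B D w₀ w₁ - uo_B D w₀ u) • w₁ = z' := by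
    have e1 : c₀ * uo_B D w₀ w₁ - uo_B D w₀ u = 0 := by
      rw [hu_def, hc₀, ← hβ]
      simp only [map_add, map_sub, map_smul, map_neg, map_zero, LinearMap.add_apply, LinearMap.sub_apply, LinearMap.smul_apply, LinearMap.neg_apply, LinearMap.zero_apply, smul_eq_mul]
      rw [hw₀Q, uo_B_symm D z' w₀]
      field_simp
      ring
    rw [e1, zero_smul, add_zero, ← hβ, hu_def, smul_smul, mul_inv_cancel₀ h01, one_smul]
    abel
  rw [e] at h1
  have h2 := us_C_smul D.hF M _ h1 ((κ / β : F₀) : F)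
  have e2 : ((κ / β : F₀) : F) • us_E P z' = us_E P z := by
    rw [← us_E_smul, hz', smul_smul]
    have : κ / β * (β / κ) = 1 := by
      field_simp
    rw [this, one_smul]
  rw [e2] at h2
  exact h2

end UO3R

end Cfsg.Agent.Helper98
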