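import Mathlib
import Cfsg.Prelude.Def_GeometricClasses
import Cfsg.Prelude.Def_LieClassical
import Cfsg.Agent.Helper98.UO3

/-!
The orthogonal subfield group in `SU_n(q)`, part 4: an overgroup element outside the subfield
group produces a full unitary root group with rational centre.
-/

set_option autoImplicit false
set_option linter.unusedSectionVars false
set_option linter.unusedVariables false
set_option linter.unusedSimpArgs false

namespace Cfsg.Agent.Helper98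

open Matrix Cfsg.Agent.Helper93 Cfsg.Geo Cfsg.Agent.Helper45
open scoped Pointwise

section UO4

variable {F : Type*} [Field F] [Fintype F] {n q : ℕ} {F₀ : Subfield F} {P : GL (Fin n) F}

theorem uo_inv_mul_mulVec (g : GL (Fin n) F) (x : (Fin n → F)) : ((g⁻¹ : GL (Fin n) F) : Matrix (Fin n) (Fin n) F) *ᵥ ((g : Matrix (Fin n) (Fin n) F) *ᵥ x) = x := by
  rw [mulVec_mulVec, ← Units.val_mul, inv_mul_cancel, Units.val_one, one_mulVec]

theorem uo_mulVec_inj (g : GL (Fin n) F) (x x' : (Fin n → F)) (h : (g : Matrix (Fin n) (Fin n) F) *ᵥ x = (g : Matrix (Fin n) (Fin n) F) *ᵥ x') : x = x' := by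
  have h1 := congrArg (fun z => ((g⁻¹ : GL (Fin n) F) : Matrix (Fin n) (Fin n) F) *ᵥ z) h
  simp only [uo_inv_mul_mulVec] at h1
  exact h1

/-- An algebraic identity over the quadratic extension. -/
theorem uo_lam_aux (hF : Fintype.card F = q ^ 2) {ζ : F} (hζ0 : ζ ≠ 0) (hζ : ζ ^ q = -ζ)
    (h2 : (2 : F) ≠ 0) (X A₁ A₂ B₁ B₂ N : F) (hX : X ^ q = X) (hA₁ : A₁ ^ q = A₁)
    (hA₂ : A₂ ^ q = A₂) (hB₁ : B₁ ^ q = B₁) (hB₂ : B₂ ^ q = B₂) (hN : N ^ q = N) (hN0 : N ≠ 0)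
    (hL : (X - (2 * (A₁ + -ζ * A₂) / N) ^ q * (B₁ + -ζ * B₂)) ^ q =
      X - (2 * (A₁ + -ζ * A₂) / N) ^ q * (B₁ + -ζ * B₂)) :
    A₂ * B₁ = A₁ * B₂ := by
  obtain ⟨φ, hφ⟩ := us_frob hF
  have e2 : φ 2 = 2 := map_ofNat φ 2
  simp only [← hφ] at hL hX hA₁ hA₂ hB₁ hB₂ hN hζ
  simp only [map_sub, map_add, map_mul, map_div₀, hX, hA₁, hA₂, hB₁, hB₂, hN, hζ, e2,
    map_neg] at hL
  have h3 : 2 / N * (2 * ζ * (A₂ * B₁ - A₁ * B₂)) = 0 := by
    linear_combination hL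
  rcases mul_eq_zero.mp h3 with h4 | h4
  · exact absurd h4 (div_ne_zero h2 hN0)
  · rcases mul_eq_zero.mp h4 with h5 | h5
    · exact absurd h5 (mul_ne_zero h2 hζ0)
    · exact sub_eq_zero.mp h5

theorem uo_lemA (D : UOData n q F₀ P) (j0 : Fin n) (hn : 13 ≤ n) {ζ : F} (hζ0 : ζ ≠ 0)
    (hζ : ζ ^ q = -ζ) (M : Subgroup (GL (Fin n) F)) (hHM : subfieldSubgroup F₀ P ⊓ (Cfsg.GU n F q ⊓ specialLinear (Fin n) F) ≤ M)
    (hMG : M ≤ Cfsg.GU n F q ⊓ specialLinear (Fin n) F) (y : GL (Fin n) F) (hy : y ∈ M)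
    (a r₁ r₂ : (Fin n → F₀)) (ha : uo_B D a a ≠ 0) (hya : (y : Matrix (Fin n) (Fin n) F) *ᵥ us_E P a = us_E P r₁ + ζ • us_E P r₂)
    (w : (Fin n → F₀)) (hw : uo_B D w w = 0) (hwr₁ : uo_B D r₁ w = 0) (hwr₂ : uo_B D r₂ w = 0)
    (hwC : us_E P w ∉ us_C n q M) (u u₁ : (Fin n → F₀)) (hu : uo_B D w u = 0) (hu₁ : uo_B D w u₁ = 0) :
    uo_B D u r₂ * uo_B D u₁ r₁ = uo_B D u r₁ * uo_B D u₁ r₂ := by
  have hζn := D.zeta_notMem hζ0 hζ
  have hyU : y ∈ Cfsg.GU n F q := (hMG hy).1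
  have hGU := (us_mem_GU_iff y).mp hyU
  obtain ⟨p₁, p₂, hp12⟩ := D.vdecomp hζn (((y⁻¹ : GL (Fin n) F) : Matrix (Fin n) (Fin n) F) *ᵥ us_E P w)
  obtain ⟨p₃, p₄, hp34⟩ := D.vdecomp hζn (((y⁻¹ : GL (Fin n) F) : Matrix (Fin n) (Fin n) F) *ᵥ us_E P u)
  obtain ⟨b, hb, hb1, hb2, hb3, hb4⟩ := uo_rat_nonsing4 D hn p₁ p₂ p₃ p₄
  have ha' : Cfsg.hermForm n F q (us_E P a) (us_E P a) ≠ 0 := uo_h_ne_of_B D ha
  have hb' : Cfsg.hermForm n F q (us_E P b) (us_E P b) ≠ 0 := uo_h_ne_of_B D hb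
  have hbw : Cfsg.hermForm n F q (us_E P w) ((y : Matrix (Fin n) (Fin n) F) *ᵥ us_E P b) = 0 := by
    have e1 : us_E P w = (y : Matrix (Fin n) (Fin n) F) *ᵥ (((y⁻¹ : GL (Fin n) F) : Matrix (Fin n) (Fin n) F) *ᵥ us_E P w) := (gl_mul_inv_mulVec y _).symm
    rw [e1, hGU, hp12, us_h_add_left, us_h_smul_left, uo_h_of_B D hb1, uo_h_of_B D hb2]
    ring
  have hbu : Cfsg.hermForm n F q (us_E P u) ((y : Matrix (Fin n) (Fin n) F) *ᵥ us_E P b) = 0 := by
    have e1 : us_E P u = (y : Matrix (Fin n) (Fin n) F) *ᵥ (((y⁻¹ : GL (Fin n) F) : Matrix (Fin n) (Fin n) F) *ᵥ us_E P u) := (gl_mul_inv_mulVec y _).symm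
    rw [e1, hGU, hp34, us_h_add_left, us_h_smul_left, uo_h_of_B D hb3, uo_h_of_B D hb4]
    ring
  have hya2 : Cfsg.hermForm n F q ((y : Matrix (Fin n) (Fin n) F) *ᵥ us_E P a) ((y : Matrix (Fin n) (Fin n) F) *ᵥ us_E P a) ≠ 0 := by
    rw [hGU]
    exact ha'
  have hyb2 : Cfsg.hermForm n F q ((y : Matrix (Fin n) (Fin n) F) *ᵥ us_E P b) ((y : Matrix (Fin n) (Fin n) F) *ᵥ us_E P b) ≠ 0 := by
    rw [hGU]
    exact hb'
  have hwa : Cfsg.hermForm n F q (us_E P w) ((y : Matrix (Fin n) (Fin n) F) *ᵥ us_E P a) = 0 := by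
    rw [hya, us_h_add_right D.hF, us_h_smul_right, uo_h_symm D r₁ w, uo_h_symm D r₂ w,
      uo_h_of_B D hwr₁, uo_h_of_B D hwr₂]
    ring
  obtain ⟨g, hg_def⟩ : ∃ g : GL (Fin n) F,
      g = y * (uo_rf n q (us_E P a) ha' * uo_rf n q (us_E P b) hb') * y⁻¹ := ⟨_, rfl⟩
  have hgM : g ∈ M := by
    rw [hg_def]
    exact M.mul_mem (M.mul_mem hy (hHM (uo_rf2_rat D j0 a b ha' hb'))) (M.inv_mem hy)
  have hg_eq : g = uo_rf n q ((y : Matrix (Fin n) (Fin n) F) *ᵥ us_E P a) hya2 * uo_rf n q ((y : Matrix (Fin n) (Fin n) F) *ᵥ us_E P b) hyb2 := by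
    rw [hg_def, ← uo_rf_conj y hyU (us_E P a) ha' hya2, ← uo_rf_conj y hyU (us_E P b) hb' hyb2]
    group
  have hgw : (g : Matrix (Fin n) (Fin n) F) *ᵥ us_E P w = us_E P w := by
    rw [hg_eq, Units.val_mul, ← mulVec_mulVec, uo_rf_mulVec ((y : Matrix (Fin n) (Fin n) F) *ᵥ us_E P b) hyb2 (us_E P w), hbw,
      mul_zero, zero_div, zero_smul, sub_zero, uo_rf_mulVec, hwa, mul_zero, zero_div, zero_smul,
      sub_zero]
  have hgu : (g : Matrix (Fin n) (Fin n) F) *ᵥ us_E P u = us_E P u - (2 * Cfsg.hermForm n F q (us_E P u) ((y : Matrix (Fin n) (Fin n) F) *ᵥ us_E P a) /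
      Cfsg.hermForm n F q ((y : Matrix (Fin n) (Fin n) F) *ᵥ us_E P a) ((y : Matrix (Fin n) (Fin n) F) *ᵥ us_E P a)) • ((y : Matrix (Fin n) (Fin n) F) *ᵥ us_E P a) := by
    rw [hg_eq, Units.val_mul, ← mulVec_mulVec, uo_rf_mulVec ((y : Matrix (Fin n) (Fin n) F) *ᵥ us_E P b) hyb2 (us_E P u), hbu,
      mul_zero, zero_div, zero_smul, sub_zero, uo_rf_mulVec]
  have hlam : (Cfsg.hermForm n F q (us_E P u₁) ((g : Matrix (Fin n) (Fin n) F) *ᵥ us_E P u)) ^ q = Cfsg.hermForm n F q (us_E P u₁) ((g : Matrix (Fin n) (Fin n) F) *ᵥ us_E P u) := by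
    by_contra hne
    refine hwC (uo_centre_of_comm D j0 M hHM hMG w u u₁ (uo_h_of_B D hw) ?_ ?_ g hgM hgw hne)
    · rw [uo_h_symm D w u]
      exact uo_h_of_B D hu
    · rw [uo_h_symm D w u₁]
      exact uo_h_of_B D hu₁
  rw [hgu, hGU, hya] at hlam
  simp only [uo_h_sub_right D.hF, us_h_smul_right, us_h_add_right D.hF, hζ] at hlam
  have key := uo_lam_aux D.hF hζ0 hζ D.two_ne (Cfsg.hermForm n F q (us_E P u₁) (us_E P u)) (Cfsg.hermForm n F q (us_E P u) (us_E P r₁))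
    (Cfsg.hermForm n F q (us_E P u) (us_E P r₂)) (Cfsg.hermForm n F q (us_E P u₁) (us_E P r₁)) (Cfsg.hermForm n F q (us_E P u₁) (us_E P r₂)) (Cfsg.hermForm n F q (us_E P a) (us_E P a))
    (uo_h_real D _ _) (uo_h_real D _ _) (uo_h_real D _ _) (uo_h_real D _ _) (uo_h_real D _ _)
    (uo_h_real D _ _) ha' hlam
  apply Subtype.ext
  rw [Subfield.coe_mul, Subfield.coe_mul, uo_B_val, uo_B_val, uo_B_val, uo_B_val]
  exact key

theorem uo_lemB (D : UOData n q F₀ P) (j0 : Fin n) (hn : 13 ≤ n) {ζ : F} (hζ0 : ζ ≠ 0)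
    (hζ : ζ ^ q = -ζ) (M : Subgroup (GL (Fin n) F)) (hHM : subfieldSubgroup F₀ P ⊓ (Cfsg.GU n F q ⊓ specialLinear (Fin n) F) ≤ M)
    (hMG : M ≤ Cfsg.GU n F q ⊓ specialLinear (Fin n) F)
    (hno : ∀ w : (Fin n → F₀), w ≠ 0 → uo_B D w w = 0 → us_E P w ∉ us_C n q M) (y : GL (Fin n) F) (hy : y ∈ M)
    (a : (Fin n → F₀)) (ha : uo_B D a a ≠ 0) :
    ∃ (l : F) (b : (Fin n → F₀)), (y : Matrix (Fin n) (Fin n) F) *ᵥ us_E P a = l • us_E P b := by
  have hζn := D.zeta_notMem hζ0 hζ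
  obtain ⟨r₁, r₂, hr⟩ := D.vdecomp hζn ((y : Matrix (Fin n) (Fin n) F) *ᵥ us_E P a)
  by_cases h2 : ∃ c : F₀, r₁ = c • r₂
  · obtain ⟨c, hc⟩ := h2
    exact ⟨c + ζ, r₂, by rw [hr, hc, us_E_smul, add_smul]⟩
  by_cases h3 : r₂ = 0
  · exact ⟨1, r₁, by rw [hr, h3, us_E_zero, smul_zero, add_zero, one_smul]⟩
  exfalso
  push Not at h2
  obtain ⟨w, hwQ, hw1, hw2, hwS⟩ := uo_rat_sing_notMem2 D hn r₁ r₂
  have hw0 : w ≠ 0 := by
    intro h0
    apply hwS 0 0
    rw [h0, zero_smul, zero_smul, add_zero]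
  have hwC := hno w hw0 hwQ
  have hr₂w : ∀ c : F₀, r₂ ≠ c • w := by
    intro c hc
    by_cases hc0 : c = 0
    · apply h3
      rw [hc, hc0, zero_smul]
    · apply hwS 0 c⁻¹
      rw [hc, smul_smul, inv_mul_cancel₀ hc0, one_smul, zero_smul, zero_add]
  obtain ⟨u₁, hu₁w, hu₁r⟩ := uo_rat_perp_of_notMem D w r₂ hr₂w
  have key : ∀ u, uo_B D w u = 0 →
      uo_B D u (r₁ - (uo_B D u₁ r₁ / uo_B D u₁ r₂) • r₂) = 0 := by
    intro u hu
    have h5 := uo_lemA D j0 hn hζ0 hζ M hHM hMG y hy a r₁ r₂ ha hr w hwQ hw1 hw2 hwC u u₁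
      hu hu₁w
    simp only [map_add, map_sub, map_smul, map_neg, map_zero, LinearMap.add_apply, LinearMap.sub_apply, LinearMap.smul_apply, LinearMap.neg_apply, LinearMap.zero_apply, smul_eq_mul]
    field_simp
    linear_combination -h5
  obtain ⟨c, hc⟩ := uo_rat_double_perp D w _ key
  by_cases hc0 : c = 0
  · apply h2 (uo_B D u₁ r₁ / uo_B D u₁ r₂)
    rw [hc0, zero_smul] at hc
    exact sub_eq_zero.mp hc
  · apply hwS c⁻¹ (-(c⁻¹ * (uo_B D u₁ r₁ / uo_B D u₁ r₂)))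
    have h6 : w = c⁻¹ • (r₁ - (uo_B D u₁ r₁ / uo_B D u₁ r₂) • r₂) := by
      rw [hc, smul_smul, inv_mul_cancel₀ hc0, one_smul]
    rw [neg_smul, ← sub_eq_add_neg, ← smul_smul, ← smul_sub]
    exact h6

theorem uo_E_dep (D : UOData n q F₀ P) {ζ : F} (hζn : ζ ∉ F₀) (a a' : (Fin n → F₀)) (μ : F)
    (h : us_E P a = μ • us_E P a') : ∃ s : F₀, a = s • a' := by
  obtain ⟨s, t, rfl⟩ := D.decomp hζn μ
  have h1 : us_E P a + ζ • us_E P (0 : (Fin n → F₀)) = us_E P (s • a') + ζ • us_E P (t • a') := by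
    rw [us_E_zero, smul_zero, add_zero, h, us_E_smul, us_E_smul, add_smul, smul_smul]
  exact ⟨s, (D.vdecomp_inj hζn _ _ _ _ h1).1⟩

theorem uo_lemC_transfer (D : UOData n q F₀ P) {ζ : F} (hζn : ζ ∉ F₀) (y : GL (Fin n) F) (a a' : (Fin n → F₀))
    (hind : ∀ s : F₀, a ≠ s • a') (hind' : ∀ s : F₀, a' ≠ s • a)
    (l l' l'' : F) (b b' b'' : (Fin n → F₀)) (hb : (y : Matrix (Fin n) (Fin n) F) *ᵥ us_E P a = l • us_E P b)
    (hb' : (y : Matrix (Fin n) (Fin n) F) *ᵥ us_E P a' = l' • us_E P b')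
    (hb'' : (y : Matrix (Fin n) (Fin n) F) *ᵥ us_E P (a + a') = l'' • us_E P b'') : ∃ ρ : F₀, l' = l * ρ := by
  have hl : l ≠ 0 := by
    intro h0
    rw [h0, zero_smul] at hb
    have h1 : us_E P a = 0 := uo_mulVec_inj y _ _ (by rw [hb, mulVec_zero])
    apply hind 0
    rw [zero_smul]
    exact us_E_inj _ _ (by rw [h1, us_E_zero])
  have hl' : l' ≠ 0 := by
    intro h0
    rw [h0, zero_smul] at hb'
    have h1 : us_E P a' = 0 := uo_mulVec_inj y _ _ (by rw [hb', mulVec_zero])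
    apply hind' 0
    rw [zero_smul]
    exact us_E_inj _ _ (by rw [h1, us_E_zero])
  have hl'' : l'' ≠ 0 := by
    intro h0
    rw [h0, zero_smul] at hb''
    have h1 : us_E P (a + a') = 0 := uo_mulVec_inj y _ _ (by rw [hb'', mulVec_zero])
    have h2 : a + a' = 0 := us_E_inj _ _ (by rw [h1, us_E_zero])
    apply hind (-1)
    rw [neg_one_smul]
    exact eq_neg_of_add_eq_zero_left h2
  have hbb' : ∀ c : F₀, b ≠ c • b' := by
    intro c hc
    have h1 : (y : Matrix (Fin n) (Fin n) F) *ᵥ us_E P a = (y : Matrix (Fin n) (Fin n) F) *ᵥ ((l * c / l') • us_E P a') := by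
      rw [mulVec_smul, hb', hb, hc, us_E_smul, smul_smul, smul_smul]
      congr 1
      field_simp
    obtain ⟨s, hs⟩ := uo_E_dep D hζn a a' _ (uo_mulVec_inj y _ _ h1)
    exact hind s hs
  have hb'b : ∀ c : F₀, b' ≠ c • b := by
    intro c hc
    have h1 : (y : Matrix (Fin n) (Fin n) F) *ᵥ us_E P a' = (y : Matrix (Fin n) (Fin n) F) *ᵥ ((l' * c / l) • us_E P a) := by
      rw [mulVec_smul, hb', hb, hc, us_E_smul, smul_smul, smul_smul]
      congr 1
      field_simp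
    obtain ⟨s, hs⟩ := uo_E_dep D hζn a' a _ (uo_mulVec_inj y _ _ h1)
    exact hind' s hs
  obtain ⟨s, t, hst⟩ := D.decomp hζn (l / l'')
  obtain ⟨s', t', hst'⟩ := D.decomp hζn (l' / l'')
  have h1 : us_E P b'' + ζ • us_E P (0 : (Fin n → F₀)) = us_E P (s • b + s' • b') + ζ • us_E P (t • b + t' • b') := by
    have h2 : l'' • us_E P b'' = l • us_E P b + l' • us_E P b' := by
      rw [← hb'', us_E_add, mulVec_add, hb, hb']
    have h3 : us_E P b'' = (l / l'') • us_E P b + (l' / l'') • us_E P b' := by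
      have h4 := congrArg (fun x => l''⁻¹ • x) h2
      simp only [smul_smul, smul_add, inv_mul_cancel₀ hl'', one_smul] at h4
      rw [h4, div_eq_inv_mul, div_eq_inv_mul]
    rw [us_E_zero, smul_zero, add_zero, h3, hst, hst']
    simp only [us_E_add, us_E_smul, uo_E_neg, uo_E_sub, us_E_zero]
    module
  obtain ⟨-, h4⟩ := D.vdecomp_inj hζn _ _ _ _ h1
  have ht : t = 0 := by
    by_contra ht
    apply hbb' (-(t⁻¹ * t'))
    have h5 : t • b = -(t' • b') := eq_neg_of_add_eq_zero_left h4.symm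
    have h6 := congrArg (fun x => t⁻¹ • x) h5
    simp only [smul_smul, inv_mul_cancel₀ ht, one_smul, smul_neg] at h6
    rw [h6, neg_smul]
  have ht' : t' = 0 := by
    rw [ht, zero_smul, zero_add] at h4
    rcases smul_eq_zero.mp h4.symm with h5 | h5
    · exact h5
    · exfalso
      apply hb'b 0
      rw [h5, zero_smul]
  rw [ht, Subfield.coe_zero, mul_zero, add_zero] at hst
  rw [ht', Subfield.coe_zero, mul_zero, add_zero] at hst'
  have hs0' : (s : F) ≠ 0 := by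
    intro h0
    rw [h0] at hst
    rcases div_eq_zero_iff.mp hst with h | h
    · exact hl h
    · exact hl'' h
  refine ⟨s' / s, ?_⟩
  rw [Subfield.coe_div, ← hst, ← hst']
  field_simp

theorem uo_lemC (D : UOData n q F₀ P) (j0 : Fin n) (hn : 13 ≤ n) (y : GL (Fin n) F)
    (hall : ∀ a : (Fin n → F₀), uo_B D a a ≠ 0 → ∃ (l : F) (b : (Fin n → F₀)), (y : Matrix (Fin n) (Fin n) F) *ᵥ us_E P a = l • us_E P b) :
    y ∈ subfieldSubgroup F₀ P := by
  obtain ⟨ζ, hζ0, hζ⟩ := D.exists_zeta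
  have hζn := D.zeta_notMem hζ0 hζ
  have h2 := D.two_ne'
  obtain ⟨a₀, ha₀⟩ := uo_rat_exists_nonsing D hn
  obtain ⟨l₀, b₀, hb₀⟩ := hall a₀ ha₀
  have htr : ∀ a a' : (Fin n → F₀), uo_B D a a ≠ 0 → uo_B D a' a' ≠ 0 →
      uo_B D (a + a') (a + a') ≠ 0 → (∀ s : F₀, a ≠ s • a') → (∀ s : F₀, a' ≠ s • a) →
      (∃ b : (Fin n → F₀), (y : Matrix (Fin n) (Fin n) F) *ᵥ us_E P a = l₀ • us_E P b) →
      ∃ b' : (Fin n → F₀), (y : Matrix (Fin n) (Fin n) F) *ᵥ us_E P a' = l₀ • us_E P b' := by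
    intro a a' ha ha' haa' hind hind' ⟨b, hb⟩
    obtain ⟨l', b', hb'⟩ := hall a' ha'
    obtain ⟨l'', b'', hb''⟩ := hall (a + a') haa'
    obtain ⟨ρ, hρ⟩ := uo_lemC_transfer D hζn y a a' hind hind' l₀ l' l'' b b' b'' hb hb' hb''
    exact ⟨ρ • b', by rw [hb', hρ, us_E_smul, smul_smul]⟩
  have hns : ∀ a : (Fin n → F₀), uo_B D a a ≠ 0 → ∃ b : (Fin n → F₀), (y : Matrix (Fin n) (Fin n) F) *ᵥ us_E P a = l₀ • us_E P b := by
    intro a ha
    by_cases hdep : ∃ s : F₀, a = s • a₀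
    · obtain ⟨s, rfl⟩ := hdep
      exact ⟨s • b₀, by
        rw [us_E_smul, mulVec_smul, hb₀, us_E_smul, smul_smul, smul_smul, mul_comm]⟩
    push Not at hdep
    have hdep' : ∀ s : F₀, a₀ ≠ s • a := by
      intro s hs
      by_cases hs0 : s = 0
      · apply ha₀
        rw [hs, hs0, zero_smul]
        simp
      · apply hdep s⁻¹
        rw [hs, smul_smul, inv_mul_cancel₀ hs0, one_smul]
    by_cases hsum : uo_B D (a₀ + a) (a₀ + a) ≠ 0
    · exact htr a₀ a ha₀ ha hsum hdep' hdep ⟨b₀, hb₀⟩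
    push Not at hsum
    obtain ⟨e, heQ, he0, hea⟩ := uo_rat_sing_perp D hn a a₀ hdep
    have he0' : uo_B D e a₀ = 0 := by
      rw [uo_B_symm D a₀ e]
      exact he0
    have hea' : uo_B D e a = uo_B D a e := uo_B_symm D a e
    have h33 : uo_B D (a₀ + e) (a₀ + e) ≠ 0 := by
      have : uo_B D (a₀ + e) (a₀ + e) = uo_B D a₀ a₀ := by
        simp only [map_add, map_sub, map_smul, map_neg, map_zero, LinearMap.add_apply, LinearMap.sub_apply, LinearMap.smul_apply, LinearMap.neg_apply, LinearMap.zero_apply, smul_eq_mul]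
        rw [he0', he0, heQ]
        ring
      rw [this]
      exact ha₀
    have h03 : uo_B D (a₀ + (a₀ + e)) (a₀ + (a₀ + e)) ≠ 0 := by
      have : uo_B D (a₀ + (a₀ + e)) (a₀ + (a₀ + e)) = 2 * 2 * uo_B D a₀ a₀ := by
        simp only [map_add, map_sub, map_smul, map_neg, map_zero, LinearMap.add_apply, LinearMap.sub_apply, LinearMap.smul_apply, LinearMap.neg_apply, LinearMap.zero_apply, smul_eq_mul]
        rw [he0', he0, heQ]
        ring
      rw [this]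
      exact mul_ne_zero (mul_ne_zero h2 h2) ha₀
    have he_ne : e ≠ 0 := by
      rintro rfl
      apply hea
      simp
    have hind03 : ∀ s : F₀, a₀ ≠ s • (a₀ + e) := by
      intro s hs
      have h5 := congrArg (fun x => uo_B D x a₀) hs
      simp only [map_add, map_sub, map_smul, map_neg, map_zero, LinearMap.add_apply, LinearMap.sub_apply, LinearMap.smul_apply, LinearMap.neg_apply, LinearMap.zero_apply, smul_eq_mul] at h5
      rw [he0', add_zero] at h5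
      have hs1 : s = 1 := by
        have h6 : (1 - s) * uo_B D a₀ a₀ = 0 := by linear_combination h5
        rcases mul_eq_zero.mp h6 with h7 | h7
        · exact (sub_eq_zero.mp h7).symm
        · exact absurd h7 ha₀
      rw [hs1, one_smul] at hs
      exact he_ne (left_eq_add.mp hs)
    have hind30 : ∀ s : F₀, a₀ + e ≠ s • a₀ := by
      intro s hs
      have h5 := congrArg (fun x => uo_B D x a₀) hs
      simp only [map_add, map_sub, map_smul, map_neg, map_zero, LinearMap.add_apply, LinearMap.sub_apply, LinearMap.smul_apply, LinearMap.neg_apply, LinearMap.zero_apply, smul_eq_mul] at h5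
      rw [he0', add_zero] at h5
      have hs1 : s = 1 := by
        have h6 : (1 - s) * uo_B D a₀ a₀ = 0 := by linear_combination h5
        rcases mul_eq_zero.mp h6 with h7 | h7
        · exact (sub_eq_zero.mp h7).symm
        · exact absurd h7 ha₀
      rw [hs1, one_smul] at hs
      exact he_ne (add_eq_left.mp hs)
    obtain ⟨b₃, hb₃⟩ := htr a₀ (a₀ + e) ha₀ h33 h03 hind03 hind30 ⟨b₀, hb₀⟩
    have h3a : uo_B D ((a₀ + e) + a) ((a₀ + e) + a) ≠ 0 := by
      have : uo_B D ((a₀ + e) + a) ((a₀ + e) + a) =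
          uo_B D (a₀ + a) (a₀ + a) + 2 * uo_B D a e := by
        simp only [map_add, map_sub, map_smul, map_neg, map_zero, LinearMap.add_apply, LinearMap.sub_apply, LinearMap.smul_apply, LinearMap.neg_apply, LinearMap.zero_apply, smul_eq_mul]
        rw [he0', he0, heQ, hea']
        ring
      rw [this, hsum, zero_add]
      exact mul_ne_zero h2 hea
    have hind3a : ∀ s : F₀, a₀ + e ≠ s • a := by
      intro s hs
      have h5 := congrArg (fun x => uo_B D x e) hs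
      simp only [map_add, map_sub, map_smul, map_neg, map_zero, LinearMap.add_apply, LinearMap.sub_apply, LinearMap.smul_apply, LinearMap.neg_apply, LinearMap.zero_apply, smul_eq_mul] at h5
      rw [he0, heQ, add_zero] at h5
      rcases mul_eq_zero.mp h5.symm with h6 | h6
      · rw [h6, zero_smul] at hs
        have h7 : a₀ = -e := eq_neg_of_add_eq_zero_left hs
        apply ha₀
        rw [h7]
        simp only [map_add, map_sub, map_smul, map_neg, map_zero, LinearMap.add_apply, LinearMap.sub_apply, LinearMap.smul_apply, LinearMap.neg_apply, LinearMap.zero_apply, smul_eq_mul]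
        rw [heQ]
        simp
      · exact hea h6
    have hinda3 : ∀ s : F₀, a ≠ s • (a₀ + e) := by
      intro s hs
      apply hea
      rw [hs]
      simp only [map_add, map_sub, map_smul, map_neg, map_zero, LinearMap.add_apply, LinearMap.sub_apply, LinearMap.smul_apply, LinearMap.neg_apply, LinearMap.zero_apply, smul_eq_mul]
      rw [he0, heQ]
      simp
    exact htr (a₀ + e) a h33 ha h3a hind3a hinda3 ⟨b₃, hb₃⟩
  apply uo_mem_subfield j0 y l₀
  intro a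
  by_cases ha : uo_B D a a ≠ 0
  · exact hns a ha
  push Not at ha
  obtain ⟨d, hd, hda, -⟩ := uo_rat_nonsing4 D hn a a a a
  have had : uo_B D (a + d) (a + d) ≠ 0 := by
    have : uo_B D (a + d) (a + d) = uo_B D d d := by
      simp only [map_add, map_sub, map_smul, map_neg, map_zero, LinearMap.add_apply, LinearMap.sub_apply, LinearMap.smul_apply, LinearMap.neg_apply, LinearMap.zero_apply, smul_eq_mul]
      rw [uo_B_symm D a d, hda, ha]
      ring
    rw [this]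
    exact hd
  obtain ⟨b₁, hb₁⟩ := hns (a + d) had
  obtain ⟨b₂, hb₂⟩ := hns d hd
  refine ⟨b₁ - b₂, ?_⟩
  have : us_E P a = us_E P (a + d) - us_E P d := by
    rw [us_E_add, add_sub_cancel_right]
  rw [this, mulVec_sub, hb₁, hb₂, uo_E_sub, smul_sub]

/-- **Step I**: a proper overgroup of the orthogonal subfield group contains a full unitary root
group with non-zero rational centre. -/
theorem uo_stepI (D : UOData n q F₀ P) (j0 : Fin n) (hn : 13 ≤ n) (M : Subgroup (GL (Fin n) F))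
    (hHM : subfieldSubgroup F₀ P ⊓ (Cfsg.GU n F q ⊓ specialLinear (Fin n) F) ≤ M) (hMG : M ≤ Cfsg.GU n F q ⊓ specialLinear (Fin n) F)
    (hMH : M ≠ subfieldSubgroup F₀ P ⊓ (Cfsg.GU n F q ⊓ specialLinear (Fin n) F)) : ∃ w : (Fin n → F₀), w ≠ 0 ∧ us_E P w ∈ us_C n q M := by
  obtain ⟨ζ, hζ0, hζ⟩ := D.exists_zeta
  by_contra hcon
  push Not at hcon
  apply hMH
  apply le_antisymm _ hHM
  intro y hy
  exact ⟨uo_lemC D j0 hn y (fun a ha => uo_lemB D j0 hn hζ0 hζ M hHM hMG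
    (fun w hw0 _ => hcon w hw0) y hy a ha), hMG hy⟩

end UO4

end Cfsg.Agent.Helper98
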