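import Mathlib
import Cfsg.Prelude.Def_GeometricClasses
import Cfsg.Prelude.Def_LieClassical
import Cfsg.Agent.Helper98.UO4

/-!
The orthogonal subfield group in `SU_n(q)`, part 5: every isotropic vector is the centre of a
full root group of a proper overgroup, and the maximality theorem.
-/

set_option autoImplicit false
set_option linter.unusedSectionVars false
set_option linter.unusedVariables false
set_option linter.unusedSimpArgs false

namespace Cfsg.Agent.Helper98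

open Matrix Cfsg.Agent.Helper93 Cfsg.Geo Cfsg.Agent.Helper45
open scoped Pointwise

section UO5

variable {F : Type*} [Field F] [Fintype F] {n q : ℕ} {F₀ : Subfield F} {P : GL (Fin n) F}

theorem uo_LC' (hF : Fintype.card F = q ^ 2) (M : Subgroup (GL (Fin n) F)) (hMU : M ≤ Cfsg.GU n F q)
    (w' x' : (Fin n → F)) (hw' : w' ∈ us_C n q M) (hx' : x' ∈ us_C n q M) (hη : Cfsg.hermForm n F q x' w' ≠ 0) (β : F)
    (x : (Fin n → F)) (hxe : x = x' + β • w') (hx : Cfsg.hermForm n F q x x = 0) : x ∈ us_C n q M := by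
  have e : x = β • w' + (1 : F) • x' := by
    rw [hxe, one_smul, add_comm]
  rw [e] at hx ⊢
  exact uo_LC hF M hMU w' x' hw' hx' hη β 1 hx

theorem uo_iso_val (D : UOData n q F₀ P) {ζ : F} (hζ : ζ ^ q = -ζ) (r₁ r₂ : (Fin n → F₀)) :
    Cfsg.hermForm n F q (us_E P r₁ + ζ • us_E P r₂) (us_E P r₁ + ζ • us_E P r₂) =
      ((uo_B D r₁ r₁ : F₀) : F) - ζ * ζ * ((uo_B D r₂ r₂ : F₀) : F) := by
  simp only [us_h_add_left, us_h_smul_left, us_h_add_right D.hF, us_h_smul_right, hζ, uo_B_val]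
  rw [uo_h_symm D r₁ r₂]
  ring

theorem uo_stepIII_A (D : UOData n q F₀ P) {ζ : F} (hζ : ζ ^ q = -ζ) (M : Subgroup (GL (Fin n) F))
    (hMU : M ≤ Cfsg.GU n F q) (hrat : ∀ z : (Fin n → F₀), uo_B D z z = 0 → us_E P z ∈ us_C n q M)
    (r₁ r₂ : (Fin n → F₀)) (h1 : uo_B D r₁ r₁ = 0) (h2 : uo_B D r₂ r₂ = 0) (hμ : uo_B D r₁ r₂ ≠ 0) :
    us_E P r₁ + ζ • us_E P r₂ ∈ us_C n q M := by
  have hη : Cfsg.hermForm n F q (us_E P r₂) (us_E P r₁) ≠ 0 := by
    rw [uo_h_symm D r₁ r₂]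
    exact uo_h_ne_of_B D hμ
  have h := uo_LC D.hF M hMU (us_E P r₁) (us_E P r₂) (hrat r₁ h1) (hrat r₂ h2) hη 1 ζ (by
    rw [one_smul, uo_iso_val D hζ, h1, h2]
    simp)
  rwa [one_smul] at h

/-- **Step III**: if all rational isotropic vectors are centres, then all isotropic vectors
are. -/
theorem uo_stepIII (D : UOData n q F₀ P) (hn : 13 ≤ n) {ζ : F} (hζ0 : ζ ≠ 0) (hζ : ζ ^ q = -ζ)
    (M : Subgroup (GL (Fin n) F)) (hMU : M ≤ Cfsg.GU n F q)
    (hrat : ∀ z : (Fin n → F₀), uo_B D z z = 0 → us_E P z ∈ us_C n q M) (r₁ r₂ : (Fin n → F₀))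
    (hx : Cfsg.hermForm n F q (us_E P r₁ + ζ • us_E P r₂) (us_E P r₁ + ζ • us_E P r₂) = 0) :
    us_E P r₁ + ζ • us_E P r₂ ∈ us_C n q M := by
  have hζn := D.zeta_notMem hζ0 hζ
  have h2 := D.two_ne'
  obtain ⟨δ, hδ⟩ : ∃ δ : F₀, (δ : F) = ζ * ζ := ⟨⟨ζ * ζ, D.zeta_sq_mem hζ⟩, rfl⟩
  have hN₁ : uo_B D r₁ r₁ = δ * uo_B D r₂ r₂ := by
    apply Subtype.ext
    rw [Subfield.coe_mul, hδ]
    have h5 := hx
    rw [uo_iso_val D hζ] at h5
    exact sub_eq_zero.mp h5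
  by_cases hN₂ : uo_B D r₂ r₂ = 0
  · have hN₁0 : uo_B D r₁ r₁ = 0 := by
      rw [hN₁, hN₂, mul_zero]
    by_cases hr₂ : r₂ = 0
    · rw [hr₂, us_E_zero, smul_zero, add_zero]
      exact hrat r₁ hN₁0
    by_cases hdep : ∃ c : F₀, r₁ = c • r₂
    · obtain ⟨c, rfl⟩ := hdep
      have h5 : us_E P (c • r₂) + ζ • us_E P r₂ = ((c : F) + ζ) • us_E P r₂ := by
        rw [us_E_smul, add_smul]
      rw [h5]
      exact us_C_smul D.hF M _ (hrat r₂ hN₂) _
    push Not at hdep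
    by_cases hμ : uo_B D r₁ r₂ ≠ 0
    · exact uo_stepIII_A D hζ M hMU hrat r₁ r₂ hN₁0 hN₂ hμ
    push Not at hμ
    obtain ⟨w, hw, hr₂w, hr₁w⟩ := uo_rat_sing_perp D hn r₁ r₂ hdep
    obtain ⟨b₁, hb₁⟩ : ∃ b₁ : F₀, b₁ = uo_B D r₁ w := ⟨_, rfl⟩
    rw [← hb₁] at hr₁w
    have hwr₂ : uo_B D w r₂ = 0 := by
      rw [uo_B_symm D r₂ w]
      exact hr₂w
    obtain ⟨r₂', hr₂'⟩ : ∃ r₂' : (Fin n → F₀), r₂' = r₂ + b₁⁻¹ • w := ⟨_, rfl⟩
    have hN₂' : uo_B D r₂' r₂' = 0 := by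
      rw [hr₂']
      simp only [map_add, map_sub, map_smul, map_neg, map_zero, LinearMap.add_apply, LinearMap.sub_apply, LinearMap.smul_apply, LinearMap.neg_apply, LinearMap.zero_apply, smul_eq_mul]
      rw [hN₂, hr₂w, hwr₂, hw]
      ring
    have hμ' : uo_B D r₁ r₂' ≠ 0 := by
      have h5 : uo_B D r₁ r₂' = 1 := by
        rw [hr₂']
        simp only [map_add, map_sub, map_smul, map_neg, map_zero, LinearMap.add_apply, LinearMap.sub_apply, LinearMap.smul_apply, LinearMap.neg_apply, LinearMap.zero_apply, smul_eq_mul]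
        rw [hμ, ← hb₁]
        field_simp
        ring
      rw [h5]
      exact one_ne_zero
    have hx' := uo_stepIII_A D hζ M hMU hrat r₁ r₂' hN₁0 hN₂' hμ'
    have hr₂'w : uo_B D r₂' w = 0 := by
      rw [hr₂']
      simp only [map_add, map_sub, map_smul, map_neg, map_zero, LinearMap.add_apply, LinearMap.sub_apply, LinearMap.smul_apply, LinearMap.neg_apply, LinearMap.zero_apply, smul_eq_mul]
      rw [hr₂w, hw]
      ring
    refine uo_LC' D.hF M hMU (us_E P w) (us_E P r₁ + ζ • us_E P r₂') (hrat w hw) hx' ?_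
      (-(ζ * ((b₁⁻¹ : F₀) : F))) _ ?_ hx
    · rw [us_h_add_left, us_h_smul_left, uo_h_of_B D hr₂'w, mul_zero, add_zero, ← uo_B_val D,
        ← hb₁]
      exact fun h => hr₁w (Subtype.ext h)
    · rw [hr₂', us_E_add, us_E_smul]
      module
  · obtain ⟨ν, hν⟩ : ∃ ν : F₀, ν = uo_B D r₂ r₂ := ⟨_, rfl⟩
    rw [← hν] at hN₂ hN₁
    obtain ⟨μ, hμ⟩ : ∃ μ : F₀, μ = uo_B D r₁ r₂ := ⟨_, rfl⟩
    have hν' : (ν : F) ≠ 0 := fun h => hN₂ (Subtype.ext h)
    have hp : (1 : F) + ζ * ν ≠ 0 := by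
      intro h
      apply D.notMem_of hζ0 hζ 1 ν hN₂
      rw [Subfield.coe_one, h]
      exact F₀.zero_mem
    have hm : (1 : F) - ζ * ν ≠ 0 := by
      intro h
      apply D.notMem_of hζ0 hζ 1 (-ν) (neg_ne_zero.mpr hN₂)
      rw [Subfield.coe_one, Subfield.coe_neg, mul_neg, ← sub_eq_add_neg, h]
      exact F₀.zero_mem
    have hε' : (1 : F) - ζ * ζ * ν * ν ≠ 0 := by
      have h5 : (1 : F) - ζ * ζ * ν * ν = (1 + ζ * ν) * (1 - ζ * ν) := by ring
      rw [h5]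
      exact mul_ne_zero hp hm
    have hε : (1 : F₀) - δ * ν * ν ≠ 0 := by
      intro h
      apply hε'
      have h5 := congrArg (Subtype.val) h
      rw [Subfield.coe_sub, Subfield.coe_mul, Subfield.coe_mul, hδ] at h5
      exact h5
    have hdep : ∀ c : F₀, r₁ ≠ c • r₂ := by
      intro c hc
      have h5 : uo_B D r₁ r₁ = c * c * ν := by
        rw [hc, hν]
        simp only [map_add, map_sub, map_smul, map_neg, map_zero, LinearMap.add_apply, LinearMap.sub_apply, LinearMap.smul_apply, LinearMap.neg_apply, LinearMap.zero_apply, smul_eq_mul]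
        ring
      rw [hN₁] at h5
      have h6 : δ = c * c := by
        have h7 : (δ - c * c) * ν = 0 := by linear_combination h5
        rcases mul_eq_zero.mp h7 with h | h
        · exact sub_eq_zero.mp h
        · exact absurd h hN₂
      have h7 : (ζ - c) * (ζ + c) = 0 := by
        have h8 := congrArg Subtype.val h6
        rw [hδ, Subfield.coe_mul] at h8
        linear_combination h8
      rcases mul_eq_zero.mp h7 with h | h
      · exact hζn (by rw [sub_eq_zero.mp h]; exact c.2)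
      · exact hζn (by rw [eq_neg_of_add_eq_zero_left h]; exact F₀.neg_mem c.2)
    obtain ⟨w, hw, hr₂w, hr₁w⟩ := uo_rat_sing_perp D hn r₁ r₂ hdep
    obtain ⟨b₁, hb₁⟩ : ∃ b₁ : F₀, b₁ = uo_B D r₁ w := ⟨_, rfl⟩
    rw [← hb₁] at hr₁w
    have hwr₂ : uo_B D w r₂ = 0 := by
      rw [uo_B_symm D r₂ w]
      exact hr₂w
    obtain ⟨t, ht⟩ : ∃ t : F₀, t = (1 + δ * ν * ν) / 2 := ⟨_, rfl⟩
    obtain ⟨s, hs⟩ : ∃ s : F₀, s = t - μ := ⟨_, rfl⟩
    obtain ⟨r₂', hr₂'⟩ : ∃ r₂' : (Fin n → F₀), r₂' = r₂ + (s / b₁) • w := ⟨_, rfl⟩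
    have hN₂' : uo_B D r₂' r₂' = ν := by
      rw [hr₂']
      simp only [map_add, map_sub, map_smul, map_neg, map_zero, LinearMap.add_apply, LinearMap.sub_apply, LinearMap.smul_apply, LinearMap.neg_apply, LinearMap.zero_apply, smul_eq_mul]
      rw [← hν, hr₂w, hwr₂, hw]
      ring
    have hμ' : uo_B D r₁ r₂' = t := by
      rw [hr₂']
      simp only [map_add, map_sub, map_smul, map_neg, map_zero, LinearMap.add_apply, LinearMap.sub_apply, LinearMap.smul_apply, LinearMap.neg_apply, LinearMap.zero_apply, smul_eq_mul]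
      rw [← hμ, ← hb₁, hs]
      field_simp
      ring
    have hμ'' : uo_B D r₂' r₁ = t := by
      rw [uo_B_symm D r₁ r₂']
      exact hμ'
    have hr₂'w : uo_B D r₂' w = 0 := by
      rw [hr₂']
      simp only [map_add, map_sub, map_smul, map_neg, map_zero, LinearMap.add_apply, LinearMap.sub_apply, LinearMap.smul_apply, LinearMap.neg_apply, LinearMap.zero_apply, smul_eq_mul]
      rw [hr₂w, hw]
      ring
    obtain ⟨z₁, hz₁⟩ : ∃ z₁ : (Fin n → F₀), z₁ = r₁ - (δ * ν) • r₂' := ⟨_, rfl⟩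
    obtain ⟨z₂, hz₂⟩ : ∃ z₂ : (Fin n → F₀), z₂ = r₁ - ν⁻¹ • r₂' := ⟨_, rfl⟩
    have hz₁Q : uo_B D z₁ z₁ = 0 := by
      rw [hz₁]
      simp only [map_add, map_sub, map_smul, map_neg, map_zero, LinearMap.add_apply, LinearMap.sub_apply, LinearMap.smul_apply, LinearMap.neg_apply, LinearMap.zero_apply, smul_eq_mul]
      rw [hμ', hμ'', hN₂', hN₁, ht]
      field_simp
      ring
    have hz₂Q : uo_B D z₂ z₂ = 0 := by
      rw [hz₂]
      simp only [map_add, map_sub, map_smul, map_neg, map_zero, LinearMap.add_apply, LinearMap.sub_apply, LinearMap.smul_apply, LinearMap.neg_apply, LinearMap.zero_apply, smul_eq_mul]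
      rw [hμ', hμ'', hN₂', hN₁, ht]
      field_simp
      ring
    have hz₂₁ : uo_B D z₂ z₁ ≠ 0 := by
      have h5 : uo_B D z₂ z₁ = -((1 - δ * ν * ν) * (1 - δ * ν * ν) / (2 * ν)) := by
        rw [hz₁, hz₂]
        simp only [map_add, map_sub, map_smul, map_neg, map_zero, LinearMap.add_apply, LinearMap.sub_apply, LinearMap.smul_apply, LinearMap.neg_apply, LinearMap.zero_apply, smul_eq_mul]
        rw [hμ', hμ'', hN₂', hN₁, ht]
        field_simp
        ring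
      rw [h5]
      exact neg_ne_zero.mpr (div_ne_zero (mul_ne_zero hε hε) (mul_ne_zero h2 hN₂))
    obtain ⟨α, hα⟩ : ∃ α : F, α = (1 + ζ * ν) / (1 - ζ * ζ * ν * ν) := ⟨_, rfl⟩
    obtain ⟨α', hα'⟩ : ∃ α' : F, α' = -(ζ * ζ * ν * ν + ζ * ν) / (1 - ζ * ζ * ν * ν) :=
      ⟨_, rfl⟩
    have hε'' : (1 : F) - ζ ^ 2 * (ν : F) ^ 2 ≠ 0 := by
      have h5 : (1 : F) - ζ ^ 2 * (ν : F) ^ 2 = 1 - ζ * ζ * ν * ν := by ring
      rw [h5]
      exact hε'
    have e1 : α + α' = 1 := by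
      rw [hα, hα']
      field_simp
      ring
    have e2 : α * (ζ * ζ * ν) + α' * (ν : F)⁻¹ = -ζ := by
      rw [hα, hα']
      field_simp
      ring
    have hcomb : us_E P r₁ + ζ • us_E P r₂' = α • us_E P z₁ + α' • us_E P z₂ := by
      rw [hz₁, hz₂, uo_E_sub, uo_E_sub, us_E_smul, us_E_smul, Subfield.coe_mul,
        Subfield.coe_inv, hδ]
      have h5 : α • (us_E P r₁ - (ζ * ζ * (ν : F)) • us_E P r₂') + α' • (us_E P r₁ - (ν : F)⁻¹ • us_E P r₂') =
          (α + α') • us_E P r₁ - (α * (ζ * ζ * ν) + α' * (ν : F)⁻¹) • us_E P r₂' := by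
        module
      rw [h5, e1, e2]
      module
    have hx'iso : Cfsg.hermForm n F q (us_E P r₁ + ζ • us_E P r₂') (us_E P r₁ + ζ • us_E P r₂') = 0 := by
      rw [uo_iso_val D hζ, hN₂', hN₁, Subfield.coe_mul, hδ]
      ring
    have hx' : us_E P r₁ + ζ • us_E P r₂' ∈ us_C n q M := by
      rw [hcomb] at hx'iso ⊢
      exact uo_LC D.hF M hMU (us_E P z₁) (us_E P z₂) (hrat z₁ hz₁Q) (hrat z₂ hz₂Q)
        (uo_h_ne_of_B D hz₂₁) α α' hx'iso
    refine uo_LC' D.hF M hMU (us_E P w) (us_E P r₁ + ζ • us_E P r₂') (hrat w hw) hx' ?_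
      (-(ζ * ((s / b₁ : F₀) : F))) _ ?_ hx
    · rw [us_h_add_left, us_h_smul_left, uo_h_of_B D hr₂'w, mul_zero, add_zero, ← uo_B_val D,
        ← hb₁]
      exact fun h => hr₁w (Subtype.ext h)
    · rw [hr₂', us_E_add, us_E_smul]
      module

/-- The orthogonal subfield group is a proper subgroup of the special unitary group. -/
theorem uo_orth_lt (D : UOData n q F₀ P) (hn : 13 ≤ n) :
    subfieldSubgroup F₀ P ⊓ (Cfsg.GU n F q ⊓ specialLinear (Fin n) F) < Cfsg.GU n F q ⊓ specialLinear (Fin n) F := by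
  obtain ⟨ζ, hζ0, hζ⟩ := D.exists_zeta
  have hζn := D.zeta_notMem hζ0 hζ
  rw [SetLike.lt_iff_le_and_exists]
  refine ⟨inf_le_right, ?_⟩
  obtain ⟨w, hw0, hw⟩ := uo_rat_exists_sing D hn
  obtain ⟨a, ha⟩ := uo_rat_nd D w hw0
  have hw' : Cfsg.hermForm n F q (us_E P w) (us_E P w) = 0 := uo_h_of_B D hw
  refine ⟨us_ut n q (us_E P w) ζ hw', us_ut_mem D.hF _ _ _ hζ, fun hmem => ?_⟩
  obtain ⟨l, b, hlb⟩ := us_rat_of_mem _ hmem.1 a
  obtain ⟨s, t, rfl⟩ := D.decomp hζn l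
  rw [us_ut_mulVec] at hlb
  have h2 : us_E P a + ζ • us_E P (uo_B D a w • w) = us_E P (s • b) + ζ • us_E P (t • b) := by
    rw [us_E_smul, us_E_smul, us_E_smul, uo_B_val, smul_smul, smul_smul, ← add_smul]
    exact hlb
  obtain ⟨e1, e2⟩ := D.vdecomp_inj hζn _ _ _ _ h2
  have ht : t ≠ 0 := by
    rintro rfl
    rw [zero_smul] at e2
    rcases smul_eq_zero.mp e2 with h | h
    · exact ha h
    · exact hw0 h
  apply ha
  have hb : b = (t⁻¹ * uo_B D a w) • w := by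
    rw [← smul_smul, e2, smul_smul, inv_mul_cancel₀ ht, one_smul]
  have e3 : a = (s * (t⁻¹ * uo_B D a w)) • w := by
    rw [← smul_smul, ← hb]
    exact e1
  rw [e3]
  simp only [map_add, map_sub, map_smul, map_neg, map_zero, LinearMap.add_apply, LinearMap.sub_apply, LinearMap.smul_apply, LinearMap.neg_apply, LinearMap.zero_apply, smul_eq_mul]
  rw [hw]
  ring

/-- **Maximality of the orthogonal subfield group in `SU_n(q)`**, `q` odd, given generation of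
`SU_n(q)` by unitary transvections. -/
theorem uo_orth_max (D : UOData n q F₀ P) (hn : 13 ≤ n)
    (hgen : ∀ M : Subgroup (GL (Fin n) F),
      (∀ (w : (Fin n → F)) (c : F) (hw : Cfsg.hermForm n F q w w = 0), c ^ q = -c → us_ut n q w c hw ∈ M) →
        Cfsg.GU n F q ⊓ specialLinear (Fin n) F ≤ M) :
    IsMaximalIn (Cfsg.GU n F q ⊓ specialLinear (Fin n) F) (subfieldSubgroup F₀ P ⊓ (Cfsg.GU n F q ⊓ specialLinear (Fin n) F)) := by
  obtain ⟨ζ, hζ0, hζ⟩ := D.exists_zeta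
  have hζn := D.zeta_notMem hζ0 hζ
  refine ⟨uo_orth_lt D hn, fun M hHM hMG => ?_⟩
  by_cases hMH : M = subfieldSubgroup F₀ P ⊓ (Cfsg.GU n F q ⊓ specialLinear (Fin n) F)
  · exact Or.inl hMH
  right
  apply le_antisymm hMG
  apply hgen
  have hMU : M ≤ Cfsg.GU n F q := hMG.trans inf_le_left
  obtain ⟨w₀, hw₀, hw₀C⟩ := uo_stepI D ⟨0, by omega⟩ hn M hHM hMG hMH
  have hrat : ∀ z : (Fin n → F₀), uo_B D z z = 0 → us_E P z ∈ us_C n q M := fun z hz =>
    uo_stepII D ⟨0, by omega⟩ hn M hHM hMG w₀ hw₀ hw₀C z hz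
  intro w c hw hc
  obtain ⟨r₁, r₂, rfl⟩ := D.vdecomp hζn w
  obtain ⟨_, h⟩ := uo_stepIII D hn hζ0 hζ M hMU hrat r₁ r₂ hw
  exact h c hc

end UO5

end Cfsg.Agent.Helper98
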